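import Cfsg.Statements.S4965
import Mathlib

set_option autoImplicit false
set_option linter.all false
open Cfsg

namespace Cfsg.Agent.S4965

/-- Let X be a finite group with an abelian normal subgroup V (any two elements of V commute), and let φ be the action of X ⧸ V on V induced by conjugation (well defined because V is abelian; the hypothesis hφ says that the class of x acts as conjugation by x). Then X has at most as many conjugacy classes as the semidirect product of V by X ⧸ V formed with this action: the split extension has the largest class number among extensions with the given action. -/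
theorem result {X : Type*} [Group X] [Finite X] (V : Subgroup X) [V.Normal] (hab : ∀ a ∈ V, ∀ b ∈ V, a * b = b * a) (φ : X ⧸ V →* MulAut ↥V) (hφ : ∀ (x : X) (v : ↥V), ((φ (QuotientGroup.mk x) v : ↥V) : X) = x * v * x⁻¹) : Nat.card (ConjClasses X) ≤ Nat.card (ConjClasses (SemidirectProduct ↥V (X ⧸ V) φ)) := by
  classical
  haveI : Finite (SemidirectProduct ↥V (X ⧸ V) φ) := Finite.of_equiv _ SemidirectProduct.equivProd.symm
  have hcard : Nat.card (SemidirectProduct ↥V (X ⧸ V) φ) = Nat.card X := by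
    rw [SemidirectProduct.card, mul_comm, ← Subgroup.card_eq_card_quotient_mul_card_subgroup V]
  have hXpos : 0 < Nat.card X := Nat.card_pos
  have h1 := card_comm_eq_card_conjClasses_mul_card X
  have h2 := card_comm_eq_card_conjClasses_mul_card (SemidirectProduct ↥V (X ⧸ V) φ)
  rw [hcard] at h2
  have h3 : Nat.card { p : X × X // Commute p.1 p.2 } ≤
      Nat.card { p : (SemidirectProduct ↥V (X ⧸ V) φ) × (SemidirectProduct ↥V (X ⧸ V) φ) // Commute p.1 p.2 } := by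
    -- choice of lifts
    have hr : ∀ q : (X ⧸ V) × (X ⧸ V), ∃ r : X × X, (∃ r : X × X, Commute r.1 r.2 ∧ (r.1 : X ⧸ V) = q.1 ∧ (r.2 : X ⧸ V) = q.2) →
        Commute r.1 r.2 ∧ (r.1 : X ⧸ V) = q.1 ∧ (r.2 : X ⧸ V) = q.2 := by
      intro q
      by_cases h : ∃ r : X × X, Commute r.1 r.2 ∧ (r.1 : X ⧸ V) = q.1 ∧ (r.2 : X ⧸ V) = q.2
      · obtain ⟨r, hr⟩ := h
        exact ⟨r, fun _ => hr⟩
      · exact ⟨1, fun h' => absurd h' h⟩
    choose r hr using hr
    have hr' : ∀ p : X × X, Commute p.1 p.2 → Commute (r (p.1, p.2)).1 (r (p.1, p.2)).2 ∧ ((r (p.1, p.2)).1 : X ⧸ V) = p.1 ∧ ((r (p.1, p.2)).2 : X ⧸ V) = p.2 :=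
      fun p hp => hr (p.1, p.2) ⟨p, hp, rfl, rfl⟩
    have hmem : ∀ (x y : X), (x : X ⧸ V) = y → y * x⁻¹ ∈ V := by
      intro x y h
      have h1 : x⁻¹ * y ∈ V := QuotientGroup.eq.mp h
      have h2 := (inferInstance : V.Normal).conj_mem _ h1 x
      have h3 : x * (x⁻¹ * y) * x⁻¹ = y * x⁻¹ := by group
      rwa [h3] at h2
    have hcomm : ∀ (x y x₀ y₀ : X) (hx : (x₀ : X ⧸ V) = x) (hy : (y₀ : X ⧸ V) = y), Commute x y → Commute x₀ y₀ →
        Commute (⟨⟨x * x₀⁻¹, hmem _ _ hx⟩, (x : X ⧸ V)⟩ : SemidirectProduct ↥V (X ⧸ V) φ) ⟨⟨y * y₀⁻¹, hmem _ _ hy⟩, (y : X ⧸ V)⟩ := by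
      intro x y x₀ y₀ hx hy hxy hxx
      have e1 : ((φ (x : X ⧸ V) ⟨y * y₀⁻¹, hmem _ _ hy⟩ : V) : X) = x₀ * (y * y₀⁻¹) * x₀⁻¹ := by rw [← hx]; exact hφ _ _
      have e2 : ((φ (y : X ⧸ V) ⟨x * x₀⁻¹, hmem _ _ hx⟩ : V) : X) = y₀ * (x * x₀⁻¹) * y₀⁻¹ := by rw [← hy]; exact hφ _ _
      apply SemidirectProduct.ext
      · apply Subtype.ext
        simp only [SemidirectProduct.mul_left, Subgroup.coe_mul, e1, e2]
        have h3 : x * x₀⁻¹ * (x₀ * (y * y₀⁻¹) * x₀⁻¹) = x * y * (x₀ * y₀)⁻¹ := by group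
        have h4 : y * y₀⁻¹ * (y₀ * (x * x₀⁻¹) * y₀⁻¹) = y * x * (y₀ * x₀)⁻¹ := by group
        rw [h3, h4, hxy.eq, hxx.eq]
      · show (x : X ⧸ V) * y = y * x
        rw [← QuotientGroup.mk_mul, ← QuotientGroup.mk_mul, hxy.eq]
    refine Nat.card_le_card_of_injective (fun p => ⟨(⟨⟨p.1.1 * (r (p.1.1, p.1.2)).1⁻¹, hmem _ _ (hr' p.1 p.2).2.1⟩, (p.1.1 : X ⧸ V)⟩,
      ⟨⟨p.1.2 * (r (p.1.1, p.1.2)).2⁻¹, hmem _ _ (hr' p.1 p.2).2.2⟩, (p.1.2 : X ⧸ V)⟩), 
      hcomm _ _ _ _ (hr' p.1 p.2).2.1 (hr' p.1 p.2).2.2 p.2 (hr' p.1 p.2).1⟩) ?_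
    intro p p' h
    have h4 := congrArg (fun z => z.1.1.right) h
    have h5 := congrArg (fun z => z.1.2.right) h
    have h6 := congrArg (fun z => ((z.1.1.left : V) : X)) h
    have h7 := congrArg (fun z => ((z.1.2.left : V) : X)) h
    simp only at h4 h5 h6 h7
    rw [h4, h5] at h6 h7
    apply Subtype.ext
    exact Prod.ext (mul_right_cancel h6) (mul_right_cancel h7)
  rw [h1, h2] at h3
  exact Nat.le_of_mul_le_mul_right h3 hXpos


end Cfsg.Agent.S4965
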