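import Cfsg.Statements.S5014
import Cfsg.Agent.LibH14R1


set_option autoImplicit false
open Cfsg

namespace Cfsg.Agent.S5014

open CfsgLib.H14R1


/-- Let X = ⟨A, B⟩ be a rank one group with unipotent subgroups A and B and let Ω be the set of conjugates of A under X. Then Ω has at least three members, X acts doubly transitively on Ω by conjugation (any two ordered pairs of distinct members are carried to one another by a single element of X), and A acts regularly on Ω with A removed: for C, D in Ω different from A there is exactly one element of A conjugating C to D. -/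
theorem result {G : Type*} [Group G] {A B : Subgroup G} (h : Cfsg.IsRankOnePair A B) :
    (∃ C₁ ∈ Cfsg.unipotentSubgroups A B, ∃ C₂ ∈ Cfsg.unipotentSubgroups A B, ∃ C₃ ∈ Cfsg.unipotentSubgroups A B,
      C₁ ≠ C₂ ∧ C₁ ≠ C₃ ∧ C₂ ≠ C₃) ∧
    (∀ C₁ ∈ Cfsg.unipotentSubgroups A B, ∀ C₂ ∈ Cfsg.unipotentSubgroups A B, ∀ D₁ ∈ Cfsg.unipotentSubgroups A B,
      ∀ D₂ ∈ Cfsg.unipotentSubgroups A B, C₁ ≠ C₂ → D₁ ≠ D₂ →
        ∃ x ∈ A ⊔ B, Cfsg.conjBy C₁ x = D₁ ∧ Cfsg.conjBy C₂ x = D₂) ∧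
    (∀ C ∈ Cfsg.unipotentSubgroups A B, ∀ D ∈ Cfsg.unipotentSubgroups A B, C ≠ A → D ≠ A →
      ∃! a : G, a ∈ A ∧ Cfsg.conjBy C a = D) := by
  refine ⟨?_, ?_, ?_⟩
  · obtain ⟨a, ha, ha1⟩ := exists_ne_one (left_ne_bot h)
    have hB := right_mem_unip h
    refine ⟨A, left_mem_unip, B, hB, Cfsg.conjBy B a,
      unip_cj (Subgroup.mem_sup_left ha) hB, h.ne, ?_, ?_⟩
    · intro e
      apply h.ne
      rw [eq_comm, cj_inv_iff, cj_of_mem (inv_mem ha)] at e
      exact e.symm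
    · intro e
      exact ha1 (not_normalize h ha e.symm)
  · intro C₁ h1 C₂ h2 D₁ h3 D₂ h4 hne hne'
    exact unip_trans2 h h1 h2 hne h3 h4 hne'
  · intro C hC D hD hCA hDA
    rw [unip_iff h] at hC hD
    obtain ⟨a, ha, rfl⟩ := hC.resolve_left hCA
    obtain ⟨b, hb, rfl⟩ := hD.resolve_left hDA
    refine ⟨b * a⁻¹, ⟨mul_mem hb (inv_mem ha), by rw [cj_cj]; simp⟩, ?_⟩
    rintro c ⟨hc, e⟩
    rw [cj_cj] at e
    rw [cj_eq_cj_iff, ← cj_self_iff] at e
    have := not_normalize h (mul_mem (inv_mem hb) (mul_mem hc ha)) e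
    have : c * a = b := by
      rw [inv_mul_eq_one] at this
      exact this.symm
    rw [← this]; simp

end Cfsg.Agent.S5014
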