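import Cfsg.Statements.S5015
import Cfsg.Agent.LibH14R1


set_option autoImplicit false
open Cfsg

namespace Cfsg.Agent.S5015

open CfsgLib.H14R1


/-- Let a group Y act doubly transitively on a set Ω with at least three points, and suppose that the stabilizer of a point α contains a nilpotent subgroup A, normalized by that stabilizer, which acts regularly on the points other than α. Then for any y in Y moving α, the subgroups A and y A y⁻¹ are the unipotent subgroups of a rank one group, and the normal closure of A in Y (the subgroup generated by all conjugates of A) is generated by A and y A y⁻¹ alone. -/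
theorem result {Y Ω : Type*} [Group Y] [MulAction Y Ω]
    (h2 : MulAction.IsMultiplyPretransitive Y Ω 2) (hΩ : 3 ≤ ENat.card Ω) (α : Ω) (A : Subgroup Y)
    (hA : A ≤ MulAction.stabilizer Y α) (hAn : ∀ y ∈ MulAction.stabilizer Y α, Cfsg.conjBy A y = A)
    (hnil : Group.IsNilpotent A) (hreg : ∀ β γ : Ω, β ≠ α → γ ≠ α → ∃! a : Y, a ∈ A ∧ a • β = γ)
    (y : Y) (hy : y ∉ MulAction.stabilizer Y α) :
    Cfsg.IsRankOnePair A (Cfsg.conjBy A y) ∧ Subgroup.normalClosure (A : Set Y) = A ⊔ Cfsg.conjBy A y := by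
  classical
  set β : Ω := y • α with hβ
  have hβα : β ≠ α := hy
  set B := Cfsg.conjBy A y with hBdef
  -- third point
  have h3 : ∀ γ : Ω, ∃ δ : Ω, δ ≠ α ∧ δ ≠ γ := by
    intro γ
    by_contra hc
    push Not at hc
    have : (Set.univ : Set Ω) ⊆ {α, γ} := by
      intro δ _
      by_cases h : δ = α
      · simp [h]
      · simp [hc δ h]
    have h4 : ENat.card Ω ≤ 2 := by
      rw [← Set.encard_univ]
      exact (Set.encard_le_encard this).trans (Set.encard_insert_le _ _ |>.trans (by simp; norm_num))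
    have := hΩ.trans h4
    norm_num at this
  have hB : ∀ z : Y, z ∈ B ↔ y⁻¹ * z * y ∈ A := fun z => mem_cj
  have hBst : ∀ b ∈ B, b • β = β := by
    intro b hb
    have := hA ((hB b).1 hb)
    rw [MulAction.mem_stabilizer_iff] at this
    rw [hβ]
    have h2 : y • (y⁻¹ * b * y) • α = y • α := by rw [this]
    simpa [smul_smul, mul_assoc] using h2
  have hBreg : ∀ γ δ : Ω, γ ≠ β → δ ≠ β → ∃ b ∈ B, b • γ = δ := by
    intro γ δ h1 h2
    obtain ⟨a, ⟨ha, e⟩, -⟩ := hreg (y⁻¹ • γ) (y⁻¹ • δ)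
      (fun h => h1 (by rw [← smul_inv_smul y γ, h])) (fun h => h2 (by rw [← smul_inv_smul y δ, h]))
    refine ⟨y * a * y⁻¹, cj_mem ha, ?_⟩
    rw [← smul_smul, ← smul_smul, e, smul_inv_smul]
  -- conjugates of A fixing a given point coincide
  have huniq : ∀ u v : Y, u • α = v • α → Cfsg.conjBy A u = Cfsg.conjBy A v := by
    intro u v e
    rw [cj_eq_cj_iff, ← cj_self_iff]
    apply hAn
    rw [MulAction.mem_stabilizer_iff, ← smul_smul, e, inv_smul_smul]
  have hfix : ∀ a ∈ A, a ≠ 1 → ∀ γ : Ω, γ ≠ α → a • γ ≠ γ := by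
    intro a ha h1 γ hγ e
    obtain ⟨a', -, h'⟩ := hreg γ γ hγ hγ
    exact h1 ((h' a ⟨ha, e⟩).trans (h' 1 ⟨one_mem _, one_smul _ _⟩).symm)
  have hBfix : ∀ b ∈ B, b ≠ 1 → ∀ γ : Ω, γ ≠ β → b • γ ≠ γ := by
    intro b hb h1 γ hγ e
    refine hfix _ ((hB b).1 hb) ?_ (y⁻¹ • γ) (fun h => hγ (by rw [← smul_inv_smul y γ, h])) ?_
    · intro h; apply h1
      have : b = y * (y⁻¹ * b * y) * y⁻¹ := by group
      rw [this, h]; group
    · rw [← smul_smul, ← smul_smul, smul_inv_smul, e]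
  have hAst : ∀ a ∈ A, a • α = α := fun a ha => hA ha
  have hmove : ∀ a ∈ A, ∀ γ : Ω, γ ≠ α → a • γ ≠ α := by
    intro a ha γ hγ e
    apply hγ
    rw [← inv_smul_smul a γ, e, hAst _ (inv_mem ha)]
  have hBmove : ∀ b ∈ B, ∀ γ : Ω, γ ≠ β → b • γ ≠ β := by
    intro b hb γ hγ e
    apply hγ
    rw [← inv_smul_smul b γ, e, hBst _ (inv_mem hb)]
  -- nontrivial elements
  obtain ⟨δ, hδα, hδβ⟩ := h3 β
  have hneAB : A ≠ B := by
    intro e
    obtain ⟨a, ⟨ha, e2⟩, -⟩ := hreg β δ hβα hδα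
    apply hδβ
    rw [← e2]
    apply hBst
    rw [← e]; exact ha
  have hpair : Cfsg.IsRankOnePair A B := by
    refine ⟨hneAB, hnil, cj_nilpotent y hnil, ?_, ?_⟩
    · intro a ha ha1
      obtain ⟨b, hb, e⟩ := hBreg α (a⁻¹ • β) (Ne.symm hβα) (hfix _ (inv_mem ha) (by simpa using ha1) β hβα)
      refine ⟨b⁻¹, inv_mem hb, ?_, ?_⟩
      · intro h
        rw [inv_eq_one] at h
        rw [h, one_smul] at e
        exact hmove _ (inv_mem ha) β hβα e.symm
      · rw [inv_inv, hBdef, cj_cj]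
        apply huniq
        rw [e, ← smul_smul]
    · intro b hb hb1
      obtain ⟨a, ⟨ha, e⟩, -⟩ := hreg β (b⁻¹ • α) hβα (hBfix _ (inv_mem hb) (by simpa using hb1) α (Ne.symm hβα))
      refine ⟨a⁻¹, inv_mem ha, ?_, ?_⟩
      · intro h
        rw [inv_eq_one] at h
        rw [h, one_smul] at e
        exact hBmove _ (inv_mem hb) α (Ne.symm hβα) e.symm
      · rw [inv_inv, hBdef, cj_cj]
        apply huniq
        rw [← smul_smul, ← hβ, e]
  refine ⟨hpair, ?_⟩
  have htrans : ∀ γ : Ω, ∃ x ∈ A ⊔ B, x • α = γ := by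
    intro γ
    by_cases h1 : γ = α
    · exact ⟨1, one_mem _, by rw [h1, one_smul]⟩
    by_cases h2 : γ = β
    · obtain ⟨b, hb, e⟩ := hBreg α δ (Ne.symm hβα) hδβ
      obtain ⟨a, ⟨ha, e2⟩, -⟩ := hreg δ β hδα hβα
      refine ⟨a * b, mul_mem (Subgroup.mem_sup_left ha) (Subgroup.mem_sup_right hb), ?_⟩
      rw [← smul_smul, e, e2, h2]
    · obtain ⟨b, hb, e⟩ := hBreg α γ (Ne.symm hβα) h2
      exact ⟨b, Subgroup.mem_sup_right hb, e⟩
  apply le_antisymm
  · rw [Subgroup.normalClosure, Subgroup.closure_le]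
    intro z hz
    rw [Group.mem_conjugatesOfSet_iff] at hz
    obtain ⟨a, ha, hz⟩ := hz
    rw [isConj_iff] at hz
    obtain ⟨c, rfl⟩ := hz
    obtain ⟨x, hx, e⟩ := htrans (c • α)
    have h1 : c * a * c⁻¹ ∈ Cfsg.conjBy A x := by
      rw [huniq x c e]
      exact cj_mem ha
    rw [mem_cj] at h1
    have h5 : c * a * c⁻¹ = x * (x⁻¹ * (c * a * c⁻¹) * x) * x⁻¹ := by group
    rw [h5]
    exact mul_mem (mul_mem hx (Subgroup.mem_sup_left h1)) (inv_mem hx)
  · refine sup_le Subgroup.le_normalClosure ?_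
    intro b hb
    have h1 := (hB b).1 hb
    have h5 : b = y * (y⁻¹ * b * y) * y⁻¹ := by group
    rw [h5]
    exact Subgroup.normalClosure_normal.conj_mem _ (Subgroup.subset_normalClosure h1) y

end Cfsg.Agent.S5015
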