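import Cfsg.Statements.S5017
import Cfsg.Agent.LibH14R1


set_option autoImplicit false
open Cfsg

namespace Cfsg.Agent.S5017

open CfsgLib.H14R1


/-- Let X be a rank one group with unipotent subgroups A and B and N a normal subgroup of X. Then either X = N A or N lies in the centre of X. Consequently a perfect rank one group is quasisimple. -/
theorem result {X : Type*} [Group X] {A B : Subgroup X} (h : Cfsg.IsRankOneGroup X A B) :
    (∀ N : Subgroup X, N.Normal → N ⊔ A = ⊤ ∨ N ≤ Subgroup.center X) ∧
    (Group.IsPerfect X → Cfsg.IsQuasisimple X) := by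
  obtain ⟨ht, hp⟩ := h
  have hdich : ∀ N : Subgroup X, N.Normal → N ⊔ A = ⊤ ∨ N ≤ Subgroup.center X := by
    intro N hN
    rcases dichotomy hp (N := N) (by rw [ht]; exact le_top) (fun x _ => cj_of_normal x) with h | h
    · left; rw [h, ht]
    · right
      intro n hn
      rw [Subgroup.mem_center_iff]
      intro x
      exact (h n hn x (by rw [ht]; trivial)).symm
  refine ⟨hdich, fun hperf => ⟨hperf, ?_⟩⟩
  have hnn : ¬ Group.IsNilpotent X := by
    intro hn
    apply not_nilpotent hp
    infer_instance
  have hfull : ∀ N : Subgroup X, N.Normal → N ⊔ A = ⊤ → N = ⊤ := by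
    intro N hN e
    have hsurj : Function.Surjective ((QuotientGroup.mk' N).comp A.subtype) := by
      intro q
      obtain ⟨x, rfl⟩ := QuotientGroup.mk'_surjective N q
      have hx : x ∈ N ⊔ A := by rw [e]; trivial
      rw [Subgroup.mem_sup_of_normal_left] at hx
      obtain ⟨n, hn, a, ha, rfl⟩ := hx
      refine ⟨⟨a, ha⟩, ?_⟩
      simp only [MonoidHom.comp_apply, Subgroup.coe_subtype, map_mul]
      have : (QuotientGroup.mk' N) n = 1 := by simpa using hn
      rw [this, one_mul]
    haveI := hp.nilpotent_left
    have hq : Group.IsNilpotent (X ⧸ N) := Group.nilpotent_of_surjective _ hsurj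
    have hperf2 : commutator (X ⧸ N) = ⊤ := by
      have h1 : commutator X = ⊤ := hperf.commutator_eq_top
      have := Subgroup.map_commutator (⊤ : Subgroup X) ⊤ (QuotientGroup.mk' N)
      rw [Subgroup.map_top_of_surjective _ (QuotientGroup.mk'_surjective N)] at this
      rw [commutator_def, ← this, ← commutator_def, h1]
      exact Subgroup.map_top_of_surjective _ (QuotientGroup.mk'_surjective N)
    have hsol : Group.IsSolvable (X ⧸ N) := inferInstance
    have hsub : Subsingleton (X ⧸ N) := by
      by_contra hns
      rw [not_subsingleton_iff_nontrivial] at hns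
      have := Group.IsSolvable.commutator_lt_top_of_nontrivial (X ⧸ N)
      rw [hperf2] at this
      exact lt_irrefl _ this
    exact (QuotientGroup.subsingleton_iff).1 hsub
  haveI : Nontrivial (X ⧸ Subgroup.center X) := by
    rw [← not_subsingleton_iff_nontrivial]
    intro hs
    have h1 : Subgroup.center X = ⊤ := (QuotientGroup.subsingleton_iff).1 hs
    apply not_comm hp
    rw [Subgroup.commutator_eq_bot_iff_le_centralizer]
    intro a _
    rw [Subgroup.mem_centralizer_iff]
    intro b _
    have : a ∈ Subgroup.center X := by rw [h1]; trivial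
    exact (Subgroup.mem_center_iff.1 this b)
  constructor
  intro M hM
  let N := M.comap (QuotientGroup.mk' (Subgroup.center X))
  have hN : N.Normal := hM.comap _
  have hMN : M = N.map (QuotientGroup.mk' (Subgroup.center X)) :=
    (Subgroup.map_comap_eq_self_of_surjective (QuotientGroup.mk'_surjective _) M).symm
  rcases hdich N hN with h | h
  · right
    rw [hMN, hfull N hN h]
    exact Subgroup.map_top_of_surjective _ (QuotientGroup.mk'_surjective _)
  · left
    rw [hMN, eq_bot_iff]
    rintro _ ⟨n, hn, rfl⟩
    have := h hn
    simpa using this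

end Cfsg.Agent.S5017
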