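import Cfsg.Statements.S5018
import Cfsg.Agent.LibH14R1


set_option autoImplicit false
open Cfsg

namespace Cfsg.Agent.S5018

open CfsgLib.H14R1
open scoped commutatorElement


/-- A rank one group is not nilpotent, and its second centre equals its centre. -/
theorem result {X : Type*} [Group X] {A B : Subgroup X} (h : Cfsg.IsRankOneGroup X A B) :
    Subgroup.upperCentralSeries X 2 = Subgroup.center X ∧ ¬ Group.IsNilpotent X := by
  obtain ⟨ht, hp⟩ := h
  have hnn : ¬ Group.IsNilpotent X := by
    intro hn
    apply not_nilpotent hp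
    infer_instance
  refine ⟨?_, hnn⟩
  have hmem : ∀ z ∈ Subgroup.upperCentralSeries X 2, z ∈ Subgroup.center X := by
    rcases dichotomy hp (N := Subgroup.upperCentralSeries X 2) (by rw [ht]; exact le_top)
      (fun x _ => cj_of_normal x) with h | h
    · exfalso
      rw [ht] at h
      obtain ⟨x, -, e⟩ := exists_swap hp
      have hx : x ∈ Subgroup.upperCentralSeries X 2 ⊔ A := by rw [h]; trivial
      rw [Subgroup.mem_sup_of_normal_left] at hx
      obtain ⟨z, hz, a, ha, rfl⟩ := hx
      rw [← cj_cj, cj_of_mem ha] at e
      obtain ⟨b, hb, hb1⟩ := exists_ne_one (right_ne_bot hp)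
      apply hb1
      apply not_normalize (pair_symm hp) hb
      rw [e, mem_cj] at hb
      rw [Subgroup.mem_upperCentralSeries_succ_iff] at hz
      have h1 := hz (z⁻¹ * b * z)
      rw [Subgroup.upperCentralSeries_one] at h1
      have h2 : b = ⁅z, z⁻¹ * b * z⁆ * (z⁻¹ * b * z) := by
        rw [commutatorElement_def]; group
      rw [h2, ← cj_cj, cj_of_mem hb, cj_of_center h1]
    · intro z hz
      rw [Subgroup.mem_center_iff]
      intro x
      exact (h z hz x (by rw [ht]; trivial)).symm
  apply le_antisymm hmem
  rw [← Subgroup.upperCentralSeries_one]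
  exact Subgroup.upperCentralSeries_mono X (by norm_num)

end Cfsg.Agent.S5018
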