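import Cfsg.Statements.S5020
import Cfsg.Agent.LibH14RX
import Cfsg.Agent.LibH14RP3
import Cfsg.Agent.LibH14QG


set_option autoImplicit false
open Cfsg

namespace Cfsg.Agent.S5020

open CfsgLib.H14R1 CfsgLib.H14RS CfsgLib.H14RP CfsgLib.H14RW CfsgLib.H14RX

theorem zp_eq {G : Type*} [Group G] {A : Subgroup G} {a : G} (ha : a ∈ A) (ha1 : a ≠ 1) {p : ℕ} (hp : p.Prime)
    (hc : Nat.card A = p) : Subgroup.zpowers a = A := by
  haveI : Finite A := Nat.finite_of_card_ne_zero (by rw [hc]; exact hp.ne_zero)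
  have hle : Subgroup.zpowers a ≤ A := by rwa [Subgroup.zpowers_le]
  apply Subgroup.eq_of_le_of_card_ge hle
  rw [hc]
  have h1 : Nat.card (Subgroup.zpowers a) ∣ p := by
    rw [← hc]; exact Subgroup.card_dvd_of_le hle
  rcases (Nat.dvd_prime hp).1 h1 with h | h
  · exfalso
    rw [Nat.card_zpowers, orderOf_eq_one_iff] at h
    exact ha1 h
  · rw [h]

theorem top_eq {X : Type*} [Group X] {A B : Subgroup X} (h : Cfsg.IsRankOneGroup X A B)
    {a c : X} (hb : Br A B a c) {p : ℕ} (hp : p.Prime) (hc : Nat.card A = p) :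
    Subgroup.closure ({a, c} : Set X) = ⊤ := by
  have hB : Nat.card B = p := by
    obtain ⟨x, -, e⟩ := exists_swap h.2
    rw [e, ← hc]
    exact (Nat.card_congr (A.equivMapOfInjective _ (MulAut.conj x).injective).toEquiv).symm
  rw [← h.1, ← zp_eq hb.ha hb.ha1 hp hc, ← zp_eq hb.hc hb.hc1 hp hB, Subgroup.zpowers_eq_closure, Subgroup.zpowers_eq_closure,
    ← Subgroup.closure_union]
  congr 1

theorem small {X : Type*} [Group X] {A B : Subgroup X} (h : Cfsg.IsRankOneGroup X A B)
    (hs : SP A B) {p : ℕ} [hp : Fact p.Prime] (hc : Nat.card A = p) :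
    Nonempty (X ≃* Matrix.SpecialLinearGroup (Fin 2) (ZMod p)) ∨
    Nonempty (X ≃* Matrix.ProjectiveSpecialLinearGroup (Fin 2) (ZMod p)) := by
  obtain ⟨a, ha, ha1⟩ := exists_ne_one (left_ne_bot hs.h.1)
  obtain ⟨c, hb⟩ := exists_br hs.h ha ha1
  have hA : ∀ x ∈ A, x ^ p = 1 := by
    intro x hx
    haveI : Finite A := Nat.finite_of_card_ne_zero (by rw [hc]; exact hp.out.ne_zero)
    have := pow_card_eq_one' (x := (⟨x, hx⟩ : A))
    rw [hc] at this
    exact congrArg Subtype.val this
  have ht := top_eq h hb hp.out hc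
  have e1 : X ≃* ↥(Subgroup.closure ({a, c} : Set X)) := Subgroup.topEquiv.symm.trans (MulEquiv.subgroupCongr ht.symm)
  rcases iso hs hA hb with ⟨⟨e⟩⟩ | ⟨⟨e⟩⟩
  · exact Or.inl ⟨e1.trans e⟩
  · exact Or.inr ⟨e1.trans e⟩

/-- `PSL₂(2) ≅ SL₂(2)` -/
theorem psl22 : Nonempty (Matrix.ProjectiveSpecialLinearGroup (Fin 2) (ZMod 2) ≃* Matrix.SpecialLinearGroup (Fin 2) (ZMod 2)) := by
  have hc : Subgroup.center (Matrix.SpecialLinearGroup (Fin 2) (ZMod 2)) = ⊥ := by
    rw [eq_bot_iff]
    intro g hg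
    rw [Matrix.SpecialLinearGroup.mem_center_iff] at hg
    obtain ⟨r, hr, e⟩ := hg
    have key : ∀ r : ZMod 2, r ^ 2 = 1 → r = 1 := by decide
    have h1 : r = 1 := key r (by rw [Fintype.card_fin] at hr; exact hr)
    rw [h1, map_one] at e
    rw [Subgroup.mem_bot]
    exact Subtype.ext e.symm
  exact ⟨(QuotientGroup.quotientMulEquivOfEq hc).trans QuotientGroup.quotientBot⟩



/-- Let X be a special rank one group with abelian unipotent subgroups A and B, and H = N(A) ∩ N(B) its diagonal subgroup. Then either A has at most three elements and X is isomorphic to SL₂(2), SL₂(3) or PSL₂(3); or X = X' A with the commutator subgroup X' quasisimple and the commutator subgroup ⁅A, H⁆ having more than three elements. -/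
theorem result {X : Type*} [Group X] {A B : Subgroup X} (h : Cfsg.IsRankOneGroup X A B)
    (hs : Cfsg.IsSpecialRankOnePair A B) (hab : Cfsg.HasAbelianUnipotents A B) :
    (ENat.card A ≤ 3 ∧ (Nonempty (X ≃* Matrix.SpecialLinearGroup (Fin 2) (ZMod 2)) ∨
        Nonempty (X ≃* Matrix.SpecialLinearGroup (Fin 2) (ZMod 3)) ∨
        Nonempty (X ≃* Matrix.ProjectiveSpecialLinearGroup (Fin 2) (ZMod 3)))) ∨
    (commutator X ⊔ A = ⊤ ∧ Cfsg.IsQuasisimple (commutator X) ∧
      3 < ENat.card ↥(⁅A, Cfsg.rankOneDiagonal A B⁆ : Subgroup X)) := by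
  have hs' : SP A B := ⟨hs, el_comm hab.1, el_comm hab.2⟩
  by_cases h3 : 3 < ENat.card A
  · right
    have hp := perfect hs hab.1 h3
    rw [h.1] at hp
    have ht : commutator X = ⊤ := by rw [commutator_def]; exact hp
    refine ⟨by rw [ht]; simp, ?_, ?_⟩
    · rw [ht]
      have hnt : (⊤ : Subgroup X) ≠ ⊥ := by
        intro e
        apply left_ne_bot hs.1
        rw [eq_bot_iff, ← e]; exact le_top
      refine CfsgLib.H14QG.qs_of hp hnt ?_
      intro N _ hn
      haveI : N.Normal := ⟨fun x hx g => by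
        have := cj_mem (g := g) hx
        rwa [hn g (Subgroup.mem_top g)] at this⟩
      rcases dichotomy hs.1 (N := N) (by rw [h.1]; exact le_top) (fun x _ => hn x (Subgroup.mem_top x)) with h1 | h1
      · right
        rw [h.1] at h1
        have h2 : (⁅(⊤ : Subgroup X), (⊤ : Subgroup X)⁆).map (QuotientGroup.mk' N) = ⊥ := by
          rw [Subgroup.map_commutator, ← h1, Subgroup.map_sup, (Subgroup.map_eq_bot_iff N).2 (by rw [QuotientGroup.ker_mk']),
            bot_sup_eq, ← Subgroup.map_commutator, comm_iff.2 hs'.hA, Subgroup.map_bot]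
        rw [Subgroup.map_eq_bot_iff, QuotientGroup.ker_mk', hp] at h2
        exact eq_top_iff.2 h2
      · left
        intro x hx y _
        exact h1 x hx y (by rw [h.1]; trivial)
    · rw [comm_diag hs hab.1 h3]; exact h3
  · left
    rw [not_lt] at h3
    refine ⟨h3, ?_⟩
    haveI : Finite A := by
      rw [← ENat.card_lt_top]
      exact lt_of_le_of_lt h3 (by decide)
    have h4 : Nat.card A ≤ 3 := by
      have := ENat.card_eq_coe_natCard A
      rw [this] at h3
      exact_mod_cast h3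
    have h5 : 1 < Nat.card A := by
      haveI : Nontrivial A := (Subgroup.nontrivial_iff_ne_bot A).2 (left_ne_bot hs.1)
      exact Finite.one_lt_card
    have h6 : Nat.card A = 2 ∨ Nat.card A = 3 := by omega
    rcases h6 with h6 | h6
    · left
      haveI : Fact (Nat.Prime 2) := ⟨Nat.prime_two⟩
      rcases small h hs' h6 with h7 | ⟨⟨e⟩⟩
      · exact h7
      · obtain ⟨e'⟩ := psl22
        exact ⟨e.trans e'⟩
    · right
      haveI : Fact (Nat.Prime 3) := ⟨Nat.prime_three⟩
      exact small h hs' h6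

end Cfsg.Agent.S5020
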