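import Cfsg.Statements.S5023
import Cfsg.Agent.LibH14RS2


set_option autoImplicit false
open Cfsg

namespace Cfsg.Agent.S5023

open CfsgLib.H14R1 CfsgLib.H14RS

theorem ring_aux {E : Type*} [Ring E] (τ τ' θ : E) (h1 : τ' * τ = 1) (h2 : (τ - 1) * (τ - 1) = 0) :
    ∀ θ1 θ2 : E, θ1 = τ * θ * τ' - θ → θ2 = τ * θ1 * τ' - θ1 → τ * θ2 * τ' - θ2 = 0 := by
  rintro θ1 θ2 rfl rfl
  obtain ⟨δ, rfl⟩ : ∃ δ, τ = 1 + δ := ⟨τ - 1, by abel⟩
  rw [add_sub_cancel_left] at h2
  have h3 : τ' = 1 - δ := by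
    have h4 : (1 + δ) * (1 - δ) = 1 := by
      have : (1 + δ) * (1 - δ) = 1 - δ * δ := by noncomm_ring
      rw [this, h2, sub_zero]
    calc τ' = τ' * ((1 + δ) * (1 - δ)) := by rw [h4, mul_one]
      _ = (τ' * (1 + δ)) * (1 - δ) := by rw [mul_assoc]
      _ = 1 - δ := by rw [h1, one_mul]
  subst h3
  have e1 : (1 + δ) * θ * (1 - δ) - θ = δ * θ - θ * δ - δ * θ * δ := by noncomm_ring
  rw [e1]
  have e2 : (1 + δ) * (δ * θ - θ * δ - δ * θ * δ) * (1 - δ) - (δ * θ - θ * δ - δ * θ * δ) =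
      -(2 : ℤ) • (δ * θ * δ) + ((δ * δ) * θ - (δ * δ) * θ * δ - (δ * δ) * θ * δ + (δ * δ) * θ * (δ * δ) + θ * (δ * δ) + δ * θ * (δ * δ)
        + δ * θ * (δ * δ)) := by
    noncomm_ring
  rw [e2, h2]
  simp only [zero_mul, mul_zero, sub_zero, add_zero]
  have e3 : (1 + δ) * (-(2 : ℤ) • (δ * θ * δ)) * (1 - δ) - -(2 : ℤ) • (δ * θ * δ) =
      -(2 : ℤ) • ((δ * δ) * θ * δ) + (2 : ℤ) • (δ * θ * (δ * δ)) + (2 : ℤ) • ((δ * δ) * θ * (δ * δ)) := by
    noncomm_ring
  rw [e3, h2]
  simp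

section
variable {X : Type*} [Group X] {A B : Subgroup X}

theorem cen_of {Q : Subgroup X} (h : IsRankOnePair A B) (ht : A ⊔ B = ⊤) (hAA : ∀ a ∈ A, ∀ a' ∈ A, a * a' = a' * a)
    (hQn : ∀ g : X, ∀ q ∈ Q, g * q * g⁻¹ ∈ Q) (hQQ : ∀ q ∈ Q, ∀ q' ∈ Q, q * q' = q' * q) (hQA : Q ⊔ A = ⊤)
    {t : X} (htA : t ∈ A) (ht1 : t ≠ 1)
    (h3 : ∀ q ∈ Q, ∀ q1 q2, q1 = t * q * t⁻¹ * q⁻¹ → q2 = t * q1 * t⁻¹ * q1⁻¹ → t * q2 * t⁻¹ * q2⁻¹ = 1) :
    ∀ q ∈ Q, ∀ x : X, q * x = x * q := by
  have hxall : ∀ x : X, x ∈ A ⊔ B := fun x => by rw [ht]; trivial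
  -- A ∩ Q = 1
  have hAQ : ∀ q ∈ Q, q ∈ A → q = 1 := by
    intro q hq hqA
    by_contra hq1
    obtain ⟨x, -, e⟩ := exists_swap h
    have h1 : x * q * x⁻¹ ∈ B := by rw [e]; exact cj_mem hqA
    have h2 : q * (x * q * x⁻¹) * q⁻¹ = x * q * x⁻¹ := by
      rw [hQQ q hq _ (hQn x q hq)]; group
    have h4 : conjBy B q = B := by
      refine unip_eq_of_inf (c := x * q * x⁻¹) h (unip_cj (hxall q) (right_mem_unip h)) (right_mem_unip h) ?_ h1 ?_
      · have := cj_mem (g := q) h1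
        rwa [h2] at this
      · intro e'
        apply hq1
        have : q = x⁻¹ * (x * q * x⁻¹) * x := by group
        rw [this, e']; group
    exact hq1 (not_normalize h hqA h4)
  have step : ∀ q ∈ Q, (∀ x : X, (t * q * t⁻¹ * q⁻¹) * x = x * (t * q * t⁻¹ * q⁻¹)) → ∀ x : X, q * x = x * q := by
    intro q hq hz
    set z := t * q * t⁻¹ * q⁻¹ with hzdef
    have e1 : q * t * q⁻¹ = z⁻¹ * t := by
      have : z⁻¹ * t = q * t * q⁻¹ := by rw [hzdef]; group
      exact this.symm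
    have hD : A = conjBy A q := by
      refine unip_eq_of_mem (c := t) h left_mem_unip (unip_cj (hxall q) left_mem_unip) htA ht1 ?_
      have h5 : z⁻¹ * t ∈ conjBy A q := by rw [← e1]; exact cj_mem htA
      have h6 : t = z * (z⁻¹ * t) := by group
      rw [h6, ← cj_cj, cj_of_mem h5]
      exact cj_of_comm fun a _ => hz a
    have hqA : ∀ a ∈ A, q * a = a * q := by
      intro a ha
      have h5 : q * a * q⁻¹ * a⁻¹ ∈ A := by
        have := cj_mem (g := q) ha
        rw [← hD] at this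
        exact mul_mem this (inv_mem ha)
      have h6 : q * a * q⁻¹ * a⁻¹ ∈ Q := by
        have : q * a * q⁻¹ * a⁻¹ = q * (a * q⁻¹ * a⁻¹) := by group
        rw [this]; exact mul_mem hq (hQn a _ (inv_mem hq))
      have h7 := hAQ _ h6 h5
      have : q * a = (q * a * q⁻¹ * a⁻¹) * (a * q) := by group
      rw [this, h7, one_mul]
    intro x
    have hx : x ∈ Q ⊔ A := by rw [hQA]; trivial
    exact (el_comm_sup (A := Q) (B := A) (C := Subgroup.zpowers q)
      (fun a ha c hc => by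
        obtain ⟨n, rfl⟩ := Subgroup.mem_zpowers_iff.1 hc
        exact ((show Commute a q from hQQ a ha q hq).zpow_right n))
      (fun a ha c hc => by
        obtain ⟨n, rfl⟩ := Subgroup.mem_zpowers_iff.1 hc
        exact ((show Commute a q from (hqA a ha).symm).zpow_right n)) x hx q (Subgroup.mem_zpowers q)).symm
  intro q hq
  have hT : ∀ q ∈ Q, t * q * t⁻¹ * q⁻¹ ∈ Q := fun q hq => mul_mem (hQn t q hq) (inv_mem hq)
  apply step q hq
  apply step _ (hT q hq)
  apply step _ (hT _ (hT q hq))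
  intro x
  rw [h3 q hq _ _ rfl rfl, one_mul, mul_one]

end



/-- Let X be a rank one group with unipotent subgroups A and B that acts faithfully on an abelian group V (written additively) with A acting quadratically: a' • (a • v − v) = a • v − v for all a, a' in A and v in V. Then A is either torsion-free or an elementary abelian p-group for some prime p. -/
theorem result {X : Type*} [Group X] {A B : Subgroup X} (h : Cfsg.IsRankOneGroup X A B)
    {V : Type*} [AddCommGroup V] [DistribMulAction X V] (hf : ∀ x : X, (∀ v : V, x • v = v) → x = 1)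
    (hq : ∀ a ∈ A, ∀ a' ∈ A, ∀ v : V, a' • (a • v - v) = a • v - v) :
    (∀ a ∈ A, a ≠ 1 → ¬ IsOfFinOrder a) ∨ ∃ p : ℕ, p.Prime ∧ Cfsg.IsElementaryAbelian p A := by
  obtain ⟨ht, hp⟩ := h
  have hxall : ∀ x : X, x ∈ A ⊔ B := fun x => by rw [ht]; trivial
  have hext : ∀ x y : X, (∀ v : V, x • v = y • v) → x = y := by
    intro x y hxy
    have : y⁻¹ * x = 1 := by
      apply hf
      intro v
      rw [mul_smul, hxy, inv_smul_smul]
    exact (inv_mul_eq_one.1 this).symm
  have hns : ∀ (g : X) (n : ℕ) (v : V), g • (n • v) = n • (g • v) := fun g n v =>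
    (DistribMulAction.toAddMonoidHom V g).map_nsmul n v
  -- commutativity
  have hAA : ∀ a ∈ A, ∀ a' ∈ A, a * a' = a' * a := by
    intro a ha a' ha'
    have key : ∀ a ∈ A, ∀ a' ∈ A, ∀ v : V, (a * a') • v = v + (a • v - v) + (a' • v - v) := by
      intro a ha a' ha' v
      have h1 := hq a' ha' a ha v
      have h2 : (a * a') • v = a • (v + (a' • v - v)) := by rw [mul_smul]; congr 1; abel
      rw [h2, smul_add, h1]; abel
    apply hext
    intro v
    rw [key a ha a' ha', key a' ha' a ha]; abel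
  have hpow : ∀ a ∈ A, ∀ (n : ℕ) (v : V), a ^ n • v = v + n • (a • v - v) := by
    intro a ha n v
    induction n with
    | zero => simp
    | succ n ih =>
      rw [pow_succ', mul_smul, ih, smul_add, hns, hq a ha a ha, add_smul, one_smul]; abel
  by_cases htf : ∀ a ∈ A, a ≠ 1 → ¬ IsOfFinOrder a
  · exact Or.inl htf
  right
  push Not at htf
  obtain ⟨a, ha, ha1, hfin⟩ := htf
  have ho : orderOf a ≠ 1 := fun h => ha1 (orderOf_eq_one_iff.1 h)
  obtain ⟨p, hpp, hpd⟩ := Nat.exists_prime_and_dvd ho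
  obtain ⟨k, hk⟩ := hpd
  have hpos := hfin.orderOf_pos
  have hk0 : 0 < k := by
    rcases Nat.eq_zero_or_pos k with h | h
    · rw [h, mul_zero] at hk; omega
    · exact h
  obtain ⟨t, htA, ht1, htp⟩ : ∃ t ∈ A, t ≠ 1 ∧ t ^ p = 1 := by
    refine ⟨a ^ k, pow_mem ha k, ?_, ?_⟩
    · intro h
      have := orderOf_dvd_of_pow_eq_one h
      have h2 := Nat.le_of_dvd hk0 this
      rw [hk] at h2
      have := hpp.two_le
      nlinarith
    · rw [← pow_mul, mul_comm, ← hk, pow_orderOf_eq_one]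
  refine ⟨p, hpp, comm_of_el hAA, ?_⟩
  intro x hx
  by_contra hxp
  -- the kernels
  let K : Subgroup X :=
    { carrier := {g | ∀ v : V, g • (p • v) = p • v}
      one_mem' := fun v => one_smul _ _
      mul_mem' := fun {g h} hg hh v => by rw [mul_smul, hh, hg]
      inv_mem' := fun {g} hg v => by rw [inv_smul_eq_iff, hg] }
  let L : Subgroup X :=
    { carrier := {g | ∀ v : V, p • v = 0 → g • v = v}
      one_mem' := fun v _ => one_smul _ _
      mul_mem' := fun {g h} hg hh v hv => by rw [mul_smul, hh v hv, hg v hv]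
      inv_mem' := fun {g} hg v hv => by rw [inv_smul_eq_iff, hg v hv] }
  have hKn : ∀ g : X, ∀ q ∈ K, g * q * g⁻¹ ∈ K := by
    intro g q hq v
    rw [mul_smul, mul_smul, hns g⁻¹, hq, ← hns, smul_inv_smul]
  have hLn : ∀ g : X, ∀ q ∈ L, g * q * g⁻¹ ∈ L := by
    intro g q hq v hv
    rw [mul_smul, mul_smul, hq _ (by rw [← hns, hv, smul_zero]), smul_inv_smul]
  haveI : K.Normal := ⟨fun q hq g => hKn g q hq⟩
  haveI : L.Normal := ⟨fun q hq g => hLn g q hq⟩
  have htK : t ∈ K := by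
    intro v
    have h1 := hpow t htA p v
    rw [htp, one_smul] at h1
    have h2 : p • (t • v - v) = 0 := by
      have : v + p • (t • v - v) = v + 0 := by rw [← h1, add_zero]
      exact add_left_cancel this
    rw [hns]
    rw [smul_sub] at h2
    exact sub_eq_zero.1 h2
  have hxL : x ^ p ∈ L := by
    intro v hv
    rw [hpow x hx, smul_sub, ← hns, hv, smul_zero, sub_zero, add_zero]
  have nc : ∀ N : Subgroup X, N.Normal → (∃ s ∈ N, s ∈ A ∧ s ≠ 1) → N ⊔ A = ⊤ := by
    rintro N hN ⟨s, hs, hsA, hs1⟩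
    rcases dichotomy hp (N := N) (by rw [ht]; exact le_top) (fun x _ => cj_of_normal x) with h | h
    · rw [h, ht]
    · exfalso
      exact hs1 (not_normalize hp hsA (cj_of_comm fun b _ => h s hs b (hxall b)))
  have hKA := nc K inferInstance ⟨t, htK, htA, ht1⟩
  have hLA := nc L inferInstance ⟨x ^ p, hxL, pow_mem hx p, hxp⟩
  -- Q = K ⊓ L is central
  have hQc : ∀ q ∈ K ⊓ L, ∀ x : X, q * x = x * q := by
    have hQn : ∀ g : X, ∀ q ∈ K ⊓ L, g * q * g⁻¹ ∈ K ⊓ L := fun g q hq => ⟨hKn g q hq.1, hLn g q hq.2⟩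
    haveI : (K ⊓ L).Normal := ⟨fun q hq g => hQn g q hq⟩
    rcases dichotomy hp (N := K ⊓ L) (by rw [ht]; exact le_top) (fun x _ => cj_of_normal x) with h | h
    · rw [ht] at h
      have hmove : ∀ q ∈ K ⊓ L, ∀ q' ∈ K ⊓ L, ∀ v : V, q • (q' • v - v) = q' • v - v := by
        intro q hq' q' hq'' v
        apply hq'.2
        rw [smul_sub, ← hns, hq''.1, sub_self]
      refine cen_of hp ht hAA hQn ?_ h htA ht1 ?_
      · intro q hq' q' hq''
        have key : ∀ q ∈ K ⊓ L, ∀ q' ∈ K ⊓ L, ∀ v : V, (q * q') • v = v + (q • v - v) + (q' • v - v) := by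
          intro a ha a' ha' v
          have h1 := hmove a ha a' ha' v
          have h2 : (a * a') • v = a • (v + (a' • v - v)) := by rw [mul_smul]; congr 1; abel
          rw [h2, smul_add, h1]; abel
        apply hext
        intro v
        rw [key q hq' q' hq'', key q' hq'' q hq']; abel
      · -- the ring computation
        intro q hq' q1 q2 e1 e2
        let ρ : X →* AddMonoid.End V := DistribMulAction.toAddMonoidEnd X V
        have hρ : ∀ (g : X) (v : V), ρ g v = g • v := fun _ _ => rfl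
        have hT : ∀ q ∈ K ⊓ L, t * q * t⁻¹ * q⁻¹ ∈ K ⊓ L := fun q hq => mul_mem (hQn t q hq) (inv_mem hq)
        have hadd : ∀ q ∈ K ⊓ L, ∀ q' ∈ K ⊓ L, ρ (q * q') - 1 = (ρ q - 1) + (ρ q' - 1) := by
          intro q hq q' hq'
          ext v
          have h1 := hmove q hq q' hq' v
          show (q * q') • v - v = (q • v - v) + (q' • v - v)
          have h2 : (q * q') • v = q • (v + (q' • v - v)) := by rw [mul_smul]; congr 1; abel
          rw [h2, smul_add, h1]; abel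
        have hinv : ∀ q ∈ K ⊓ L, ρ q⁻¹ - 1 = - (ρ q - 1) := by
          intro q hq
          have h1 := hadd q hq q⁻¹ (inv_mem hq)
          rw [mul_inv_cancel, map_one, sub_self] at h1
          exact eq_neg_of_add_eq_zero_right h1.symm
        have hTT : ∀ q ∈ K ⊓ L, ρ (t * q * t⁻¹ * q⁻¹) - 1 = ρ t * (ρ q - 1) * ρ t⁻¹ - (ρ q - 1) := by
          intro q hq
          rw [hadd _ (hQn t q hq) _ (inv_mem hq), hinv q hq, map_mul, map_mul]
          have h1 : ρ t * ρ t⁻¹ = 1 := by rw [← map_mul, mul_inv_cancel, map_one]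
          rw [mul_sub, sub_mul, mul_one, h1]; abel
        have h1 : ρ t⁻¹ * ρ t = 1 := by rw [← map_mul, inv_mul_cancel, map_one]
        have h2 : (ρ t - 1) * (ρ t - 1) = 0 := by
          ext v
          show t • (t • v - v) - (t • v - v) = 0
          rw [hq t htA t htA v, sub_self]
        have hq1 : q1 ∈ K ⊓ L := by rw [e1]; exact hT q hq'
        have hq2 : q2 ∈ K ⊓ L := by rw [e2]; exact hT q1 hq1
        have h3 := ring_aux (ρ t) (ρ t⁻¹) (ρ q - 1) h1 h2 (ρ q1 - 1) (ρ q2 - 1) (by rw [e1, hTT q hq'])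
          (by rw [e2, hTT q1 hq1])
        rw [← hTT q2 hq2] at h3
        apply hf
        intro v
        have h4 : ρ (t * q2 * t⁻¹ * q2⁻¹) = 1 := sub_eq_zero.1 h3
        rw [← hρ, h4]; rfl
    · exact fun q hq x => h q hq x (hxall x)
  -- final contradiction
  obtain ⟨y, -, e⟩ := exists_swap hp
  have hy : y ∈ L ⊔ A := by rw [hLA]; trivial
  obtain ⟨l, hl, a', ha', hla⟩ := Subgroup.mem_sup_of_normal_left.1 hy
  have hB : B = Cfsg.conjBy A l := by
    rw [e, ← hla, ← cj_cj, cj_of_mem ha']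
  have hz : l * t * l⁻¹ * t⁻¹ ∈ K ⊓ L := by
    refine ⟨K.mul_mem (hKn l t htK) (K.inv_mem htK), ?_⟩
    have : l * t * l⁻¹ * t⁻¹ = l * (t * l⁻¹ * t⁻¹) := by group
    rw [this]
    exact L.mul_mem hl (hLn t _ (L.inv_mem hl))
  have hb : l * t * l⁻¹ ∈ B := by rw [hB]; exact cj_mem htA
  apply ht1
  refine not_normalize hp htA ?_
  have e3 : t = (l * t * l⁻¹ * t⁻¹)⁻¹ * (l * t * l⁻¹) := by group
  rw [e3, ← cj_cj, cj_of_mem hb]
  exact cj_of_comm fun b _ => hQc _ (inv_mem hz) b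

end Cfsg.Agent.S5023
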