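import Cfsg.Statements.S5026
import Cfsg.Agent.LibH14RS


set_option autoImplicit false
open Cfsg

namespace Cfsg.Agent.S5026

open CfsgLib.H14R1 CfsgLib.H14RS


/-- Let S be a degenerate set of abstract root subgroups of G (a set of abstract transvection groups) and let a, b be commuting non-identity elements of members of S with a b ≠ 1. Then the members of S centralizing a b are exactly those centralizing both a and b. -/
theorem result {G : Type*} [Group G] {S : Set (Subgroup G)} (hS : Cfsg.IsRootSubgroupSet S) (hdeg : Cfsg.IsDegenerateRootSet S)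
    {a b : G} (ha : a ∈ Cfsg.rootElements S) (hb : b ∈ Cfsg.rootElements S) (hab : a * b = b * a) (hab1 : a * b ≠ 1) :
    Cfsg.centralizingMembers S (Subgroup.zpowers (a * b)) =
      Cfsg.centralizingMembers S (Subgroup.zpowers a) ∩ Cfsg.centralizingMembers S (Subgroup.zpowers b) := by
  obtain ⟨ha1, A, hA, haA⟩ := ha
  obtain ⟨hb1, B, hB, hbB⟩ := hb
  have hz : ∀ (C : Subgroup G) (x : G), C ≤ Subgroup.centralizer ((Subgroup.zpowers x : Subgroup G) : Set G) ↔
      ∀ c ∈ C, x * c = c * x := by
    intro C x
    constructor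
    · intro h c hc
      exact Subgroup.mem_centralizer_iff.1 (h hc) x (Subgroup.mem_zpowers x)
    · intro h c hc
      rw [Subgroup.mem_centralizer_iff]
      rintro _ ⟨n, rfl⟩
      exact (Commute.zpow_left (h c hc) n)
  ext C
  simp only [Cfsg.centralizingMembers, Set.mem_inter_iff, Set.mem_setOf_eq, hz]
  constructor
  · rintro ⟨hC, h⟩
    have main : ∀ c ∈ C, a * c = c * a := by
      by_contra hna
      have hpA : IsRankOnePair A C := by
        rcases hS.pair A hA C hC with h1 | h1 | h1
        · exact absurd (fun c hc => comm_iff.1 h1 a haA c hc) hna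
        · exact h1
        · exact absurd h1 (hdeg A hA C hC)
      have hcj : Cfsg.conjBy C a = Cfsg.conjBy C b⁻¹ := by
        have h1 : Cfsg.conjBy C (a * b) = C := cj_of_comm h
        have h2 : Cfsg.conjBy (Cfsg.conjBy C (a * b)) b⁻¹ = Cfsg.conjBy C b⁻¹ := by rw [h1]
        rw [cj_cj, hab] at h2
        simpa using h2
      have hne : Cfsg.conjBy C a ≠ C := fun e => ha1 (not_normalize hpA haA e)
      have hCu := right_mem_unip hpA
      obtain ⟨h1, h2, h3⟩ := sup_eq_of_cj hS hC hB (inv_mem hbB) hpA hCu
        (by rw [← hcj]; exact unip_cj (Subgroup.mem_sup_left haA) hCu) (by rw [← hcj]; exact hne)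
      have hBu : B ∈ Cfsg.unipotentSubgroups A C := by rw [h3]; exact left_mem_unip
      have hAB : B = A := by
        by_contra hBA
        obtain ⟨h4, -⟩ := unip_pair hpA hBu left_mem_unip hBA
        have h5 : Cfsg.conjBy A b ∈ Cfsg.unipotentSubgroups A C :=
          unip_cj (unip_le hBu hbB) left_mem_unip
        have h6 : A = Cfsg.conjBy A b := by
          refine unip_eq_of_inf hpA left_mem_unip h5 haA ?_ ha1
          rw [mem_cj, mul_assoc, hab, inv_mul_cancel_left]
          exact haA
        exact hb1 (not_normalize h4 hbB h6.symm)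
      rw [hAB] at hbB
      exact hab1 (not_normalize hpA (mul_mem haA hbB) (cj_of_comm h))
    refine ⟨⟨hC, main⟩, hC, ?_⟩
    intro c hc
    have h1 := h c hc
    rw [mul_assoc, ← mul_assoc c, ← main c hc, mul_assoc] at h1
    exact mul_left_cancel h1
  · rintro ⟨⟨hC, h1⟩, -, h2⟩
    refine ⟨hC, fun c hc => ?_⟩
    rw [mul_assoc, h2 c hc, ← mul_assoc, h1 c hc, mul_assoc]

end Cfsg.Agent.S5026
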