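import Cfsg.Statements.S5027
import Cfsg.Agent.LibH14RS


set_option autoImplicit false
open Cfsg

namespace Cfsg.Agent.S5027

open CfsgLib.H14R1 CfsgLib.H14RS
open scoped commutatorElement


/-- Let S be a set of abstract root subgroups of G such that every member of S has a rank one partner in S (the graph of rank one pairs on S has no isolated vertex). Then the second centre of G equals its centre. -/
theorem result {G : Type*} [Group G] {S : Set (Subgroup G)} (hS : Cfsg.IsRootSubgroupSet S)
    (hF : ∀ A ∈ S, ¬ Cfsg.IsIsolatedIn (Cfsg.FAdj S) S A) : Subgroup.upperCentralSeries G 2 = Subgroup.center G := by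
  apply le_antisymm
  · intro z hz
    rw [Subgroup.mem_upperCentralSeries_succ_iff] at hz
    simp only [Subgroup.upperCentralSeries_one] at hz
    rw [Subgroup.mem_center_iff]
    intro g
    have hg : g ∈ (⨆ A ∈ S, A : Subgroup G) := by rw [hS.generates]; trivial
    have hle : (⨆ A ∈ S, A : Subgroup G) ≤ Subgroup.centralizer {z} := by
      refine iSup₂_le fun A hA a ha => ?_
      rw [Subgroup.mem_centralizer_singleton_iff]
      obtain ⟨B, hB, hAB⟩ := partner_of_not_iso hS hA (hF A hA)
      by_contra hne
      have hc := hz a
      have ha1 : a ≠ 1 := by rintro rfl; simp at hne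
      have hc1 : ⁅z, a⁆ ≠ 1 := by
        intro e
        rw [commutatorElement_eq_one_iff_mul_comm] at e
        exact hne e.symm
      refine translate hS hA hB hAB (z := ⁅z, a⁆) (fun x _ => (Subgroup.mem_center_iff.1 hc x).symm)
        hc1 ha ha1 (hS.conj_mem A hA z) ?_
      rw [mem_cj]
      have : z⁻¹ * (⁅z, a⁆ * a) * z = a := by rw [commutatorElement_def]; group
      rw [this]; exact ha
    exact (Subgroup.mem_centralizer_singleton_iff.1 (hle hg))
  · rw [← Subgroup.upperCentralSeries_one]
    exact Subgroup.upperCentralSeries_mono G (by norm_num)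

end Cfsg.Agent.S5027
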