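import Cfsg.Statements.S5029
import Cfsg.Agent.LibH14RS


set_option autoImplicit false
open Cfsg

namespace Cfsg.Agent.S5029

open CfsgLib.H14R1 CfsgLib.H14RS
open scoped commutatorElement


/-- Let S be a set of abstract root subgroups of G, A ∈ S having a rank one partner in S, and B ∈ S with C = ⁅A, B⁆ ∈ S. Then the members of S contained in AC are the conjugates of A by elements of B together with C, they partition AC, the members of S inside AC partition AC so that A is a line partner of C, and for every non-identity a ∈ A the map b ↦ a⁻¹ b⁻¹ a b is an isomorphism from B onto C. -/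
theorem result {G : Type*} [Group G] {S : Set (Subgroup G)} (hS : Cfsg.IsRootSubgroupSet S)
    {A B : Subgroup G} (hA : ¬ Cfsg.IsIsolatedIn (Cfsg.FAdj S) S A) (hAS : A ∈ S) (hB : B ∈ S) (hC : ⁅A, B⁆ ∈ S) :
    Cfsg.membersIn S (A ⊔ ⁅A, B⁆) = (fun b : G => Cfsg.conjBy A b) '' (B : Set G) ∪ {⁅A, B⁆} ∧
    Cfsg.IsSubgroupPartition (A ⊔ ⁅A, B⁆) (Cfsg.membersIn S (A ⊔ ⁅A, B⁆)) ∧
    A ∈ Cfsg.linePartners S ⁅A, B⁆ ∧
    ∀ a ∈ A, a ≠ 1 → ∃ φ : ↥B ≃* ↥⁅A, B⁆, ∀ b : ↥B, (φ b : G) = a⁻¹ * (b : G)⁻¹ * a * b := by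
  obtain ⟨E, hE, hp⟩ := partner_of_not_iso hS hAS hA
  have h := rcc_of_mem hS hAS hB hC
  refine ⟨rcc_membersIn hS hAS hE hp h, rcc_partition hS hAS hE hp h, rcc_line hS hAS hE hp h, ?_⟩
  intro a ha ha1
  have ha' : a⁻¹ ∈ A := inv_mem ha
  have ha1' : a⁻¹ ≠ 1 := by simpa using ha1
  have hval : ∀ b : G, b ∈ B → a⁻¹ * b⁻¹ * a * b = ⁅a⁻¹, b⁻¹⁆ := by
    intro b hb; rw [commutatorElement_def]; group
  have hinvc : ∀ b : G, b ∈ B → ⁅a⁻¹, b⁻¹⁆ = ⁅a⁻¹, b⁆⁻¹ := by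
    intro b hb
    have := rcc_mul h ha' hb (inv_mem hb)
    rw [mul_inv_cancel] at this
    rw [eq_inv_iff_mul_eq_one]
    have h2 := rcc_mul h ha' (inv_mem hb) hb
    rw [inv_mul_cancel] at h2
    rw [← h2]; simp
  let f : B →* ↥⁅A, B⁆ :=
    { toFun := fun b => ⟨⁅a⁻¹, (b : G)⁆⁻¹, inv_mem (Subgroup.commutator_mem_commutator ha' b.2)⟩
      map_one' := by ext; simp
      map_mul' := by
        intro x y
        ext
        simp only [Subgroup.coe_mul, rcc_mul h ha' x.2 y.2, mul_inv_rev]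
        exact el_comm (hS.commutative _ hC) _
          (inv_mem (Subgroup.commutator_mem_commutator ha' y.2)) _
          (inv_mem (Subgroup.commutator_mem_commutator ha' x.2)) }
  have hbij : Function.Bijective f := by
    constructor
    · rw [injective_iff_map_eq_one]
      intro b hb
      have h1 : ⁅a⁻¹, (b : G)⁆⁻¹ = 1 := congrArg Subtype.val hb
      rw [inv_eq_one] at h1
      exact Subtype.ext (rcc_inj hS hAS hE hp h ha' ha1' b.2 h1)
    · rintro ⟨c, hc⟩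
      obtain ⟨b, hb, e⟩ := rcc_surj h ha' ha1' (inv_mem hc)
      refine ⟨⟨b, hb⟩, Subtype.ext ?_⟩
      show ⁅a⁻¹, b⁆⁻¹ = c
      rw [e, inv_inv]
  refine ⟨MulEquiv.ofBijective f hbij, fun b => ?_⟩
  rw [hval _ b.2, hinvc _ b.2]
  rfl

end Cfsg.Agent.S5029
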