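import Cfsg.Statements.S5030
import Cfsg.Agent.LibH14RS


set_option autoImplicit false
open Cfsg

namespace Cfsg.Agent.S5030

open CfsgLib.H14R1 CfsgLib.H14RS
open scoped commutatorElement


/-- Let S be a set of abstract root subgroups of G and A, B, C ∈ S with ⁅A, B⁆ ∈ S and ⁅B, C⁆ ∈ S, where A and C are different and commute. For a non-identity b ∈ B put X = ⟨A, b⁻¹ C b⟩ and Y = ⟨b⁻¹ A b, C⟩ and R = ⟨A, B, C⟩. Then X and Y are either both abelian or both nilpotent of class exactly two; X and Y commute elementwise; XY is normal in R with R = (XY) B; and R is nilpotent. -/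
theorem result {G : Type*} [Group G] {S : Set (Subgroup G)} (hS : Cfsg.IsRootSubgroupSet S)
    {A B C : Subgroup G} (hA : A ∈ S) (hB : B ∈ S) (hC : C ∈ S) (hAB : ⁅A, B⁆ ∈ S) (hBC : ⁅B, C⁆ ∈ S)
    (hAC : C ∈ Cfsg.commutingPartners S A)
    {b : G} (hb : b ∈ B) (hb1 : b ≠ 1) :
    ((IsMulCommutative ↥(A ⊔ Cfsg.conjBy C b⁻¹) ∧ IsMulCommutative ↥(Cfsg.conjBy A b⁻¹ ⊔ C)) ∨
      ((¬ IsMulCommutative ↥(A ⊔ Cfsg.conjBy C b⁻¹) ∧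
          ⁅⁅A ⊔ Cfsg.conjBy C b⁻¹, A ⊔ Cfsg.conjBy C b⁻¹⁆, A ⊔ Cfsg.conjBy C b⁻¹⁆ = ⊥) ∧
        (¬ IsMulCommutative ↥(Cfsg.conjBy A b⁻¹ ⊔ C) ∧
          ⁅⁅Cfsg.conjBy A b⁻¹ ⊔ C, Cfsg.conjBy A b⁻¹ ⊔ C⁆, Cfsg.conjBy A b⁻¹ ⊔ C⁆ = ⊥))) ∧
    ⁅A ⊔ Cfsg.conjBy C b⁻¹, Cfsg.conjBy A b⁻¹ ⊔ C⁆ = ⊥ ∧
    (∀ r ∈ A ⊔ B ⊔ C, Cfsg.conjBy ((A ⊔ Cfsg.conjBy C b⁻¹) ⊔ (Cfsg.conjBy A b⁻¹ ⊔ C)) r =
      (A ⊔ Cfsg.conjBy C b⁻¹) ⊔ (Cfsg.conjBy A b⁻¹ ⊔ C)) ∧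
    ((A ⊔ Cfsg.conjBy C b⁻¹) ⊔ (Cfsg.conjBy A b⁻¹ ⊔ C)) ⊔ B = A ⊔ B ⊔ C ∧
    Group.IsNilpotent ↥(A ⊔ B ⊔ C) := by
  have h1 := rcc_of_mem hS hA hB hAB
  have h2 := rcc_of_mem hS hB hC hBC
  have hch : Chain S A B C b⁻¹ :=
    ⟨hA, hB, hC, h1, rcc_symm h2, comm_iff.1 hAC.2.2, inv_mem hb, by simpa using hb1⟩
  have hnc : ∀ X Y : Subgroup G, ⁅X, Y⁆ ≠ ⊥ → ¬ IsMulCommutative ↥(X ⊔ Y) := by
    intro X Y hne hc
    apply hne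
    rw [comm_iff]
    intro x hx y hy
    exact el_comm hc x (Subgroup.mem_sup_left hx) y (Subgroup.mem_sup_right hy)
  have hcc : ∀ X Y : Subgroup G, IsMulCommutative X → IsMulCommutative Y → ⁅X, Y⁆ = ⊥ →
      IsMulCommutative ↥(X ⊔ Y) := by
    intro X Y hX hY hXY
    apply comm_of_el
    have hXY' := comm_iff.1 hXY
    apply el_comm_sup
    · apply el_comm_symm
      exact el_comm_sup (el_comm hX) (el_comm_symm hXY')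
    · apply el_comm_symm
      exact el_comm_sup hXY' (el_comm hY)
  refine ⟨?_, ?_, ?_, ?_, hch.nilpotent hS⟩
  · by_cases hc : ⁅A, Cfsg.conjBy C b⁻¹⁆ = ⊥
    · left
      have hc' := (hch.comm_iff' hS).1 hc
      exact ⟨hcc _ _ (hS.commutative A hA) (cj_comm _ (hS.commutative C hC)) hc,
        hcc _ _ (cj_comm _ (hS.commutative A hA)) (hS.commutative C hC) hc'⟩
    · right
      exact ⟨⟨hnc _ _ hc, hch.class2_X hS⟩,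
        ⟨hnc _ _ (fun h => hc ((hch.comm_iff' hS).2 h)), hch.class2_Y hS⟩⟩
  · rw [comm_iff]; exact hch.XY hS
  · intro r hr
    rw [hch.N_eq hS]
    exact hch.N_norm hS hr
  · rw [hch.N_eq hS]
    exact hch.NB hS

end Cfsg.Agent.S5030
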