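import Cfsg.Statements.S5031
import Cfsg.Agent.LibH14RS2


set_option autoImplicit false
open Cfsg

namespace Cfsg.Agent.S5031

open CfsgLib.H14R1 CfsgLib.H14RS


/-- Let S be a set of abstract root subgroups of G and let A, B ∈ S lie in different connected components of the graph of rank one pairs on S, each component having more than one member. Then B is not a line partner of A. -/
theorem result {G : Type*} [Group G] {S : Set (Subgroup G)} (hS : Cfsg.IsRootSubgroupSet S)
    {A B : Subgroup G} (hA : A ∈ S) (hB : B ∈ S)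
    (hne : Cfsg.componentOf (Cfsg.FAdj S) S A ≠ Cfsg.componentOf (Cfsg.FAdj S) S B)
    (hA2 : ∃ A' ∈ Cfsg.componentOf (Cfsg.FAdj S) S A, A' ≠ A) (hB2 : ∃ B' ∈ Cfsg.componentOf (Cfsg.FAdj S) S B, B' ≠ B) :
    B ∉ Cfsg.linePartners S A := by
  intro hline
  obtain ⟨A', hA', hneA⟩ := hA2
  obtain ⟨B', hB', hneB⟩ := hB2
  obtain ⟨C, hC, hpC⟩ := rtg_partner hA'.2 (Ne.symm hneA)
  obtain ⟨E, hE, hpE⟩ := rtg_partner hB'.2 (Ne.symm hneB)
  have h := line_connected hS hA hline hC hpC hE hpE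
  apply hne
  ext X
  constructor
  · rintro ⟨hX, h1⟩; exact ⟨hX, (rtg_symm h).trans h1⟩
  · rintro ⟨hX, h1⟩; exact ⟨hX, h.trans h1⟩

end Cfsg.Agent.S5031
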