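import Cfsg.Statements.S5032
import Cfsg.Agent.LibH14RS2


set_option autoImplicit false
open Cfsg

namespace Cfsg.Agent.S5032

open CfsgLib.H14R1 CfsgLib.H14RS


/-- Let S be a set of abstract root subgroups of G with more than one member. Then the graph of rank one pairs on S is connected if and only if S is a single conjugacy class of G and some member of S has a rank one partner in S. -/
theorem result {G : Type*} [Group G] {S : Set (Subgroup G)} (hS : Cfsg.IsRootSubgroupSet S) (h2 : ∃ A ∈ S, ∃ B ∈ S, A ≠ B) :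
    Cfsg.IsConnectedFamily (Cfsg.FAdj S) S ↔
      (Cfsg.IsConjClassOfSubgroups S ∧ ∃ A ∈ S, ¬ Cfsg.IsIsolatedIn (Cfsg.FAdj S) S A) := by
  constructor
  · intro hc
    obtain ⟨A, hA, B, hB, hne⟩ := h2
    refine ⟨⟨⟨A, hA⟩, fun X hX Y hY => rtg_conj (hc X hX Y hY)⟩, A, hA, ?_⟩
    obtain ⟨C, hC, hp⟩ := rtg_partner (hc A hA B hB) hne
    exact not_iso_of_partner hA hC hp
  · rintro ⟨⟨-, hcl⟩, A₀, hA₀, hiso⟩
    obtain ⟨C₀, hC₀, hp₀⟩ := partner_of_not_iso hS hA₀ hiso
    have hF : ∀ A ∈ S, ∃ C ∈ S, IsRankOnePair A C := by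
      intro A hA
      obtain ⟨g, rfl⟩ := hcl A₀ hA₀ A hA
      exact ⟨_, hS.conj_mem C₀ hC₀ g, pair_cj hp₀ g⟩
    intro A hA B hB
    obtain ⟨g, rfl⟩ := hcl A hA B hB
    exact comp_invariant' hS hF hA g

end Cfsg.Agent.S5032
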