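import Cfsg.Statements.S5033
import Cfsg.Agent.LibH14RP2
import Cfsg.Agent.LibH14QG


set_option autoImplicit false
open Cfsg

namespace Cfsg.Agent.S5033

open CfsgLib.H14R1 CfsgLib.H14RS CfsgLib.H14RP

theorem fin_aux {G : Type*} [Group G] {S : Set (Subgroup G)} (hS : Cfsg.IsRootSubgroupSet S) {A : Subgroup G}
    (hA : A ∈ S) (ht : commutator G = ⊤) (hN : ∀ N : Subgroup G, N.Normal → N = ⊤ ∨ N ≤ Subgroup.center G) :
    (∀ A ∈ S, commutator G ⊔ A = ⊤ ∧ A ⊓ commutator G ≠ ⊥) ∧ Cfsg.IsQuasisimple ↥(commutator G) := by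
  have hnt : (⊤ : Subgroup G) ≠ ⊥ := by
    intro e
    apply hS.ne_bot A hA
    rw [eq_bot_iff, ← e]
    exact le_top
  refine ⟨fun A hA => ⟨by rw [ht]; simp, by rw [ht, inf_top_eq]; exact hS.ne_bot A hA⟩, ?_⟩
  rw [ht]
  refine CfsgLib.H14QG.qs_of ?_ hnt ?_
  · rw [← commutator_def]; exact ht
  · intro N _ hn
    haveI : N.Normal := ⟨fun x hx g => by
      have := cj_mem (g := g) hx
      rwa [hn g (Subgroup.mem_top g)] at this⟩
    rcases hN N inferInstance with h | h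
    · exact Or.inr h
    · left
      intro x hx y _
      exact (Subgroup.mem_center_iff.1 (h hx) y).symm



/-- Quasisimplicity criterion for groups generated by abstract root subgroups. Let S be a set of abstract root subgroups of G with more than one member such that: the graph of rank one pairs on S is connected; no two different members of S have the same set of commuting members of S; if S is degenerate then every member of S has more than three elements; and every rank one pair in S is special. Then for every A ∈ S one has G = G' A with A ∩ G' ≠ 1, and the commutator subgroup G' is quasisimple. Moreover G is perfect if S is non-degenerate, or if some rank one pair A, B in S generates a perfect group. -/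
theorem result {G : Type*} [Group G] {S : Set (Subgroup G)} (hS : Cfsg.IsRootSubgroupSet S) (h2 : ∃ A ∈ S, ∃ B ∈ S, A ≠ B)
    (h1 : Cfsg.IsConnectedFamily (Cfsg.FAdj S) S)
    (h2' : ∀ A ∈ S, ∀ C ∈ S, A ≠ C → Cfsg.centralizingMembers S A ≠ Cfsg.centralizingMembers S C)
    (h3 : Cfsg.IsDegenerateRootSet S → ∀ A ∈ S, 3 < ENat.card A)
    (h4 : ∀ A ∈ S, ∀ B ∈ Cfsg.rankOnePartners S A, Cfsg.IsSpecialRankOnePair A B) :
    (∀ A ∈ S, commutator G ⊔ A = ⊤ ∧ A ⊓ commutator G ≠ ⊥) ∧ Cfsg.IsQuasisimple ↥(commutator G) ∧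
    (Cfsg.IsNondegenerateRootSet S → commutator G = ⊤) ∧
    ((∃ A ∈ S, ∃ B ∈ Cfsg.rankOnePartners S A, Group.IsPerfect ↥(A ⊔ B)) → commutator G = ⊤) := by
  obtain ⟨A₁, hA₁, A₂, hA₂, hne⟩ := h2
  have hconj : ∀ A ∈ S, ∀ B ∈ S, ∃ g : G, B = Cfsg.conjBy A g := by
    intro A hA B hB
    obtain ⟨g, hg⟩ := rtg_conj (h1 A hA B hB)
    exact ⟨g, hg⟩
  obtain ⟨C₁, hC₁, hp₁⟩ := rtg_partner (h1 A₁ hA₁ A₂ hA₂) hne
  have hF : ∀ A ∈ S, ∃ C ∈ S, IsRankOnePair A C := by
    intro A hA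
    obtain ⟨g, rfl⟩ := hconj A₁ hA₁ A hA
    exact ⟨_, hS.conj_mem C₁ hC₁ g, pair_cj hp₁ g⟩
  suffices hh : commutator G = ⊤ ∧ ∀ N : Subgroup G, N.Normal → N = ⊤ ∨ N ≤ Subgroup.center G by
    obtain ⟨e1, e2⟩ := fin_aux hS hA₁ hh.1 hh.2
    exact ⟨e1, e2, fun _ => hh.1, fun _ => hh.1⟩
  by_cases hdeg : Cfsg.IsDegenerateRootSet S
  · -- every rank one pair generates a perfect group
    have hperf : ∀ A ∈ S, ∀ B ∈ S, IsRankOnePair A B → A ≤ ⁅A ⊔ B, A ⊔ B⁆ := fun A hA B hB hp =>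
      left_le (h4 A hA B ⟨hB, hp⟩) (hS.commutative A hA) (h3 hdeg A hA)
    refine ⟨?_, fun N hN => core hS hconj hF h2' ?_⟩
    · refine top_of_le hS hconj hA₁ ((hperf A₁ hA₁ C₁ hC₁ hp₁).trans ?_)
      rw [commutator_def]
      exact Subgroup.commutator_mono le_top le_top
    · intro A hA n hn hp
      exact top_of_le hS hconj hA ((hperf A hA _ (hS.conj_mem A hA n) hp).trans
        (comm_sup_le_of_cj hn (el_comm (hS.commutative A hA))))
  · unfold Cfsg.IsDegenerateRootSet at hdeg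
    push Not at hdeg
    obtain ⟨P, hP, Q, hQ, hr⟩ := hdeg
    have hnd : Cfsg.IsNondegenerateRootSet S := by
      refine ⟨⟨P, hP, ⁅P, Q⁆, hr.1, rcc_ne hS hr, comm_iff.2 (rcc_AK hS hr)⟩, ⟨A₁, hA₁, C₁, hC₁, hp₁⟩, P, hP, Q, hQ, hr⟩
    have hcls : Cfsg.IsRootSubgroupClass S := ⟨hS, ⟨A₁, hA₁⟩, hconj⟩
    refine ⟨?_, fun N hN => core hS hconj hF h2' ?_⟩
    · refine top_of_le hS hconj hr.1 ?_
      rw [commutator_def]
      exact Subgroup.commutator_mono le_top le_top
    · intro A hA n hn hp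
      obtain ⟨⟨C, hC, hC'⟩, -⟩ := Cfsg.Agent.S5034.result hcls hnd hA ⟨hS.conj_mem A hA n, hp⟩
      refine top_of_le hS hconj hC'.2 ?_
      rw [Subgroup.commutator_comm]
      exact comm_le_of_cj hn (line_el_comm hS hC)

end Cfsg.Agent.S5033
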