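import Cfsg.Statements.S5035
import Cfsg.Agent.LibH14RS2


set_option autoImplicit false
open Cfsg

namespace Cfsg.Agent.S5035

open CfsgLib.H14R1 CfsgLib.H14RS

theorem map_cj' {G H : Type*} [Group G] [Group H] (f : G →* H) (A : Subgroup G) (g : G) :
    (Cfsg.conjBy A g).map f = Cfsg.conjBy (A.map f) (f g) := map_cj f A g

/-- image of a rank one condition under a hom injective on `A` and `B` -/
theorem rc_image {G H : Type*} [Group G] [Group H] (f : G →* H) {A B : Subgroup G}
    (hB : ∀ b ∈ B, f b = 1 → b = 1) (h : RankOneCondition A B) :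
    RankOneCondition (A.map f) (B.map f) := by
  rintro _ ⟨a, ha, rfl⟩ ha1
  obtain ⟨b, hb, hb1, e⟩ := h a ha (by rintro rfl; simp at ha1)
  refine ⟨f b, ⟨b, hb, rfl⟩, fun h => hb1 (hB b hb h), ?_⟩
  rw [← map_inv, ← map_inv, ← map_cj', ← map_cj', e]


/-- Let S be a set of abstract root subgroups of G whose graph of rank one pairs is connected, and f a homomorphism from G onto a group H. Then either the images of the members of S form a set of abstract root subgroups of H whose graph of rank one pairs is again connected, or H equals the image of a member of S. -/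
theorem result {G H : Type*} [Group G] [Group H] {S : Set (Subgroup G)} (hS : Cfsg.IsRootSubgroupSet S)
    (hc : Cfsg.IsConnectedFamily (Cfsg.FAdj S) S) (f : G →* H) (hf : Function.Surjective f) :
    (Cfsg.IsRootSubgroupSet ((fun A : Subgroup G => A.map f) '' S) ∧
      Cfsg.IsConnectedFamily (Cfsg.FAdj ((fun A : Subgroup G => A.map f) '' S)) ((fun A : Subgroup G => A.map f) '' S)) ∨
    ∃ A ∈ S, A.map f = ⊤ := by
  classical
  by_cases hinj : ∀ A ∈ S, ∀ a ∈ A, f a = 1 → a = 1
  · left
    set T : Set (Subgroup H) := (fun A : Subgroup G => A.map f) '' S with hT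
    have hmem : ∀ A ∈ S, A.map f ∈ T := fun A hA => ⟨A, hA, rfl⟩
    have hpair : ∀ A ∈ S, ∀ B ∈ S, IsRankOnePair A B → A.map f = B.map f ∨
        IsRankOnePair (A.map f) (B.map f) := by
      intro A hA B hB hp
      by_cases e : A.map f = B.map f
      · exact Or.inl e
      · right
        haveI := hp.nilpotent_left
        haveI := hp.nilpotent_right
        refine ⟨e, ?_, ?_, rc_image f (hinj B hB) hp.cond_left, rc_image f (hinj A hA) hp.cond_right⟩
        · exact Group.nilpotent_of_surjective (f.subgroupMap A) (f.subgroupMap_surjective A)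
        · exact Group.nilpotent_of_surjective (f.subgroupMap B) (f.subgroupMap_surjective B)
    have hcomm : ∀ A ∈ S, IsMulCommutative (A.map f) := by
      intro A hA
      apply comm_of_el
      rintro _ ⟨a, ha, rfl⟩ _ ⟨b, hb, rfl⟩
      rw [← map_mul, ← map_mul, el_comm (hS.commutative A hA) a ha b hb]
    refine ⟨⟨?_, ?_, ?_, ?_, ?_⟩, ?_⟩
    · rintro _ ⟨A, hA, rfl⟩; exact hcomm A hA
    · rintro _ ⟨A, hA, rfl⟩ h
      obtain ⟨a, ha, ha1⟩ := exists_ne_one (hS.ne_bot A hA)
      apply ha1
      apply hinj A hA a ha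
      have : f a ∈ A.map f := ⟨a, ha, rfl⟩
      have h' : A.map f = ⊥ := h
      rw [h'] at this
      exact this
    · rw [eq_top_iff]
      have h1 : (⊤ : Subgroup H) = (⨆ A ∈ S, A : Subgroup G).map f := by
        rw [hS.generates, Subgroup.map_top_of_surjective f hf]
      rw [h1, Subgroup.map_iSup]
      refine iSup_le fun A => ?_
      rw [Subgroup.map_iSup]
      refine iSup_le fun hA => ?_
      exact le_iSup₂_of_le (A.map f) (hmem A hA) le_rfl
    · rintro _ ⟨A, hA, rfl⟩ h
      obtain ⟨g, rfl⟩ := hf h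
      exact ⟨Cfsg.conjBy A g, hS.conj_mem A hA g, map_cj' f A g⟩
    · rintro _ ⟨A, hA, rfl⟩ _ ⟨B, hB, rfl⟩
      rcases hS.pair A hA B hB with h1 | h1 | h1
      · left
        show ⁅A.map f, B.map f⁆ = ⊥
        rw [← Subgroup.map_commutator, h1, Subgroup.map_bot]
      · rcases hpair A hA B hB h1 with h2 | h2
        · left
          show ⁅A.map f, B.map f⁆ = ⊥
          rw [← h2, comm_iff]
          exact el_comm (hcomm A hA)
        · right; left; exact h2
      · right; right
        show RootCommutatorCase T (A.map f) (B.map f)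
        have e : ⁅A.map f, B.map f⁆ = (⁅A, B⁆).map f := (Subgroup.map_commutator _ _ _).symm
        refine ⟨by rw [e]; exact hmem _ h1.1, ?_, ?_, ?_⟩
        · rw [e]
          rintro _ ⟨c, hc, rfl⟩ x hx
          rw [← Subgroup.map_sup] at hx
          obtain ⟨y, hy, rfl⟩ := hx
          rw [← map_mul, ← map_mul, h1.2.1 c hc y hy]
        · rintro _ ⟨a, ha, rfl⟩ ha1
          rw [e, ← h1.2.2.1 a ha (by rintro rfl; simp at ha1), MonoidHom.map_closure]
          congr 1
          ext x
          constructor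
          · rintro ⟨_, ⟨b, hb, rfl⟩, rfl⟩
            exact ⟨a * b * a⁻¹ * b⁻¹, ⟨b, hb, rfl⟩, by simp⟩
          · rintro ⟨_, ⟨b, hb, rfl⟩, rfl⟩
            exact ⟨f b, ⟨b, hb, rfl⟩, by simp⟩
        · rintro _ ⟨b, hb, rfl⟩ hb1
          rw [e, ← h1.2.2.2 b hb (by rintro rfl; simp at hb1), MonoidHom.map_closure]
          congr 1
          ext x
          constructor
          · rintro ⟨_, ⟨a, ha, rfl⟩, rfl⟩
            exact ⟨a * b * a⁻¹ * b⁻¹, ⟨a, ha, rfl⟩, by simp⟩
          · rintro ⟨_, ⟨a, ha, rfl⟩, rfl⟩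
            exact ⟨f a, ⟨a, ha, rfl⟩, by simp⟩
    · rintro _ ⟨A, hA, rfl⟩ _ ⟨B, hB, rfl⟩
      have := hc A hA B hB
      induction this with
      | refl => exact Relation.ReflTransGen.refl
      | tail h1 h2 ih =>
        rename_i C D
        rcases hpair C h2.1 D h2.2.1 h2.2.2 with h3 | h3
        · show Relation.ReflTransGen _ (A.map f) (D.map f)
          rw [← h3]; exact ih h2.1
        · exact (ih h2.1).tail ⟨hmem C h2.1, hmem D h2.2.1, h3⟩
  · right
    push Not at hinj
    obtain ⟨A, hA, a, ha, hfa, ha1⟩ := hinj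
    refine ⟨A, hA, ?_⟩
    -- every adjacent pair has equal images
    have hker : ∀ B ∈ S, ∃ b ∈ B, f b = 1 ∧ b ≠ 1 := by
      intro B hB
      obtain ⟨g, rfl⟩ := rtg_conj (hc A hA B hB)
      refine ⟨g * a * g⁻¹, cj_mem ha, by simp [hfa], ?_⟩
      intro h
      apply ha1
      have : a = g⁻¹ * (g * a * g⁻¹) * g := by group
      rw [this, h]; group
    have hadj : ∀ B ∈ S, ∀ C ∈ S, IsRankOnePair B C → C.map f ≤ B.map f := by
      intro B hB C hC hp
      obtain ⟨b, hb, hfb, hb1⟩ := hker B hB
      have hn : ∀ x ∈ B ⊔ C, Cfsg.conjBy ((B ⊔ C) ⊓ f.ker) x = (B ⊔ C) ⊓ f.ker := by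
        intro x hx
        rw [cj_inf, cj_of_mem hx, cj_of_normal]
      rcases dichotomy hp (N := (B ⊔ C) ⊓ f.ker) inf_le_left hn with h1 | h1
      · rintro _ ⟨c, hc', rfl⟩
        have h2 : c ∈ (B ⊔ C) ⊓ f.ker ⊔ B := by rw [h1]; exact Subgroup.mem_sup_right hc'
        have h3 : ((B ⊔ C) ⊓ f.ker ⊔ B).map f ≤ B.map f := by
          rw [Subgroup.map_sup]
          refine sup_le ?_ le_rfl
          rintro _ ⟨k, hk, rfl⟩
          have : f k = 1 := hk.2
          rw [this]; exact one_mem _
        exact h3 ⟨c, h2, rfl⟩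
      · exfalso
        have h2 := h1 b ⟨Subgroup.mem_sup_left hb, hfb⟩
        exact hb1 (not_normalize hp hb (cj_of_comm fun c hc' => h2 c (Subgroup.mem_sup_right hc')))
    have heq : ∀ B ∈ S, A.map f = B.map f := by
      intro B hB
      have := hc A hA B hB
      induction this with
      | refl => rfl
      | tail h1 h2 ih =>
        rw [ih h2.1]
        exact le_antisymm (hadj _ h2.2.1 _ h2.1 (pair_symm h2.2.2)) (hadj _ h2.1 _ h2.2.1 h2.2.2)
    rw [eq_top_iff]
    have h1 : (⊤ : Subgroup H) = (⨆ A ∈ S, A : Subgroup G).map f := by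
      rw [hS.generates, Subgroup.map_top_of_surjective f hf]
    rw [h1, Subgroup.map_iSup]
    refine iSup_le fun B => ?_
    rw [Subgroup.map_iSup]
    refine iSup_le fun hB => ?_
    rw [heq B hB]

end Cfsg.Agent.S5035
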