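import Cfsg.Statements.S5037
import Cfsg.Agent.LibH14RT


set_option autoImplicit false
open Cfsg

namespace Cfsg.Agent.S5037

open CfsgLib.H14R1 CfsgLib.H14RS CfsgLib.H14RT

/-- key lemma: an equivariant monotone invariant is constant on commuting members with a common rank one partner -/
theorem mono_eq {G : Type*} [Group G] {A C E : Subgroup G} (hAC : ∀ a ∈ A, ∀ c ∈ C, a * c = c * a)
    (hA : IsRankOnePair A E) (hC : IsRankOnePair C E) (f : Subgroup G → Set (Subgroup G))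
    (hf : ∀ (X : Subgroup G) (g : G) (D : Subgroup G), D ∈ f X → Cfsg.conjBy D g ∈ f (Cfsg.conjBy X g))
    (hle : f A ⊆ f C) : f A = f C := by
  -- transport of inclusions
  have tr : ∀ (X Y : Subgroup G) (g : G), f X ⊆ f Y → f (Cfsg.conjBy X g) ⊆ f (Cfsg.conjBy Y g) := by
    intro X Y g h D hD
    have h1 := hf _ g⁻¹ D hD
    rw [cj_cj, inv_mul_cancel, cj_one] at h1
    have h2 := hf _ g _ (h h1)
    rwa [cj_cj, mul_inv_cancel, cj_one] at h2
  obtain ⟨e, he, he1⟩ := exists_ne_one (right_ne_bot hA)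
  obtain ⟨a, ha, ha1, hea⟩ := hA.cond_right e he he1
  obtain ⟨c, hc, hc1, hec⟩ := hC.cond_right e he he1
  -- f (E^{c a⁻¹}) ⊆ f E
  have step : ∀ (e a c : G), a ∈ A → c ∈ C → Cfsg.conjBy E a⁻¹ = Cfsg.conjBy A e⁻¹ → Cfsg.conjBy E c⁻¹ = Cfsg.conjBy C e⁻¹ →
      f (Cfsg.conjBy E (c * a⁻¹)) ⊆ f E := by
    intro e a c ha hc h1 h2
    have h3 := tr A C e⁻¹ hle
    rw [← h1, ← h2] at h3
    have h4 := tr _ _ c h3
    rwa [cj_cj, cj_cj, mul_inv_cancel, cj_one] at h4
  have s1 := step e a c ha hc hea hec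
  -- commuting
  have hcomE : ∀ x ∈ Cfsg.conjBy E a⁻¹, ∀ y ∈ Cfsg.conjBy E c⁻¹, x * y = y * x := by
    rw [hea, hec]; exact el_comm_cj hAC e⁻¹
  -- partners of the inverses
  obtain ⟨e1, he1', he11, h1⟩ := hA.cond_left a⁻¹ (inv_mem ha) (inv_ne_one.2 ha1)
  obtain ⟨e2, he2', he21, h2⟩ := hC.cond_left c⁻¹ (inv_mem hc) (inv_ne_one.2 hc1)
  rw [inv_inv] at h1 h2
  have h12 : e1 = e2 := by
    by_contra hne
    -- A^{e1⁻¹} = E^a and C^{e2⁻¹} = E^c commute
    have h3 : ∀ x ∈ Cfsg.conjBy E a, ∀ y ∈ Cfsg.conjBy E c, x * y = y * x := by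
      have h4 := el_comm_cj hcomE (a * c)
      rw [cj_cj, cj_cj] at h4
      have e3 : a * c * a⁻¹ = c := by rw [hAC a ha c hc]; group
      have e4 : a * c * c⁻¹ = a := by group
      rw [e3, e4] at h4
      exact fun x hx y hy => (h4 y hy x hx).symm
    rw [← h1, ← h2] at h3
    have h4 := el_comm_cj h3 e1
    rw [cj_cj, cj_cj, mul_inv_cancel, cj_one] at h4
    have h5 : e1 * e2⁻¹ ≠ 1 := fun h => hne (mul_inv_eq_one.1 h)
    have h6 := sup_cj (pair_symm hC) (mul_mem he1' (inv_mem he2')) h5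
    -- A commutes with C ⊔ C' = E ⊔ C
    have h7 : ∀ x ∈ A, ∀ y ∈ E ⊔ C, x * y = y * x := by
      rw [← h6.2]
      exact el_comm_symm (el_comm_sup (el_comm_symm hAC) (el_comm_symm h4))
    obtain ⟨x, hx, hx1⟩ := exists_ne_one (left_ne_bot hA)
    exact hx1 (not_normalize hA hx (cj_of_comm fun y hy => h7 x hx y (Subgroup.mem_sup_left hy)))
  subst h12
  have s2 := step e1 a⁻¹ c⁻¹ (inv_mem ha) (inv_mem hc) (by rw [inv_inv, h1]) (by rw [inv_inv, h2])
  -- conjugate s2 by c a⁻¹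
  have s3 := tr _ _ (c * a⁻¹) s2
  rw [cj_cj] at s3
  have e5 : c * a⁻¹ * (c⁻¹ * a⁻¹⁻¹) = 1 := by
    have h8 := hAC a⁻¹ (inv_mem ha) c⁻¹ (inv_mem hc)
    calc c * a⁻¹ * (c⁻¹ * a⁻¹⁻¹) = c * (a⁻¹ * c⁻¹) * a := by group
      _ = c * (c⁻¹ * a⁻¹) * a := by rw [h8]
      _ = 1 := by group
  rw [e5, cj_one] at s3
  have s4 : f (Cfsg.conjBy E (c * a⁻¹)) = f E := Set.Subset.antisymm s1 s3
  -- back to A and C
  apply Set.Subset.antisymm hle
  have s5 : f E ⊆ f (Cfsg.conjBy E (c * a⁻¹)) := s3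
  have s6 := tr _ _ c⁻¹ s5
  rw [cj_cj] at s6
  have e6 : c⁻¹ * (c * a⁻¹) = a⁻¹ := by group
  rw [e6, hea, hec] at s6
  have s7 := tr _ _ e s6
  rwa [cj_cj, cj_cj, mul_inv_cancel, cj_one, cj_one] at s7



/-- Let S be a class of abstract root subgroups of G that is either degenerate or non-degenerate (so either the commutator case never occurs, or all three cases occur), and A ≠ C members of S. If every member of S commuting with A commutes with C, then A and C have the same commuting members of S; and if every rank one partner of A is a rank one partner of C, then A and C commute and have the same rank one partners. -/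
theorem result {G : Type*} [Group G] {S : Set (Subgroup G)} (hS : Cfsg.IsRootSubgroupClass S)
    (hdn : Cfsg.IsDegenerateRootSet S ∨ Cfsg.IsNondegenerateRootSet S)
    {A C : Subgroup G} (hA : A ∈ S) (hC : C ∈ S) (hAC : A ≠ C) :
    (Cfsg.centralizingMembers S A ⊆ Cfsg.centralizingMembers S C →
      Cfsg.centralizingMembers S A = Cfsg.centralizingMembers S C) ∧
    (Cfsg.rankOnePartners S A ⊆ Cfsg.rankOnePartners S C →
      ⁅A, C⁆ = ⊥ ∧ Cfsg.rankOnePartners S A = Cfsg.rankOnePartners S C) := by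
  obtain ⟨hS, hne, hconj⟩ := hS
  by_cases hF0 : ∃ P ∈ S, ∃ Q ∈ S, IsRankOnePair P Q
  swap
  · -- no rank one pairs
    have hdeg : Cfsg.IsDegenerateRootSet S := by
      rcases hdn with h | h
      · exact h
      · exact absurd h.2.1 hF0
    have hall : ∀ P ∈ S, ∀ Q ∈ S, ⁅P, Q⁆ = ⊥ := by
      intro P hP Q hQ
      rcases hS.pair P hP Q hQ with h | h | h
      · exact h
      · exact absurd ⟨P, hP, Q, hQ, h⟩ hF0
      · exact absurd h (hdeg P hP Q hQ)
    refine ⟨fun h => Set.Subset.antisymm h ?_, fun _ => ⟨hall A hA C hC, ?_⟩⟩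
    · rintro D ⟨hD, -⟩
      refine ⟨hD, fun d hd => ?_⟩
      rw [Subgroup.mem_centralizer_iff]
      exact fun a ha => comm_iff.1 (hall A hA D hD) a ha d hd
    · ext D
      constructor
      · rintro ⟨hD, hp⟩; exact absurd ⟨A, hA, D, hD, hp⟩ hF0
      · rintro ⟨hD, hp⟩; exact absurd ⟨C, hC, D, hD, hp⟩ hF0
  have hF : ∀ A ∈ S, ∃ C ∈ S, IsRankOnePair A C := by
    intro A hA
    obtain ⟨P, hP, Q, hQ, hp⟩ := hF0
    obtain ⟨g, rfl⟩ := hconj P hP A hA
    exact ⟨_, hS.conj_mem Q hQ g, pair_cj hp g⟩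
  constructor
  · intro hle
    have hCA : C ∈ Cfsg.centralizingMembers S C := ⟨hC, by
      intro c hc
      rw [Subgroup.mem_centralizer_iff]
      exact fun c' hc' => el_comm (hS.commutative C hC) c' hc' c hc⟩
    have hAA : A ∈ Cfsg.centralizingMembers S A := ⟨hA, by
      intro c hc
      rw [Subgroup.mem_centralizer_iff]
      exact fun c' hc' => el_comm (hS.commutative A hA) c' hc' c hc⟩
    have hAC : ∀ a ∈ A, ∀ c ∈ C, a * c = c * a := fun a ha c hc =>
      (Subgroup.mem_centralizer_iff.1 ((hle hAA).2 ha) c hc).symm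
    obtain ⟨E, hE, hp⟩ := hF C hC
    obtain ⟨hp2⟩ : Nonempty (IsRankOnePair A E) := by
      rcases hS.pair A hA E hE with h | h | h
      · exfalso
        have h1 : E ∈ Cfsg.centralizingMembers S A := ⟨hE, fun x hx => by
          rw [Subgroup.mem_centralizer_iff]
          exact fun a ha => comm_iff.1 h a ha x hx⟩
        have h2 := hle h1
        obtain ⟨x, hx, hx1⟩ := exists_ne_one (hS.ne_bot E hE)
        exact hx1 (not_normalize (pair_symm hp) hx (cj_of_comm fun c hc =>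
          (Subgroup.mem_centralizer_iff.1 (h2.2 hx) c hc).symm))
      · exact ⟨h⟩
      · exfalso
        -- F = ⁅A, E⁆ commutes with C
        obtain ⟨e, he, he1⟩ := exists_ne_one (hS.ne_bot E hE)
        obtain ⟨c, hc, hc1, hec⟩ := hp.cond_right e he he1
        have h1 : ⁅A, E⁆ ∈ Cfsg.centralizingMembers S A := ⟨h.1, fun x hx => by
          rw [Subgroup.mem_centralizer_iff]
          exact fun a ha => (h.2.1 x hx a (Subgroup.mem_sup_left ha)).symm⟩
        have h2 : ∀ x ∈ ⁅A, E⁆, ∀ c ∈ C, x * c = c * x := fun x hx c hc =>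
          (Subgroup.mem_centralizer_iff.1 ((hle h1).2 hx) c hc).symm
        -- A^{e⁻¹} commutes with C^{e⁻¹} = E^{c⁻¹}
        have h3 := el_comm_cj hAC e⁻¹
        rw [← hec] at h3
        have h4 := el_comm_cj h3 c
        rw [cj_cj E, mul_inv_cancel, cj_one] at h4
        have h5 : Cfsg.conjBy (Cfsg.conjBy A e⁻¹) c = Cfsg.conjBy A e⁻¹ := by
          refine cj_of_comm fun x hx => ?_
          have h6 : Cfsg.conjBy A e⁻¹ ≤ A ⊔ ⁅A, E⁆ := rcc_conj_le hS h (inv_mem he)
          have h7 : ∀ x ∈ A ⊔ ⁅A, E⁆, ∀ c ∈ C, x * c = c * x := el_comm_sup hAC h2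
          exact (h7 x (h6 hx) c hc).symm
        rw [h5] at h4
        have h6 := el_comm_cj h4 e
        rw [cj_cj, mul_inv_cancel, cj_one, cj_of_mem he] at h6
        exact rcc_not_comm hS h (comm_iff.2 h6)
    refine mono_eq hAC hp2 hp (Cfsg.centralizingMembers S) ?_ hle
    rintro X g D ⟨hD, h1⟩
    refine ⟨hS.conj_mem D hD g, ?_⟩
    have h2 : ∀ x ∈ D, ∀ y ∈ X, x * y = y * x := fun x hx y hy =>
      (Subgroup.mem_centralizer_iff.1 (h1 hx) y hy).symm
    have h3 := el_comm_cj h2 g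
    intro x hx
    rw [Subgroup.mem_centralizer_iff]
    exact fun y hy => (h3 x hx y hy).symm
  · intro hle
    obtain ⟨E, hE, hp⟩ := hF A hA
    have hp2 : IsRankOnePair C E := (hle ⟨hE, hp⟩).2
    have hAC : ⁅A, C⁆ = ⊥ := by
      rcases hS.pair A hA C hC with h | h | h
      · exact h
      · exact absurd rfl (hle ⟨hC, h⟩).2.ne
      · exfalso
        rcases hdn with hdn | hdn
        · exact hdn A hA C hC h
        · have hnd := ND.of ⟨hS, hne, hconj⟩ hdn
          obtain ⟨D, hD, h1, h2⟩ := ex_opp hnd hC hA (rcc_symm h)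
          have h3 := (hle ⟨hD, h2⟩).2
          exact not_comm h3 (comm_iff.2 h1)
    refine ⟨hAC, mono_eq (comm_iff.1 hAC) hp hp2 (Cfsg.rankOnePartners S) ?_ hle⟩
    rintro X g D ⟨hD, h1⟩
    exact ⟨hS.conj_mem D hD g, pair_cj h1 g⟩

end Cfsg.Agent.S5037
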