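import Cfsg.Statements.S5042
import Cfsg.Agent.LibH14RT


set_option autoImplicit false
open Cfsg

namespace Cfsg.Agent.S5042

open CfsgLib.H14R1 CfsgLib.H14RS CfsgLib.H14RT

variable {G : Type*} [Group G] {S : Set (Subgroup G)} {A E F K : Subgroup G}

theorem cj_ne1 (h : ND S) (hA : A ∈ S) (hr : RootCommutatorCase S A E) {e : G} (he : e ∈ E) (he1 : e ≠ 1) :
    Cfsg.conjBy A e ≠ A := by
  intro e'
  have h6 : ⁅A, E⁆ ≤ A := by
    rw [← hr.2.2.2 e he he1, Subgroup.closure_le]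
    rintro _ ⟨a, ha, rfl⟩
    have : a * e * a⁻¹ * e⁻¹ = a * (e * a⁻¹ * e⁻¹) := by group
    show a * e * a⁻¹ * e⁻¹ ∈ A
    rw [this]
    refine mul_mem ha ?_
    have := cj_mem (g := e) (inv_mem ha)
    rwa [e'] at this
  obtain ⟨c, hc, hc1⟩ := exists_ne_one (h.hS.ne_bot _ hr.1)
  have h7 := line_inf h.hS hA (comm_line h hA hr)
  exact hc1 ((Subgroup.eq_bot_iff_forall _).1 h7 c ⟨h6 hc, hc⟩)

theorem cj_ne2 (h : ND S) (hr : RootCommutatorCase S A E) {e : G} (he : e ∈ E) :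
    Cfsg.conjBy A e ≠ ⁅A, E⁆ := by
  intro e'
  apply rcc_ne h.hS hr
  have h6 : Cfsg.conjBy ⁅A, E⁆ e = ⁅A, E⁆ :=
    cj_of_comm fun c hc => (hr.2.1 c hc e (Subgroup.mem_sup_right he)).symm
  rw [← h6] at e'
  exact cj_inj.1 e'

theorem line_mem (h : ND S) (hA : A ∈ S) (hF : F ∈ Cfsg.linePartners S A) (hK : K ∈ S) (hle : K ≤ A ⊔ F)
    (hne : K ≠ A) : K ∈ Cfsg.linePartners S A := by
  obtain ⟨B, hB, hp⟩ := h.hF A hA
  obtain ⟨C, hC, E, hE, hCl, h1, h2, h3, h4, h5⟩ := line_str h hA hB hp hF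
  obtain ⟨D, hD, h6, h7⟩ := ex_comm_eq h hA hE h4 hK (by rw [h5, h3]; exact hle) hne
  rw [← h7]
  exact comm_line h hA h6



/-- Let S be a non-degenerate class of abstract root subgroups of G, A ∈ S and B a rank one partner of A. Then G is generated by the line partners of A together with B. -/
theorem result {G : Type*} [Group G] {S : Set (Subgroup G)} (hS : Cfsg.IsRootSubgroupClass S) (hnd : Cfsg.IsNondegenerateRootSet S)
    {A B : Subgroup G} (hA : A ∈ S) (hB : B ∈ Cfsg.rankOnePartners S A) :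
    (⨆ C ∈ Cfsg.linePartners S A, C) ⊔ B = ⊤ := by
  have h := ND.of hS hnd
  have hc := e_connected h hnd.2.2
  obtain ⟨hBS, hp⟩ := hB
  set L : Subgroup G := (⨆ C ∈ Cfsg.linePartners S A, C) ⊔ B with hL
  have hLl : ∀ C ∈ Cfsg.linePartners S A, C ≤ L := fun C hC =>
    (le_iSup₂ (f := fun (C : Subgroup G) (_ : C ∈ Cfsg.linePartners S A) => C) C hC).trans le_sup_left
  have hBL : B ≤ L := le_sup_right
  -- the conjugates of `A` under `L`
  have key : ∀ F ∈ Cfsg.linePartners S A, A ≤ L ∧ ∃ g ∈ L, F = Cfsg.conjBy A g := by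
    intro F hF
    obtain ⟨C, hC, E, hE, hCl, h1, h2, h3, h4, h5⟩ := line_str h hA hBS hp hF
    have hCL := hLl C hCl
    have hEL : E ≤ L := by
      rw [← h2]
      exact (comm_le_self C B).trans (sup_le hCL hBL)
    -- some `e ∈ E#`
    obtain ⟨e, he, he1⟩ := exists_ne_one (h.hS.ne_bot E hE)
    have hAe : Cfsg.conjBy A e ≤ L := by
      refine hLl _ (line_mem h hA hCl (h.hS.conj_mem A hA e) ?_ (cj_ne1 h hA h4 he he1))
      have := rcc_conj_le h.hS h4 he
      rwa [h5] at this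
    refine ⟨?_, ?_⟩
    · intro a ha
      have h6 : a = (e * a * e⁻¹) * (e * a⁻¹ * e⁻¹ * a) := by group
      rw [h6]
      refine mul_mem (hAe (cj_mem ha)) (hCL ?_)
      rw [← h5, Subgroup.commutator_comm]
      have := Subgroup.commutator_mem_commutator he (inv_mem ha)
      rwa [commutatorElement_def, inv_inv] at this
    · have hFle : F ≤ A ⊔ ⁅A, E⁆ := by rw [h5, h3]; exact le_sup_right
      rcases rcc_members h.hS hA hBS hp h4 hF.1.1 hFle with h6 | ⟨e', he', h6⟩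
      · obtain ⟨D, hD, h7, h8⟩ := ex_comm h hC (line_symm h.hS hA hCl)
        have hDl : D ∈ Cfsg.linePartners S A := by
          have := comm_line h hD (rcc_symm h7)
          rw [Subgroup.commutator_comm, h8] at this
          exact line_symm h.hS hD this
        obtain ⟨d, hd, hd1⟩ := exists_ne_one (h.hS.ne_bot D hD)
        have h9 := cj_ne1 h hC h7 hd hd1
        have h10 := rcc_conj_le h.hS h7 hd
        rw [h8, sup_comm] at h10
        nth_rewrite 2 [← h5] at h10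
        rcases rcc_members h.hS hA hBS hp h4 (h.hS.conj_mem C hC d) h10 with h11 | ⟨e', he', h11⟩
        · rw [h5] at h11
          exact absurd h11 h9
        · refine ⟨d⁻¹ * e', mul_mem (inv_mem (hLl D hDl hd)) (hEL he'), ?_⟩
          rw [h6, h5, ← cj_cj, ← h11, cj_cj, inv_mul_cancel, cj_one]
      · exact ⟨e', hEL he', h6⟩
  obtain ⟨F, hF⟩ := h.hL A hA
  have hAL : A ≤ L := (key F hF).1
  have hall : ∀ D ∈ S, ∃ g ∈ L, D = Cfsg.conjBy A g := by
    intro D hD
    have h2 := hc A hA D hD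
    clear hD
    induction h2 with
    | refl => exact ⟨1, one_mem _, by simp⟩
    | tail h3 h4 ih =>
      obtain ⟨g, hg, e⟩ := ih
      have h5 := line_cj h.hS (g := g⁻¹) h4.2.2
      rw [e, cj_cj, inv_mul_cancel, cj_one] at h5
      obtain ⟨-, k, hk, e2⟩ := key _ h5
      refine ⟨g * k, mul_mem hg hk, ?_⟩
      rw [← cj_cj, ← e2, cj_cj, mul_inv_cancel, cj_one]
  rw [eq_top_iff, ← hS.1.generates]
  refine iSup₂_le fun D hD => ?_
  obtain ⟨g, hg, rfl⟩ := hall D hD
  rw [← cj_of_mem hg]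
  exact cj_le.2 hAL

end Cfsg.Agent.S5042
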