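import Cfsg.Statements.S5043
import Cfsg.Agent.LibH14TGSL


set_option autoImplicit false
open Matrix
open Cfsg

namespace Cfsg.Agent.S5043


open CfsgLib.H14TG CfsgLib.H14R1

theorem set_eq (k : Type*) [Field k] (n : ℕ) : {A : Subgroup (Matrix.SpecialLinearGroup (Fin (n + 3)) k) |
        ∃ g : Matrix.SpecialLinearGroup (Fin (n + 3)) k,
          A = Cfsg.conjBy (Subgroup.closure {t : Matrix.SpecialLinearGroup (Fin (n + 3)) k |
            ∃ c : k, (t : Matrix (Fin (n + 3)) (Fin (n + 3)) k) = Matrix.transvection 0 1 c}) g} =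
    SS k (iSL k (n + 3)) (QSL k (n + 3)) := by
  have h01 : (0 : Fin (n + 3)) ≠ 1 := by simp
  have e0 : Subgroup.closure {t : Matrix.SpecialLinearGroup (Fin (n + 3)) k |
            ∃ c : k, (t : Matrix (Fin (n + 3)) (Fin (n + 3)) k) = Matrix.transvection 0 1 c} =
      T k (iSL k (n + 3)) (single 0 1 1) := by
    unfold T
    congr 1
    ext t
    show (∃ c : k, t.1 = _) ↔ ∃ c : k, t.1 = _
    simp only [tv_eq]
  rw [e0]
  have hr := rset_SL (k := k) (N := n + 3)
  ext A
  constructor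
  · rintro ⟨g, rfl⟩
    exact (hr.root (gen_SL (by omega))).conj_mem _ ⟨_, el_mem h01, rfl⟩ g
  · intro hA
    have hne : (SS k (iSL k (n + 3)) (QSL k (n + 3))).Nonempty := ⟨_, _, el_mem (k := k) h01, rfl⟩
    obtain ⟨g, hg⟩ := (class_of_conn hne (hr.conn conn_SL)).2 _ ⟨_, el_mem h01, rfl⟩ A hA
    exact ⟨g, hg⟩

theorem el_ne {k : Type*} [Field k] {N : ℕ} {i j : Fin N} (h : i ≠ j) : (single i j 1 : Matrix (Fin N) (Fin N) k) ≠ 0 := by
  intro h0
  have := congrFun (congrFun h0 i) j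
  simp at this



/-- Let k be a field and n a natural number. In SL_{n+3}(k) (so in every dimension at least 3) the conjugates of the root subgroup of elementary transvections 1 + c E₁₂ (c ∈ k) — that is, the groups of transvections attached to an incident point–hyperplane pair — form a non-degenerate class of abstract k-root subgroups of SL_{n+3}(k) whose graph of rank one pairs is connected. -/
theorem result (k : Type*) [Field k] (n : ℕ) :
    Cfsg.IsRootSubgroupClass {A : Subgroup (Matrix.SpecialLinearGroup (Fin (n + 3)) k) |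
        ∃ g : Matrix.SpecialLinearGroup (Fin (n + 3)) k,
          A = Cfsg.conjBy (Subgroup.closure {t : Matrix.SpecialLinearGroup (Fin (n + 3)) k |
            ∃ c : k, (t : Matrix (Fin (n + 3)) (Fin (n + 3)) k) = Matrix.transvection 0 1 c}) g} ∧
    Cfsg.IsNondegenerateRootSet {A : Subgroup (Matrix.SpecialLinearGroup (Fin (n + 3)) k) |
        ∃ g : Matrix.SpecialLinearGroup (Fin (n + 3)) k,
          A = Cfsg.conjBy (Subgroup.closure {t : Matrix.SpecialLinearGroup (Fin (n + 3)) k |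
            ∃ c : k, (t : Matrix (Fin (n + 3)) (Fin (n + 3)) k) = Matrix.transvection 0 1 c}) g} ∧
    Cfsg.IsKRootSubgroupSet k {A : Subgroup (Matrix.SpecialLinearGroup (Fin (n + 3)) k) |
        ∃ g : Matrix.SpecialLinearGroup (Fin (n + 3)) k,
          A = Cfsg.conjBy (Subgroup.closure {t : Matrix.SpecialLinearGroup (Fin (n + 3)) k |
            ∃ c : k, (t : Matrix (Fin (n + 3)) (Fin (n + 3)) k) = Matrix.transvection 0 1 c}) g} ∧
    Cfsg.IsConnectedFamily (Cfsg.FAdj {A : Subgroup (Matrix.SpecialLinearGroup (Fin (n + 3)) k) |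
        ∃ g : Matrix.SpecialLinearGroup (Fin (n + 3)) k,
          A = Cfsg.conjBy (Subgroup.closure {t : Matrix.SpecialLinearGroup (Fin (n + 3)) k |
            ∃ c : k, (t : Matrix (Fin (n + 3)) (Fin (n + 3)) k) = Matrix.transvection 0 1 c}) g})
      {A : Subgroup (Matrix.SpecialLinearGroup (Fin (n + 3)) k) |
        ∃ g : Matrix.SpecialLinearGroup (Fin (n + 3)) k,
          A = Cfsg.conjBy (Subgroup.closure {t : Matrix.SpecialLinearGroup (Fin (n + 3)) k |
            ∃ c : k, (t : Matrix (Fin (n + 3)) (Fin (n + 3)) k) = Matrix.transvection 0 1 c}) g} := by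
  rw [set_eq]
  have hr := rset_SL (k := k) (N := n + 3)
  have hgen := gen_SL (k := k) (N := n + 3) (by omega)
  have hc := hr.conn conn_SL
  have h01 : (0 : Fin (n + 3)) ≠ 1 := by simp
  have h02 : (0 : Fin (n + 3)) ≠ 2 := by
    intro h; have := congrArg Fin.val h; have h3 : 2 % (n + 3) = 2 := Nat.mod_eq_of_lt (by omega); simp [Fin.val_two, h3] at this
  have h12 : (1 : Fin (n + 3)) ≠ 2 := by
    intro h; have := congrArg Fin.val h; have h3 : 2 % (n + 3) = 2 := Nat.mod_eq_of_lt (by omega); simp [Fin.val_two, h3] at this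
  have m01 := el_mem (k := k) h01
  have m10 := el_mem (k := k) h01.symm
  have m02 := el_mem (k := k) h02
  have m12 := el_mem (k := k) h12
  refine ⟨⟨hr.root hgen, class_of_conn ⟨_, _, m01, rfl⟩ hc⟩, ⟨?_, ?_, ?_⟩, hr.kroot hgen, hc⟩
  · refine ⟨_, ⟨_, m01, rfl⟩, _, ⟨_, m02, rfl⟩, ?_, T_commute hr.inj (hr.sq _ m01) (hr.sq _ m02) ?_⟩
    · intro he
      obtain ⟨g, hg⟩ := hr.lift _ m01 1
      have h1 : g ∈ T k (iSL k (n + 3)) (single 0 1 1) := (mem_T (hr.sq _ m01)).2 ⟨1, hg⟩
      rw [he, mem_T (hr.sq _ m02)] at h1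
      obtain ⟨c, hc⟩ := h1
      rw [hg, one_smul] at hc
      have hc' := congrArg (fun z => z - 1) hc
      simp only [add_sub_cancel_left] at hc'
      have h2 := congrFun (congrFun hc' 0) 1
      have h3 : (single 0 2 1 : Matrix (Fin (n + 3)) (Fin (n + 3)) k) 0 1 = 0 := by
        rw [Matrix.single_apply]; exact if_neg (by rintro ⟨-, h⟩; exact h12 h.symm)
      rw [Matrix.smul_apply, h3] at h2
      simp at h2
    · rw [single_mul_single_of_ne _ _ _ _ h01.symm, single_mul_single_of_ne _ _ _ _ h02.symm]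
  · refine ⟨_, ⟨_, m01, rfl⟩, _, ⟨_, m10, rfl⟩, pair_of_psl2 (hr.rel_pair m01 m10 ⟨1, one_ne_zero, ?_, ?_⟩)⟩
    · simp
    · simp
  · refine ⟨_, ⟨_, m01, rfl⟩, _, ⟨_, m12, rfl⟩, rcc hr.inj (hr.sq _ m01) (hr.sq _ m12) ?_ ?_ (hr.lift _ m01) (hr.lift _ m12)
      ⟨_, m02, ?_⟩⟩
    · rw [single_mul_single_same, single_mul_single_of_ne _ _ _ _ h02.symm]
    · rw [single_mul_single_of_ne _ _ _ _ h02.symm, zero_mul]
    · rw [single_mul_single_same, single_mul_single_of_ne _ _ _ _ h02.symm, sub_zero, one_mul]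

end Cfsg.Agent.S5043
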