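import Cfsg.Statements.S5057
-- import your own Cfsg.Agent.* helpers here

set_option autoImplicit false
open Cfsg

namespace Cfsg.Agent.S5057


section A6
open Equiv

set_option maxRecDepth 100000 in
theorem a6 : ∀ σ : Perm (Fin 6), Perm.sign σ = 1 → (σ^5 = 1 ∨ σ^4 = 1 ∨ σ^3=1) := by decide +kernel

set_option maxRecDepth 100000 in
theorem a6s : ∀ σ : Perm (Fin 6), Perm.sign σ = 1 → σ * σ = 1 → σ ≠ 1 → σ.support.card = 4 := by decide +kernel

end A6

theorem ord5 (x : ↥(alternatingGroup (Fin 6))) : orderOf x = 1 ∨ orderOf x = 2 ∨ orderOf x = 3 ∨ orderOf x = 4 ∨ orderOf x = 5 := by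
  have hpos : ∀ k : ℕ, 0 < k → x ^ k = 1 → orderOf x ∣ k ∧ 0 < orderOf x := fun k hk hx =>
      ⟨orderOf_dvd_of_pow_eq_one hx, orderOf_pos_iff.mpr (isOfFinOrder_iff_pow_eq_one.mpr ⟨k, hk, hx⟩)⟩
  rcases a6 x.1 (Equiv.Perm.mem_alternatingGroup.mp x.2) with h | h | h
  · obtain ⟨h1, h2⟩ := hpos 5 (by norm_num) (Subtype.ext h)
    rcases (Nat.dvd_prime (by norm_num : Nat.Prime 5)).mp h1 with h | h <;> omega
  · obtain ⟨h1, h2⟩ := hpos 4 (by norm_num) (Subtype.ext h)
    have h3 := Nat.le_of_dvd (by norm_num) h1
    omega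
  · obtain ⟨h1, h2⟩ := hpos 3 (by norm_num) (Subtype.ext h)
    rcases (Nat.dvd_prime (by norm_num : Nat.Prime 3)).mp h1 with h | h <;> omega

theorem ct {σ : Equiv.Perm (Fin 6)} (h2 : orderOf σ = 2) (h4 : σ.support.card = 4) : σ.cycleType = Multiset.replicate 2 2 := by
  obtain ⟨n, hn⟩ := Equiv.Perm.cycleType_prime_order (σ := σ) (by rw [h2]; exact Nat.prime_two)
  rw [h2] at hn
  have h5 := Equiv.Perm.sum_cycleType σ
  rw [hn, h4, Multiset.sum_replicate, smul_eq_mul] at h5
  have h6 : n = 1 := by omega
  rw [hn, h6]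

theorem supp {x : ↥(alternatingGroup (Fin 6))} (h : orderOf x = 2) : (x : Equiv.Perm (Fin 6)).support.card = 4 := by
  apply a6s x.1 (Equiv.Perm.mem_alternatingGroup.mp x.2)
  · have := pow_orderOf_eq_one x
    rw [h, pow_two] at this
    exact congrArg Subtype.val this
  · intro h1
    have : x = 1 := Subtype.ext h1
    rw [this, orderOf_one] at h
    omega

theorem conj2 {x y : ↥(alternatingGroup (Fin 6))} (hx : orderOf x = 2) (hy : orderOf y = 2) : IsConj x y := by
  apply alternatingGroup.isConj_of
  · rw [Equiv.Perm.isConj_iff_cycleType_eq, ct (by rw [Subgroup.orderOf_coe]; exact hx) (supp hx),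
      ct (by rw [Subgroup.orderOf_coe]; exact hy) (supp hy)]
  · rw [supp hx]; simp

theorem exists_inv : ∃ x : ↥(alternatingGroup (Fin 6)), orderOf x = 2 := by
  refine ⟨⟨Equiv.swap 0 1 * Equiv.swap 2 3, by rw [Equiv.Perm.mem_alternatingGroup]; decide⟩, ?_⟩
  apply orderOf_eq_prime
  · apply Subtype.ext; decide
  · intro h; have := congrArg Subtype.val h; revert this; decide



/-- The involutions of the alternating group of degree 6 form a class of root involutions (a single conjugacy class of involutions generating the group, any two of which commute, have product of odd order, or have product of order 4 whose square is again an involution of the class), and the product of any two of them has order at most 5. -/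
theorem result :
    Cfsg.IsRootInvolutionClass {g : ↥(alternatingGroup (Fin 6)) | orderOf g = 2} ∧
    ∀ d ∈ {g : ↥(alternatingGroup (Fin 6)) | orderOf g = 2}, ∀ e ∈ {g : ↥(alternatingGroup (Fin 6)) | orderOf g = 2},
      orderOf (d * e) ≤ 5 := by
  refine ⟨⟨⟨fun d hd => hd, ?_, ?_, ?_⟩, ?_, ?_⟩, ?_⟩
  · haveI : IsSimpleGroup (alternatingGroup (Fin 6)) := alternatingGroup.isSimpleGroup (by simp)
    haveI : (Subgroup.closure {g : ↥(alternatingGroup (Fin 6)) | orderOf g = 2}).Normal := by
      constructor
      intro n hn g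
      induction hn using Subgroup.closure_induction with
      | mem x hx =>
        apply Subgroup.subset_closure
        show orderOf (g * x * g⁻¹) = 2
        rw [show g * x * g⁻¹ = MulAut.conj g x from rfl, MulEquiv.orderOf_eq]; exact hx
      | one => simp
      | mul x y _ _ hx hy =>
        have : g * (x * y) * g⁻¹ = (g * x * g⁻¹) * (g * y * g⁻¹) := by group
        rw [this]; exact mul_mem hx hy
      | inv x _ hx =>
        have : g * x⁻¹ * g⁻¹ = (g * x * g⁻¹)⁻¹ := by group
        rw [this]; exact inv_mem hx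
    rcases IsSimpleGroup.eq_bot_or_eq_top_of_normal (Subgroup.closure {g : ↥(alternatingGroup (Fin 6)) | orderOf g = 2}) inferInstance with h | h
    · exfalso
      obtain ⟨x, hx⟩ := exists_inv
      have h1 : x ∈ Subgroup.closure {g : ↥(alternatingGroup (Fin 6)) | orderOf g = 2} := Subgroup.subset_closure hx
      rw [h, Subgroup.mem_bot] at h1
      rw [h1, orderOf_one] at hx
      omega
    · exact h
  · intro d hd g
    show orderOf (g * d * g⁻¹) = 2
    rw [show g * d * g⁻¹ = MulAut.conj g d from rfl, MulEquiv.orderOf_eq]; exact hd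
  · intro a ha b hb
    rcases ord5 (a * b) with h | h | h | h | h
    · right; left; rw [h]; decide
    · left
      have ha2 : a * a = 1 := by have := pow_orderOf_eq_one a; rw [ha, pow_two] at this; exact this
      have hb2 : b * b = 1 := by have := pow_orderOf_eq_one b; rw [hb, pow_two] at this; exact this
      have hab : (a * b) * (a * b) = 1 := by have := pow_orderOf_eq_one (a * b); rw [h, pow_two] at this; exact this
      calc a * b = a * b * 1 := by rw [mul_one]
        _ = a * b * ((a * b) * (a * b)) := by rw [hab]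
        _ = (a * b * (a * b)) * (a * b) := by group
        _ = 1 * (a * b) := by rw [hab]
        _ = a * b := by rw [one_mul]
        _ = a⁻¹ * b⁻¹ := by rw [inv_eq_of_mul_eq_one_left ha2, inv_eq_of_mul_eq_one_left hb2]
        _ = (b * a)⁻¹ := by group
        _ = (b * (a * b * (a * b)) * a)⁻¹ := by rw [hab, mul_one]
        _ = ((b * a) * (b * a) * (b * a))⁻¹ := by group
        _ = b * a := by
          have h2 : b * a * (b * a) = 1 := by
            calc b * a * (b * a) = b * (a * b * (a * b)) * b⁻¹ := by group
              _ = 1 := by rw [hab]; group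
          rw [h2, one_mul]
          exact inv_eq_of_mul_eq_one_left h2
    · right; left; rw [h]; decide
    · right; right
      refine ⟨h, ?_⟩
      show orderOf ((a * b) ^ 2) = 2
      rw [orderOf_pow, h]; norm_num
    · right; left; rw [h]; decide
  · obtain ⟨x, hx⟩ := exists_inv
    exact ⟨x, hx⟩
  · intro a ha b hb
    obtain ⟨c, hc⟩ := isConj_iff.1 (conj2 ha hb)
    exact ⟨c, hc.symm⟩
  · intro d _ e _
    rcases ord5 (d * e) with h | h | h | h | h <;> omega

end Cfsg.Agent.S5057
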