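import Cfsg.Statements.S5058
import Cfsg.Agent.LibH14TGSL
import Cfsg.Agent.LibH14TGI


set_option autoImplicit false
open Matrix
open Cfsg

namespace Cfsg.Agent.S5058


open CfsgLib.H14TG CfsgLib.H14R1

theorem q_smul {F : Type*} [Field F] {N : ℕ} {s : Matrix (Fin N) (Fin N) F} (hs : s ∈ QSL F N) {c : F} (hc : c ≠ 0) :
    c • s ∈ QSL F N := by
  obtain ⟨x, f, hx, hf, h, rfl⟩ := hs
  exact ⟨c • x, f, smul_ne_zero hc hx, hf, by rw [dotProduct_smul, h, smul_zero], by rw [smul_vecMulVec]⟩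

theorem set_eq (F : Type*) [Field F] (n : ℕ) : {t : Matrix.SpecialLinearGroup (Fin (n + 3)) F | ∃ c : F, c ≠ 0 ∧
        ∃ g : Matrix.SpecialLinearGroup (Fin (n + 3)) F, ((g⁻¹ * t * g : Matrix.SpecialLinearGroup (Fin (n + 3)) F) :
          Matrix (Fin (n + 3)) (Fin (n + 3)) F) = Matrix.transvection 0 1 c} = DD (iSL F (n + 3)) (QSL F (n + 3)) := by
  have h01 : (0 : Fin (n + 3)) ≠ 1 := by simp
  have hr := rset_SL (k := F) (N := n + 3)
  ext t
  constructor
  · rintro ⟨c, hc, g, hg⟩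
    change iSL F (n + 3) (g⁻¹ * t * g) = _ at hg
    refine ⟨_, hr.conj _ (q_smul (el_mem h01) hc) g, ?_⟩
    rw [tv_eq] at hg
    have : t = g * (g⁻¹ * t * g) * g⁻¹ := by group
    rw [this, map_mul, map_mul, hg, mul_add, add_mul, mul_one, CfsgLib.H14TG.inv_one]
  · rintro ⟨s, hs, ht⟩
    have hne : (SS F (iSL F (n + 3)) (QSL F (n + 3))).Nonempty := ⟨_, _, el_mem (k := F) h01, rfl⟩
    obtain ⟨g, hg⟩ := (class_of_conn hne (hr.conn conn_SL)).2 _ ⟨_, el_mem h01, rfl⟩ _ ⟨s, hs, rfl⟩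
    have h1 : t ∈ T F (iSL F (n + 3)) s := (mem_T (hr.sq s hs)).2 ⟨1, by rw [ht, one_smul]⟩
    rw [hg, mem_cj] at h1
    obtain ⟨c, hc, hce⟩ := T_el (hr.sq _ (el_mem h01)) h1 (by
      intro h2
      have h3 : t = 1 := by
        have : t = g * (g⁻¹ * t * g) * g⁻¹ := by group
        rw [this, h2]; group
      exact hr.ne1 ⟨s, hs, ht⟩ h3) hr.inj
    exact ⟨c, hc, g, by rw [tv_eq]; exact hce⟩



/-- Let F be a finite field of characteristic 2 and n a natural number. Then the transvections of SL_{n+3}(F) (so in every dimension at least 3) (the conjugates of the elementary matrices 1 + c E₁₂, c ≠ 0) form a class of root involutions of SL_{n+3}(F); when F has two elements they form a class of {3,4}⁺-transpositions (every product of odd order has order 1 or 3). -/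
theorem result (F : Type*) [Field F] [Fintype F] [CharP F 2] (n : ℕ) :
    Cfsg.IsRootInvolutionClass {t : Matrix.SpecialLinearGroup (Fin (n + 3)) F | ∃ c : F, c ≠ 0 ∧
        ∃ g : Matrix.SpecialLinearGroup (Fin (n + 3)) F, ((g⁻¹ * t * g : Matrix.SpecialLinearGroup (Fin (n + 3)) F) :
          Matrix (Fin (n + 3)) (Fin (n + 3)) F) = Matrix.transvection 0 1 c} ∧
    (Fintype.card F = 2 → Cfsg.IsThreeFourPlusTranspositionSet {t : Matrix.SpecialLinearGroup (Fin (n + 3)) F | ∃ c : F, c ≠ 0 ∧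
        ∃ g : Matrix.SpecialLinearGroup (Fin (n + 3)) F, ((g⁻¹ * t * g : Matrix.SpecialLinearGroup (Fin (n + 3)) F) :
          Matrix (Fin (n + 3)) (Fin (n + 3)) F) = Matrix.transvection 0 1 c}) := by
  rw [set_eq]
  have hr := rset_SL (k := F) (N := n + 3)
  have h01 : (0 : Fin (n + 3)) ≠ 1 := by simp
  have hgen : Subgroup.closure (DD (iSL F (n + 3)) (QSL F (n + 3))) = ⊤ := by
    rw [eq_top_iff, ← CfsgLib.SLn.TT_gen (K := F) (n := n + 3) (by omega), Subgroup.closure_le]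
    rintro _ ⟨i, j, h, a, rfl⟩
    by_cases ha : a = 0
    · have : CfsgLib.SLn.TT h a = 1 := by
        apply Subtype.ext
        rw [CfsgLib.SLn.TT_coe, ha, Matrix.transvection_zero]; rfl
      rw [this]; exact one_mem _
    · apply Subgroup.subset_closure
      refine ⟨_, q_smul (el_mem h) ha, ?_⟩
      show (CfsgLib.SLn.TT h a).1 = _
      rw [CfsgLib.SLn.TT_coe, tv_eq]
  have h1 := hr.rinv hgen
  refine ⟨⟨h1, ?_, hr.iconj conn_SL⟩, fun hF => ⟨h1, hr.three hF⟩⟩
  obtain ⟨g, hg⟩ := hr.lift _ (el_mem h01) 1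
  exact ⟨g, _, el_mem h01, by rw [hg, one_smul]⟩

end Cfsg.Agent.S5058
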