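import Cfsg.Statements.S5059
import Cfsg.Agent.LibH14QP


set_option autoImplicit false
universe u
open Cfsg

namespace Cfsg.Agent.S5059

open CfsgLib.H14R1 CfsgLib.H14QP


/-- Let k be a field of characteristic not 2 with k not of order 3, M a finite-dimensional k-vector space and G ≤ GL(M) such that (G, M) is a quadratic pair (M irreducible for G, and G generated by its quadratically acting elements σ whose scalar family 1 + c(σ − 1), c ∈ k, lies in G). Write 𝒬_d for the quadratic elements of G of minimal commutator rank, E(σ) for the subgroup generated by the members of 𝒬_d with the same fixed space and commutator space as σ, and Σ for the set of these subgroups. Then for σ ∈ 𝒬_d the subgroup E(σ) consists exactly of those members together with the identity, it is abelian, and if k has prime characteristic p every element of E(σ) has order dividing p. -/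
theorem result {k : Type u} [Field k] (hk2 : ringChar k ≠ 2) (hk3 : Nat.card k ≠ 3)
    {M : Type u} [AddCommGroup M] [Module k M] [FiniteDimensional k M]
    {G : Subgroup (LinearMap.GeneralLinearGroup k M)} (hG : Cfsg.IsQuadraticPair G)
    {σ : LinearMap.GeneralLinearGroup k M} (hσ : σ ∈ Cfsg.minimalQuadraticElements G) :
    (Cfsg.sameActionSubgroup G σ : Set (LinearMap.GeneralLinearGroup k M)) = Cfsg.sameActionClass G σ ∪ {1} ∧
    IsMulCommutative ↥(Cfsg.sameActionSubgroup G σ) ∧
    (∀ p : ℕ, p.Prime → ringChar k = p → ∀ x ∈ Cfsg.sameActionSubgroup G σ, x ^ p = 1) := by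
  rw [minquad_iff] at hσ
  rw [sas_eq hσ]
  refine ⟨?_, EG_comm, ?_⟩
  · ext τ
    rw [SetLike.mem_coe, mem_EG, Set.mem_union, sac_iff hσ, Set.mem_singleton_iff]
    constructor
    · rintro ⟨s, hs, rfl⟩
      by_cases h0 : s = 0
      · right; rw [h0, tv_zero]
      · left; rw [tv_sub_one hs.1.1]; exact ⟨hs, h0⟩
    · rintro (⟨h1, h2⟩ | rfl)
      · exact ⟨_, h1, eq_tv h1.1.1⟩
      · exact ⟨0, zero_mem _, tv_zero.symm⟩
  · rintro p hp hpk _ ⟨s, hs, rfl⟩
    rw [tv_pow hs.1.1]
    have : (p : k) = 0 := by rw [← hpk]; exact ringChar.Nat.cast_ringChar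
    rw [this, zero_smul, tv_zero]

end Cfsg.Agent.S5059
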