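import Cfsg.Statements.S5060
import Cfsg.Agent.LibH14Crux


set_option autoImplicit false
open Cfsg

namespace Cfsg.Agent.S5060

open CfsgLib.H14Inf CfsgLib.H14Crux

section
variable {K : Type*} [Field K]

local notation "SL" => Matrix.SpecialLinearGroup (Fin 2) K

theorem m00 (g h : Matrix.SpecialLinearGroup (Fin 2) K) : (g * h) 0 0 = g 0 0 * h 0 0 + g 0 1 * h 1 0 := by
  rw [Matrix.SpecialLinearGroup.coe_mul, Matrix.mul_apply, Fin.sum_univ_two]
theorem m01 (g h : Matrix.SpecialLinearGroup (Fin 2) K) : (g * h) 0 1 = g 0 0 * h 0 1 + g 0 1 * h 1 1 := by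
  rw [Matrix.SpecialLinearGroup.coe_mul, Matrix.mul_apply, Fin.sum_univ_two]
theorem m10 (g h : Matrix.SpecialLinearGroup (Fin 2) K) : (g * h) 1 0 = g 1 0 * h 0 0 + g 1 1 * h 1 0 := by
  rw [Matrix.SpecialLinearGroup.coe_mul, Matrix.mul_apply, Fin.sum_univ_two]
theorem m11 (g h : Matrix.SpecialLinearGroup (Fin 2) K) : (g * h) 1 1 = g 1 0 * h 0 1 + g 1 1 * h 1 1 := by
  rw [Matrix.SpecialLinearGroup.coe_mul, Matrix.mul_apply, Fin.sum_univ_two]

theorem i00 (g : Matrix.SpecialLinearGroup (Fin 2) K) : (g⁻¹) 0 0 = g 1 1 := by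
  rw [Matrix.SpecialLinearGroup.coe_inv, Matrix.adjugate_fin_two]; rfl
theorem i01 (g : Matrix.SpecialLinearGroup (Fin 2) K) : (g⁻¹) 0 1 = -g 0 1 := by
  rw [Matrix.SpecialLinearGroup.coe_inv, Matrix.adjugate_fin_two]; rfl
theorem i10 (g : Matrix.SpecialLinearGroup (Fin 2) K) : (g⁻¹) 1 0 = -g 1 0 := by
  rw [Matrix.SpecialLinearGroup.coe_inv, Matrix.adjugate_fin_two]; rfl
theorem i11 (g : Matrix.SpecialLinearGroup (Fin 2) K) : (g⁻¹) 1 1 = g 0 0 := by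
  rw [Matrix.SpecialLinearGroup.coe_inv, Matrix.adjugate_fin_two]; rfl

theorem dt (g : Matrix.SpecialLinearGroup (Fin 2) K) : g 0 0 * g 1 1 - g 0 1 * g 1 0 = 1 := by
  have := g.2; rwa [Matrix.det_fin_two] at this

/-- mapping a closure into a subgroup by scaling the off-diagonal entries -/
theorem scale_mem {S : Set (Matrix.SpecialLinearGroup (Fin 2) K)} {H : Subgroup (Matrix.SpecialLinearGroup (Fin 2) K)}
    {e : K} (he : e ≠ 0)
    (hS : ∀ g ∈ S, ∃ g' ∈ H, g' 0 0 = g 0 0 ∧ g' 0 1 = e * g 0 1 ∧ g' 1 0 = e⁻¹ * g 1 0 ∧ g' 1 1 = g 1 1) :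
    ∀ g ∈ Subgroup.closure S, ∃ g' ∈ H, g' 0 0 = g 0 0 ∧ g' 0 1 = e * g 0 1 ∧ g' 1 0 = e⁻¹ * g 1 0 ∧ g' 1 1 = g 1 1 := by
  intro g hg
  induction hg using Subgroup.closure_induction with
  | mem x hx => exact hS x hx
  | one => exact ⟨1, one_mem _, by simp, by simp, by simp, by simp⟩
  | mul x y _ _ ihx ihy =>
    obtain ⟨x', hx', a1, a2, a3, a4⟩ := ihx
    obtain ⟨y', hy', b1, b2, b3, b4⟩ := ihy
    refine ⟨x' * y', mul_mem hx' hy', ?_, ?_, ?_, ?_⟩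
    · rw [m00, m00, a1, a2, b1, b3]; field_simp
    · rw [m01, m01, a1, a2, b2, b4]; ring
    · rw [m10, m10, a3, a4, b1, b3]; ring
    · rw [m11, m11, a3, a4, b2, b4]; field_simp
  | inv x _ ih =>
    obtain ⟨x', hx', a1, a2, a3, a4⟩ := ih
    refine ⟨x'⁻¹, inv_mem hx', ?_, ?_, ?_, ?_⟩
    · rw [i00, i00, a4]
    · rw [i01, i01, a2]; ring
    · rw [i10, i10, a3]; ring
    · rw [i11, i11, a1]

theorem swap_mem {S : Set (Matrix.SpecialLinearGroup (Fin 2) K)} {H : Subgroup (Matrix.SpecialLinearGroup (Fin 2) K)}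
    {e : K} (he : e ≠ 0)
    (hS : ∀ g ∈ S, ∃ g' ∈ H, g' 0 0 = g 1 1 ∧ g' 0 1 = e⁻¹ * g 1 0 ∧ g' 1 0 = e * g 0 1 ∧ g' 1 1 = g 0 0) :
    ∀ g ∈ Subgroup.closure S, ∃ g' ∈ H, g' 0 0 = g 1 1 ∧ g' 0 1 = e⁻¹ * g 1 0 ∧ g' 1 0 = e * g 0 1 ∧ g' 1 1 = g 0 0 := by
  intro g hg
  induction hg using Subgroup.closure_induction with
  | mem x hx => exact hS x hx
  | one => exact ⟨1, one_mem _, by simp, by simp, by simp, by simp⟩
  | mul x y _ _ ihx ihy =>
    obtain ⟨x', hx', a1, a2, a3, a4⟩ := ihx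
    obtain ⟨y', hy', b1, b2, b3, b4⟩ := ihy
    refine ⟨x' * y', mul_mem hx' hy', ?_, ?_, ?_, ?_⟩
    · rw [m00, m11, a1, a2, b1, b3]; field_simp; ring
    · rw [m01, m10, a1, a2, b2, b4]; ring
    · rw [m10, m01, a3, a4, b1, b3]; ring
    · rw [m11, m00, a3, a4, b2, b4]; field_simp; ring
  | inv x _ ih =>
    obtain ⟨x', hx', a1, a2, a3, a4⟩ := ih
    refine ⟨x'⁻¹, inv_mem hx', ?_, ?_, ?_, ?_⟩
    · rw [i00, i11, a4]
    · rw [i01, i10, a2]; ring
    · rw [i10, i01, a3]; ring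
    · rw [i11, i00, a1]

end


/-- Let k ⊆ K be fields with the characteristic of k not 2 and k not of order 3, and let α ∈ K be a non-zero element algebraic over k. Then the subgroup of SL₂(K) generated by the upper unitriangular matrices with entry c and the lower unitriangular matrices with entry cα, c ranging over k, is exactly the group of matrices of SL₂(K) with all entries in k(α). -/
theorem result {k K : Type*} [Field k] [Field K] [Algebra k K] (hk2 : ringChar k ≠ 2) (hk3 : Nat.card k ≠ 3)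
    (α : K) (hα : IsAlgebraic k α) (hα0 : α ≠ 0) :
    (Subgroup.closure ({g : Matrix.SpecialLinearGroup (Fin 2) K | ∃ c : k, (g : Matrix (Fin 2) (Fin 2) K) = !![1, algebraMap k K c; 0, 1]} ∪
        {g : Matrix.SpecialLinearGroup (Fin 2) K | ∃ c : k, (g : Matrix (Fin 2) (Fin 2) K) = !![1, 0; algebraMap k K c * α, 1]}) :
      Set (Matrix.SpecialLinearGroup (Fin 2) K)) =
    {g : Matrix.SpecialLinearGroup (Fin 2) K | ∀ i j : Fin 2, (g : Matrix (Fin 2) (Fin 2) K) i j ∈ IntermediateField.adjoin k ({α} : Set K)} := by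
  classical
  have h2 : (2 : k) ≠ 0 := Ring.two_ne_zero hk2
  set S : Set (Matrix.SpecialLinearGroup (Fin 2) K) :=
    ({g : Matrix.SpecialLinearGroup (Fin 2) K | ∃ c : k, (g : Matrix (Fin 2) (Fin 2) K) = !![1, algebraMap k K c; 0, 1]} ∪
        {g : Matrix.SpecialLinearGroup (Fin 2) K | ∃ c : k, (g : Matrix (Fin 2) (Fin 2) K) = !![1, 0; algebraMap k K c * α, 1]}) with hSdef
  set H := Subgroup.closure S with hH
  set K₀ := IntermediateField.adjoin k ({α} : Set K) with hK₀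
  have hαK : α ∈ K₀ := IntermediateField.subset_adjoin k _ rfl
  have hcK : ∀ c : k, algebraMap k K c ∈ K₀ := fun c => K₀.algebraMap_mem c
  haveI : FiniteDimensional k K₀ := IntermediateField.adjoin.finiteDimensional hα.isIntegral
  have hgen : Algebra.adjoin k {(⟨α, hαK⟩ : K₀)} = ⊤ := by
    have h1 : K₀.toSubalgebra = Algebra.adjoin k {α} :=
      IntermediateField.adjoin_simple_toSubalgebra_of_isAlgebraic hα
    rw [eq_top_iff]
    rintro ⟨x, hx⟩ -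
    have hx' : x ∈ Algebra.adjoin k {α} := by rw [← h1]; exact hx
    have h2 : Algebra.adjoin k {α} = (Algebra.adjoin k {(⟨α, hαK⟩ : K₀)}).map K₀.val := by
      rw [AlgHom.map_adjoin, Set.image_singleton]; rfl
    rw [h2] at hx'
    obtain ⟨y, hy, hyx⟩ := hx'
    have : (⟨x, hx⟩ : K₀) = y := Subtype.ext hyx.symm
    rw [this]; exact hy
  -- generators
  have gx : ∀ (c : k) (g : Matrix.SpecialLinearGroup (Fin 2) K), g 0 0 = 1 → g 0 1 = algebraMap k K c → g 1 0 = 0 →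
      g 1 1 = 1 → g ∈ S := by
    intro c g e1 e2 e3 e4
    refine Or.inl ⟨c, ?_⟩
    rw [Matrix.eta_fin_two (g : Matrix (Fin 2) (Fin 2) K), e1, e2, e3, e4]
  have gy : ∀ (c : k) (g : Matrix.SpecialLinearGroup (Fin 2) K), g 0 0 = 1 → g 0 1 = 0 →
      g 1 0 = algebraMap k K c * α → g 1 1 = 1 → g ∈ S := by
    intro c g e1 e2 e3 e4
    refine Or.inr ⟨c, ?_⟩
    rw [Matrix.eta_fin_two (g : Matrix (Fin 2) (Fin 2) K), e1, e2, e3, e4]
  have gS : ∀ g ∈ S, (∃ c : k, g 0 0 = 1 ∧ g 0 1 = algebraMap k K c ∧ g 1 0 = 0 ∧ g 1 1 = 1) ∨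
      (∃ c : k, g 0 0 = 1 ∧ g 0 1 = 0 ∧ g 1 0 = algebraMap k K c * α ∧ g 1 1 = 1) := by
    rintro g (⟨c, hc⟩ | ⟨c, hc⟩)
    · left; refine ⟨c, ?_⟩; rw [hc]; simp
    · right; refine ⟨c, ?_⟩; rw [hc]; simp
  -- an element with given entries
  have mk : ∀ a b c d : K, a * d - b * c = 1 → ∃ g : Matrix.SpecialLinearGroup (Fin 2) K,
      g 0 0 = a ∧ g 0 1 = b ∧ g 1 0 = c ∧ g 1 1 = d := by
    intro a b c d h
    exact ⟨⟨!![a, b; c, d], by rw [Matrix.det_fin_two_of]; exact h⟩, rfl, rfl, rfl, rfl⟩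
  -- the predicate
  let Q : K₀ → K₀ → K₀ → K₀ → Prop := fun a b c d => ∃ g ∈ H, g 1 1 = (a : K) ∧ g 1 0 = (b : K) ∧ g 0 1 = (c : K) ∧
    g 0 0 = (d : K)
  have sc : ∀ (e : k), e ≠ 0 → ∀ g ∈ H, ∃ g' ∈ H, g' 0 0 = g 0 0 ∧ g' 0 1 = (algebraMap k K e) * g 0 1 ∧
      g' 1 0 = (algebraMap k K e)⁻¹ * g 1 0 ∧ g' 1 1 = g 1 1 := by
    intro e he
    have he' : algebraMap k K e ≠ 0 := by simpa using he
    apply scale_mem he'
    intro g hg
    rcases gS g hg with ⟨c, e1, e2, e3, e4⟩ | ⟨c, e1, e2, e3, e4⟩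
    · obtain ⟨g', f1, f2, f3, f4⟩ := mk 1 (algebraMap k K (e * c)) 0 1 (by ring)
      exact ⟨g', Subgroup.subset_closure (gx _ g' f1 f2 f3 f4), by rw [f1, e1], by rw [f2, e2, map_mul],
        by rw [f3, e3, mul_zero], by rw [f4, e4]⟩
    · obtain ⟨g', f1, f2, f3, f4⟩ := mk 1 0 (algebraMap k K (e⁻¹ * c) * α) 1 (by ring)
      exact ⟨g', Subgroup.subset_closure (gy _ g' f1 f2 f3 f4), by rw [f1, e1], by rw [f2, e2, mul_zero],
        by rw [f3, e3, map_mul, map_inv₀]; ring, by rw [f4, e4]⟩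
  have sw : ∀ g ∈ H, ∃ g' ∈ H, g' 0 0 = g 1 1 ∧ g' 0 1 = α⁻¹ * g 1 0 ∧ g' 1 0 = α * g 0 1 ∧ g' 1 1 = g 0 0 := by
    apply swap_mem hα0
    intro g hg
    rcases gS g hg with ⟨c, e1, e2, e3, e4⟩ | ⟨c, e1, e2, e3, e4⟩
    · obtain ⟨g', f1, f2, f3, f4⟩ := mk 1 0 (algebraMap k K c * α) 1 (by ring)
      exact ⟨g', Subgroup.subset_closure (gy _ g' f1 f2 f3 f4), by rw [f1, e4], by rw [f2, e3, mul_zero],
        by rw [f3, e2]; ring, by rw [f4, e1]⟩
    · obtain ⟨g', f1, f2, f3, f4⟩ := mk 1 (algebraMap k K c) 0 1 (by ring)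
      exact ⟨g', Subgroup.subset_closure (gx _ g' f1 f2 f3 f4), by rw [f1, e4],
        by rw [f2, e3]; field_simp, by rw [f3, e2, mul_zero], by rw [f4, e1]⟩
  have hQ : HG (⟨α, hαK⟩ : K₀) Q := by
    refine ⟨⟨?_, ?_, ?_, ?_⟩, ?_, ?_⟩
    · rintro a b c d ⟨g, -, e1, e2, e3, e4⟩
      have := dt g
      rw [e1, e2, e3, e4] at this
      apply Subtype.ext
      push_cast
      linear_combination this
    · rintro a b c d a' b' c' d' ⟨g, hg, e1, e2, e3, e4⟩ ⟨g', hg', f1, f2, f3, f4⟩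
      refine ⟨g * g', mul_mem hg hg', ?_, ?_, ?_, ?_⟩
      · rw [m11, e1, e2, f3, f1]; push_cast; ring
      · rw [m10, e1, e2, f4, f2]; push_cast; ring
      · rw [m01, e3, e4, f3, f1]; push_cast; ring
      · rw [m00, e3, e4, f4, f2]; push_cast; ring
    · rintro a b c d ⟨g, hg, e1, e2, e3, e4⟩
      exact ⟨g⁻¹, inv_mem hg, by rw [i11, e4], by rw [i10, e2]; simp, by rw [i01, e3]; simp, by rw [i00, e1]⟩
    · exact ⟨1, one_mem _, by simp, by simp, by simp, by simp⟩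
    · rintro a b c d ⟨g, hg, e1, e2, e3, e4⟩
      obtain ⟨g', hg', f1, f2, f3, f4⟩ := sc (-1) (by simp) g hg
      refine ⟨g', hg', by rw [f4, e1], by rw [f3, e2]; simp, by rw [f2, e3]; simp, by rw [f1, e4]⟩
    · rintro a b c d ⟨g, hg, e1, e2, e3, e4⟩
      obtain ⟨g', hg', f1, f2, f3, f4⟩ := sw g hg
      refine ⟨⟨α, hαK⟩⁻¹ * b, ?_, ?_⟩
      · apply Subtype.ext
        push_cast
        field_simp
      · exact ⟨g', hg', by rw [f4, e4], by rw [f3, e3]; rfl, by rw [f2, e2]; rfl, by rw [f1, e1]⟩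
  have hfull := field_all (k := k) h2 hk3 (z := (⟨α, hαK⟩ : K₀)) (fun e => hα0 (congrArg Subtype.val e)) hgen hQ
    (by
      rintro a b c d e he ⟨g, hg, e1, e2, e3, e4⟩
      obtain ⟨g', hg', f1, f2, f3, f4⟩ := sc e⁻¹ (inv_ne_zero he) g hg
      refine ⟨g', hg', by rw [f4, e1], ?_, ?_, by rw [f1, e4]⟩
      · rw [f3, e2, map_inv₀, inv_inv, Algebra.smul_def]; rfl
      · rw [f2, e3, Algebra.smul_def]; rfl)
    (by
      intro a
      obtain ⟨g, f1, f2, f3, f4⟩ := mk 1 0 (algebraMap k K a * α) 1 (by ring)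
      exact ⟨g, Subgroup.subset_closure (gy _ g f1 f2 f3 f4), f4, by rw [f3, Algebra.smul_def]; rfl, f2, f1⟩)
    (by
      intro a
      obtain ⟨g, f1, f2, f3, f4⟩ := mk 1 (algebraMap k K a) 0 1 (by ring)
      exact ⟨g, Subgroup.subset_closure (gx _ g f1 f2 f3 f4), f4, f3, by rw [f2]; rfl, f1⟩)
  apply Set.Subset.antisymm
  · -- H has entries in K₀
    intro g hg
    have : ∀ g ∈ H, g 0 0 ∈ K₀ ∧ g 0 1 ∈ K₀ ∧ g 1 0 ∈ K₀ ∧ g 1 1 ∈ K₀ := by
      intro g hg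
      induction hg using Subgroup.closure_induction with
      | mem x hx =>
        rcases gS x hx with ⟨c, e1, e2, e3, e4⟩ | ⟨c, e1, e2, e3, e4⟩
        · rw [e1, e2, e3, e4]; exact ⟨one_mem _, hcK c, zero_mem _, one_mem _⟩
        · rw [e1, e2, e3, e4]; exact ⟨one_mem _, zero_mem _, mul_mem (hcK c) hαK, one_mem _⟩
      | one => simp
      | mul x y _ _ ihx ihy =>
        obtain ⟨a1, a2, a3, a4⟩ := ihx
        obtain ⟨b1, b2, b3, b4⟩ := ihy
        rw [m00, m01, m10, m11]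
        exact ⟨add_mem (mul_mem a1 b1) (mul_mem a2 b3), add_mem (mul_mem a1 b2) (mul_mem a2 b4),
          add_mem (mul_mem a3 b1) (mul_mem a4 b3), add_mem (mul_mem a3 b2) (mul_mem a4 b4)⟩
      | inv x _ ih =>
        obtain ⟨a1, a2, a3, a4⟩ := ih
        rw [i00, i01, i10, i11]
        exact ⟨a4, neg_mem a2, neg_mem a3, a1⟩
    obtain ⟨a1, a2, a3, a4⟩ := this g hg
    intro i j
    fin_cases i <;> fin_cases j
    · exact a1
    · exact a2
    · exact a3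
    · exact a4
  · intro g hg
    have hd := dt g
    obtain ⟨g', hg', e1, e2, e3, e4⟩ := hfull ⟨g 1 1, hg 1 1⟩ ⟨g 1 0, hg 1 0⟩ ⟨g 0 1, hg 0 1⟩ ⟨g 0 0, hg 0 0⟩ (by
      apply Subtype.ext; push_cast; linear_combination hd)
    have : g = g' := by
      apply Matrix.SpecialLinearGroup.ext
      intro i j
      fin_cases i <;> fin_cases j
      · exact e4.symm
      · exact e3.symm
      · exact e2.symm
      · exact e1.symm
    rw [this]; exact hg'

end Cfsg.Agent.S5060
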