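import Cfsg.Statements.S5061
import Cfsg.Agent.LibH14Unip


set_option autoImplicit false
open Cfsg

namespace Cfsg.Agent.S5061

open CfsgLib.H14Unip CfsgLib.H14R1


/-- Let M be a finite-dimensional vector space over a field k, G ≤ GL(M), and 𝒲 a set of subgroups of G, invariant under conjugation by G, such that any two members of 𝒲 generate a subgroup acting unipotently on M (for some n all products of n endomorphisms g − 1 from it vanish). Then the subgroup generated by all members of 𝒲 acts unipotently on M and is normal in G. -/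
theorem result {k : Type*} [Field k] {M : Type*} [AddCommGroup M] [Module k M] [FiniteDimensional k M]
    {G : Subgroup (LinearMap.GeneralLinearGroup k M)} {W : Set (Subgroup (LinearMap.GeneralLinearGroup k M))} (hWG : ∀ A ∈ W, A ≤ G)
    (hWW : ∀ A ∈ W, ∀ B ∈ W, Cfsg.IsUnipotentOn (A ⊔ B)) (hWconj : ∀ A ∈ W, ∀ g ∈ G, Cfsg.conjBy A g ∈ W) :
    Cfsg.IsUnipotentOn (⨆ A ∈ W, A) ∧ ∀ g ∈ G, Cfsg.conjBy (⨆ A ∈ W, A) g = ⨆ A ∈ W, A := by
  refine ⟨baer_suzuki hWW fun A hA B hB g hg => hWconj A hA g (hWG B hB hg), ?_⟩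
  have h1 : ∀ g ∈ G, (⨆ A ∈ W, A) ≤ Cfsg.conjBy (⨆ A ∈ W, A) g := by
    intro g hg
    refine iSup₂_le fun A hA => ?_
    have h2 : Cfsg.conjBy A g⁻¹ ≤ ⨆ A ∈ W, A := le_iSup₂_of_le _ (hWconj A hA _ (inv_mem hg)) le_rfl
    rw [← cj_le (g := g), cj_cj, mul_inv_cancel, cj_one] at h2
    exact h2
  intro g hg
  apply le_antisymm _ (h1 g hg)
  have h3 := h1 g⁻¹ (inv_mem hg)
  rw [← cj_le (g := g), cj_cj, mul_inv_cancel, cj_one] at h3
  exact h3

end Cfsg.Agent.S5061
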