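import Cfsg.Statements.S5063
import Cfsg.Agent.LibH14QH3


set_option autoImplicit false
universe u
open Cfsg

namespace Cfsg.Agent.S5063

open CfsgLib.H14QG CfsgLib.H14QE CfsgLib.H14QD CfsgLib.H14QC CfsgLib.H14QP CfsgLib.H14R1 CfsgLib.H14QH


/-- Let k be a field of characteristic not 2 with k not of order 3, M a finite-dimensional k-vector space and G ≤ GL(M) such that (G, M) is a quadratic pair (M irreducible for G, and G generated by its quadratically acting elements σ whose scalar family 1 + c(σ − 1), c ∈ k, lies in G). Write 𝒬_d for the quadratic elements of G of minimal commutator rank, E(σ) for the subgroup generated by the members of 𝒬_d with the same fixed space and commutator space as σ, and Σ for the set of these subgroups. Then G is a central product of finitely many quasisimple normal subgroups G₁, …, G_s (pairwise commuting and together generating G), each generated by the quadratic elements of G it contains, and every quadratic element of G lies in one of them. -/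
theorem result {k : Type u} [Field k] (hk2 : ringChar k ≠ 2) (hk3 : Nat.card k ≠ 3)
    {M : Type u} [AddCommGroup M] [Module k M] [FiniteDimensional k M]
    {G : Subgroup (LinearMap.GeneralLinearGroup k M)} (hG : Cfsg.IsQuadraticPair G) :
    ∃ (s : ℕ) (Gi : Fin s → Subgroup (LinearMap.GeneralLinearGroup k M)),
      (∀ i, Gi i ≤ G ∧ ∀ g ∈ G, Cfsg.conjBy (Gi i) g = Gi i) ∧ (∀ i j, i ≠ j → ⁅Gi i, Gi j⁆ = ⊥) ∧ (⨆ i, Gi i) = G ∧
      (∀ i, Cfsg.IsQuasisimple ↥(Gi i) ∧ Subgroup.closure (Cfsg.quadraticElements G ∩ (Gi i : Set (LinearMap.GeneralLinearGroup k M))) = Gi i) ∧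
      Cfsg.quadraticElements G ⊆ ⋃ i, (Gi i : Set (LinearMap.GeneralLinearGroup k M)) := by
  have hQ : QP G := ⟨Ring.two_ne_zero hk2, hk3, hG.1⟩
  classical
  obtain ⟨S, hS⟩ := good_exists (Module.finrank k M) M G le_rfl hQ hG.2
  haveI := hS.fin.to_subtype
  obtain ⟨r, ⟨e⟩⟩ := Finite.exists_equiv_fin S
  refine ⟨r, fun i => (e.symm i : Subgroup _), ?_, ?_, ?_, ?_, ?_⟩
  · intro i
    exact ⟨hS.le _ (e.symm i).2, hS.norm _ (e.symm i).2⟩
  · intro i j hij
    simp only
    rw [comm_iff]
    apply hS.comm _ (e.symm i).2 _ (e.symm j).2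
    intro h
    exact hij (e.symm.injective (Subtype.ext h))
  · rw [← hS.sup]
    apply le_antisymm
    · exact iSup_le fun i => le_iSup₂_of_le _ (e.symm i).2 le_rfl
    · refine iSup₂_le fun H hH => ?_
      refine le_iSup_of_le (e ⟨H, hH⟩) ?_
      simp only
      rw [Equiv.symm_apply_apply]
  · intro i
    exact ⟨hS.qs _ (e.symm i).2, hS.gen _ (e.symm i).2⟩
  · intro σ hσ
    obtain ⟨H, hH, h⟩ := hS.mem σ hσ
    rw [Set.mem_iUnion]
    refine ⟨e ⟨H, hH⟩, ?_⟩
    simp only
    rw [Equiv.symm_apply_apply]
    exact h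

end Cfsg.Agent.S5063
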