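import Cfsg.Statements.S5064
import Cfsg.Agent.LibH14QS


set_option autoImplicit false
universe u
open Cfsg

namespace Cfsg.Agent.S5064

open CfsgLib.H14QS CfsgLib.H14QR CfsgLib.H14QP CfsgLib.H14KT CfsgLib.H14R1 CfsgLib.H14Unip Module Polynomial


/-- Let k be a field of characteristic not 2 with k not of order 3, M a finite-dimensional k-vector space and G ≤ GL(M) such that (G, M) is a quadratic pair (M irreducible for G, and G generated by its quadratically acting elements σ whose scalar family 1 + c(σ − 1), c ∈ k, lies in G). Write 𝒬_d for the quadratic elements of G of minimal commutator rank, E(σ) for the subgroup generated by the members of 𝒬_d with the same fixed space and commutator space as σ, and Σ for the set of these subgroups. If σ, τ ∈ 𝒬_d and the subgroup H generated by their two scalar families does not act unipotently on M, then H is isomorphic to SL₂ over a simple algebraic extension k(λ) of k. -/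
theorem result {k : Type u} [Field k] (hk2 : ringChar k ≠ 2) (hk3 : Nat.card k ≠ 3)
    {M : Type u} [AddCommGroup M] [Module k M] [FiniteDimensional k M]
    {G : Subgroup (LinearMap.GeneralLinearGroup k M)} (hG : Cfsg.IsQuadraticPair G)
    {σ τ : LinearMap.GeneralLinearGroup k M} (hσ : σ ∈ Cfsg.minimalQuadraticElements G) (hτ : τ ∈ Cfsg.minimalQuadraticElements G)
    (hH : ¬ Cfsg.IsUnipotentOn (Subgroup.closure (Cfsg.scalarFamily σ ∪ Cfsg.scalarFamily τ))) :
    ∃ (K : Type u) (_ : Field K) (_ : Algebra k K) (lam : K), IsAlgebraic k lam ∧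
      IntermediateField.adjoin k ({lam} : Set K) = ⊤ ∧
      Nonempty (↥(Subgroup.closure (Cfsg.scalarFamily σ ∪ Cfsg.scalarFamily τ)) ≃* Matrix.SpecialLinearGroup (Fin 2) K) := by
  have h2 : (2 : k) ≠ 0 := Ring.two_ne_zero hk2
  rw [minquad_iff] at hσ hτ
  set s : End k M := (σ : End k M) - 1 with hs
  set t : End k M := (τ : End k M) - 1 with ht
  have hH' : Subgroup.closure (Cfsg.scalarFamily σ ∪ Cfsg.scalarFamily τ) = HH s t := by
    unfold HH
    congr 1
    ext g
    constructor
    · rintro (⟨c, hc⟩ | ⟨c, hc⟩)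
      · exact ⟨c, Or.inl (Units.ext (by rw [hc, tv_val (sqs hσ.1.1 c)]))⟩
      · exact ⟨c, Or.inr (Units.ext (by rw [hc, tv_val (sqs hτ.1.1 c)]))⟩
    · rintro ⟨c, rfl | rfl⟩
      · exact Or.inl ⟨c, by rw [tv_val (sqs hσ.1.1 c)]⟩
      · exact Or.inr ⟨c, by rw [tv_val (sqs hτ.1.1 c)]⟩
  rw [hH'] at hH ⊢
  have hn : ¬ IsNilpotent (s * t + t * s) := by
    intro hn
    apply hH
    obtain ⟨n, hn'⟩ := nil_unip h2 hk3 hσ hτ hn
    refine ⟨n, fun l hl => hn' l fun g hg => ?_⟩
    have hle : HH s t ≤ EG s hσ.1.1 G ⊔ EG t hτ.1.1 G := by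
      unfold HH
      rw [Subgroup.closure_le]
      rintro g ⟨c, rfl | rfl⟩
      · exact Subgroup.mem_sup_left ⟨_, Submodule.smul_mem _ c (self_mem_ES hσ.1), rfl⟩
      · exact Subgroup.mem_sup_right ⟨_, Submodule.smul_mem _ c (self_mem_ES hτ.1), rfl⟩
    exact hle (hl g hg)
  have h : NN G s t := ⟨h2, hk3, hσ, hτ, hn⟩
  haveI := NN.max h
  letI := Ideal.Quotient.field (AI s t)
  refine ⟨k[X] ⧸ AI s t, Ideal.Quotient.field (AI s t), inferInstance, Ideal.Quotient.mk (AI s t) X, ?_, ?_, sl2_iso h⟩
  · exact (Algebra.IsIntegral.isIntegral (R := k) (Ideal.Quotient.mk (AI s t) X)).isAlgebraic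
  · apply IntermediateField.adjoin_eq_top_of_algebra
    exact AI_gen

end Cfsg.Agent.S5064
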