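import Cfsg.Statements.S5065
import Cfsg.Agent.LibH14QR


set_option autoImplicit false
universe u
open Cfsg

namespace Cfsg.Agent.S5065

open CfsgLib.H14QR CfsgLib.H14QP CfsgLib.H14KT CfsgLib.H14R1 CfsgLib.H14Unip Module


/-- Let k be a field of characteristic not 2 with k not of order 3, M a finite-dimensional k-vector space and G ≤ GL(M) such that (G, M) is a quadratic pair (M irreducible for G, and G generated by its quadratically acting elements σ whose scalar family 1 + c(σ − 1), c ∈ k, lies in G). Write 𝒬_d for the quadratic elements of G of minimal commutator rank, E(σ) for the subgroup generated by the members of 𝒬_d with the same fixed space and commutator space as σ, and Σ for the set of these subgroups. For σ, τ ∈ 𝒬_d put A = E(σ), B = E(τ) and X = ⟨A, B⟩. Then either X acts unipotently on M, or A and B are the unipotent subgroups of a special rank one group X; in the latter case X contains exactly one central involution acting as −1 on the commutator space [M, X] and trivially on the fixed space C_M(X), and M is the direct sum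 of C_M(X) and [M, X]. -/
theorem result {k : Type u} [Field k] (hk2 : ringChar k ≠ 2) (hk3 : Nat.card k ≠ 3)
    {M : Type u} [AddCommGroup M] [Module k M] [FiniteDimensional k M]
    {G : Subgroup (LinearMap.GeneralLinearGroup k M)} (hG : Cfsg.IsQuadraticPair G)
    {σ τ : LinearMap.GeneralLinearGroup k M} (hσ : σ ∈ Cfsg.minimalQuadraticElements G) (hτ : τ ∈ Cfsg.minimalQuadraticElements G) :
    Cfsg.IsUnipotentOn (Cfsg.sameActionSubgroup G σ ⊔ Cfsg.sameActionSubgroup G τ) ∨
    (Cfsg.IsSpecialRankOnePair (Cfsg.sameActionSubgroup G σ) (Cfsg.sameActionSubgroup G τ) ∧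
      (∃! i : LinearMap.GeneralLinearGroup k M, i ∈ Cfsg.sameActionSubgroup G σ ⊔ Cfsg.sameActionSubgroup G τ ∧ i ≠ 1 ∧ i * i = 1 ∧
        (∀ x ∈ Cfsg.sameActionSubgroup G σ ⊔ Cfsg.sameActionSubgroup G τ, i * x = x * i) ∧
        (∀ m ∈ Cfsg.commutatorSubmodule (Cfsg.sameActionSubgroup G σ ⊔ Cfsg.sameActionSubgroup G τ), (i : M →ₗ[k] M) m = -m) ∧
        (∀ m ∈ Cfsg.fixedSubmodule (Cfsg.sameActionSubgroup G σ ⊔ Cfsg.sameActionSubgroup G τ), (i : M →ₗ[k] M) m = m)) ∧
      IsCompl (Cfsg.fixedSubmodule (Cfsg.sameActionSubgroup G σ ⊔ Cfsg.sameActionSubgroup G τ))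
        (Cfsg.commutatorSubmodule (Cfsg.sameActionSubgroup G σ ⊔ Cfsg.sameActionSubgroup G τ))) := by
  have h2 : (2 : k) ≠ 0 := Ring.two_ne_zero hk2
  rw [minquad_iff] at hσ hτ
  rw [sas_eq hσ, sas_eq hτ]
  set s : End k M := (σ : End k M) - 1 with hs
  set t : End k M := (τ : End k M) - 1 with ht
  by_cases hn : IsNilpotent (s * t + t * s)
  · left; exact nil_unip h2 hk3 hσ hτ hn
  right
  have h : NN G s t := ⟨h2, hk3, hσ, hτ, hn⟩
  obtain ⟨t', ht', ht0, ho⟩ := nn_opp h
  obtain ⟨-, hr, hk⟩ := ES_ne_zero hτ ht' ht0
  have hfix := fixed_eq (G := G) hσ hτ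
  have hcom := comm_eq (G := G) hσ hτ
  -- action of pi
  have pi0 : ∀ m ∈ LinearMap.ker s ⊓ LinearMap.ker t, pi s t' m = 0 := by
    rintro m ⟨m1, m2⟩
    have m3 : t' m = 0 := by have : m ∈ LinearMap.ker t' := by rw [hk]; exact m2
                             exact this
    have m1' : s m = 0 := m1
    show s (t' m) + t' (s m) = 0
    rw [m3, m1', map_zero, map_zero, add_zero]
  have pi1 : ∀ m ∈ LinearMap.range s ⊔ LinearMap.range t, pi s t' m = m := by
    intro m hm
    rw [← hr] at hm
    obtain ⟨_, ⟨x, rfl⟩, _, ⟨y, rfl⟩, rfl⟩ := Submodule.mem_sup.1 hm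
    rw [map_add]
    have e1 := LinearMap.congr_fun ho.pi_s x
    have e2 := LinearMap.congr_fun ho.pi_t y
    rw [Module.End.mul_apply] at e1 e2
    rw [e1, e2]
  have pir : ∀ m, pi s t' m ∈ LinearMap.range s ⊔ LinearMap.range t := by
    intro m
    rw [← hr]
    exact Submodule.add_mem_sup ⟨_, rfl⟩ ⟨_, rfl⟩
  have pik : ∀ m, m - pi s t' m ∈ LinearMap.ker s ⊓ LinearMap.ker t := by
    intro m
    rw [← hk]
    constructor
    · show s (m - pi s t' m) = 0
      rw [map_sub]
      have := LinearMap.congr_fun ho.s_pi m
      rw [Module.End.mul_apply] at this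
      rw [this, sub_self]
    · show t' (m - pi s t' m) = 0
      rw [map_sub]
      have := LinearMap.congr_fun ho.t_pi m
      rw [Module.End.mul_apply] at this
      rw [this, sub_self]
  set i : LinearMap.GeneralLinearGroup k M := ww s t' * ww s t' with hi
  have hival : ∀ m, (i : M →ₗ[k] M) m = m - (2 : k) • pi s t' m := by
    intro m
    have := LinearMap.congr_fun ho.ww_sq m
    rw [LinearMap.sub_apply, Module.End.one_apply, LinearMap.smul_apply] at this
    refine this.trans ?_
    rw [two_smul, two_smul]
  have hiX : i ∈ EG s hσ.1.1 G ⊔ EG t hτ.1.1 G := by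
    have h1 : tv s ∈ EG s hσ.1.1 G ⊔ EG t hτ.1.1 G := Subgroup.mem_sup_left ⟨s, self_mem_ES hσ.1, rfl⟩
    have h3 : tv t' ∈ EG s hσ.1.1 G ⊔ EG t hτ.1.1 G := Subgroup.mem_sup_right ⟨t', ht', rfl⟩
    have : ww s t' ∈ EG s hσ.1.1 G ⊔ EG t hτ.1.1 G := mul_mem (mul_mem h1 (inv_mem h3)) h1
    exact mul_mem this this
  have act1 : ∀ m ∈ LinearMap.range s ⊔ LinearMap.range t, (i : M →ₗ[k] M) m = -m := by
    intro m hm
    rw [hival, pi1 m hm, two_smul]; abel
  have act0 : ∀ m ∈ LinearMap.ker s ⊓ LinearMap.ker t, (i : M →ₗ[k] M) m = m := by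
    intro m hm
    rw [hival, pi0 m hm, smul_zero, sub_zero]
  have uniq : ∀ j : LinearMap.GeneralLinearGroup k M, (∀ m ∈ LinearMap.range s ⊔ LinearMap.range t, (j : M →ₗ[k] M) m = -m) →
      (∀ m ∈ LinearMap.ker s ⊓ LinearMap.ker t, (j : M →ₗ[k] M) m = m) → j = i := by
    intro j j1 j0
    apply Units.ext
    apply LinearMap.ext
    intro m
    have e : m = pi s t' m + (m - pi s t' m) := by abel
    rw [e, map_add, map_add]
    have a1 := j1 _ (pir m)
    have a2 := act1 _ (pir m)
    have a3 := j0 _ (pik m)
    have a4 := act0 _ (pik m)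
    rw [← a2] at a1
    rw [← a4] at a3
    have a1' : (j : End k M) (pi s t' m) = (i : End k M) (pi s t' m) := a1
    have a3' : (j : End k M) (m - pi s t' m) = (i : End k M) (m - pi s t' m) := by rw [a4] at a3; exact a3.trans a4.symm
    rw [a1', a3']
  refine ⟨special_of h, ?_, ?_⟩
  · refine ⟨i, ⟨hiX, ?_, ?_, ?_, ?_, ?_⟩, ?_⟩
    · intro h1
      apply hσ.2.1
      have e1 := ho.ww_sq
      rw [← hi, h1, Units.val_one] at e1
      have e2 : (2 : ℕ) • pi s t' = 0 := by
        have := sub_eq_zero.2 e1.symm
        have e3 : -(2 • pi s t') = 0 := by rw [← this]; abel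
        exact neg_eq_zero.1 e3
      have e4 : pi s t' = 0 := by
        rw [← Nat.cast_smul_eq_nsmul k] at e2
        exact (smul_eq_zero.1 e2).resolve_left (by exact_mod_cast h2)
      rw [← ho.pi_s, e4, zero_mul]
    · apply Units.ext
      apply LinearMap.ext
      intro m
      rw [Units.val_mul]
      show (i : M →ₗ[k] M) ((i : M →ₗ[k] M) m) = m
      have e : m = pi s t' m + (m - pi s t' m) := by abel
      rw [e, map_add, map_add]
      rw [act1 _ (pir m), act0 _ (pik m), map_neg, act1 _ (pir m), act0 _ (pik m), neg_neg]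
    · intro x hx
      have hc : ∀ x ∈ EG s hσ.1.1 G ⊔ EG t hτ.1.1 G, Commute (pi s t') (x : End k M) := by
        intro x hx
        rw [Subgroup.sup_eq_closure] at hx
        induction hx using Subgroup.closure_induction with
        | mem x hx =>
          rcases hx with ⟨y, hy, rfl⟩ | ⟨y, hy, rfl⟩
          · rw [tv_val hy.1.1]
            refine (Commute.one_right _).add_right ?_
            have p1 : pi s t' * y = y := by
              ext m
              exact pi1 _ (Submodule.mem_sup_left (hy.2.1 ⟨m, rfl⟩))
            have p2 : y * pi s t' = y := by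
              ext m
              have := hy.2.2 (pik m).1
              rw [LinearMap.mem_ker, map_sub, sub_eq_zero] at this
              exact this.symm
            show pi s t' * y = y * pi s t'
            rw [p1, p2]
          · rw [tv_val hy.1.1]
            refine (Commute.one_right _).add_right ?_
            have p1 : pi s t' * y = y := by
              ext m
              exact pi1 _ (Submodule.mem_sup_right (hy.2.1 ⟨m, rfl⟩))
            have p2 : y * pi s t' = y := by
              ext m
              have := hy.2.2 (pik m).2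
              rw [LinearMap.mem_ker, map_sub, sub_eq_zero] at this
              exact this.symm
            show pi s t' * y = y * pi s t'
            rw [p1, p2]
        | one => exact Commute.one_right _
        | mul x y _ _ ihx ihy => rw [Units.val_mul]; exact ihx.mul_right ihy
        | inv x _ ih => exact ih.units_inv_right
      apply Units.ext
      have hv : (i : End k M) = 1 - 2 • pi s t' := ho.ww_sq
      have := hc x hx
      have h5 : Commute (1 - 2 • pi s t') (x : End k M) := (Commute.one_left _).sub_left (this.smul_left 2)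
      show (i : End k M) * (x : End k M) = (x : End k M) * (i : End k M)
      rw [hv]
      exact h5
    · intro m hm
      exact act1 m (by rw [← hcom]; exact hm)
    · intro m hm
      exact act0 m (by rw [← hfix]; exact hm)
    · rintro j ⟨-, -, -, -, j1, j0⟩
      exact uniq j (fun m hm => j1 m (by rw [hcom]; exact hm)) (fun m hm => j0 m (by rw [hfix]; exact hm))
  · rw [hfix, hcom]
    constructor
    · rw [disjoint_iff, eq_bot_iff]
      rintro m ⟨m0, m1⟩
      have e1 := pi0 m m0
      have e2 := pi1 m m1
      rw [e1] at e2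
      exact e2.symm
    · rw [codisjoint_iff, eq_top_iff]
      intro m _
      have e : m = (m - pi s t' m) + pi s t' m := by abel
      rw [e]
      exact Submodule.add_mem_sup (pik m) (pir m)

end Cfsg.Agent.S5065
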