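import Cfsg.Statements.S5067
import Cfsg.Agent.LibH14RS


set_option autoImplicit false
open Cfsg

namespace Cfsg.Agent.S5067

open CfsgLib.H14R1 CfsgLib.H14RS

theorem half {P : Type*} [Group P] [Group.IsNilpotent P] (hna : ¬ IsMulCommutative P) {E : Subgroup P}
    (hE : IsMulCommutative ↥E) :
    Group.nilpotencyClass ↥(Subgroup.normalClosure (E : Set P)) < Group.nilpotencyClass P := by
  set N := Subgroup.normalClosure (E : Set P) with hN
  -- N ≤ E ⊔ P'
  have h1 : N ≤ E ⊔ commutator P := by
    haveI : (E ⊔ commutator P).Normal := by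
      refine ⟨fun x hx g => ?_⟩
      have h2 : g * x * g⁻¹ = (g * x * g⁻¹ * x⁻¹) * x := by group
      rw [h2]
      refine mul_mem (Subgroup.mem_sup_right ?_) hx
      rw [commutator_def, ← commutatorElement_def]
      exact Subgroup.commutator_mem_commutator (Subgroup.mem_top _) (Subgroup.mem_top _)
    exact Subgroup.normalClosure_le_normal (fun x hx => Subgroup.mem_sup_left hx)
  -- [N, N] ≤ γ₃
  have h2 : ⁅N, N⁆ ≤ Subgroup.lowerCentralSeries (⊤ : Subgroup P) 2 := by
    have h3 : (⁅E ⊔ commutator P, E ⊔ commutator P⁆).map (QuotientGroup.mk' (Subgroup.lowerCentralSeries (⊤ : Subgroup P) 2)) = ⊥ := by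
      have hc : ∀ x ∈ (commutator P).map (QuotientGroup.mk' (Subgroup.lowerCentralSeries (⊤ : Subgroup P) 2)),
          ∀ y ∈ (⊤ : Subgroup (P ⧸ Subgroup.lowerCentralSeries (⊤ : Subgroup P) 2)), x * y = y * x := by
        rw [← comm_iff, ← Subgroup.map_top_of_surjective (QuotientGroup.mk' (Subgroup.lowerCentralSeries (⊤ : Subgroup P) 2))
          (QuotientGroup.mk'_surjective _), ← Subgroup.map_commutator, Subgroup.map_eq_bot_iff, QuotientGroup.ker_mk']
        show ⁅commutator P, (⊤ : Subgroup P)⁆ ≤ _
        rw [commutator_def]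
        exact le_rfl
      rw [Subgroup.map_commutator, Subgroup.map_sup, comm_iff]
      have hEE : ∀ x ∈ E.map (QuotientGroup.mk' (Subgroup.lowerCentralSeries (⊤ : Subgroup P) 2)),
          ∀ y ∈ E.map (QuotientGroup.mk' (Subgroup.lowerCentralSeries (⊤ : Subgroup P) 2)), x * y = y * x := by
        rintro _ ⟨x, hx, rfl⟩ _ ⟨y, hy, rfl⟩
        rw [← map_mul, ← map_mul, el_comm hE x hx y hy]
      apply el_comm_sup
      · apply el_comm_symm
        exact el_comm_sup hEE (fun x hx y _ => hc x hx y (Subgroup.mem_top y))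
      · exact fun x hx y _ => hc x hx y (Subgroup.mem_top y)
    rw [Subgroup.map_eq_bot_iff, QuotientGroup.ker_mk'] at h3
    exact (Subgroup.commutator_mono h1 h1).trans h3
  have h3 : ∀ k, 1 ≤ k → N.lowerCentralSeries k ≤ (⊤ : Subgroup P).lowerCentralSeries (k + 1) := by
    intro k hk
    induction k, hk using Nat.le_induction with
    | base => exact h2
    | succ k hk ih => exact Subgroup.commutator_mono ih le_top
  set c := Group.nilpotencyClass P with hc
  have hc2 : 2 ≤ c := by
    by_contra hlt
    apply hna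
    have h4 : c ≤ 1 := by omega
    have h5 : (⊤ : Subgroup P).lowerCentralSeries 1 = ⊥ := Subgroup.lowerCentralSeries_eq_bot_iff_nilpotencyClass_le.2 h4
    have h6 : ⁅(⊤ : Subgroup P), (⊤ : Subgroup P)⁆ = ⊥ := h5
    rw [comm_iff] at h6
    exact ⟨⟨fun x y => h6 x (Subgroup.mem_top x) y (Subgroup.mem_top y)⟩⟩
  have h4 : (⊤ : Subgroup N).lowerCentralSeries (c - 1) = ⊥ := by
    rw [← Subgroup.map_subtype_inj, Subgroup.map_bot, Subgroup.top_subtype_lowerCentralSeries, eq_bot_iff]
    have h5 := h3 (c - 1) (by omega)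
    have h6 : c - 1 + 1 = c := by omega
    rwa [h6, Subgroup.lowerCentralSeries_nilpotencyClass] at h5
  have h5 : Group.nilpotencyClass N ≤ c - 1 := Subgroup.lowerCentralSeries_eq_bot_iff_nilpotencyClass_le.1 h4
  omega



/-- Let P be a non-abelian nilpotent p-group (every element of p-power order; P possibly infinite) generated by two abelian subgroups E and F. Then the normal closure of E in P, and likewise that of F, has nilpotency class strictly smaller than that of P. -/
theorem result {P : Type*} [Group P] {p : ℕ} [Fact p.Prime] (hP : IsPGroup p P) [Group.IsNilpotent P]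
    (hna : ¬ IsMulCommutative P) {E F : Subgroup P} (hE : IsMulCommutative ↥E) (hF : IsMulCommutative ↥F) (hgen : E ⊔ F = ⊤) :
    Group.nilpotencyClass ↥(Subgroup.normalClosure (E : Set P)) < Group.nilpotencyClass P ∧
    Group.nilpotencyClass ↥(Subgroup.normalClosure (F : Set P)) < Group.nilpotencyClass P := by
  exact ⟨half hna hE, half hna hF⟩

end Cfsg.Agent.S5067
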