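import Cfsg.Statements.S5069
import Cfsg.Agent.LibH14QG2


set_option autoImplicit false
universe u
open Cfsg

namespace Cfsg.Agent.S5069

open CfsgLib.H14QG CfsgLib.H14QE CfsgLib.H14QD CfsgLib.H14QC CfsgLib.H14QP CfsgLib.H14R1


/-- Let k be a field of characteristic not 2 with k not of order 3, M a finite-dimensional k-vector space and G ≤ GL(M) such that (G, M) is a quadratic pair (M irreducible for G, and G generated by its quadratically acting elements σ whose scalar family 1 + c(σ − 1), c ∈ k, lies in G). Write 𝒬_d for the quadratic elements of G of minimal commutator rank, E(σ) for the subgroup generated by the members of 𝒬_d with the same fixed space and commutator space as σ, and Σ for the set of these subgroups. Then Σ is a disjoint union of finitely many parts Σ₁, …, Σ_r such that the subgroups G_i generated by the Σ_i commute pairwise, each G_i is quasisimple, and inside G_i the members of Σ_i form a class of abstract root subgroups in which every rank one pair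 A, B contains subgroups A₀ ≤ A, B₀ ≤ B generating an image of SL₂(k₁) with central kernel on unitriangular subgroups for some field k₁ with at least four elements. -/
theorem result {k : Type u} [Field k] (hk2 : ringChar k ≠ 2) (hk3 : Nat.card k ≠ 3)
    {M : Type u} [AddCommGroup M] [Module k M] [FiniteDimensional k M]
    {G : Subgroup (LinearMap.GeneralLinearGroup k M)} (hG : Cfsg.IsQuadraticPair G) :
    ∃ (r : ℕ) (part : Fin r → Set (Subgroup (LinearMap.GeneralLinearGroup k M))),
      (⋃ i, part i) = Cfsg.quadraticRootSubgroups G ∧ (∀ i j, i ≠ j → Disjoint (part i) (part j)) ∧ (∀ i, (part i).Nonempty) ∧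
      (∀ i j, i ≠ j → ⁅(⨆ A ∈ part i, A), (⨆ A ∈ part j, A)⁆ = ⊥) ∧
      (∀ i, Cfsg.IsQuasisimple ↥(⨆ A ∈ part i, A) ∧
        Cfsg.IsRootSubgroupClass ((fun A : Subgroup (LinearMap.GeneralLinearGroup k M) => A.subgroupOf (⨆ B ∈ part i, B)) '' (part i)) ∧
        ∀ A ∈ part i, ∀ B ∈ Cfsg.rankOnePartners (part i) A, ∃ A₀ B₀ : Subgroup (LinearMap.GeneralLinearGroup k M), A₀ ≤ A ∧ B₀ ≤ B ∧
          ∃ (k₁ : Type u) (_ : Field k₁), 3 < ENat.card k₁ ∧ Cfsg.IsPSL2PairOver k₁ A₀ B₀) := by
  have hQ : QP G := ⟨Ring.two_ne_zero hk2, hk3, hG.1⟩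
  classical
  haveI := (finite_comps hQ).to_subtype
  obtain ⟨r, ⟨e⟩⟩ := Finite.exists_equiv_fin (comps G)
  have hrep : ∀ i : Fin r, ∃ A ∈ quadraticRootSubgroups G, (e.symm i : Set _) = CfsgLib.H14QG.cmp G A := fun i => (e.symm i).2
  refine ⟨r, fun i => (e.symm i : Set _), ?_, ?_, ?_, ?_, ?_⟩
  · ext A
    simp only [Set.mem_iUnion]
    constructor
    · rintro ⟨i, hi⟩
      obtain ⟨B, hB, h⟩ := hrep i
      rw [h] at hi
      exact hi.1
    · intro hA
      refine ⟨e ⟨CfsgLib.H14QG.cmp G A, A, hA, rfl⟩, ?_⟩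
      rw [Equiv.symm_apply_apply]
      exact self_mem_cmp hA
  · intro i j hij
    obtain ⟨A, hA, h1⟩ := hrep i
    obtain ⟨B, hB, h2⟩ := hrep j
    rw [Set.disjoint_left]
    intro C hC hC'
    simp only at hC hC'
    rw [h1] at hC
    rw [h2] at hC'
    apply hij
    apply e.symm.injective
    apply Subtype.ext
    rw [h1, h2, cmp_eq hC.2, cmp_eq hC'.2]
  · intro i
    obtain ⟨A, hA, h1⟩ := hrep i
    simp only
    rw [h1]; exact ⟨A, self_mem_cmp hA⟩
  · intro i j hij
    obtain ⟨A, hA, h1⟩ := hrep i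
    obtain ⟨B, hB, h2⟩ := hrep j
    simp only
    rw [h1, h2, comm_iff]
    apply comm_Kc hQ hA
    intro h
    apply hij
    apply e.symm.injective
    apply Subtype.ext
    rw [h1, h2, cmp_eq h]
  · intro i
    obtain ⟨A, hA, h1⟩ := hrep i
    have aux : ∀ P : Set (Subgroup (LinearMap.GeneralLinearGroup k M)), P = CfsgLib.H14QG.cmp G A →
        (IsQuasisimple ↥(⨆ A ∈ P, A) ∧
        IsRootSubgroupClass ((fun a => a.subgroupOf (⨆ B ∈ P, B)) '' P) ∧
          ∀ A ∈ P, ∀ B ∈ rankOnePartners P A, ∃ A₀ B₀ : Subgroup (LinearMap.GeneralLinearGroup k M), A₀ ≤ A ∧ B₀ ≤ B ∧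
            ∃ (k₁ : Type u) (_ : Field k₁), 3 < ENat.card k₁ ∧ IsPSL2PairOver k₁ A₀ B₀) := by
      rintro P rfl
      refine ⟨Kc_qs hQ hA, cmp_class hQ hA, ?_⟩
      intro B hB C hC
      obtain ⟨A₀, B₀, a1, a2, a3⟩ := sigma_psl2 hQ.h2 hk3 hG.1 hB.1 hC.1.1 hC.2
      exact ⟨A₀, B₀, a1, a2, k, inferInstance, three_lt hQ.h2 hk3, a3⟩
    exact aux _ h1

end Cfsg.Agent.S5069
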