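import Cfsg.Statements.S5070
import Cfsg.Agent.LibH14TGM
import Cfsg.Agent.LibSympTv29b


set_option autoImplicit false
open Matrix
open Cfsg

namespace Cfsg.Agent.S5070


open CfsgLib.H14TG CfsgLib.H14R1 CfsgLib.H14TGM

section sp
variable {F : Type*} [Field F] {m : ℕ}

theorem mem_sp {A : Matrix (Fin m ⊕ Fin m) (Fin m ⊕ Fin m) F} : A ∈ symplecticGroup (Fin m) F ↔
    ∀ u v, sympForm m F (A *ᵥ u) (A *ᵥ v) = sympForm m F u v := by
  have key : ∀ u v, sympForm m F (A *ᵥ u) (A *ᵥ v) = u ⬝ᵥ ((Aᵀ * J (Fin m) F * A) *ᵥ v) := by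
    intro u v
    unfold sympForm
    rw [← mulVec_mulVec, ← mulVec_mulVec, dotProduct_mulVec u Aᵀ, vecMul_transpose]
  rw [SymplecticGroup.mem_iff']
  constructor
  · intro h u v
    rw [key, h]; rfl
  · intro h
    apply ext_mv
    intro v
    funext i
    have := h (Pi.single i 1) v
    rw [key] at this
    unfold sympForm at this
    simpa using this

/-- inclusion -/
def iSp (F : Type*) [Field F] (m : ℕ) : ↥(symplecticGroup (Fin m) F) →* Matrix (Fin m ⊕ Fin m) (Fin m ⊕ Fin m) F where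
  toFun g := g.1
  map_one' := rfl
  map_mul' _ _ := rfl

/-- the root elements -/
def QSp (F : Type*) [Field F] (m : ℕ) : Set (Matrix (Fin m ⊕ Fin m) (Fin m ⊕ Fin m) F) :=
  {s | ∃ p : Fin m ⊕ Fin m → F, p ≠ 0 ∧ s = vecMulVec p (J (Fin m) F *ᵥ p)}

theorem dp_form (p q : Fin m ⊕ Fin m → F) : (J (Fin m) F *ᵥ p) ⬝ᵥ q = sympForm m F q p := by
  unfold sympForm; rw [dotProduct_comm]

theorem sp_lift (p : Fin m ⊕ Fin m → F) (c : F) : ∃ g, iSp F m g = 1 + c • vecMulVec p (J (Fin m) F *ᵥ p) := by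
  have hf := CfsgLib.SympTv29.sympForm_symplectic m F
  refine ⟨⟨1 + c • vecMulVec p (J (Fin m) F *ᵥ p), ?_⟩, rfl⟩
  rw [mem_sp]
  intro u v
  rw [tv_mv, tv_mv, dp_form, dp_form]
  simp only [hf.bilinear.add_left, hf.bilinear.add_right, hf.bilinear.smul_left, hf.bilinear.smul_right, hf.alternating]
  rw [hf.skew p v]
  ring

theorem sp_ne {p : Fin m ⊕ Fin m → F} (hp : p ≠ 0) : vecMulVec p (J (Fin m) F *ᵥ p) ≠ 0 := by
  have hf := CfsgLib.SympTv29.sympForm_symplectic m F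
  apply vecMulVec_ne_zero hp
  intro h
  obtain ⟨⟨x, hx⟩, -⟩ := hf.nondegenerate p hp
  apply hx
  rw [← dp_form, h, zero_dotProduct]

theorem sp_rel {p q : Fin m ⊕ Fin m → F} (h : sympForm m F p q ≠ 0) :
    Rel F (vecMulVec p (J (Fin m) F *ᵥ p)) (vecMulVec q (J (Fin m) F *ᵥ q)) := by
  have hf := CfsgLib.SympTv29.sympForm_symplectic m F
  refine ⟨sympForm m F q p * sympForm m F p q, mul_ne_zero ?_ h, ?_, ?_⟩
  · rw [hf.skew q p]; exact neg_ne_zero.2 h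
  · rw [vvv, dp_form, dp_form]
  · rw [vvv, dp_form, dp_form, mul_comm]

theorem sp_comm {p q : Fin m ⊕ Fin m → F} (h : sympForm m F p q = 0) :
    vecMulVec p (J (Fin m) F *ᵥ p) * vecMulVec q (J (Fin m) F *ᵥ q) = vecMulVec q (J (Fin m) F *ᵥ q) * vecMulVec p (J (Fin m) F *ᵥ p) := by
  have hf := CfsgLib.SympTv29.sympForm_symplectic m F
  rw [vv, vv, dp_form, dp_form, h, hf.skew q p, h, neg_zero, zero_smul, zero_smul]

theorem rset_Sp : RSet F (iSp F m) (QSp F m) where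
  inj := fun _ _ h => Subtype.ext h
  sq := by
    rintro _ ⟨p, hp, rfl⟩
    have hf := CfsgLib.SympTv29.sympForm_symplectic m F
    rw [vv, dp_form, hf.alternating, zero_smul]
  ne := by
    rintro _ ⟨p, hp, rfl⟩
    exact sp_ne hp
  lift := by
    rintro _ ⟨p, hp, rfl⟩ c
    exact sp_lift p c
  conj := by
    rintro _ ⟨p, hp, rfl⟩ g
    have h1 : iSp F m g * iSp F m g⁻¹ = 1 := CfsgLib.H14TG.inv_one g
    have h2 : iSp F m g⁻¹ * iSp F m g = 1 := inv_one' g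
    have hg : (iSp F m g)ᵀ * J (Fin m) F * iSp F m g = J (Fin m) F := SymplecticGroup.mem_iff'.1 g.2
    have h3 : (iSp F m g⁻¹)ᵀ * J (Fin m) F = J (Fin m) F * iSp F m g := by
      calc (iSp F m g⁻¹)ᵀ * J (Fin m) F = (iSp F m g⁻¹)ᵀ * ((iSp F m g)ᵀ * J (Fin m) F * iSp F m g) := by rw [hg]
        _ = (iSp F m g * iSp F m g⁻¹)ᵀ * J (Fin m) F * iSp F m g := by
          rw [transpose_mul]; simp only [Matrix.mul_assoc]
        _ = _ := by rw [h1, transpose_one, Matrix.one_mul]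
    refine ⟨iSp F m g *ᵥ p, ?_, ?_⟩
    · intro h0
      apply hp
      have := congrArg (fun z => iSp F m g⁻¹ *ᵥ z) h0
      simpa [Matrix.mulVec_mulVec, h2] using this
    · rw [mul_vecMulVec, vecMulVec_mul]
      congr 1
      rw [← mulVec_transpose, mulVec_mulVec, h3, mulVec_mulVec]
  pair := by
    rintro _ ⟨p, hp, rfl⟩ _ ⟨q, hq, rfl⟩
    by_cases h : sympForm m F p q = 0
    · left; exact sp_comm h
    · right; left; exact sp_rel h

theorem gen_Sp : (⨆ A ∈ SS F (iSp F m) (QSp F m), A) = ⊤ := by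
  have hf := CfsgLib.SympTv29.sympForm_symplectic m F
  let Θ : ↥(symplecticGroup (Fin m) F) →* GL (Fin m ⊕ Fin m) F := MonoidHom.toHomUnits (iSp F m)
  have hΘ : ∀ g, ((Θ g : GL (Fin m ⊕ Fin m) F) : Matrix _ _ F) = iSp F m g := fun g => rfl
  set S := (⨆ A ∈ SS F (iSp F m) (QSp F m), A) with hS
  have h1 : CfsgLib.SympTv29.iso (sympForm m F) ≤ S.map Θ := by
    apply CfsgLib.SympTv29.iso_le hf
    intro v c
    obtain ⟨g, hg⟩ := sp_lift v c
    have hgt : Θ g = CfsgLib.SympTv29.st hf v c := by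
      apply Units.ext
      apply ext_mv
      intro x
      rw [CfsgLib.SympTv29.st_mulVec, hΘ, hg, tv_mv, dp_form]
    refine ⟨g, ?_, hgt⟩
    by_cases hv : v = 0
    · have : g = 1 := by
        apply rset_Sp.inj
        rw [hg, hv, zero_vecMulVec, smul_zero, add_zero, map_one]
      rw [this]; exact one_mem _
    · exact (le_iSup₂_of_le (f := fun (A : Subgroup ↥(symplecticGroup (Fin m) F)) (_ : A ∈ SS F (iSp F m) (QSp F m)) => A)
        _ ⟨_, ⟨v, hv, rfl⟩, rfl⟩ le_rfl) (Subgroup.subset_closure ⟨c, hg⟩)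
  rw [eq_top_iff]
  intro g _
  have h2 : Θ g ∈ CfsgLib.SympTv29.iso (sympForm m F) := by
    rw [CfsgLib.SympTv29.mem_iso]
    exact mem_sp.1 g.2
  obtain ⟨g', hg', he⟩ := h1 h2
  have : g' = g := rset_Sp.inj (by rw [← hΘ, ← hΘ, he])
  rw [← this]; exact hg'

theorem conn_Sp (s : Matrix (Fin m ⊕ Fin m) (Fin m ⊕ Fin m) F) (hs : s ∈ QSp F m) (t : Matrix (Fin m ⊕ Fin m) (Fin m ⊕ Fin m) F)
    (ht : t ∈ QSp F m) : Relation.ReflTransGen (fun x y => x ∈ QSp F m ∧ y ∈ QSp F m ∧ Rel F x y) s t := by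
  have hf := CfsgLib.SympTv29.sympForm_symplectic m F
  obtain ⟨p, hp, rfl⟩ := hs
  obtain ⟨q, hq, rfl⟩ := ht
  obtain ⟨w, h1, h2⟩ := CfsgLib.SympTv29.exists_both hf hp hq
  have hw : w ≠ 0 := by
    rintro rfl
    exact h1 (CfsgLib.SympTv29.zero_right hf p)
  exact (Relation.ReflTransGen.single ⟨⟨p, hp, rfl⟩, ⟨w, hw, rfl⟩, sp_rel h1⟩).tail ⟨⟨w, hw, rfl⟩, ⟨q, hq, rfl⟩,
    sp_rel (CfsgLib.SympTv29.swap_ne hf h2)⟩

theorem set_eq : {A : Subgroup ↥(Matrix.symplecticGroup (Fin m) F) | ∃ p : Fin m ⊕ Fin m → F, p ≠ 0 ∧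
        A = Subgroup.closure {g : ↥(Matrix.symplecticGroup (Fin m) F) | ∃ c : F, ∀ v : Fin m ⊕ Fin m → F,
          (g : Matrix (Fin m ⊕ Fin m) (Fin m ⊕ Fin m) F) *ᵥ v =
            v + (c * (v ⬝ᵥ (Matrix.J (Fin m) F *ᵥ p))) • p}} = SS F (iSp F m) (QSp F m) := by
  have h : ∀ p : Fin m ⊕ Fin m → F, Subgroup.closure {g : ↥(Matrix.symplecticGroup (Fin m) F) | ∃ c : F, ∀ v : Fin m ⊕ Fin m → F,
          (g : Matrix (Fin m ⊕ Fin m) (Fin m ⊕ Fin m) F) *ᵥ v =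
            v + (c * (v ⬝ᵥ (Matrix.J (Fin m) F *ᵥ p))) • p} = T F (iSp F m) (vecMulVec p (J (Fin m) F *ᵥ p)) := by
    intro p
    unfold T
    congr 1
    ext g
    apply exists_congr
    intro c
    show _ ↔ g.1 = _
    rw [tv_iff]
    simp only [dotProduct_comm (J (Fin m) F *ᵥ p)]
  ext A
  constructor
  · rintro ⟨p, hp, rfl⟩
    exact ⟨_, ⟨p, hp, rfl⟩, h p⟩
  · rintro ⟨_, ⟨p, hp, rfl⟩, rfl⟩
    exact ⟨p, hp, (h p).symm⟩

end sp



/-- Let F be a field, m a natural number and V = F^{2(m+1)} with the standard non-degenerate alternating form f(u, v) = uᵀ J v. For a non-zero vector p let T(p) be the group of symplectic transvections v ↦ v + c f(v, p) p, c ∈ F. Then the subgroups T(p), p ≠ 0, generate the symplectic group Sp_{2(m+1)}(F) and form a degenerate class of abstract F-root subgroups of it (any two of them either commute elementwise or are the unipotent subgroups of a rank one group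 that is an image of SL₂(F) with central kernel, never the commutator case), and their graph of rank one pairs is connected. -/
theorem result (F : Type*) [Field F] (m : ℕ) :
    Cfsg.IsRootSubgroupClass {A : Subgroup ↥(Matrix.symplecticGroup (Fin (m + 1)) F) | ∃ p : Fin (m + 1) ⊕ Fin (m + 1) → F, p ≠ 0 ∧
        A = Subgroup.closure {g : ↥(Matrix.symplecticGroup (Fin (m + 1)) F) | ∃ c : F, ∀ v : Fin (m + 1) ⊕ Fin (m + 1) → F,
          (g : Matrix (Fin (m + 1) ⊕ Fin (m + 1)) (Fin (m + 1) ⊕ Fin (m + 1)) F) *ᵥ v =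
            v + (c * (v ⬝ᵥ (Matrix.J (Fin (m + 1)) F *ᵥ p))) • p}} ∧
    Cfsg.IsDegenerateRootSet {A : Subgroup ↥(Matrix.symplecticGroup (Fin (m + 1)) F) | ∃ p : Fin (m + 1) ⊕ Fin (m + 1) → F, p ≠ 0 ∧
        A = Subgroup.closure {g : ↥(Matrix.symplecticGroup (Fin (m + 1)) F) | ∃ c : F, ∀ v : Fin (m + 1) ⊕ Fin (m + 1) → F,
          (g : Matrix (Fin (m + 1) ⊕ Fin (m + 1)) (Fin (m + 1) ⊕ Fin (m + 1)) F) *ᵥ v =
            v + (c * (v ⬝ᵥ (Matrix.J (Fin (m + 1)) F *ᵥ p))) • p}} ∧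
    Cfsg.IsKRootSubgroupSet F {A : Subgroup ↥(Matrix.symplecticGroup (Fin (m + 1)) F) | ∃ p : Fin (m + 1) ⊕ Fin (m + 1) → F, p ≠ 0 ∧
        A = Subgroup.closure {g : ↥(Matrix.symplecticGroup (Fin (m + 1)) F) | ∃ c : F, ∀ v : Fin (m + 1) ⊕ Fin (m + 1) → F,
          (g : Matrix (Fin (m + 1) ⊕ Fin (m + 1)) (Fin (m + 1) ⊕ Fin (m + 1)) F) *ᵥ v =
            v + (c * (v ⬝ᵥ (Matrix.J (Fin (m + 1)) F *ᵥ p))) • p}} ∧
    Cfsg.IsConnectedFamily (Cfsg.FAdj {A : Subgroup ↥(Matrix.symplecticGroup (Fin (m + 1)) F) | ∃ p : Fin (m + 1) ⊕ Fin (m + 1) → F, p ≠ 0 ∧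
        A = Subgroup.closure {g : ↥(Matrix.symplecticGroup (Fin (m + 1)) F) | ∃ c : F, ∀ v : Fin (m + 1) ⊕ Fin (m + 1) → F,
          (g : Matrix (Fin (m + 1) ⊕ Fin (m + 1)) (Fin (m + 1) ⊕ Fin (m + 1)) F) *ᵥ v =
            v + (c * (v ⬝ᵥ (Matrix.J (Fin (m + 1)) F *ᵥ p))) • p}})
      {A : Subgroup ↥(Matrix.symplecticGroup (Fin (m + 1)) F) | ∃ p : Fin (m + 1) ⊕ Fin (m + 1) → F, p ≠ 0 ∧
        A = Subgroup.closure {g : ↥(Matrix.symplecticGroup (Fin (m + 1)) F) | ∃ c : F, ∀ v : Fin (m + 1) ⊕ Fin (m + 1) → F,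
          (g : Matrix (Fin (m + 1) ⊕ Fin (m + 1)) (Fin (m + 1) ⊕ Fin (m + 1)) F) *ᵥ v =
            v + (c * (v ⬝ᵥ (Matrix.J (Fin (m + 1)) F *ᵥ p))) • p}} := by
  rw [set_eq]
  have hr := rset_Sp (F := F) (m := m + 1)
  have hc := hr.conn conn_Sp
  refine ⟨⟨hr.root gen_Sp, class_of_conn ?_ hc⟩, hr.degen gen_Sp ?_, hr.kroot gen_Sp, hc⟩
  · refine ⟨_, _, ⟨Pi.single (Sum.inl 0) 1, ?_, rfl⟩, rfl⟩
    intro h
    have := congrFun h (Sum.inl 0)
    simp at this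
  · rintro _ ⟨p, hp, rfl⟩ _ ⟨q, hq, rfl⟩
    by_cases h : sympForm (m + 1) F p q = 0
    · left; exact sp_comm h
    · right; exact sp_rel h

end Cfsg.Agent.S5070
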