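import Cfsg.Statements.S5071
import Cfsg.Agent.LibH14TGM
import Cfsg.Agent.LibH14TGR
import Cfsg.Agent.LibH22Un2


set_option autoImplicit false
open Matrix
open Cfsg

namespace Cfsg.Agent.S5071


open CfsgLib.H14TG CfsgLib.H14R1 CfsgLib.H14TGM CfsgLib.Un29
open Cfsg.Agent.H22 (suM su_ext suM_mul suM_one su_herm uTrans_mulVec skew_of_su exists_su_ut)

/-- the fixed field of an involution -/
theorem card_fix {F : Type*} [Field F] [Finite F] {σ : F ≃+* F} {a : F} (ha : a - σ a ≠ 0) (hsq : ∀ a, σ (σ a) = a) (F₀ : Subfield F)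
    (h : ∀ x, x ∈ F₀ ↔ σ x = x) : Nat.card F = Nat.card F₀ ^ 2 := by
  have hbij : Function.Bijective (fun p : F₀ × F₀ => (p.1 : F) + (p.2 : F) * a) := by
    constructor
    · rintro ⟨x, y⟩ ⟨x', y'⟩ hxy
      have hxy : (x : F) + y * a = x' + y' * a := hxy
      have h1 := congrArg σ hxy
      rw [map_add, map_add, map_mul, map_mul, (h _).1 x.2, (h _).1 y.2, (h _).1 x'.2, (h _).1 y'.2] at h1
      have h2 : ((y : F) - y') * (a - σ a) = 0 := by linear_combination hxy - h1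
      have h3 : (y : F) = y' := sub_eq_zero.1 ((mul_eq_zero.1 h2).resolve_right ha)
      have h4 : (x : F) = x' := by rw [h3] at hxy; exact add_right_cancel hxy
      exact Prod.ext (Subtype.ext h4) (Subtype.ext h3)
    · intro x
      have hy : (x - σ x) / (a - σ a) ∈ F₀ := by
        rw [h, map_div₀, map_sub, map_sub, hsq, hsq]
        rw [← neg_sub x (σ x), ← neg_sub a (σ a), neg_div_neg_eq]
      have hx : x - (x - σ x) / (a - σ a) * a ∈ F₀ := by
        rw [h, map_sub, map_mul, (h _).1 hy]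
        field_simp
        ring
      refine ⟨⟨⟨_, hx⟩, ⟨_, hy⟩⟩, ?_⟩
      change x - (x - σ x) / (a - σ a) * a + (x - σ x) / (a - σ a) * a = x
      ring
  rw [← Nat.card_congr (Equiv.ofBijective _ hbij), Nat.card_prod, sq]

section su
variable {F : Type*} [Field F] {q N : ℕ}

/-- inclusion -/
def iSU (F : Type*) [Field F] (q N : ℕ) : ↥(Cfsg.SU N F q) →* Matrix (Fin N) (Fin N) F where
  toFun g := suM g
  map_one' := rfl
  map_mul' _ _ := rfl

/-- the linear functional `δ h(·, p)` -/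
def ff (q : ℕ) (δ : F) (p : Fin N → F) : Fin N → F := fun j => δ * (p j) ^ q

theorem ff_dp (δ : F) (p v : Fin N → F) : ff q δ p ⬝ᵥ v = δ * hermForm N F q v p := by
  unfold ff hermForm dotProduct
  rw [Finset.mul_sum]
  exact Finset.sum_congr rfl fun i _ => by ring

/-- the root elements -/
def QSU (F : Type*) [Field F] (q N : ℕ) (δ : F) : Set (Matrix (Fin N) (Fin N) F) :=
  {s | ∃ p : Fin N → F, p ≠ 0 ∧ hermForm N F q p p = 0 ∧ s = vecMulVec p (ff q δ p)}

theorem uT_eq (δ c : F) (p : Fin N → F) : unitaryTransvection N q p (c * δ) = 1 + c • vecMulVec p (ff q δ p) := by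
  apply ext_mv
  intro v
  rw [uTrans_mulVec, tv_mv, ff_dp, mul_assoc]

theorem dp_ext {f g : Fin N → F} (h : ∀ v, f ⬝ᵥ v = g ⬝ᵥ v) : f = g := by
  funext i
  simpa using h (Pi.single i 1)

variable {σ : F ≃+* F} (hσ : ∀ x, σ x = x ^ q) (hf : Geo.IsUnitaryForm σ (hermForm N F q)) {δ : F} (hδ : δ ≠ 0)
  (hδσ : σ δ = -δ)
variable {L : Type} [Field L] [Algebra L F] (hL : ∀ x : F, σ x = x ↔ ∃ a : L, algebraMap L F a = x)

theorem lsmul (a : L) (M : Matrix (Fin N) (Fin N) F) : a • M = (algebraMap L F a) • M := by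
  rw [algebraMap_smul]

include hf in
theorem ff_ne (hδ : δ ≠ 0) {p : Fin N → F} (hp : p ≠ 0) : ff q δ p ≠ 0 := by
  intro h
  obtain ⟨⟨x, hx⟩, -⟩ := hf.nondegenerate p hp
  have := ff_dp (q := q) δ p x
  rw [h, zero_dotProduct] at this
  exact mul_ne_zero hδ hx this.symm

include hf hδσ hL in
theorem su_lift {p : Fin N → F} (hpp : hermForm N F q p p = 0) (a : L) :
    ∃ g, iSU F q N g = 1 + a • vecMulVec p (ff q δ p) := by
  have ha : σ (algebraMap L F a) = algebraMap L F a := (hL _).2 ⟨a, rfl⟩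
  obtain ⟨g, hg⟩ := exists_su_ut hf hpp (c := algebraMap L F a * δ) (by rw [map_mul, ha, hδσ]; ring)
  exact ⟨g, by rw [lsmul, ← uT_eq]; exact hg⟩

include hf hδ hδσ hL in
theorem su_rel {p r : Fin N → F} (h : hermForm N F q p r ≠ 0) :
    Rel L (vecMulVec p (ff q δ p)) (vecMulVec r (ff q δ r)) := by
  have h' : hermForm N F q r p ≠ 0 := swap_ne hf h
  obtain ⟨a, ha⟩ := (hL ((δ * hermForm N F q r p) * (δ * hermForm N F q p r))).1 (by
    rw [map_mul, map_mul, map_mul, hδσ, ← hf.herm, ← hf.herm]; ring)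
  refine ⟨a, ?_, ?_, ?_⟩
  · rintro rfl
    rw [map_zero] at ha
    exact mul_ne_zero (mul_ne_zero hδ h') (mul_ne_zero hδ h) ha.symm
  · rw [vvv, ff_dp, ff_dp, lsmul, ha]
  · rw [vvv, ff_dp, ff_dp, lsmul, ha, mul_comm]

include hf in
theorem su_comm {p r : Fin N → F} (h : hermForm N F q p r = 0) :
    vecMulVec p (ff q δ p) * vecMulVec r (ff q δ r) = vecMulVec r (ff q δ r) * vecMulVec p (ff q δ p) := by
  rw [vv, vv, ff_dp, ff_dp, h, swap_eq hf h, mul_zero, zero_smul, zero_smul]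

include hf hδ hδσ hL in
theorem rset_SU : RSet L (iSU F q N) (QSU F q N δ) where
  inj := fun _ _ h => su_ext h
  sq := by
    rintro _ ⟨p, hp, hpp, rfl⟩
    rw [vv, ff_dp, hpp, mul_zero, zero_smul]
  ne := by
    rintro _ ⟨p, hp, hpp, rfl⟩
    exact vecMulVec_ne_zero hp (ff_ne hf hδ hp)
  lift := by
    rintro _ ⟨p, hp, hpp, rfl⟩ c
    exact su_lift hf hδσ hL hpp c
  conj := by
    rintro _ ⟨p, hp, hpp, rfl⟩ g
    have h1 : iSU F q N g * iSU F q N g⁻¹ = 1 := CfsgLib.H14TG.inv_one g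
    have h2 : iSU F q N g⁻¹ * iSU F q N g = 1 := inv_one' g
    refine ⟨iSU F q N g *ᵥ p, ?_, ?_, ?_⟩
    · intro h0
      apply hp
      have := congrArg (fun z => iSU F q N g⁻¹ *ᵥ z) h0
      simpa [Matrix.mulVec_mulVec, h2] using this
    · rw [← hpp]; exact su_herm g p p
    · rw [mul_vecMulVec, vecMulVec_mul]
      congr 1
      apply dp_ext
      intro v
      rw [← dotProduct_mulVec, ff_dp, ff_dp]
      congr 1
      have h3 := su_herm g (iSU F q N g⁻¹ *ᵥ v) p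
      rw [← h3]
      show hermForm N F q (iSU F q N g *ᵥ (iSU F q N g⁻¹ *ᵥ v)) _ = _
      rw [mulVec_mulVec, h1, one_mulVec]; rfl
  pair := by
    rintro _ ⟨p, hp, hpp, rfl⟩ _ ⟨r, hr, hrr, rfl⟩
    by_cases h : hermForm N F q p r = 0
    · left; exact su_comm hf h
    · right; left; exact su_rel hf hδ hδσ hL h

include hf hδ hδσ hL in
theorem conn_SU (s : Matrix (Fin N) (Fin N) F) (hs : s ∈ QSU F q N δ) (t : Matrix (Fin N) (Fin N) F)
    (ht : t ∈ QSU F q N δ) : Relation.ReflTransGen (fun x y => x ∈ QSU F q N δ ∧ y ∈ QSU F q N δ ∧ Rel L x y) s t := by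
  obtain ⟨p, hp, hpp, rfl⟩ := hs
  obtain ⟨r, hr, hrr, rfl⟩ := ht
  by_cases hpr : hermForm N F q p r = 0
  · have hz : ∃ z, hermForm N F q z p ≠ 0 ∧ hermForm N F q z r ≠ 0 := by
      obtain ⟨⟨z1, h1⟩, -⟩ := hf.nondegenerate p hp
      obtain ⟨⟨z2, h2⟩, -⟩ := hf.nondegenerate r hr
      by_cases hb1 : hermForm N F q z1 r = 0
      · by_cases ha2 : hermForm N F q z2 p = 0
        · exact ⟨z1 + z2, by rw [hf.add_left, ha2, add_zero]; exact h1, by rw [hf.add_left, hb1, zero_add]; exact h2⟩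
        · exact ⟨z2, ha2, h2⟩
      · exact ⟨z1, h1, hb1⟩
    obtain ⟨z, hzp, hzr⟩ := hz
    have hpz := swap_ne hf hzp
    obtain ⟨t, ht⟩ := exists_trace hf (- hermForm N F q z z) (by rw [map_neg, norm_real hf])
    set a := t / hermForm N F q p z with ha
    have hat : a * hermForm N F q p z = t := by rw [ha]; field_simp
    set w := z + a • p with hw
    have hww : hermForm N F q w w = 0 := by
      have e1 : hermForm N F q w w = hermForm N F q z z + (a * hermForm N F q p z + σ (a * hermForm N F q p z)) + a * σ a * hermForm N F q p p := by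
        rw [hw]
        simp only [hf.add_left, add_right hf, hf.smul_left, smul_right hf, map_mul]
        rw [← hf.herm z p]
        ring
      rw [e1, hat, hpp, ht]; ring
    have hwp : hermForm N F q p w ≠ 0 := by
      rw [hw, add_right hf, smul_right hf, hpp, mul_zero, add_zero]; exact hpz
    have hwr : hermForm N F q w r ≠ 0 := by
      rw [hw, hf.add_left, hf.smul_left, hpr, mul_zero, add_zero]; exact hzr
    have hw0 : w ≠ 0 := by
      intro h0
      rw [h0] at hwr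
      exact hwr (CfsgLib.Un29.zero_left hf r)
    exact (Relation.ReflTransGen.single ⟨⟨p, hp, hpp, rfl⟩, ⟨w, hw0, hww, rfl⟩, su_rel hf hδ hδσ hL hwp⟩).tail
      ⟨⟨w, hw0, hww, rfl⟩, ⟨r, hr, hrr, rfl⟩, su_rel hf hδ hδσ hL hwr⟩
  · exact Relation.ReflTransGen.single ⟨⟨p, hp, hpp, rfl⟩, ⟨r, hr, hrr, rfl⟩, su_rel hf hδ hδσ hL hpr⟩

include hσ hf hδ hδσ hL in
theorem set_eq [Fintype F] : {A : Subgroup ↥(Cfsg.SU N F q) | ∃ p : Fin N → F, p ≠ 0 ∧ Cfsg.hermForm N F q p p = 0 ∧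
          A = Subgroup.closure {g : ↥(Cfsg.SU N F q) |
            (∀ v : Fin N → F, ∃ c : F, ((g : Matrix.SpecialLinearGroup (Fin N) F) : Matrix (Fin N) (Fin N) F) *ᵥ v = v + c • p) ∧
            ∀ v : Fin N → F, Cfsg.hermForm N F q v p = 0 →
              ((g : Matrix.SpecialLinearGroup (Fin N) F) : Matrix (Fin N) (Fin N) F) *ᵥ v = v}} =
    SS L (iSU F q N) (QSU F q N δ) := by
  have h : ∀ p : Fin N → F, p ≠ 0 → hermForm N F q p p = 0 → Subgroup.closure {g : ↥(Cfsg.SU N F q) |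
            (∀ v : Fin N → F, ∃ c : F, ((g : Matrix.SpecialLinearGroup (Fin N) F) : Matrix (Fin N) (Fin N) F) *ᵥ v = v + c • p) ∧
            ∀ v : Fin N → F, Cfsg.hermForm N F q v p = 0 →
              ((g : Matrix.SpecialLinearGroup (Fin N) F) : Matrix (Fin N) (Fin N) F) *ᵥ v = v} =
      T L (iSU F q N) (vecMulVec p (ff q δ p)) := by
    intro p hp hpp
    unfold T
    congr 1
    ext g
    constructor
    · rintro ⟨h1, h2⟩
      change ∀ v, ∃ c : F, suM g *ᵥ v = v + c • p at h1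
      change ∀ v, hermForm N F q v p = 0 → suM g *ᵥ v = v at h2
      obtain ⟨⟨v1, hv1⟩, -⟩ := hf.nondegenerate p hp
      set v0 := (hermForm N F q v1 p)⁻¹ • v1 with hv0
      have hv01 : hermForm N F q v0 p = 1 := by rw [hv0, hf.smul_left, inv_mul_cancel₀ hv1]
      obtain ⟨c0, hc0⟩ := h1 v0
      have h3 : suM g = unitaryTransvection N q p c0 := by
        apply ext_mv
        intro v
        have h4 := h2 (v - hermForm N F q v p • v0) (by rw [sub_left hf, hf.smul_left, hv01, mul_one, sub_self])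
        rw [mulVec_sub, mulVec_smul, hc0] at h4
        rw [uTrans_mulVec]
        have h5 : suM g *ᵥ v = v - hermForm N F q v p • v0 + hermForm N F q v p • (v0 + c0 • p) := by rw [← h4]; abel
        rw [h5]; module
      have h6 : σ c0 = -c0 := skew_of_su hσ hf hp hpp h3
      obtain ⟨a, ha⟩ := (hL (c0 / δ)).1 (by rw [map_div₀, h6, hδσ, neg_div_neg_eq])
      refine ⟨a, ?_⟩
      rw [lsmul, ha, ← uT_eq, div_mul_cancel₀ _ hδ]
      exact h3
    · rintro ⟨a, ha⟩
      rw [lsmul] at ha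
      change suM g = _ at ha
      constructor
      · intro v
        refine ⟨algebraMap L F a * (ff q δ p ⬝ᵥ v), ?_⟩
        change suM g *ᵥ v = _
        rw [ha, tv_mv]
      · intro v hv
        change suM g *ᵥ v = _
        rw [ha, tv_mv, ff_dp, hv, mul_zero, mul_zero, zero_smul, add_zero]
  ext A
  constructor
  · rintro ⟨p, hp, hpp, rfl⟩
    exact ⟨_, ⟨p, hp, hpp, rfl⟩, h p hp hpp⟩
  · rintro ⟨_, ⟨p, hp, hpp, rfl⟩, rfl⟩
    exact ⟨p, hp, hpp, (h p hp hpp).symm⟩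

end su

theorem ex_iso {F : Type*} [Field F] [Finite F] {q n : ℕ} {σ : F ≃+* F} (hσ : ∀ x, σ x = x ^ q)
    (hf : Geo.IsUnitaryForm σ (hermForm (n + 2) F q)) : ∃ p : Fin (n + 2) → F, p ≠ 0 ∧ hermForm (n + 2) F q p p = 0 := by
  obtain ⟨y, hy⟩ := exists_norm hf (-1) (by rw [map_neg, map_one])
  have hq : q ≠ 0 := by
    rintro rfl
    have := hσ 0
    simp at this
  have h00 : hermForm (n + 2) F q (Pi.single 0 1) (Pi.single 0 1) = 1 := by
    unfold hermForm
    rw [Finset.sum_eq_single_of_mem 0 (Finset.mem_univ _)]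
    · simp
    · intro b _ hb; simp [hb]
  have h11 : hermForm (n + 2) F q (Pi.single 1 1) (Pi.single 1 1) = 1 := by
    unfold hermForm
    rw [Finset.sum_eq_single_of_mem 1 (Finset.mem_univ _)]
    · simp
    · intro b _ hb; simp [hb]
  have h01 : hermForm (n + 2) F q (Pi.single 0 1) (Pi.single 1 1) = 0 := by
    unfold hermForm
    rw [Finset.sum_eq_single_of_mem 0 (Finset.mem_univ _)]
    · simp [hq]
    · intro b _ hb; simp [hb]
  have h10 := swap_eq hf h01
  refine ⟨Pi.single 0 1 + y • Pi.single 1 1, ?_, ?_⟩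
  · intro h
    have := congrFun h 0
    simp at this
  · simp only [hf.add_left, add_right hf, hf.smul_left, smul_right hf, h00, h11, h01, h10]
    linear_combination hy



/-- Let F be a finite field with q² elements, n a natural number, and h the Hermitian form Σ uᵢ vᵢ^q on F^{n+2}. For a non-zero isotropic vector p let T(p) be the group of unitary transvections with centre ⟨p⟩: the elements of SU_{n+2}(q) moving every vector by a multiple of p and fixing every vector perpendicular to p. Let Σ be the set of these T(p) and G₀ the subgroup they generate. Then, viewed inside G₀, the members of Σ form a degenerate class of abstract k-root subgroups of G₀ for some field k with q elements (any two commute or are the unipotent subgroups of a rank one group that is an image of SL₂(k) with central kernel, never the commutator case), and their graph of rank one pairs is connected. -/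
theorem result (F : Type*) [Field F] [Fintype F] (q n : ℕ) (hF : Fintype.card F = q ^ 2) :
    Cfsg.IsRootSubgroupClass ((fun A : Subgroup ↥(Cfsg.SU (n + 2) F q) => A.subgroupOf (⨆ B ∈ {A : Subgroup ↥(Cfsg.SU (n + 2) F q) | ∃ p : Fin (n + 2) → F, p ≠ 0 ∧ Cfsg.hermForm (n + 2) F q p p = 0 ∧
          A = Subgroup.closure {g : ↥(Cfsg.SU (n + 2) F q) |
            (∀ v : Fin (n + 2) → F, ∃ c : F, ((g : Matrix.SpecialLinearGroup (Fin (n + 2)) F) : Matrix (Fin (n + 2)) (Fin (n + 2)) F) *ᵥ v = v + c • p) ∧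
            ∀ v : Fin (n + 2) → F, Cfsg.hermForm (n + 2) F q v p = 0 →
              ((g : Matrix.SpecialLinearGroup (Fin (n + 2)) F) : Matrix (Fin (n + 2)) (Fin (n + 2)) F) *ᵥ v = v}}, B)) ''
      {A : Subgroup ↥(Cfsg.SU (n + 2) F q) | ∃ p : Fin (n + 2) → F, p ≠ 0 ∧ Cfsg.hermForm (n + 2) F q p p = 0 ∧
          A = Subgroup.closure {g : ↥(Cfsg.SU (n + 2) F q) |
            (∀ v : Fin (n + 2) → F, ∃ c : F, ((g : Matrix.SpecialLinearGroup (Fin (n + 2)) F) : Matrix (Fin (n + 2)) (Fin (n + 2)) F) *ᵥ v = v + c • p) ∧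
            ∀ v : Fin (n + 2) → F, Cfsg.hermForm (n + 2) F q v p = 0 →
              ((g : Matrix.SpecialLinearGroup (Fin (n + 2)) F) : Matrix (Fin (n + 2)) (Fin (n + 2)) F) *ᵥ v = v}}) ∧
    Cfsg.IsDegenerateRootSet ((fun A : Subgroup ↥(Cfsg.SU (n + 2) F q) => A.subgroupOf (⨆ B ∈ {A : Subgroup ↥(Cfsg.SU (n + 2) F q) | ∃ p : Fin (n + 2) → F, p ≠ 0 ∧ Cfsg.hermForm (n + 2) F q p p = 0 ∧
          A = Subgroup.closure {g : ↥(Cfsg.SU (n + 2) F q) |
            (∀ v : Fin (n + 2) → F, ∃ c : F, ((g : Matrix.SpecialLinearGroup (Fin (n + 2)) F) : Matrix (Fin (n + 2)) (Fin (n + 2)) F) *ᵥ v = v + c • p) ∧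
            ∀ v : Fin (n + 2) → F, Cfsg.hermForm (n + 2) F q v p = 0 →
              ((g : Matrix.SpecialLinearGroup (Fin (n + 2)) F) : Matrix (Fin (n + 2)) (Fin (n + 2)) F) *ᵥ v = v}}, B)) ''
      {A : Subgroup ↥(Cfsg.SU (n + 2) F q) | ∃ p : Fin (n + 2) → F, p ≠ 0 ∧ Cfsg.hermForm (n + 2) F q p p = 0 ∧
          A = Subgroup.closure {g : ↥(Cfsg.SU (n + 2) F q) |
            (∀ v : Fin (n + 2) → F, ∃ c : F, ((g : Matrix.SpecialLinearGroup (Fin (n + 2)) F) : Matrix (Fin (n + 2)) (Fin (n + 2)) F) *ᵥ v = v + c • p) ∧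
            ∀ v : Fin (n + 2) → F, Cfsg.hermForm (n + 2) F q v p = 0 →
              ((g : Matrix.SpecialLinearGroup (Fin (n + 2)) F) : Matrix (Fin (n + 2)) (Fin (n + 2)) F) *ᵥ v = v}}) ∧
    (∃ (L : Type) (_ : Field L) (_ : Fintype L), Fintype.card L = q ∧ Cfsg.IsKRootSubgroupSet L ((fun A : Subgroup ↥(Cfsg.SU (n + 2) F q) => A.subgroupOf (⨆ B ∈ {A : Subgroup ↥(Cfsg.SU (n + 2) F q) | ∃ p : Fin (n + 2) → F, p ≠ 0 ∧ Cfsg.hermForm (n + 2) F q p p = 0 ∧
          A = Subgroup.closure {g : ↥(Cfsg.SU (n + 2) F q) |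
            (∀ v : Fin (n + 2) → F, ∃ c : F, ((g : Matrix.SpecialLinearGroup (Fin (n + 2)) F) : Matrix (Fin (n + 2)) (Fin (n + 2)) F) *ᵥ v = v + c • p) ∧
            ∀ v : Fin (n + 2) → F, Cfsg.hermForm (n + 2) F q v p = 0 →
              ((g : Matrix.SpecialLinearGroup (Fin (n + 2)) F) : Matrix (Fin (n + 2)) (Fin (n + 2)) F) *ᵥ v = v}}, B)) ''
      {A : Subgroup ↥(Cfsg.SU (n + 2) F q) | ∃ p : Fin (n + 2) → F, p ≠ 0 ∧ Cfsg.hermForm (n + 2) F q p p = 0 ∧
          A = Subgroup.closure {g : ↥(Cfsg.SU (n + 2) F q) |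
            (∀ v : Fin (n + 2) → F, ∃ c : F, ((g : Matrix.SpecialLinearGroup (Fin (n + 2)) F) : Matrix (Fin (n + 2)) (Fin (n + 2)) F) *ᵥ v = v + c • p) ∧
            ∀ v : Fin (n + 2) → F, Cfsg.hermForm (n + 2) F q v p = 0 →
              ((g : Matrix.SpecialLinearGroup (Fin (n + 2)) F) : Matrix (Fin (n + 2)) (Fin (n + 2)) F) *ᵥ v = v}})) ∧
    Cfsg.IsConnectedFamily (Cfsg.FAdj ((fun A : Subgroup ↥(Cfsg.SU (n + 2) F q) => A.subgroupOf (⨆ B ∈ {A : Subgroup ↥(Cfsg.SU (n + 2) F q) | ∃ p : Fin (n + 2) → F, p ≠ 0 ∧ Cfsg.hermForm (n + 2) F q p p = 0 ∧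
          A = Subgroup.closure {g : ↥(Cfsg.SU (n + 2) F q) |
            (∀ v : Fin (n + 2) → F, ∃ c : F, ((g : Matrix.SpecialLinearGroup (Fin (n + 2)) F) : Matrix (Fin (n + 2)) (Fin (n + 2)) F) *ᵥ v = v + c • p) ∧
            ∀ v : Fin (n + 2) → F, Cfsg.hermForm (n + 2) F q v p = 0 →
              ((g : Matrix.SpecialLinearGroup (Fin (n + 2)) F) : Matrix (Fin (n + 2)) (Fin (n + 2)) F) *ᵥ v = v}}, B)) ''
      {A : Subgroup ↥(Cfsg.SU (n + 2) F q) | ∃ p : Fin (n + 2) → F, p ≠ 0 ∧ Cfsg.hermForm (n + 2) F q p p = 0 ∧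
          A = Subgroup.closure {g : ↥(Cfsg.SU (n + 2) F q) |
            (∀ v : Fin (n + 2) → F, ∃ c : F, ((g : Matrix.SpecialLinearGroup (Fin (n + 2)) F) : Matrix (Fin (n + 2)) (Fin (n + 2)) F) *ᵥ v = v + c • p) ∧
            ∀ v : Fin (n + 2) → F, Cfsg.hermForm (n + 2) F q v p = 0 →
              ((g : Matrix.SpecialLinearGroup (Fin (n + 2)) F) : Matrix (Fin (n + 2)) (Fin (n + 2)) F) *ᵥ v = v}})) ((fun A : Subgroup ↥(Cfsg.SU (n + 2) F q) => A.subgroupOf (⨆ B ∈ {A : Subgroup ↥(Cfsg.SU (n + 2) F q) | ∃ p : Fin (n + 2) → F, p ≠ 0 ∧ Cfsg.hermForm (n + 2) F q p p = 0 ∧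
          A = Subgroup.closure {g : ↥(Cfsg.SU (n + 2) F q) |
            (∀ v : Fin (n + 2) → F, ∃ c : F, ((g : Matrix.SpecialLinearGroup (Fin (n + 2)) F) : Matrix (Fin (n + 2)) (Fin (n + 2)) F) *ᵥ v = v + c • p) ∧
            ∀ v : Fin (n + 2) → F, Cfsg.hermForm (n + 2) F q v p = 0 →
              ((g : Matrix.SpecialLinearGroup (Fin (n + 2)) F) : Matrix (Fin (n + 2)) (Fin (n + 2)) F) *ᵥ v = v}}, B)) ''
      {A : Subgroup ↥(Cfsg.SU (n + 2) F q) | ∃ p : Fin (n + 2) → F, p ≠ 0 ∧ Cfsg.hermForm (n + 2) F q p p = 0 ∧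
          A = Subgroup.closure {g : ↥(Cfsg.SU (n + 2) F q) |
            (∀ v : Fin (n + 2) → F, ∃ c : F, ((g : Matrix.SpecialLinearGroup (Fin (n + 2)) F) : Matrix (Fin (n + 2)) (Fin (n + 2)) F) *ᵥ v = v + c • p) ∧
            ∀ v : Fin (n + 2) → F, Cfsg.hermForm (n + 2) F q v p = 0 →
              ((g : Matrix.SpecialLinearGroup (Fin (n + 2)) F) : Matrix (Fin (n + 2)) (Fin (n + 2)) F) *ᵥ v = v}}) := by
  obtain ⟨σ, hσ, hf⟩ := hermForm_unitary (F := F) (n + 2) hF
  obtain ⟨δ, hδ, hδσ⟩ := exists_skew hf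
  let K₀ : Subfield F := RingHom.eqLocusField (σ : F →+* F) (RingHom.id F)
  have hK : ∀ x, x ∈ K₀ ↔ σ x = x := fun x => Iff.rfl
  obtain ⟨b, hb⟩ := exists_moved hf
  have hcK : Nat.card F = Nat.card K₀ ^ 2 := card_fix (σ := σ) (a := b) (sub_ne_zero.2 (Ne.symm hb)) hf.involutive K₀ hK
  haveI : Small.{0} K₀ := Countable.toSmall _
  let L : Type := Shrink.{0} K₀
  let e : L ≃+* K₀ := Shrink.ringEquiv K₀
  letI : Algebra L F := (K₀.subtype.comp e.toRingHom).toAlgebra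
  have hL : ∀ x : F, σ x = x ↔ ∃ a : L, algebraMap L F a = x := by
    intro x
    constructor
    · intro hx
      refine ⟨e.symm ⟨x, (hK x).2 hx⟩, ?_⟩
      show ((e (e.symm ⟨x, _⟩) : K₀) : F) = x
      rw [e.apply_symm_apply]
    · rintro ⟨a, rfl⟩
      exact (hK _).1 (e a).2
  haveI : Finite K₀ := inferInstance
  haveI : Finite L := Finite.of_equiv _ e.symm.toEquiv
  letI : Fintype L := Fintype.ofFinite L
  have hcL : Fintype.card L = q := by
    rw [← Nat.card_eq_fintype_card, Nat.card_congr e.toEquiv]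
    rw [Nat.card_eq_fintype_card, hF] at hcK
    exact (Nat.pow_left_injective (n := 2) (by norm_num) hcK).symm
  have hr := rset_SU (N := n + 2) hf hδ hδσ hL
  have hc := conn_SU (N := n + 2) hf hδ hδσ hL
  rw [set_eq hσ hf hδ hδσ hL, hr.res_img]
  have hr' := hr.res
  have hgen := hr.res_gen
  have hc' := hr'.conn hc
  refine ⟨⟨hr'.root hgen, class_of_conn ?_ hc'⟩, hr'.degen hgen ?_, ⟨L, inferInstance, inferInstance, hcL, hr'.kroot hgen⟩, hc'⟩
  · obtain ⟨p, hp, hpp⟩ := ex_iso hσ hf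
    exact ⟨_, _, ⟨p, hp, hpp, rfl⟩, rfl⟩
  · rintro _ ⟨p, hp, hpp, rfl⟩ _ ⟨r, hr, hrr, rfl⟩
    by_cases h : hermForm (n + 2) F q p r = 0
    · left; exact su_comm hf h
    · right; exact su_rel hf hδ hδσ hL h

end Cfsg.Agent.S5071
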