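import Cfsg.Statements.S5072
import Cfsg.Agent.LibH14TGM
import Cfsg.Agent.LibH14TGR


set_option autoImplicit false
open Matrix
open Cfsg

namespace Cfsg.Agent.S5072


open CfsgLib.H14TG CfsgLib.H14R1 CfsgLib.H14TGM

section orth
variable {F : Type*} [Field F] {n : ℕ}

local notation "qq" => quadFormPlus n F

/-- swap of the two halves -/
def sw (u : Fin n ⊕ Fin n → F) : Fin n ⊕ Fin n → F := Sum.elim (fun i => u (.inr i)) (fun i => u (.inl i))

/-- polar form -/
def bb (u v : Fin n ⊕ Fin n → F) : F := sw u ⬝ᵥ v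

theorem bb_eq (u v : Fin n ⊕ Fin n → F) : bb u v = ∑ i, (u (.inl i) * v (.inr i) + u (.inr i) * v (.inl i)) := by
  unfold bb dotProduct sw
  rw [Fintype.sum_sum_type, add_comm, ← Finset.sum_add_distrib]
  rfl

theorem bb_symm (u v : Fin n ⊕ Fin n → F) : bb u v = bb v u := by
  rw [bb_eq, bb_eq]
  exact Finset.sum_congr rfl fun i _ => by ring

theorem bb_add_r (u v w : Fin n ⊕ Fin n → F) : bb u (v + w) = bb u v + bb u w := dotProduct_add _ _ _
theorem bb_sub_r (u v w : Fin n ⊕ Fin n → F) : bb u (v - w) = bb u v - bb u w := dotProduct_sub _ _ _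
theorem bb_smul_r (c : F) (u v : Fin n ⊕ Fin n → F) : bb u (c • v) = c * bb u v := dotProduct_smul _ _ _
theorem bb_add_l (u v w : Fin n ⊕ Fin n → F) : bb (v + w) u = bb v u + bb w u := by
  rw [bb_symm, bb_add_r, bb_symm u v, bb_symm u w]
theorem bb_sub_l (u v w : Fin n ⊕ Fin n → F) : bb (v - w) u = bb v u - bb w u := by
  rw [bb_symm, bb_sub_r, bb_symm u v, bb_symm u w]
theorem bb_smul_l (c : F) (u v : Fin n ⊕ Fin n → F) : bb (c • v) u = c * bb v u := by
  rw [bb_symm, bb_smul_r, bb_symm u v]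
theorem bb_zero_l (v : Fin n ⊕ Fin n → F) : bb 0 v = 0 := by
  have := bb_smul_l 0 v 0
  rwa [zero_smul, zero_mul] at this

theorem q_add (u v : Fin n ⊕ Fin n → F) : qq (u + v) = qq u + qq v + bb u v := by
  rw [bb_eq]
  unfold quadFormPlus
  rw [← Finset.sum_add_distrib, ← Finset.sum_add_distrib]
  exact Finset.sum_congr rfl fun i _ => by simp only [Pi.add_apply]; ring

theorem q_smul (c : F) (v : Fin n ⊕ Fin n → F) : qq (c • v) = c ^ 2 * qq v := by
  unfold quadFormPlus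
  rw [Finset.mul_sum]
  exact Finset.sum_congr rfl fun i _ => by simp only [Pi.smul_apply, smul_eq_mul]; ring

theorem bb_self (v : Fin n ⊕ Fin n → F) : bb v v = 2 * qq v := by
  rw [bb_eq]
  unfold quadFormPlus
  rw [Finset.mul_sum]
  exact Finset.sum_congr rfl fun i _ => by ring

theorem bb_self0 {v : Fin n ⊕ Fin n → F} (h : qq v = 0) : bb v v = 0 := by rw [bb_self, h, mul_zero]

theorem polar_eq (u v : Fin n ⊕ Fin n → F) : qq (u + v) - qq u - qq v = bb u v := by rw [q_add]; ring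

theorem bb_nd {u : Fin n ⊕ Fin n → F} (h : ∀ v, bb u v = 0) : u = 0 := by
  funext j
  rcases j with i | i
  · have := h (Pi.single (.inr i) 1)
    unfold bb sw at this
    simpa using this
  · have := h (Pi.single (.inl i) 1)
    unfold bb sw at this
    simpa using this

theorem bb_ext {x y : Fin n ⊕ Fin n → F} (h : ∀ v, bb x v = bb y v) : x = y := by
  rw [← sub_eq_zero]
  apply bb_nd
  intro v
  rw [bb_sub_l, h, sub_self]

theorem ex_bb {u : Fin n ⊕ Fin n → F} (h : u ≠ 0) : ∃ v, bb u v = 1 := by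
  by_contra hc
  push Not at hc
  apply h
  apply bb_nd
  intro v
  by_contra hv
  apply hc ((bb u v)⁻¹ • v)
  rw [bb_smul_r, inv_mul_cancel₀ hv]

/-- the root element -/
def sg (p r : Fin n ⊕ Fin n → F) : Matrix (Fin n ⊕ Fin n) (Fin n ⊕ Fin n) F := vecMulVec p (sw r) - vecMulVec r (sw p)

theorem sg_mv (p r v : Fin n ⊕ Fin n → F) : sg p r *ᵥ v = bb r v • p - bb p v • r := by
  unfold sg bb
  rw [sub_mulVec, vecMulVec_mulVec, vecMulVec_mulVec, op_smul_eq_smul, op_smul_eq_smul]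

/-- singular lines -/
structure SL (p r : Fin n ⊕ Fin n → F) : Prop where
  li : LinearIndependent F ![p, r]
  hp : qq p = 0
  hr : qq r = 0
  hpr : bb p r = 0

theorem SL.hrp {p r : Fin n ⊕ Fin n → F} (h : SL p r) : bb r p = 0 := by rw [bb_symm]; exact h.hpr

theorem sg_p {p r : Fin n ⊕ Fin n → F} (hp : qq p = 0) (hpr : bb p r = 0) : sg p r *ᵥ p = 0 := by
  rw [sg_mv, bb_self0 hp, bb_symm r p, hpr, zero_smul, zero_smul, sub_zero]

theorem sg_r {p r : Fin n ⊕ Fin n → F} (hr : qq r = 0) (hpr : bb p r = 0) : sg p r *ᵥ r = 0 := by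
  rw [sg_mv, bb_self0 hr, hpr, zero_smul, zero_smul, sub_zero]

theorem sg_sq {p r : Fin n ⊕ Fin n → F} (h : SL p r) : sg p r * sg p r = 0 := by
  apply ext_mv
  intro v
  rw [← mulVec_mulVec, sg_mv p r v, mulVec_sub, mulVec_smul, mulVec_smul, sg_p h.hp h.hpr, sg_r h.hr h.hpr]
  simp

theorem sg_ne {p r : Fin n ⊕ Fin n → F} (h : SL p r) : sg p r ≠ 0 := by
  intro h0
  have h1 : ∀ v, bb r v = 0 := by
    intro v
    have h2 : bb r v • p - bb p v • r = 0 := by rw [← sg_mv, h0, zero_mulVec]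
    have h3 := LinearIndependent.pair_iff.1 h.li (bb r v) (-(bb p v)) (by rw [neg_smul, ← sub_eq_add_neg]; exact h2)
    exact h3.1
  have h4 := bb_nd h1
  have := h.li.ne_zero 1
  simp at this
  exact this h4

/-- inclusion -/
def iO (F : Type*) [Field F] (n : ℕ) : ↥(isometryGroup F (quadFormPlus n F)) →* Matrix (Fin n ⊕ Fin n) (Fin n ⊕ Fin n) F where
  toFun g := ((g : GL (Fin n ⊕ Fin n) F) : Matrix _ _ F)
  map_one' := rfl
  map_mul' _ _ := rfl

theorem iO_q (g : ↥(isometryGroup F (quadFormPlus n F))) (v : Fin n ⊕ Fin n → F) : qq (iO F n g *ᵥ v) = qq v := g.2 v v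

theorem iO_b (g : ↥(isometryGroup F (quadFormPlus n F))) (u v : Fin n ⊕ Fin n → F) : bb (iO F n g *ᵥ u) (iO F n g *ᵥ v) = bb u v := by
  rw [← polar_eq, ← polar_eq, ← mulVec_add, iO_q, iO_q, iO_q]

theorem sg_mv_q {p r : Fin n ⊕ Fin n → F} (h : SL p r) (v : Fin n ⊕ Fin n → F) : qq (sg p r *ᵥ v) = 0 := by
  rw [sg_mv, sub_eq_add_neg, ← neg_smul, q_add, q_smul, q_smul, h.hp, h.hr, bb_smul_l, bb_smul_r, h.hpr]
  ring

theorem sg_mv_b (p r v : Fin n ⊕ Fin n → F) : bb v (sg p r *ᵥ v) = 0 := by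
  rw [sg_mv, bb_sub_r, bb_smul_r, bb_smul_r, bb_symm v p, bb_symm v r]; ring

theorem o_lift {p r : Fin n ⊕ Fin n → F} (h : SL p r) (c : F) : ∃ g, iO F n g = 1 + c • sg p r := by
  have h2 := sg_sq h
  have key : ∀ v, qq ((1 + c • sg p r) *ᵥ v) = qq v := by
    intro v
    rw [add_mulVec, one_mulVec, smul_mulVec, q_add, q_smul, sg_mv_q h, bb_smul_r, sg_mv_b]
    ring
  have k1 : (1 + c • sg p r) * (1 + (-c) • sg p r) = 1 := by rw [opm h2]; simp
  have k2 : (1 + (-c) • sg p r) * (1 + c • sg p r) = 1 := by rw [opm h2]; simp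
  let g : GL (Fin n ⊕ Fin n) F := ⟨1 + c • sg p r, 1 + (-c) • sg p r, k1, k2⟩
  have hg : g ∈ isometryGroup F (quadFormPlus n F) := fun v _ => key v
  exact ⟨⟨g, hg⟩, rfl⟩

/-- the products -/
theorem st_mv (p r p' r' v : Fin n ⊕ Fin n → F) : (sg p r * sg p' r') *ᵥ v =
    bb r' v • (bb r p' • p - bb p p' • r) - bb p' v • (bb r r' • p - bb p r' • r) := by
  rw [← mulVec_mulVec, sg_mv p' r' v, mulVec_sub, mulVec_smul, mulVec_smul, sg_mv, sg_mv]

theorem sts {p r p' r' : Fin n ⊕ Fin n → F} :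
    sg p r * sg p' r' * sg p r = (bb p r' * bb r p' - bb p p' * bb r r') • sg p r := by
  apply ext_mv
  intro v
  rw [← mulVec_mulVec, st_mv, smul_mulVec, sg_mv p r v]
  simp only [bb_sub_r, bb_smul_r]
  rw [bb_symm r' p, bb_symm r' r, bb_symm p' p, bb_symm p' r]
  module

theorem o_rel {p r p' r' : Fin n ⊕ Fin n → F} (h : bb p r' * bb r p' - bb p p' * bb r r' ≠ 0) : Rel F (sg p r) (sg p' r') := by
  refine ⟨_, h, sts, ?_⟩
  rw [sts]
  congr 1
  rw [bb_symm p' r, bb_symm r' p, bb_symm p' p, bb_symm r' r]; ring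

theorem rank_one {α β γ δ : F} (h : β * γ - α * δ = 0) : ∃ x1 x2 y1 y2 : F, α = x1 * y1 ∧ β = x1 * y2 ∧ γ = x2 * y1 ∧ δ = x2 * y2 := by
  by_cases ha : α = 0
  · subst ha
    rw [zero_mul, sub_zero] at h
    by_cases hb : β = 0
    · subst hb
      exact ⟨0, 1, γ, δ, by ring, by ring, by ring, by ring⟩
    · have hg : γ = 0 := (mul_eq_zero.1 h).resolve_left hb
      subst hg
      exact ⟨1, δ / β, 0, β, by ring, by ring, by ring, by field_simp⟩
  · refine ⟨1, γ / α, α, β, by ring, by ring, by field_simp, ?_⟩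
    field_simp
    linear_combination -h

theorem o_third {p r p' r' : Fin n ⊕ Fin n → F} (h : SL p r) (h' : SL p' r') (hd : bb p r' * bb r p' - bb p p' * bb r r' = 0) :
    ∃ a a' : Fin n ⊕ Fin n → F, qq a = 0 ∧ qq a' = 0 ∧ bb a' a = 0 ∧ sg p r * sg p' r' - sg p' r' * sg p r = sg a' a := by
  obtain ⟨x1, x2, y1, y2, e1, e2, e3, e4⟩ := rank_one hd
  refine ⟨x2 • p - x1 • r, y2 • p' - y1 • r', ?_, ?_, ?_, ?_⟩
  · rw [sub_eq_add_neg, ← neg_smul, q_add, q_smul, q_smul, h.hp, h.hr, bb_smul_l, bb_smul_r, h.hpr]; ring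
  · rw [sub_eq_add_neg, ← neg_smul, q_add, q_smul, q_smul, h'.hp, h'.hr, bb_smul_l, bb_smul_r, h'.hpr]; ring
  · simp only [bb_sub_l, bb_sub_r, bb_smul_l, bb_smul_r]
    rw [bb_symm p' p, bb_symm r' p, bb_symm p' r, bb_symm r' r, e1, e2, e3, e4]; ring
  · apply ext_mv
    intro v
    rw [sub_mulVec, st_mv, st_mv, sg_mv]
    simp only [bb_sub_l, bb_smul_l]
    rw [bb_symm p' p, bb_symm r' p, bb_symm p' r, bb_symm r' r, e1, e2, e3, e4]
    module

theorem sg_dep {p r : Fin n ⊕ Fin n → F} (h : ¬ LinearIndependent F ![p, r]) : sg p r = 0 := by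
  rw [LinearIndependent.pair_iff] at h
  push Not at h
  obtain ⟨a, b, hab, hne⟩ := h
  apply ext_mv
  intro v
  rw [sg_mv, zero_mulVec]
  by_cases ha : a = 0
  · subst ha
    have hb := hne rfl
    rw [zero_smul, zero_add] at hab
    have hr : r = 0 := (smul_eq_zero.1 hab).resolve_left hb
    rw [hr, bb_zero_l, zero_smul, smul_zero, sub_zero]
  · have hp : p = (-(b / a)) • r := by
      have h1 : a • p = (-b) • r := by rw [neg_smul]; exact eq_neg_of_add_eq_zero_left hab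
      have h2 : p = a⁻¹ • (a • p) := by rw [smul_smul, inv_mul_cancel₀ ha, one_smul]
      rw [h2, h1, smul_smul]
      congr 1
      field_simp
    rw [hp, bb_smul_l, smul_smul, ← sub_smul]
    have : bb r v * -(b / a) - -(b / a) * bb r v = 0 := by ring
    rw [this, zero_smul]

/-- the root elements -/
def QO (F : Type*) [Field F] (n : ℕ) : Set (Matrix (Fin n ⊕ Fin n) (Fin n ⊕ Fin n) F) :=
  {s | ∃ p r : Fin n ⊕ Fin n → F, SL p r ∧ s = sg p r}

theorem rset_O : RSet F (iO F n) (QO F n) where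
  inj := fun _ _ h => Subtype.ext (Units.ext h)
  sq := by
    rintro _ ⟨p, r, h, rfl⟩
    exact sg_sq h
  ne := by
    rintro _ ⟨p, r, h, rfl⟩
    exact sg_ne h
  lift := by
    rintro _ ⟨p, r, h, rfl⟩ c
    exact o_lift h c
  conj := by
    rintro _ ⟨p, r, h, rfl⟩ g
    have h1 : iO F n g * iO F n g⁻¹ = 1 := CfsgLib.H14TG.inv_one g
    have h2 : iO F n g⁻¹ * iO F n g = 1 := inv_one' g
    refine ⟨iO F n g *ᵥ p, iO F n g *ᵥ r, ⟨?_, ?_, ?_, ?_⟩, ?_⟩
    · rw [LinearIndependent.pair_iff]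
      intro x y hxy
      apply LinearIndependent.pair_iff.1 h.li
      have := congrArg (fun z => iO F n g⁻¹ *ᵥ z) hxy
      simpa [mulVec_add, mulVec_smul, mulVec_mulVec, h2] using this
    · rw [iO_q, h.hp]
    · rw [iO_q, h.hr]
    · rw [iO_b, h.hpr]
    · apply ext_mv
      intro v
      rw [← mulVec_mulVec, ← mulVec_mulVec, sg_mv, sg_mv, mulVec_sub, mulVec_smul, mulVec_smul]
      have h3 : ∀ x, bb x (iO F n g⁻¹ *ᵥ v) = bb (iO F n g *ᵥ x) v := by
        intro x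
        rw [← iO_b g, mulVec_mulVec, h1, one_mulVec]
      rw [h3, h3]
  pair := by
    rintro _ ⟨p, r, h, rfl⟩ _ ⟨p', r', h', rfl⟩
    by_cases hd : bb p r' * bb r p' - bb p p' * bb r r' = 0
    · obtain ⟨a, a', ha, ha', haa, he⟩ := o_third h h' hd
      by_cases hli : LinearIndependent F ![a', a]
      · right; right
        refine ⟨by rw [sts, hd, zero_smul], ?_, ⟨a', a, ⟨hli, ha', ha, haa⟩, he⟩⟩
        rw [sts]
        have : bb p' r * bb r' p - bb p' p * bb r' r = 0 := by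
          rw [bb_symm p' r, bb_symm r' p, bb_symm p' p, bb_symm r' r]
          linear_combination hd
        rw [this, zero_smul]
      · left
        rw [sg_dep hli, sub_eq_zero] at he
        exact he
    · right; left; exact o_rel hd

/-! ### connectedness -/

theorem lemD {u a : Fin n ⊕ Fin n → F} (h : ∀ z, bb u z = 0 → bb a z = 0) : ∃ c : F, a = c • u := by
  by_cases hu : u = 0
  · refine ⟨0, ?_⟩
    rw [zero_smul]
    apply bb_nd
    intro v
    exact h v (by rw [hu, bb_zero_l])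
  · obtain ⟨e, he⟩ := ex_bb hu
    refine ⟨bb a e, ?_⟩
    apply bb_ext
    intro v
    have h1 := h (v - bb u v • e) (by rw [bb_sub_r, bb_smul_r, he]; ring)
    rw [bb_sub_r, bb_smul_r] at h1
    rw [bb_smul_l]
    linear_combination h1

/-- linear functional -/
def bl (u : Fin n ⊕ Fin n → F) : (Fin n ⊕ Fin n → F) →ₗ[F] F where
  toFun v := bb u v
  map_add' := bb_add_r u
  map_smul' c v := by simp [bb_smul_r]

theorem lemC (hn : 3 ≤ n) {u a a' : Fin n ⊕ Fin n → F} (ha : qq a = 0) (ha' : qq a' = 0) (hua : bb u a = 0)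
    (hua' : bb u a' = 0) (h1 : ∀ c : F, a ≠ c • u) (h2 : ∀ c : F, a' ≠ c • u) :
    ∃ w, qq w = 0 ∧ bb u w = 0 ∧ bb w a ≠ 0 ∧ bb w a' ≠ 0 := by
  by_cases haa : bb a a' = 0
  · have e1 : ∃ z, bb u z = 0 ∧ bb a z ≠ 0 := by
      by_contra hc
      push Not at hc
      obtain ⟨c, hc⟩ := lemD hc
      exact h1 c hc
    have e2 : ∃ z, bb u z = 0 ∧ bb a' z ≠ 0 := by
      by_contra hc
      push Not at hc
      obtain ⟨c, hc⟩ := lemD hc
      exact h2 c hc
    obtain ⟨z1, hz1, hz1'⟩ := e1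
    obtain ⟨z2, hz2, hz2'⟩ := e2
    have e3 : ∃ z, bb u z = 0 ∧ bb a z ≠ 0 ∧ bb a' z ≠ 0 := by
      by_cases hb1 : bb a' z1 = 0
      · by_cases ha2 : bb a z2 = 0
        · exact ⟨z1 + z2, by rw [bb_add_r, hz1, hz2, add_zero], by rw [bb_add_r, ha2, add_zero]; exact hz1',
            by rw [bb_add_r, hb1, zero_add]; exact hz2'⟩
        · exact ⟨z2, hz2, ha2, hz2'⟩
      · exact ⟨z1, hz1, hz1', hb1⟩
    obtain ⟨z, hz, hza, hza'⟩ := e3
    refine ⟨z + (-(qq z / bb a z)) • a, ?_, ?_, ?_, ?_⟩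
    · rw [q_add, q_smul, ha, bb_smul_r, bb_symm z a]
      field_simp
      ring
    · rw [bb_add_r, bb_smul_r, hz, hua, mul_zero, add_zero]
    · rw [bb_add_l, bb_smul_l, bb_self0 ha, mul_zero, add_zero, bb_symm]; exact hza
    · rw [bb_add_l, bb_smul_l, haa, mul_zero, add_zero, bb_symm]; exact hza'
  · have e1 : ∃ z, bb u z = 0 ∧ bb a z = 0 ∧ bb a' z = 0 ∧ qq z ≠ 0 := by
      by_contra hc
      push Not at hc
      have hX : ∀ z1, bb u z1 = 0 → bb a z1 = 0 → bb a' z1 = 0 → ∃ c : F, z1 = c • u := by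
        intro z1 k1 k2 k3
        apply lemD
        intro z hz
        set z' := z - (bb a' z / bb a a') • a - (bb a z / bb a a') • a' with hz'
        have l1 : bb u z' = 0 := by
          rw [hz', bb_sub_r, bb_sub_r, bb_smul_r, bb_smul_r, hz, hua, hua']; ring
        have l2 : bb a z' = 0 := by
          rw [hz', bb_sub_r, bb_sub_r, bb_smul_r, bb_smul_r, bb_self0 ha]
          field_simp
          ring
        have l3 : bb a' z' = 0 := by
          rw [hz', bb_sub_r, bb_sub_r, bb_smul_r, bb_smul_r, bb_self0 ha', bb_symm a' a]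
          field_simp
          ring
        have l4 : bb z1 z' = 0 := by
          rw [← polar_eq, hc z1 k1 k2 k3, hc z' l1 l2 l3, hc (z1 + z') (by rw [bb_add_r, k1, l1, add_zero])
            (by rw [bb_add_r, k2, l2, add_zero]) (by rw [bb_add_r, k3, l3, add_zero])]
          ring
        have l5 : bb z1 z = bb z1 z' := by
          rw [hz', bb_sub_r, bb_sub_r, bb_smul_r, bb_smul_r, bb_symm z1 a, bb_symm z1 a', k2, k3]; ring
        rw [l5, l4]
      let φ : (Fin n ⊕ Fin n → F) →ₗ[F] (Fin 3 → F) := LinearMap.pi ![bl u, bl a, bl a']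
      have hker : LinearMap.ker φ ≤ Submodule.span F {u} := by
        intro z hz
        rw [LinearMap.mem_ker] at hz
        obtain ⟨c, hc⟩ := hX z (congrFun hz 0) (congrFun hz 1) (congrFun hz 2)
        rw [Submodule.mem_span_singleton]
        exact ⟨c, hc.symm⟩
      have f1 := LinearMap.finrank_range_add_finrank_ker φ
      have f2 : Module.finrank F (LinearMap.range φ) ≤ 3 := by
        refine (Submodule.finrank_le _).trans ?_
        simp
      have f3 : Module.finrank F (LinearMap.ker φ) ≤ 1 :=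
        (Submodule.finrank_mono hker).trans (by
          refine (finrank_span_le_card ({u} : Set (Fin n ⊕ Fin n → F))).trans ?_
          simp)
      have f4 : Module.finrank F (Fin n ⊕ Fin n → F) = n + n := by simp
      omega
    obtain ⟨z, hz, hza, hza', hqz⟩ := e1
    have hy : -(qq z / bb a a') ≠ 0 := neg_ne_zero.2 (div_ne_zero hqz haa)
    refine ⟨a + (-(qq z / bb a a')) • a' + z, ?_, ?_, ?_, ?_⟩
    · rw [q_add, q_add, q_smul, ha, ha', bb_smul_r, bb_add_l, bb_smul_l, hza, hza']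
      field_simp
      ring
    · rw [bb_add_r, bb_add_r, bb_smul_r, hua, hua', hz]; ring
    · rw [bb_add_l, bb_add_l, bb_smul_l, bb_self0 ha, bb_symm a' a, bb_symm z a, hza]
      rw [zero_add, add_zero]
      exact mul_ne_zero hy haa
    · rw [bb_add_l, bb_add_l, bb_smul_l, bb_self0 ha', bb_symm z a', hza', mul_zero, add_zero, add_zero]
      exact haa

theorem path_O (hn : 3 ≤ n) {p r p' r' : Fin n ⊕ Fin n → F} (h : SL p r) (h' : SL p' r') :
    ∃ u w, SL u w ∧ Rel F (sg p r) (sg u w) ∧ Rel F (sg u w) (sg p' r') := by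
  have hp0 : p ≠ 0 := by have := h.li.ne_zero 0; simpa using this
  have hp0' : p' ≠ 0 := by have := h'.li.ne_zero 0; simpa using this
  obtain ⟨u, hu, -, hup, hup'⟩ := lemC hn (u := 0) (a := p) (a' := p') h.hp h'.hp (bb_zero_l _) (bb_zero_l _)
    (fun c => by rw [smul_zero]; exact hp0) (fun c => by rw [smul_zero]; exact hp0')
  have hA : ∀ {p r : Fin n ⊕ Fin n → F}, SL p r → bb u p ≠ 0 → qq (bb u r • p - bb u p • r) = 0 ∧ bb u (bb u r • p - bb u p • r) = 0 ∧
      ∀ c : F, bb u r • p - bb u p • r ≠ c • u := by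
    intro p r h hup
    refine ⟨?_, ?_, ?_⟩
    · rw [sub_eq_add_neg, ← neg_smul, q_add, q_smul, q_smul, h.hp, h.hr, bb_smul_l, bb_smul_r, h.hpr]; ring
    · rw [bb_sub_r, bb_smul_r, bb_smul_r]; ring
    · intro c hc
      have h1 := congrArg (fun z => bb z p) hc
      simp only [bb_sub_l, bb_smul_l, bb_self0 h.hp, h.hrp] at h1
      have hc0 : c = 0 := by
        rcases mul_eq_zero.1 (show c * bb u p = 0 by rw [← h1]; ring) with h | h
        · exact h
        · exact absurd h hup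
      rw [hc0, zero_smul] at hc
      have := (LinearIndependent.pair_iff.1 h.li (bb u r) (-(bb u p)) (by rw [neg_smul, ← sub_eq_add_neg]; exact hc)).2
      exact hup (neg_eq_zero.1 this)
  obtain ⟨a1, a2, a3⟩ := hA h hup
  obtain ⟨a1', a2', a3'⟩ := hA h' hup'
  obtain ⟨w, hw, huw, hwa, hwa'⟩ := lemC hn a1 a1' a2 a2' a3 a3'
  have hu0 : u ≠ 0 := by rintro rfl; exact hup (bb_zero_l _)
  refine ⟨u, w, ⟨?_, hu, hw, huw⟩, ?_, ?_⟩
  · rw [LinearIndependent.pair_iff]
    intro x y hxy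
    have h1 := congrArg (fun z => bb z (bb u r • p - bb u p • r)) hxy
    simp only [bb_add_l, bb_smul_l, bb_zero_l] at h1
    rw [a2, mul_zero, zero_add] at h1
    have hy : y = 0 := (mul_eq_zero.1 h1).resolve_right hwa
    subst hy
    rw [zero_smul, add_zero] at hxy
    exact ⟨(smul_eq_zero.1 hxy).resolve_right hu0, rfl⟩
  · apply o_rel
    rw [bb_sub_r, bb_smul_r, bb_smul_r] at hwa
    rw [bb_symm p w, bb_symm r u, bb_symm p u, bb_symm r w]
    intro h0; apply hwa; linear_combination h0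
  · apply o_rel
    rw [bb_sub_r, bb_smul_r, bb_smul_r] at hwa'
    intro h0; apply hwa'; linear_combination h0

theorem conn_O (hn : 3 ≤ n) (s : Matrix (Fin n ⊕ Fin n) (Fin n ⊕ Fin n) F) (hs : s ∈ QO F n)
    (t : Matrix (Fin n ⊕ Fin n) (Fin n ⊕ Fin n) F) (ht : t ∈ QO F n) :
    Relation.ReflTransGen (fun x y => x ∈ QO F n ∧ y ∈ QO F n ∧ Rel F x y) s t := by
  obtain ⟨p, r, h, rfl⟩ := hs
  obtain ⟨p', r', h', rfl⟩ := ht
  obtain ⟨u, w, h0, h1, h2⟩ := path_O hn h h'
  exact (Relation.ReflTransGen.single ⟨⟨p, r, h, rfl⟩, ⟨u, w, h0, rfl⟩, h1⟩).tail ⟨⟨u, w, h0, rfl⟩, ⟨p', r', h', rfl⟩, h2⟩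

/-! ### the groups -/

theorem SL_iff {p r : Fin n ⊕ Fin n → F} : SL p r ↔ LinearIndependent F ![p, r] ∧ qq p = 0 ∧ qq r = 0 ∧ qq (p + r) = 0 := by
  constructor
  · intro h
    exact ⟨h.li, h.hp, h.hr, by rw [q_add, h.hp, h.hr, h.hpr]; ring⟩
  · rintro ⟨h1, h2, h3, h4⟩
    refine ⟨h1, h2, h3, ?_⟩
    rw [q_add, h2, h3] at h4
    linear_combination h4

theorem dual_pair {p r : Fin n ⊕ Fin n → F} (h : LinearIndependent F ![p, r]) : ∃ e, bb p e = 1 ∧ bb r e = 0 := by
  have h1 : ∃ z, bb r z = 0 ∧ bb p z ≠ 0 := by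
    by_contra hc
    push Not at hc
    obtain ⟨c, hc⟩ := lemD hc
    have := (LinearIndependent.pair_iff.1 h 1 (-c) (by rw [one_smul, neg_smul, hc, add_neg_cancel])).1
    exact one_ne_zero this
  obtain ⟨z, hz, hz'⟩ := h1
  exact ⟨(bb p z)⁻¹ • z, by rw [bb_smul_r, inv_mul_cancel₀ hz'], by rw [bb_smul_r, hz, mul_zero]⟩

theorem fix_iff {p r : Fin n ⊕ Fin n → F} (h : SL p r) (g : ↥(isometryGroup F (quadFormPlus n F))) :
    (∀ v, bb v p = 0 → bb v r = 0 → iO F n g *ᵥ v = v) ↔ ∃ c : F, iO F n g = 1 + c • sg p r := by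
  constructor
  · intro hg
    obtain ⟨e1, h11, h12⟩ := dual_pair h.li
    obtain ⟨e2, h22, h21⟩ := dual_pair (LinearIndependent.pair_symm_iff.1 h.li)
    set N := iO F n g with hN
    have hdec : ∀ v, N *ᵥ v = v + bb p v • (N *ᵥ e1 - e1) + bb r v • (N *ᵥ e2 - e2) := by
      intro v
      have h1 := hg (v - bb p v • e1 - bb r v • e2)
        (by rw [bb_symm, bb_sub_r, bb_sub_r, bb_smul_r, bb_smul_r, h11, h21]; ring)
        (by rw [bb_symm, bb_sub_r, bb_sub_r, bb_smul_r, bb_smul_r, h12, h22]; ring)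
      rw [mulVec_sub, mulVec_sub, mulVec_smul, mulVec_smul] at h1
      have h2 : N *ᵥ v = (v - bb p v • e1 - bb r v • e2) + bb p v • N *ᵥ e1 + bb r v • N *ᵥ e2 := by rw [← h1]; abel
      rw [h2]; module
    have hmem : ∀ e, ∃ x y : F, N *ᵥ e - e = x • p + y • r := by
      intro e
      refine ⟨bb (N *ᵥ e - e) e1, bb (N *ᵥ e - e) e2, ?_⟩
      apply bb_ext
      intro v
      have h3 : bb (N *ᵥ e - e) (v - bb p v • e1 - bb r v • e2) = 0 := by
        set w := v - bb p v • e1 - bb r v • e2 with hw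
        have h4 : N *ᵥ w = w := hg w
          (by rw [hw, bb_symm, bb_sub_r, bb_sub_r, bb_smul_r, bb_smul_r, h11, h21]; ring)
          (by rw [hw, bb_symm, bb_sub_r, bb_sub_r, bb_smul_r, bb_smul_r, h12, h22]; ring)
        have h5 : bb (N *ᵥ e) w = bb e w := by
          conv_lhs => rw [← h4]
          rw [hN, iO_b]
        rw [bb_sub_l, h5, sub_self]
      rw [bb_sub_r, bb_sub_r, bb_smul_r, bb_smul_r] at h3
      rw [bb_add_l, bb_smul_l, bb_smul_l]
      linear_combination h3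
    obtain ⟨x, y, hxy⟩ := hmem e1
    obtain ⟨z, w, hzw⟩ := hmem e2
    have hq : ∀ v, ∀ a b : F, N *ᵥ v = v + (a • p + b • r) → a * bb p v + b * bb r v = 0 := by
      intro v a b hv
      have h6 := iO_q g v
      rw [← hN, hv, q_add, q_add, q_smul, q_smul, h.hp, h.hr, bb_smul_l, bb_smul_r, h.hpr, bb_add_r, bb_smul_r, bb_smul_r,
        bb_symm v p, bb_symm v r] at h6
      linear_combination h6
    have hx : x = 0 := by
      have := hq e1 x y (by rw [← hxy]; abel)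
      rw [h11, h12] at this
      linear_combination this
    have hw : w = 0 := by
      have := hq e2 z w (by rw [← hzw]; abel)
      rw [h22, h21] at this
      linear_combination this
    have hyz : z + y = 0 := by
      have := hq (e1 + e2) (x + z) (y + w) (by
        rw [mulVec_add]
        have k1 : N *ᵥ e1 = e1 + (x • p + y • r) := by rw [← hxy]; abel
        have k2 : N *ᵥ e2 = e2 + (z • p + w • r) := by rw [← hzw]; abel
        rw [k1, k2]; module)
      rw [bb_add_r, bb_add_r, h11, h12, h22, h21, hx, hw] at this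
      linear_combination this
    refine ⟨z, ?_⟩
    apply ext_mv
    intro v
    rw [hdec v, hxy, hzw, hx, hw, add_mulVec, one_mulVec, smul_mulVec, sg_mv, eq_neg_of_add_eq_zero_right hyz]
    module
  · rintro ⟨c, hc⟩ v h1 h2
    rw [hc, add_mulVec, one_mulVec, smul_mulVec, sg_mv, bb_symm r v, bb_symm p v, h1, h2]
    simp

theorem set_eq : {A : Subgroup ↥(Cfsg.isometryGroup F (Cfsg.quadFormPlus n F)) | ∃ p r : Fin n ⊕ Fin n → F, LinearIndependent F ![p, r] ∧
          Cfsg.quadFormPlus n F p = 0 ∧ Cfsg.quadFormPlus n F r = 0 ∧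
          Cfsg.quadFormPlus n F (p + r) = 0 ∧
          A = Subgroup.closure {σ : ↥(Cfsg.isometryGroup F (Cfsg.quadFormPlus n F)) | ∀ v : Fin n ⊕ Fin n → F,
            Cfsg.quadFormPlus n F (v + p) - Cfsg.quadFormPlus n F v - Cfsg.quadFormPlus n F p = 0 →
            Cfsg.quadFormPlus n F (v + r) - Cfsg.quadFormPlus n F v - Cfsg.quadFormPlus n F r = 0 →
              ((σ : Matrix.GeneralLinearGroup (Fin n ⊕ Fin n) F) : Matrix (Fin n ⊕ Fin n) (Fin n ⊕ Fin n) F) *ᵥ v = v}} =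
    SS F (iO F n) (QO F n) := by
  have h : ∀ p r : Fin n ⊕ Fin n → F, SL p r → Subgroup.closure {σ : ↥(Cfsg.isometryGroup F (Cfsg.quadFormPlus n F)) | ∀ v : Fin n ⊕ Fin n → F,
            Cfsg.quadFormPlus n F (v + p) - Cfsg.quadFormPlus n F v - Cfsg.quadFormPlus n F p = 0 →
            Cfsg.quadFormPlus n F (v + r) - Cfsg.quadFormPlus n F v - Cfsg.quadFormPlus n F r = 0 →
              ((σ : Matrix.GeneralLinearGroup (Fin n ⊕ Fin n) F) : Matrix (Fin n ⊕ Fin n) (Fin n ⊕ Fin n) F) *ᵥ v = v} =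
      T F (iO F n) (sg p r) := by
    intro p r h
    unfold T
    congr 1
    ext g
    have := fix_iff h g
    simp only [← polar_eq] at this
    exact this
  ext A
  constructor
  · rintro ⟨p, r, h1, h2, h3, h4, rfl⟩
    exact ⟨_, ⟨p, r, SL_iff.2 ⟨h1, h2, h3, h4⟩, rfl⟩, h p r (SL_iff.2 ⟨h1, h2, h3, h4⟩)⟩
  · rintro ⟨_, ⟨p, r, h0, rfl⟩, rfl⟩
    obtain ⟨h1, h2, h3, h4⟩ := SL_iff.1 h0
    exact ⟨p, r, h1, h2, h3, h4, (h p r h0).symm⟩

end orth



/-- Let F be a field, m a natural number and V = F^{2(m+3)} with the hyperbolic quadratic form q(x, y) = Σ xᵢ yᵢ (non-degenerate, Witt index m + 3 ≥ 3). For a singular line ℓ (a 2-dimensional subspace on which q vanishes) let T(ℓ) be the group of isometries of q fixing every vector of ℓ^⊥ (the Siegel transvection group of ℓ), let Σ be the set of these groups and G₀ the subgroup they generate. Then, viewed inside G₀, the members of Σ form a set of abstract F-root subgroups of G₀ (any two commute,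 or are the unipotent subgroups of a rank one group that is an image of SL₂(F) with central kernel, or satisfy the commutator case), and their graph of rank one pairs is connected. -/
theorem result (F : Type*) [Field F] (m : ℕ) :
    Cfsg.IsKRootSubgroupSet F ((fun A : Subgroup ↥(Cfsg.isometryGroup F (Cfsg.quadFormPlus (m + 3) F)) => A.subgroupOf (⨆ B ∈ {A : Subgroup ↥(Cfsg.isometryGroup F (Cfsg.quadFormPlus (m + 3) F)) | ∃ p r : Fin (m + 3) ⊕ Fin (m + 3) → F, LinearIndependent F ![p, r] ∧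
          Cfsg.quadFormPlus (m + 3) F p = 0 ∧ Cfsg.quadFormPlus (m + 3) F r = 0 ∧
          Cfsg.quadFormPlus (m + 3) F (p + r) = 0 ∧
          A = Subgroup.closure {σ : ↥(Cfsg.isometryGroup F (Cfsg.quadFormPlus (m + 3) F)) | ∀ v : Fin (m + 3) ⊕ Fin (m + 3) → F,
            Cfsg.quadFormPlus (m + 3) F (v + p) - Cfsg.quadFormPlus (m + 3) F v - Cfsg.quadFormPlus (m + 3) F p = 0 →
            Cfsg.quadFormPlus (m + 3) F (v + r) - Cfsg.quadFormPlus (m + 3) F v - Cfsg.quadFormPlus (m + 3) F r = 0 →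
              ((σ : Matrix.GeneralLinearGroup (Fin (m + 3) ⊕ Fin (m + 3)) F) : Matrix (Fin (m + 3) ⊕ Fin (m + 3)) (Fin (m + 3) ⊕ Fin (m + 3)) F) *ᵥ v = v}}, B)) ''
      {A : Subgroup ↥(Cfsg.isometryGroup F (Cfsg.quadFormPlus (m + 3) F)) | ∃ p r : Fin (m + 3) ⊕ Fin (m + 3) → F, LinearIndependent F ![p, r] ∧
          Cfsg.quadFormPlus (m + 3) F p = 0 ∧ Cfsg.quadFormPlus (m + 3) F r = 0 ∧
          Cfsg.quadFormPlus (m + 3) F (p + r) = 0 ∧
          A = Subgroup.closure {σ : ↥(Cfsg.isometryGroup F (Cfsg.quadFormPlus (m + 3) F)) | ∀ v : Fin (m + 3) ⊕ Fin (m + 3) → F,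
            Cfsg.quadFormPlus (m + 3) F (v + p) - Cfsg.quadFormPlus (m + 3) F v - Cfsg.quadFormPlus (m + 3) F p = 0 →
            Cfsg.quadFormPlus (m + 3) F (v + r) - Cfsg.quadFormPlus (m + 3) F v - Cfsg.quadFormPlus (m + 3) F r = 0 →
              ((σ : Matrix.GeneralLinearGroup (Fin (m + 3) ⊕ Fin (m + 3)) F) : Matrix (Fin (m + 3) ⊕ Fin (m + 3)) (Fin (m + 3) ⊕ Fin (m + 3)) F) *ᵥ v = v}}) ∧
    Cfsg.IsConnectedFamily (Cfsg.FAdj {A : Subgroup ↥(Cfsg.isometryGroup F (Cfsg.quadFormPlus (m + 3) F)) | ∃ p r : Fin (m + 3) ⊕ Fin (m + 3) → F, LinearIndependent F ![p, r] ∧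
          Cfsg.quadFormPlus (m + 3) F p = 0 ∧ Cfsg.quadFormPlus (m + 3) F r = 0 ∧
          Cfsg.quadFormPlus (m + 3) F (p + r) = 0 ∧
          A = Subgroup.closure {σ : ↥(Cfsg.isometryGroup F (Cfsg.quadFormPlus (m + 3) F)) | ∀ v : Fin (m + 3) ⊕ Fin (m + 3) → F,
            Cfsg.quadFormPlus (m + 3) F (v + p) - Cfsg.quadFormPlus (m + 3) F v - Cfsg.quadFormPlus (m + 3) F p = 0 →
            Cfsg.quadFormPlus (m + 3) F (v + r) - Cfsg.quadFormPlus (m + 3) F v - Cfsg.quadFormPlus (m + 3) F r = 0 →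
              ((σ : Matrix.GeneralLinearGroup (Fin (m + 3) ⊕ Fin (m + 3)) F) : Matrix (Fin (m + 3) ⊕ Fin (m + 3)) (Fin (m + 3) ⊕ Fin (m + 3)) F) *ᵥ v = v}})
      {A : Subgroup ↥(Cfsg.isometryGroup F (Cfsg.quadFormPlus (m + 3) F)) | ∃ p r : Fin (m + 3) ⊕ Fin (m + 3) → F, LinearIndependent F ![p, r] ∧
          Cfsg.quadFormPlus (m + 3) F p = 0 ∧ Cfsg.quadFormPlus (m + 3) F r = 0 ∧
          Cfsg.quadFormPlus (m + 3) F (p + r) = 0 ∧
          A = Subgroup.closure {σ : ↥(Cfsg.isometryGroup F (Cfsg.quadFormPlus (m + 3) F)) | ∀ v : Fin (m + 3) ⊕ Fin (m + 3) → F,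
            Cfsg.quadFormPlus (m + 3) F (v + p) - Cfsg.quadFormPlus (m + 3) F v - Cfsg.quadFormPlus (m + 3) F p = 0 →
            Cfsg.quadFormPlus (m + 3) F (v + r) - Cfsg.quadFormPlus (m + 3) F v - Cfsg.quadFormPlus (m + 3) F r = 0 →
              ((σ : Matrix.GeneralLinearGroup (Fin (m + 3) ⊕ Fin (m + 3)) F) : Matrix (Fin (m + 3) ⊕ Fin (m + 3)) (Fin (m + 3) ⊕ Fin (m + 3)) F) *ᵥ v = v}} := by
  rw [set_eq]
  have hr := rset_O (F := F) (n := m + 3)
  refine ⟨?_, hr.conn (conn_O (by omega))⟩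
  rw [hr.res_img]
  exact hr.res.kroot hr.res_gen

end Cfsg.Agent.S5072
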