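import Cfsg.Statements.S5073
import Cfsg.Agent.LibH14QP


set_option autoImplicit false
universe u
open Cfsg

namespace Cfsg.Agent.S5073

open CfsgLib.H14R1 CfsgLib.H14QP Module


/-- Let k be a field of characteristic not 2 with k not of order 3, M a finite-dimensional k-vector space and G ≤ GL(M) such that (G, M) is a quadratic pair (M irreducible for G, and G generated by its quadratically acting elements σ whose scalar family 1 + c(σ − 1), c ∈ k, lies in G). Write 𝒬_d for the quadratic elements of G of minimal commutator rank, E(σ) for the subgroup generated by the members of 𝒬_d with the same fixed space and commutator space as σ, and Σ for the set of these subgroups. Let E, F ∈ Σ. If some non-identity element of E commutes with some non-identity element of F, or some non-identity element of E normalizes F, then E and F commute elementwise. -/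
theorem result {k : Type u} [Field k] (hk2 : ringChar k ≠ 2) (hk3 : Nat.card k ≠ 3)
    {M : Type u} [AddCommGroup M] [Module k M] [FiniteDimensional k M]
    {G : Subgroup (LinearMap.GeneralLinearGroup k M)} (hG : Cfsg.IsQuadraticPair G)
    {E F : Subgroup (LinearMap.GeneralLinearGroup k M)} (hE : E ∈ Cfsg.quadraticRootSubgroups G) (hF : F ∈ Cfsg.quadraticRootSubgroups G)
    (h : (∃ e ∈ E, e ≠ 1 ∧ ∃ f ∈ F, f ≠ 1 ∧ e * f = f * e) ∨ E ⊓ Subgroup.normalizer (F : Set (LinearMap.GeneralLinearGroup k M)) ≠ ⊥) :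
    ⁅E, F⁆ = ⊥ := by
  have h2 : (2 : k) ≠ 0 := Ring.two_ne_zero hk2
  obtain ⟨s₀, hs₀, rfl⟩ := qrs_iff.1 hE
  obtain ⟨t₀, ht₀, rfl⟩ := qrs_iff.1 hF
  have tvc : ∀ {s t : End k M}, s * s = 0 → t * t = 0 →
      (tv s * tv t = tv t * tv s ↔ s * t = t * s) := by
    intro s t hs ht
    constructor
    · intro h
      have := congrArg Units.val h
      rw [Units.val_mul, Units.val_mul, tv_val hs, tv_val ht] at this
      have e : s * t - t * s = (1 + s) * (1 + t) - (1 + t) * (1 + s) := by noncomm_ring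
      rw [this, sub_self] at e
      exact sub_eq_zero.1 e
    · intro h
      apply Units.ext
      rw [Units.val_mul, Units.val_mul, tv_val hs, tv_val ht]
      have e : (1 + s) * (1 + t) - (1 + t) * (1 + s) = s * t - t * s := by noncomm_ring
      rw [← sub_eq_zero, e, h, sub_self]
  -- main step
  have main : ∀ s ∈ ES G s₀ hs₀.1.1, s ≠ 0 → ∀ t ∈ ES G t₀ ht₀.1.1, t ≠ 0 → s * t = t * s →
      ⁅EG s₀ hs₀.1.1 G, EG t₀ ht₀.1.1 G⁆ = ⊥ := by
    intro s hs hs0 t ht ht0 hst
    rw [comm_iff]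
    rintro _ ⟨a, ha, rfl⟩ _ ⟨b, hb, rfl⟩
    rw [tvc ha.1.1 hb.1.1]
    by_cases ha0 : a = 0
    · simp [ha0]
    by_cases hb0 : b = 0
    · simp [hb0]
    obtain ⟨s1, s2, s3⟩ := ES_ne_zero hs₀ hs hs0
    obtain ⟨t1, t2, t3⟩ := ES_ne_zero ht₀ ht ht0
    obtain ⟨a1, a2, a3⟩ := ES_ne_zero hs₀ ha ha0
    obtain ⟨b1, b2, b3⟩ := ES_ne_zero ht₀ hb hb0
    exact lemmaB2 h2 s1 t1 a1 b1 hst (a2.trans s2.symm) (a3.trans s3.symm) (b2.trans t2.symm)
      (b3.trans t3.symm)
  rcases h with ⟨_, ⟨s, hs, rfl⟩, he1, _, ⟨t, ht, rfl⟩, hf1, hef⟩ | hn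
  · have hs0 : s ≠ 0 := fun h => he1 ((tv_eq_one hs.1.1).2 h)
    have ht0 : t ≠ 0 := fun h => hf1 ((tv_eq_one ht.1.1).2 h)
    exact main s hs hs0 t ht ht0 ((tvc hs.1.1 ht.1.1).1 hef)
  · obtain ⟨_, ⟨⟨s, hs, rfl⟩, hnorm⟩, he1⟩ := exists_ne_one hn
    have hs0 : s ≠ 0 := fun h => he1 ((tv_eq_one hs.1.1).2 h)
    obtain ⟨s1, s2, s3⟩ := ES_ne_zero hs₀ hs hs0
    -- conjugation of t₀
    have hconj : cjE (tv s) t₀ ∈ ES G t₀ ht₀.1.1 := by
      have h1 : tv s * tv t₀ * (tv s)⁻¹ ∈ EG t₀ ht₀.1.1 G := by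
        have := (Subgroup.mem_normalizer_iff.1 hnorm (tv t₀)).1 ⟨t₀, self_mem_ES ht₀.1, rfl⟩
        exact this
      rw [tv_conj ht₀.1.1] at h1
      obtain ⟨r, hr, e⟩ := h1
      have hsq : cjE (tv s) t₀ * cjE (tv s) t₀ = 0 := by rw [← cjE_mul, ht₀.1.1, cjE_zero]
      have := congrArg Units.val e
      rw [tv_val hr.1.1] at this
      change ((tv (cjE (tv s) t₀) : LinearMap.GeneralLinearGroup k M) : End k M) = 1 + r at this
      rw [tv_val hsq] at this
      rw [add_left_cancel this]; exact hr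
    have ht0m := self_mem_ES ht₀.1
    have e1 := cjE_tv hs.1.1 t₀
    -- range t₀ is stable under s
    have hstab : ∀ x ∈ LinearMap.range t₀, s x ∈ LinearMap.range t₀ := by
      have hr := (ES_ne_zero ht₀ hconj (by
        intro h
        apply ht₀.2.1
        rw [← cjE_inv_cjE (tv s) t₀, h, cjE_zero])).2.1
      rintro _ ⟨y, rfl⟩
      have h3 : (tv s : End k M) (t₀ y) ∈ LinearMap.range t₀ := by
        rw [← hr]
        refine ⟨(tv s : End k M) y, ?_⟩
        unfold cjE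
        have h4 : (((tv s)⁻¹ : LinearMap.GeneralLinearGroup k M) : End k M) ((tv s : End k M) y) = y := by
          have := LinearMap.congr_fun ((tv s).inv_mul) y
          exact this
        show (tv s : End k M) (t₀ ((((tv s)⁻¹ : LinearMap.GeneralLinearGroup k M) : End k M) ((tv s : End k M) y))) = _
        rw [h4]
      rw [tv_val hs.1.1] at h3
      have h5 : s (t₀ y) = (1 + s) (t₀ y) - t₀ y := by simp
      rw [h5]
      exact Submodule.sub_mem _ h3 ⟨y, rfl⟩
    have htst : t₀ * s * t₀ = 0 := by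
      ext x
      obtain ⟨y, hy⟩ := hstab (t₀ x) ⟨x, rfl⟩
      show t₀ (s (t₀ x)) = 0
      rw [← hy]
      exact LinearMap.congr_fun ht₀.1.1 y
    have hz : (s * t₀ + t₀ * s) ^ 2 * 1 = s * t₀ * s * t₀ + t₀ * s * t₀ * s + (s * (t₀ * t₀) * s + t₀ * (s * s) * t₀) := by
      rw [pow_two]; noncomm_ring
    have hz2 : (s * t₀ + t₀ * s) ^ 2 = 0 := by
      rw [mul_one] at hz
      rw [hz, ht₀.1.1, hs.1.1, htst]
      have : s * t₀ * s * t₀ = s * (t₀ * s * t₀) := by simp only [mul_assoc]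
      rw [this, htst]; simp
    obtain ⟨d1, d2⟩ := nilp_pair h2 2 s1 ht₀ hz2
    -- u = [s,t₀] ∈ ES t₀
    have hu : s * t₀ - t₀ * s ∈ ES G t₀ ht₀.1.1 := by
      have : s * t₀ - t₀ * s = cjE (tv s) t₀ - t₀ := by rw [e1, d1]; abel
      rw [this]; exact sub_mem hconj ht0m
    have hsu : s * (s * t₀ - t₀ * s) = (s * t₀ - t₀ * s) * s := by
      have f1 : s * (s * t₀ - t₀ * s) = s * s * t₀ - s * t₀ * s := by noncomm_ring
      have f2 : (s * t₀ - t₀ * s) * s = s * t₀ * s - t₀ * (s * s) := by noncomm_ring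
      rw [f1, f2, hs.1.1, d1]; simp
    by_cases hu0 : s * t₀ - t₀ * s = 0
    · exact main s hs hs0 t₀ ht0m ht₀.2.1 (sub_eq_zero.1 hu0)
    · exact main s hs hs0 _ hu hu0 hsu

end Cfsg.Agent.S5073
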