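import Cfsg.Statements.S5079
import Cfsg.Agent.LibFus21Sat2

set_option autoImplicit false
open Cfsg

namespace Cfsg.Agent.S5079

/-- In any fusion system over a finite p-group S: if P is fully automized and receptive and Q is conjugate to P in the system, then there is a map of the system with source N_S(Q) and values in N_S(P) carrying Q onto P. -/
theorem result {Ω : Type*} [Group Ω] {S : Subgroup Ω} [Finite S] (p : ℕ) [Fact p.Prime] (hS : IsPGroup p S) (F : Cfsg.FusionSystem S) (P Q : Subgroup Ω) (h₁ : F.IsFullyAutomized p P) (h₂ : F.IsReceptive P) (hQ : F.IsConj Q P) : ∃ φ ∈ F.Hom (Cfsg.FusionSystem.normalizerIn S Q), (∀ x, φ x ∈ Cfsg.FusionSystem.normalizerIn S P) ∧ (Q.subgroupOf (Cfsg.FusionSystem.normalizerIn S Q)).map φ = P := by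
  obtain ⟨φ, hφ, e, he, hφe, hφN⟩ := CfsgLib.Fus21.exists_map_normalizer hS h₁ h₂ hQ
  refine ⟨φ, hφ, hφN, ?_⟩
  ext y
  constructor
  · rintro ⟨x, hx, rfl⟩
    have hx' : (x : Ω) ∈ Q := hx
    rw [hφe ⟨x, hx'⟩ x.2]
    exact (e _).2
  · intro hy
    have hz : ((e.symm ⟨y, hy⟩ : Q) : Ω) ∈ Cfsg.FusionSystem.normalizerIn S Q :=
      CfsgLib.Fus21.le_normalizerIn (CfsgLib.Fus21.iso_le_left he) (e.symm ⟨y, hy⟩).2
    refine ⟨⟨_, hz⟩, (e.symm ⟨y, hy⟩).2, ?_⟩
    rw [hφe (e.symm ⟨y, hy⟩) hz]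
    simp

end Cfsg.Agent.S5079
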