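import Cfsg.Statements.S5088
import Cfsg.Agent.LibFus21Norm2

set_option autoImplicit false
open Cfsg

namespace Cfsg.Agent.S5088

open CfsgLib.Fus21



/-- In a saturated fusion system over a finite p-group, a subgroup Q is normal in the system if and only if there is a chain of subgroups 1 = Q₀ ≤ Q₁ ≤ ⋯ ≤ Qₙ = Q such that each Qᵢ with i ≥ 1 is strongly closed in the system and [Q, Qᵢ] ≤ Qᵢ₋₁. -/
theorem result {Ω : Type*} [Group Ω] {S : Subgroup Ω} [Finite S] (p : ℕ) [Fact p.Prime] (hS : IsPGroup p S) (F : Cfsg.FusionSystem S) (hF : F.IsSaturated p) (Q : Subgroup Ω) : F.IsNormal Q ↔ ∃ (n : ℕ) (Qs : Fin (n + 1) → Subgroup Ω), Qs 0 = ⊥ ∧ Qs (Fin.last n) = Q ∧ Monotone Qs ∧ ∀ i : Fin n, F.StronglyClosed (Qs i.succ) ∧ ⁅Q, Qs i.succ⁆ ≤ Qs (Fin.castSucc i) := by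
  constructor
  · intro h
    obtain ⟨n, hn⟩ := exists_ucs_eq hS h.1
    have hnorm : ∀ i, F.IsNormal (ucs Q i) := fun i =>
      isNormal_of_characteristic h (ucs_le Q i) (by rw [ucs_subgroupOf]; infer_instance)
    exact ⟨n, fun i => ucs Q i, by simpa using ucs_zero Q, by simpa using hn, fun i j hij => ucs_mono Q hij,
      fun i => ⟨normal_stronglyClosed (hnorm _), by simpa using ucs_comm Q i⟩⟩
  · rintro ⟨n, Qs, h0, hn, hm, h⟩
    refine isNormal_of_chain hS hF n (fun i => Qs ⟨min i n, by omega⟩) ?_ ?_ ?_ ?_ ?_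
    · have : (⟨min 0 n, by omega⟩ : Fin (n + 1)) = 0 := by ext; simp
      simp only [this, h0]
    · have : (⟨min n n, by omega⟩ : Fin (n + 1)) = Fin.last n := by ext; simp
      simp only [this, hn]
    · intro i j hij
      refine hm ?_
      show min i n ≤ min j n
      omega
    · intro i hi
      rcases i with _ | i
      · have : (⟨min 0 n, by omega⟩ : Fin (n + 1)) = 0 := by ext; simp
        simp only [this, h0]
        exact stronglyClosed_bot F
      · have h1 := (h ⟨i, by omega⟩).1
        have : (⟨min (i + 1) n, by omega⟩ : Fin (n + 1)) = (⟨i, by omega⟩ : Fin n).succ := by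
          ext; simp; omega
        simp only [this]
        exact h1
    · intro i hi
      have h1 := (h ⟨i, hi⟩).2
      have e1 : (⟨min (i + 1) n, by omega⟩ : Fin (n + 1)) = (⟨i, by omega⟩ : Fin n).succ := by
        ext; simp; omega
      have e2 : (⟨min i n, by omega⟩ : Fin (n + 1)) = Fin.castSucc (⟨i, by omega⟩ : Fin n) := by
        ext; simp; omega
      simp only [e1, e2]
      exact h1

end Cfsg.Agent.S5088
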