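import Cfsg.Statements.S5089
import Cfsg.Agent.LibFus21Norm2

set_option autoImplicit false
open Cfsg

namespace Cfsg.Agent.S5089

open CfsgLib.Fus21



/-- A saturated fusion system over a finite p-group has a nontrivial subgroup that is normal in the system (O_p(F) ≠ 1) if and only if some nontrivial abelian subgroup is strongly closed in the system. -/
theorem result {Ω : Type*} [Group Ω] {S : Subgroup Ω} [Finite S] (p : ℕ) [Fact p.Prime] (hS : IsPGroup p S) (F : Cfsg.FusionSystem S) (hF : F.IsSaturated p) : F.core ≠ ⊥ ↔ ∃ Q : Subgroup Ω, Q ≠ ⊥ ∧ IsMulCommutative Q ∧ F.StronglyClosed Q := by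
  constructor
  · intro h
    have hN := isNormal_core F
    set Q := F.core
    have hQS := hN.1
    have hfQ : Finite Q := finite_of_le hQS
    have hnt : Nontrivial Q := (Subgroup.nontrivial_iff_ne_bot Q).2 h
    have hp := hS.to_le hQS
    refine ⟨(Subgroup.center Q).map Q.subtype, ?_, ?_, ?_⟩
    · intro hb
      have hc := hp.center_nontrivial
      rw [Subgroup.nontrivial_iff_ne_bot] at hc
      apply hc
      rw [Subgroup.map_eq_bot_iff_of_injective _ Q.subtype_injective] at hb
      exact hb
    · refine ⟨⟨?_⟩⟩
      rintro ⟨_, a, ha, rfl⟩ ⟨_, b, hb, rfl⟩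
      apply Subtype.ext
      show (a : Ω) * b = b * a
      exact congrArg Subtype.val (Subgroup.mem_center_iff.1 hb a)
    · refine normal_stronglyClosed (isNormal_of_characteristic hN ?_ ?_)
      · rintro _ ⟨x, -, rfl⟩; exact x.2
      · have : ((Subgroup.center Q).map Q.subtype).subgroupOf Q = Subgroup.center Q :=
          Subgroup.comap_map_eq_self_of_injective Q.subtype_injective _
        rw [this]; infer_instance
  · rintro ⟨Q, hQ, hab, hsc⟩ hb
    have hN : F.IsNormal Q := isNormal_of_abelian hS hF hsc (by
      rw [Subgroup.commutator_eq_bot_iff_le_centralizer]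
      intro x hx
      rw [Subgroup.mem_centralizer_iff]
      intro y hy
      have := hab.is_comm.comm (⟨x, hx⟩ : Q) ⟨y, hy⟩
      exact (congrArg Subtype.val this).symm)
    exact hQ (le_bot_iff.1 (hb ▸ le_core hN))

end Cfsg.Agent.S5089
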