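import Cfsg.Statements.S5094
import Cfsg.Agent.LibFus21Zst

set_option autoImplicit false
open Cfsg

namespace Cfsg.Agent.S5094

open Cfsg Cfsg.FusionSystem CfsgLib.Fus21



/-- Glauberman's Z*-Theorem in fusion language: for a finite group G with Sylow 2-subgroup S, the centre of the fusion system of G on S is the set of elements of S whose image in G/O(G) is central, O(G) being the largest normal subgroup of odd order. -/
theorem result {G : Type*} [Group G] [Finite G] (S : Sylow 2 G) : (Cfsg.groupFusionSystem (S : Subgroup G)).center = (S : Subgroup G) ⊓ (Subgroup.center (G ⧸ Cfsg.oddCore G)).comap (QuotientGroup.mk' (Cfsg.oddCore G)) := by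
  haveI : Fact (Nat.Prime 2) := ⟨Nat.prime_two⟩
  ext x
  rw [mem_center_FC S]
  constructor
  · intro hx
    refine ⟨hx.1, Subgroup.mem_comap.2 (Subgroup.mem_center_iff.2 fun q => ?_)⟩
    obtain ⟨g, rfl⟩ := QuotientGroup.mk_surjective q
    have h1 := FC_zstar _ G S x rfl hx g
    have h2 : ((x * g * x⁻¹ * g⁻¹ : G) : G ⧸ Cfsg.oddCore G) = 1 := (QuotientGroup.eq_one_iff _).2 h1
    have h3 : (x : G ⧸ Cfsg.oddCore G) * g * (x : G ⧸ Cfsg.oddCore G)⁻¹ * (g : G ⧸ Cfsg.oddCore G)⁻¹ = 1 := h2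
    rw [mul_inv_eq_one, mul_inv_eq_iff_eq_mul] at h3
    exact h3.symm
  · rintro ⟨hxS, hxc⟩
    refine ⟨hxS, fun g hg => ?_⟩
    have h1 := Subgroup.mem_center_iff.1 (Subgroup.mem_comap.1 hxc) (g : G ⧸ Cfsg.oddCore G)
    have h2 : ((g * x * g⁻¹ * x⁻¹ : G) : G ⧸ Cfsg.oddCore G) = 1 := by
      show (g : G ⧸ Cfsg.oddCore G) * x * (g : G ⧸ Cfsg.oddCore G)⁻¹ * (x : G ⧸ Cfsg.oddCore G)⁻¹ = 1
      have h3 : (g : G ⧸ Cfsg.oddCore G) * (x : G ⧸ Cfsg.oddCore G) = (x : G ⧸ Cfsg.oddCore G) * g := h1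
      rw [h3]; group
    have h4 : g * x * g⁻¹ * x⁻¹ ∈ Cfsg.oddCore G := (QuotientGroup.eq_one_iff _).1 h2
    have h5 : g * x * g⁻¹ * x⁻¹ ∈ (S : Subgroup G) := Subgroup.mul_mem _ hg (Subgroup.inv_mem _ hxS)
    obtain ⟨k, hk⟩ := S.2 ⟨_, h5⟩
    have h6 : orderOf (g * x * g⁻¹ * x⁻¹) ∣ 2 ^ k := orderOf_dvd_of_pow_eq_one (congrArg Subtype.val hk)
    have h7 : orderOf (g * x * g⁻¹ * x⁻¹) ∣ Nat.card (Cfsg.oddCore G) := Subgroup.orderOf_dvd_natCard _ h4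
    have h8 : (2 ^ k).Coprime (Nat.card (Cfsg.oddCore G)) :=
      Nat.Coprime.pow_left _ (Nat.coprime_two_left.2 CfsgLib.ZStar.oddCore_odd)
    have h9 := Nat.eq_one_of_dvd_coprimes h8 h6 h7
    rw [orderOf_eq_one_iff, mul_inv_eq_one] at h9
    exact h9

end Cfsg.Agent.S5094
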