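import Cfsg.Statements.S5102
import Cfsg.Agent.LibFus21Norm2
import Cfsg.Agent.LibFus21Grp

set_option autoImplicit false
open Cfsg

namespace Cfsg.Agent.S5102

open CfsgLib.Fus21



/-- A normal p-subgroup of a finite group G is normal in the fusion system of G on a Sylow p-subgroup. -/
theorem result {G : Type*} [Group G] [Finite G] (p : ℕ) [Fact p.Prime] (S : Sylow p G) (R : Subgroup G) [R.Normal] (hR : IsPGroup p R) : (Cfsg.groupFusionSystem (S : Subgroup G)).IsNormal R := by
  have hRS : R ≤ S := CfsgLib.Cores.normal_le_sylow inferInstance hR S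
  rw [isNormal_iff_himg]
  refine ⟨hRS, ?_⟩
  rintro P φ ⟨hP, hφS, g, hg⟩
  refine ⟨P ⊔ R, conjHom (P ⊔ R) g, ⟨sup_le hP hRS, ?_, g, fun x => rfl⟩, le_sup_left, le_sup_right,
    fun x hx => (hg ⟨x, hx⟩).symm, ?_⟩
  · refine sup_le_of_map rfl (fun x hx hxR => ?_) (fun x hx hxR => ?_)
    · have := hφS ⟨x, hx⟩
      rw [hg] at this
      exact this
    · exact hRS (Subgroup.Normal.conj_mem inferInstance x hx g)
  · ext y
    rw [mem_himg]
    constructor
    · rintro ⟨x, hx, hxR, rfl⟩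
      exact Subgroup.Normal.conj_mem inferInstance x hxR g
    · intro hy
      refine ⟨g⁻¹ * y * g⁻¹⁻¹, Subgroup.mem_sup_right (Subgroup.Normal.conj_mem inferInstance y hy g⁻¹),
        Subgroup.Normal.conj_mem inferInstance y hy g⁻¹, ?_⟩
      show g * (g⁻¹ * y * g⁻¹⁻¹) * g⁻¹ = y
      group

end Cfsg.Agent.S5102
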