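import Cfsg.Statements.S5104
import Cfsg.Agent.LibFus21Sat2

set_option autoImplicit false
open Cfsg

namespace Cfsg.Agent.S5104

/-- In a saturated fusion system over a finite p-group S, a fully centralized subgroup U with C_S(U) ≤ U is centric. -/
theorem result {Ω : Type*} [Group Ω] {S : Subgroup Ω} [Finite S] (p : ℕ) [Fact p.Prime] (hS : IsPGroup p S) (F : Cfsg.FusionSystem S) (hF : F.IsSaturated p) (U : Subgroup Ω) (hU : F.IsFullyCentralized U) (hC : Cfsg.FusionSystem.centralizerIn S U ≤ U) : F.IsCentric U := by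
  refine ⟨hU.1, fun Q hQ => ?_⟩
  have hQS := CfsgLib.Fus21.conj_le_right hQ
  have h1 := hU.2 Q hQ
  have hfU : Finite U := CfsgLib.Fus21.finite_of_le hU.1
  have hfQ : Finite Q := CfsgLib.Fus21.finite_of_le hQS
  have hfC : Finite (Cfsg.FusionSystem.centralizerIn S Q) :=
    CfsgLib.Fus21.finite_of_le (CfsgLib.Fus21.centralizerIn_le S Q)
  obtain ⟨e, he⟩ := CfsgLib.Fus21.isConj_iff.1 hQ
  -- Z(U) = C_S(U), and Z(Q) ≅ Z(U)
  have h2 : Nat.card (Cfsg.FusionSystem.centralizerIn S U) ≤ Nat.card ↥(Cfsg.FusionSystem.centralizerIn S Q ⊓ Q) := by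
    have : Finite ↥(Cfsg.FusionSystem.centralizerIn S Q ⊓ Q) := CfsgLib.Fus21.finite_of_le (inf_le_right.trans hQS)
    refine Nat.card_le_card_of_injective
      (fun x : Cfsg.FusionSystem.centralizerIn S U =>
        (⟨(e ⟨x, hC x.2⟩ : Q), ?_, (e ⟨x, hC x.2⟩).2⟩ : ↥(Cfsg.FusionSystem.centralizerIn S Q ⊓ Q))) ?_
    · refine CfsgLib.Fus21.mem_centralizerIn.2 ⟨hQS (e _).2, fun y hy => ?_⟩
      have h3 := (CfsgLib.Fus21.mem_centralizerIn.1 x.2).2 (e.symm ⟨y, hy⟩) (e.symm ⟨y, hy⟩).2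
      have h4 : (e.symm ⟨y, hy⟩) * (⟨x, hC x.2⟩ : U) = ⟨x, hC x.2⟩ * e.symm ⟨y, hy⟩ := Subtype.ext h3
      have h5 := congrArg (fun z => ((e z : Q) : Ω)) h4
      simpa using h5
    · intro x y hxy
      have h6 : (e ⟨x, hC x.2⟩ : Q) = e ⟨y, hC y.2⟩ := Subtype.ext (Subtype.mk.inj hxy)
      exact Subtype.ext (Subtype.mk.inj (e.injective h6))
  have h7 : Cfsg.FusionSystem.centralizerIn S Q ⊓ Q = Cfsg.FusionSystem.centralizerIn S Q :=
    Subgroup.eq_of_le_of_card_ge inf_le_left (h1.trans h2)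
  rw [← h7]; exact inf_le_right

end Cfsg.Agent.S5104
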