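import Cfsg.Statements.S5107
import Cfsg.Agent.LibFus21Norm2

set_option autoImplicit false
open Cfsg

namespace Cfsg.Agent.S5107

open CfsgLib.Fus21



/-- If a Sylow p-subgroup S of a finite group G has nilpotency class at most two and its centre is strongly closed in S with respect to G, then every map of the fusion system of G on S is conjugation by an element of N_G(S), and S is the largest subgroup normal in that fusion system. -/
theorem result {G : Type*} [Group G] [Finite G] (p : ℕ) [Fact p.Prime] (S : Sylow p G) (hcl : ⁅(S : Subgroup G), (S : Subgroup G)⁆ ≤ (S : Subgroup G) ⊓ Subgroup.centralizer ((S : Subgroup G) : Set G)) (hZ : Cfsg.IsStronglyClosed ((S : Subgroup G) ⊓ Subgroup.centralizer ((S : Subgroup G) : Set G)) (S : Subgroup G)) : (∀ (P : Subgroup G) (φ : P →* G), φ ∈ (Cfsg.groupFusionSystem (S : Subgroup G)).Hom P → ∃ g ∈ Subgroup.normalizer ((S : Subgroup G) : Set G), ∀ x : P, φ x = g * (x : G) * g⁻¹) ∧ (Cfsg.groupFusionSystem (S : Subgroup G)).core = S := by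
  set F := Cfsg.groupFusionSystem (S : Subgroup G) with hFdef
  have hF : F.IsSaturated p := group_saturated S
  set Z := (S : Subgroup G) ⊓ Subgroup.centralizer ((S : Subgroup G) : Set G) with hZdef
  have hZs : F.StronglyClosed Z := by
    refine ⟨inf_le_left, ?_⟩
    rintro R hR φ ⟨hRS, hφS, g, hg⟩ x
    rw [hg]
    refine hZ.2 x (hR x.2) g ?_
    rw [← hg]; exact hφS x
  have hSn : F.IsNormal (S : Subgroup G) := by
    refine isNormal_of_chain S.2 hF 2 (fun i => if i = 0 then ⊥ else if i = 1 then Z else S) (by simp) (by simp) ?_ ?_ ?_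
    · refine monotone_nat_of_le_succ fun i => ?_
      rcases i with _ | _ | i
      · simp
      · simp [hZdef]
      · simp
    · intro i hi
      interval_cases i
      · simpa using stronglyClosed_bot F
      · simpa using hZs
      · simp only [OfNat.ofNat_ne_zero, ↓reduceIte, OfNat.ofNat_ne_one]
        exact ⟨le_rfl, fun R hR φ hφ x => mem_S hφ x⟩
    · intro i hi
      interval_cases i
      · simp only [↓reduceIte, zero_add, one_ne_zero]
        rw [le_bot_iff, Subgroup.commutator_eq_bot_iff_le_centralizer]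
        intro x hx
        rw [Subgroup.mem_centralizer_iff]
        intro y hy
        exact (Subgroup.mem_centralizer_iff.1 hy.2 x hx).symm
      · simpa using hcl
  refine ⟨fun P φ hφ => ?_, le_antisymm (isNormal_core F).1 (le_core hSn)⟩
  obtain ⟨ψ, hψ, hψ1, κ, hκ⟩ := normal_aut hSn hφ
  obtain ⟨-, -, g, hg⟩ := hψ
  refine ⟨g, ?_, fun x => ?_⟩
  · have : ∀ x (hx : x ∈ (S : Subgroup G)), g * x * g⁻¹ ∈ (S : Subgroup G) := by
      intro x hx
      have h1 := hκ x hx
      rw [hg] at h1
      have h2 : g * x * g⁻¹ = κ ⟨x, hx⟩ := h1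
      rw [h2]; exact (κ _).2
    rw [← conjMap_eq_self_iff]
    refine Subgroup.eq_of_le_of_card_ge ?_ (card_map_conj g _).ge
    rintro _ ⟨x, hx, rfl⟩
    exact this x hx
  · rw [← hψ1 x x.2]
    exact hg _

end Cfsg.Agent.S5107
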