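import Cfsg.Statements.S5113
import Cfsg.Agent.LibFT6

set_option autoImplicit false
open Cfsg

namespace Cfsg.Agent.S5113

/-- Let F be a saturated fusion system over a finite p-group S and T a subgroup of S containing the hyperfocal subgroup of F. Then there is exactly one saturated fusion system over T that is a subsystem of F of p-power index. -/
theorem result {Ω : Type*} [Group Ω] {S : Subgroup Ω} [Finite S] (p : ℕ) [Fact p.Prime] (hS : IsPGroup p S) (F : Cfsg.FusionSystem S) (hF : F.IsSaturated p) (T : Subgroup Ω) (hTS : T ≤ S) (hT : F.hyperfocalSubgroup p ≤ T) : ∃ E : Cfsg.FusionSystem T, (E.IsSaturated p ∧ E.HasPPowerIndexIn F p) ∧ ∀ E' : Cfsg.FusionSystem T, E'.IsSaturated p → E'.HasPPowerIndexIn F p → E' = E := by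
    have hU := CfsgLib.FT.hyp_normIn F p
    refine ⟨CfsgLib.FT.subT F p _ T hU CfsgLib.FT.hypLe_self hT hTS, ⟨CfsgLib.FT.subT_saturated hS hF hU CfsgLib.FT.hypLe_self hT hTS, CfsgLib.FT.subT_index hU CfsgLib.FT.hypLe_self hT hTS⟩, fun E' h1 h2 => ?_⟩
    exact CfsgLib.Fus21.fusionSystem_ext (CfsgLib.FT.ppower_unique rfl hS hTS h1 (CfsgLib.FT.subT_saturated hS hF hU CfsgLib.FT.hypLe_self hT hTS) h2
      (CfsgLib.FT.subT_index hU CfsgLib.FT.hypLe_self hT hTS))

end Cfsg.Agent.S5113
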