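import Cfsg.Statements.S5122
import Cfsg.Agent.LibFus21Grp

set_option autoImplicit false
open Cfsg

namespace Cfsg.Agent.S5122

/-- Let G be a finite group with Sylow p-subgroup S. Every subgroup P of S has a G-conjugate Q ≤ S such that N_S(Q) is a Sylow p-subgroup of N_G(Q); and for any Q ≤ S with that property, C_S(Q) is a Sylow p-subgroup of C_G(Q) and the automorphisms of Q induced by N_S(Q) form a Sylow p-subgroup of those induced by N_G(Q). -/
theorem result {G : Type*} [Group G] [Finite G] (p : ℕ) [Fact p.Prime] (S : Sylow p G) : (∀ P : Subgroup G, P ≤ S → ∃ g : G, P.map (MulAut.conj g).toMonoidHom ≤ S ∧ (∃ R : Sylow p ↥(Subgroup.normalizer ((P.map (MulAut.conj g).toMonoidHom : Subgroup G) : Set G)), (R : Subgroup ↥(Subgroup.normalizer ((P.map (MulAut.conj g).toMonoidHom : Subgroup G) : Set G))) = (Cfsg.FusionSystem.normalizerIn (S : Subgroup G) (P.map (MulAut.conj g).toMonoidHom)).subgroupOf (Subgroup.normalizer ((P.map (MulAut.conj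 g).toMonoidHom : Subgroup G) : Set G)))) ∧ ∀ Q : Subgroup G, Q ≤ S → (∃ R : Sylow p ↥(Subgroup.normalizer (Q : Set G)), (R : Subgroup ↥(Subgroup.normalizer (Q : Set G))) = (Cfsg.FusionSystem.normalizerIn (S : Subgroup G) Q).subgroupOf (Subgroup.normalizer (Q : Set G))) → (∃ R : Sylow p ↥(Subgroup.centralizer (Q : Set G)), (R : Subgroup ↥(Subgroup.centralizer (Q : Set G))) = (Cfsg.FusionSystem.centralizerIn (S : Subgroup G) Q).subgroupOf (Subgroup.centralizer (Q : Set G))) ∧ (∃ R : Sylow p ↥(Cfsg.autInducedBy ⊤ Q), (R : Subgroup ↥(Cfsg.autInducedBy ⊤ Q)) = (Cfsg.autInducedBy (S : Subgroup G) Q).subgroupOf (Cfsg.autInducedBy ⊤ Q)) := by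
  have hcs : ∀ Q : Subgroup G, IsPGroup p ↥(Cfsg.FusionSystem.centralizerIn (S : Subgroup G) Q) := fun Q =>
    S.2.to_le (CfsgLib.Fus21.centralizerIn_le _ _)
  constructor
  · intro P hP
    obtain ⟨Q, hPQ, hQ⟩ := CfsgLib.Fus21.exists_fullyNormalized (Cfsg.groupFusionSystem (S : Subgroup G)) hP
    obtain ⟨-, hQS, g, hg⟩ := CfsgLib.Fus21.isConj_group.1 hPQ
    refine ⟨g, hg ▸ hQS, ?_⟩
    rw [CfsgLib.Fus21.sylow_normalizer_iff S, hg]
    exact (CfsgLib.Fus21.fn_group_iff S hQS).1 hQ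
  · intro Q hQ h
    rw [CfsgLib.Fus21.sylow_normalizer_iff S] at h
    refine ⟨?_, ?_⟩
    · rw [CfsgLib.Fus21.exists_sylow_eq_iff (H := Subgroup.centralizer (Q : Set G)) (hcs Q)]
      have hfn := (CfsgLib.Fus21.fn_group_iff S hQ).2 h
      exact (CfsgLib.Fus21.fc_group_iff S hQ).1 (CfsgLib.Fus21.sat_fn S.2 (CfsgLib.Fus21.group_saturated S) hfn).1
    · rw [CfsgLib.Fus21.exists_sylow_eq_iff (CfsgLib.Fus21.isPGroup_autInducedBy S.2 Q)]
      exact CfsgLib.Fus21.not_dvd_relIndex_aut h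

end Cfsg.Agent.S5122
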