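import Cfsg.Statements.S5128
import Cfsg.Agent.LibFus21Mor3

set_option autoImplicit false
open Cfsg

namespace Cfsg.Agent.S5128

open CfsgLib.Fus21 Cfsg.FusionSystem



/-- In a saturated fusion system over a finite p-group S, the product of two strongly closed subgroups is strongly closed. -/
theorem result {Ω : Type*} [Group Ω] {S : Subgroup Ω} [Finite S] (p : ℕ) [Fact p.Prime] (hS : IsPGroup p S) (F : Cfsg.FusionSystem S) (hF : F.IsSaturated p) (T₁ T₂ : Subgroup Ω) (h₁ : F.StronglyClosed T₁) (h₂ : F.StronglyClosed T₂) : F.StronglyClosed (T₁ ⊔ T₂) := by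
  refine ⟨sup_le h₁.1 h₂.1, fun R hR φ hφ x => ?_⟩
  have hRS := le_S hφ
  obtain ⟨ψ, hψ, hψx⟩ := exists_extension_mod hS hF h₁ hφ
  have hn : S ≤ Subgroup.normalizer (T₁ : Set Ω) := stronglyClosed_normal_S h₁
  have hx : (x : Ω) ∈ ((T₂ ⊔ T₁ : Subgroup Ω) : Set Ω) := by rw [sup_comm]; exact hR x.2
  rw [Subgroup.coe_mul_of_left_le_normalizer_right T₂ T₁ (h₂.1.trans hn)] at hx
  obtain ⟨b, hb, a, ha, hab⟩ := hx
  have hab' : b * a = x := hab
  have hbR : b ∈ R ⊔ T₁ := by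
    have : b = x * a⁻¹ := by rw [← hab']; group
    rw [this]
    exact Subgroup.mul_mem_sup x.2 (T₁.inv_mem ha)
  have haR : a ∈ R ⊔ T₁ := Subgroup.mem_sup_right ha
  have e1 : ψ ⟨x, Subgroup.mem_sup_left x.2⟩ = ψ ⟨b, hbR⟩ * ψ ⟨a, haR⟩ := by
    rw [← map_mul]
    congr 1
    exact Subtype.ext hab'.symm
  have h3 : ψ ⟨x, Subgroup.mem_sup_left x.2⟩ ∈ T₁ ⊔ T₂ := by
    rw [e1]
    exact Subgroup.mul_mem _ (Subgroup.mem_sup_right ((stronglyClosed_mem_iff h₂ hψ _).2 hb))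
      (Subgroup.mem_sup_left ((stronglyClosed_mem_iff h₁ hψ _).2 ha))
  have h4 := hψx x x.2
  have h5 : φ x = ψ ⟨x, Subgroup.mem_sup_left x.2⟩ * ((φ x)⁻¹ * ψ ⟨x, Subgroup.mem_sup_left x.2⟩)⁻¹ := by group
  rw [h5]
  exact Subgroup.mul_mem _ h3 (Subgroup.inv_mem _ (Subgroup.mem_sup_left h4))

end Cfsg.Agent.S5128
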