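import Cfsg.Statements.S5163
import Cfsg.Agent.LibFus21PSL4

set_option autoImplicit false
open Cfsg

namespace Cfsg.Agent.S5163

open Cfsg Cfsg.FusionSystem CfsgLib.Fus21 CfsgLib.Fus21.PSL



/-- For a finite field K of characteristic p and n ≥ 3, the p-fusion system of the projective special linear group PSL_n(K) on a Sylow p-subgroup is simple. -/
theorem result {K : Type*} [Field K] [Fintype K] (p : ℕ) [Fact p.Prime] [CharP K p] (n : ℕ) (hn : 3 ≤ n) (S : Sylow p (Matrix.ProjectiveSpecialLinearGroup (Fin n) K)) : (Cfsg.groupFusionSystem (S : Subgroup (Matrix.ProjectiveSpecialLinearGroup (Fin n) K))).IsSimple p := by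
  refine ((simpleData (K := K) hn p).of_cover (QuotientGroup.mk' (Subgroup.center (Matrix.SpecialLinearGroup (Fin n) K)))
    (QuotientGroup.mk'_surjective _) ?_).simple S
  intro z hz
  have hz' : z ∈ Subgroup.center (Matrix.SpecialLinearGroup (Fin n) K) := (QuotientGroup.eq_one_iff z).1 hz
  refine ⟨fun h => ((Subgroup.mem_center_iff.1 hz') h).symm, fun k hk => ?_⟩
  obtain ⟨r, -, hr⟩ := Matrix.SpecialLinearGroup.mem_center_iff.1 hz'
  have h1 : (Matrix.scalar (Fin n) r) ^ p ^ k = 1 := by
    rw [hr]
    exact congrArg Subtype.val hk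
  haveI : NeZero n := ⟨by omega⟩
  have h2 : r ^ p ^ k = 1 := by
    rw [← map_pow] at h1
    have h3 := congrFun (congrFun h1 0) 0
    simpa using h3
  have h4 : r = 1 := by
    have h5 : (r - 1) ^ p ^ k = 0 := by rw [sub_pow_char_pow, h2, one_pow, sub_self]
    have h6 : r - 1 = 0 := by
      by_contra h
      exact pow_ne_zero _ h h5
    exact sub_eq_zero.1 h6
  apply Subtype.ext
  show (z : Matrix (Fin n) (Fin n) K) = 1
  rw [← hr, h4, map_one]

end Cfsg.Agent.S5163
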