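import Cfsg.Statements.S5171
import Cfsg.Agent.LibUnc14

set_option autoImplicit false
open Cfsg

namespace Cfsg.Agent.S5171

/-- For a finite field K of characteristic p and m ≥ 2, excluding the case m = 2 with K of two elements, the p-fusion system of the projective symplectic group PSp_{2m}(K) on a Sylow p-subgroup is simple. -/
theorem result {K : Type*} [Field K] [Fintype K] (p : ℕ) [Fact p.Prime] [CharP K p] (m : ℕ) (hm : 2 ≤ m) (hex : m = 2 → 3 ≤ Fintype.card K) (S : Sylow p (Cfsg.PSp m K)) : (Cfsg.groupFusionSystem (S : Subgroup (Cfsg.PSp m K))).IsSimple p := by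
  classical
  haveI : Finite (Matrix.symplecticGroup (Fin m) K) := by
    haveI : Finite K := inferInstance
    infer_instance
  refine (CfsgLib.Unc.dat_sp (K := K) m).simple p (by simp; omega) (fun β _ => CfsgLib.Unc.sumsq_all β) (fun l hl => ?_) (fun l hl => ?_)
    (fun _ => ?_) S
  · rcases l with l | l <;> simp at hl
  · rcases l with l | l <;> simp at hl
  · rcases Nat.lt_or_ge m 3 with h | h
    · right
      have hm2 : m = 2 := by omega
      have h3 := hex hm2
      by_contra hcon
      push Not at hcon
      have h4 : (Finset.univ : Finset K) ⊆ {0, 1} := by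
        intro x _
        by_cases hx : x = 0
        · rw [hx]; simp
        · rw [hcon x hx]; simp
      have h5 := Finset.card_le_card h4
      rw [Finset.card_univ] at h5
      have h6 : ({0, 1} : Finset K).card ≤ 2 := Finset.card_le_two
      omega
    · left
      simp; omega

end Cfsg.Agent.S5171
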