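import Cfsg.Statements.S5172
import Cfsg.Agent.LibUnc16

set_option autoImplicit false
open Cfsg

namespace Cfsg.Agent.S5172

/-- For a finite field K with q² elements of characteristic p and n ≥ 4, the p-fusion system of the projective special unitary group PSU_n(q) (realised over K) on a Sylow p-subgroup is simple. -/
theorem result {K : Type*} [Field K] [Fintype K] (p q : ℕ) [Fact p.Prime] [CharP K p] (hK : Fintype.card K = q ^ 2) (n : ℕ) (hn : 4 ≤ n) (S : Sylow p (Cfsg.PSU n K q)) : (Cfsg.groupFusionSystem (S : Subgroup (Cfsg.PSU n K q))).IsSimple p := by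
  classical
  haveI : Finite (Cfsg.SU n K q) := by
    haveI : Finite K := inferInstance
    infer_instance
  obtain ⟨σ, hσq, hσ2, hσ⟩ := Cfsg.Agent.H22.exists_sigma hK
  obtain ⟨j, φ, hj0, hj, D⟩ := CfsgLib.Unc.exists_dat_su (n := n) hσq hσ hσ2
  obtain ⟨t, ht⟩ : ∃ t, σ t ≠ t := by
    by_contra hcon
    push Not at hcon
    exact hσ (RingHom.ext hcon)
  refine D.simple p (by rw [Fintype.card_fin]; exact hn) (fun β hβ => ?_) (fun l _ => ?_) (fun m _ β => ?_) (fun h => absurd (h t) ht) S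
  · rcases eq_or_ne β 0 with rfl | h0
    · exact ⟨0, 0, by simp⟩
    · obtain ⟨y, hy⟩ := CfsgLib.Herm27.exists_norm_eq σ hσ hσ2 β h0 hβ
      exact ⟨y, 0, by rw [hy]; simp⟩
  · have hu : t - σ t ≠ 0 := sub_ne_zero.2 ht.symm
    refine ⟨j / (t - σ t) * t, ?_⟩
    rw [map_mul, map_div₀, map_sub, hσ2, hj]
    have hu' : σ t - t ≠ 0 := sub_ne_zero.2 ht
    field_simp
    ring
  · have h1 : σ ((β - σ β) / j) = (β - σ β) / j := by
      rw [map_div₀, map_sub, hσ2, hj, div_neg, ← neg_div]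
      congr 1; ring
    rcases eq_or_ne ((β - σ β) / j) 0 with h0 | h0
    · refine ⟨0, ?_⟩
      rw [div_eq_zero_iff] at h0
      rcases h0 with h0 | h0
      · rw [h0]; simp
      · exact absurd h0 hj0
    · obtain ⟨y, hy⟩ := CfsgLib.Herm27.exists_norm_eq σ hσ hσ2 _ h0 h1
      refine ⟨y, ?_⟩
      rw [eq_div_iff hj0] at hy
      rw [← hy]; ring

end Cfsg.Agent.S5172
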