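import Cfsg.Statements.S5345
import Cfsg.Agent.LibTTB28

set_option autoImplicit false
open Cfsg

namespace Cfsg.Agent.S5345

open CfsgLib.TT28 CfsgLib.TTB28 Subgroup

/-- Let D be a conjugation-invariant generating set of 3-transpositions of a finite group G and T a Sylow 2-subgroup of G. Then the members of D lying in T generate an abelian subgroup, and their number is the width of D (the largest number of pairwise commuting members of D). -/
theorem result {G : Type*} [Group G] [Finite G] {D : Set G} (hD : Cfsg.IsThreeTranspositionGroup D) (T : Sylow 2 G) : IsMulCommutative (Subgroup.closure {d : G | d ∈ D ∧ d ∈ T}) ∧ {d : G | d ∈ D ∧ d ∈ T}.ncard = Cfsg.commutingWidth D := by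
  obtain ⟨hS, hC, hgen⟩ := hD
  have hcomm : ∀ x ∈ {d : G | d ∈ D ∧ d ∈ T}, ∀ y ∈ {d : G | d ∈ D ∧ d ∈ T}, Commute x y := by
    rintro x ⟨hx, hxT⟩ y ⟨hy, hyT⟩
    exact comm_of_two hS T.isPGroup' hx hy (mul_mem hxT hyT)
  refine ⟨isMulCommutative_closure (fun x hx y hy => hcomm x hx y hy), ?_⟩
  have hbound : ∀ E : Set G, E ⊆ D → (∀ a ∈ E, ∀ b ∈ E, Commute a b) → E.ncard ≤ {d : G | d ∈ D ∧ d ∈ T}.ncard := by
    intro E hE hEc
    have h2 := two_group_closure (fun x hx => sq hS (hE hx)) hEc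
    obtain ⟨Q, hQ⟩ := h2.exists_le_sylow
    obtain ⟨g, hg⟩ := MulAction.exists_smul_eq G Q T
    have h3 : (fun x => g * x * g⁻¹) '' E ⊆ {d : G | d ∈ D ∧ d ∈ T} := by
      rintro _ ⟨x, hx, rfl⟩
      refine ⟨hC g x (hE hx), ?_⟩
      rw [← hg]
      have h4 : x ∈ (Q : Subgroup G) := hQ (subset_closure hx)
      exact ⟨x, h4, rfl⟩
    rw [← Set.ncard_image_of_injective E (f := fun x => g * x * g⁻¹)
      (fun a b h => mul_left_cancel (mul_right_cancel h))]
    exact Set.ncard_le_ncard h3 (Set.toFinite _)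
  rw [Cfsg.commutingWidth]
  apply le_antisymm
  · apply le_csSup
    · refine ⟨{d : G | d ∈ D ∧ d ∈ T}.ncard, ?_⟩
      rintro n ⟨E, h1, _, h3, rfl⟩
      exact hbound E h1 h3
    · exact ⟨_, fun x hx => hx.1, Set.toFinite _, hcomm, rfl⟩
  · apply csSup_le
    · exact ⟨_, _, fun x hx => hx.1, Set.toFinite _, hcomm, rfl⟩
    · rintro n ⟨E, h1, _, h3, rfl⟩
      exact hbound E h1 h3

end Cfsg.Agent.S5345
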