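import Cfsg.Statements.S5346
import Cfsg.Agent.LibTTD28

set_option autoImplicit false
open Cfsg

namespace Cfsg.Agent.S5346

open CfsgLib.TT28 CfsgLib.TTB28 CfsgLib.TTC28 CfsgLib.TTD28 CfsgLib.Cores Subgroup

/-- Let D be a conjugation-invariant generating set of 3-transpositions of a finite group G and d a member of D. Then D has width 1 (no two different members of D commute) if and only if G is the product of the subgroup generated by d with the largest normal 3-subgroup of G. -/
theorem result {G : Type*} [Group G] [Finite G] {D : Set G} (hD : Cfsg.IsThreeTranspositionGroup D) {d : G} (hd : d ∈ D) : Cfsg.commutingWidth D = 1 ↔ Subgroup.zpowers d ⊔ Cfsg.pCore 3 G = ⊤ := by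
  obtain ⟨hS, hC, hgen⟩ := hD
  have hwidth : Cfsg.commutingWidth D = 1 ↔ ∀ a ∈ D, ∀ b ∈ D, Commute a b → a = b := by
    rw [Cfsg.commutingWidth]
    have hbdd : BddAbove {n : ℕ | ∃ E : Set G, E ⊆ D ∧ E.Finite ∧ (∀ a ∈ E, ∀ b ∈ E, Commute a b) ∧ E.ncard = n} := by
      refine ⟨Nat.card G, ?_⟩
      rintro n ⟨E, _, _, _, rfl⟩
      rw [← Set.ncard_univ]
      exact Set.ncard_le_ncard (Set.subset_univ _) (Set.toFinite _)
    have h1mem : (1 : ℕ) ∈ {n : ℕ | ∃ E : Set G, E ⊆ D ∧ E.Finite ∧ (∀ a ∈ E, ∀ b ∈ E, Commute a b) ∧ E.ncard = n} := by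
      refine ⟨{d}, by simpa using hd, Set.toFinite _, ?_, Set.ncard_singleton d⟩
      rintro a rfl b rfl; exact Commute.refl _
    constructor
    · intro h a ha b hb hab
      by_contra hne
      have h2 : (2 : ℕ) ∈ {n : ℕ | ∃ E : Set G, E ⊆ D ∧ E.Finite ∧ (∀ a ∈ E, ∀ b ∈ E, Commute a b) ∧ E.ncard = n} := by
        refine ⟨{a, b}, ?_, Set.toFinite _, ?_, Set.ncard_pair hne⟩
        · rintro x (rfl | rfl); exacts [ha, hb]
        · rintro x (rfl | rfl) y (rfl | rfl)
          exacts [Commute.refl _, hab, hab.symm, Commute.refl _]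
      have h3 := le_csSup hbdd h2
      rw [h] at h3; omega
    · intro h
      apply le_antisymm
      · apply csSup_le ⟨1, h1mem⟩
        rintro n ⟨E, hE, _, hc, rfl⟩
        rw [Set.ncard_le_one (Set.toFinite _)]
        intro a ha b hb
        exact h a (hE ha) b (hE hb) (hc a ha b hb)
      · exact le_csSup hbdd h1mem
  rw [hwidth]
  constructor
  · intro h
    have h1 := width_one hS hC h
    rw [eq_top_iff, ← hgen, closure_le]
    intro a ha
    have e : a = d * (d * a) := by rw [← mul_assoc, sq hS hd, one_mul]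
    rw [e]
    exact mul_mem (mem_sup_left (mem_zpowers d)) (mem_sup_right (h1 d hd a ha))
  · intro h a ha b hb hab
    have hN : IsPGroup 3 ↥(Cfsg.pCore 3 G) := pCore_isPGroup 3
    -- modulo `O₃(G)` everything is a power of `d`
    have hmem : ∀ k : ℤ, (QuotientGroup.mk d : G ⧸ Cfsg.pCore 3 G) ^ k = 1 ∨
        (QuotientGroup.mk d : G ⧸ Cfsg.pCore 3 G) ^ k = QuotientGroup.mk d := by
      intro k
      have hd2 : (QuotientGroup.mk d : G ⧸ Cfsg.pCore 3 G) ^ (2 : ℤ) = 1 := by
        rw [← QuotientGroup.mk_zpow]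
        have : d ^ (2 : ℤ) = 1 := by
          rw [show (2 : ℤ) = ((2 : ℕ) : ℤ) from rfl, zpow_natCast, pow_two, sq hS hd]
        rw [this, QuotientGroup.mk_one]
      rcases Int.even_or_odd' k with ⟨m, hm | hm⟩
      · left; rw [hm, zpow_mul, hd2, one_zpow]
      · right; rw [hm, zpow_add, zpow_mul, hd2, one_zpow, one_mul, zpow_one]
    have h3 : ∀ g : G, (QuotientGroup.mk g : G ⧸ Cfsg.pCore 3 G) = 1 ∨
        (QuotientGroup.mk g : G ⧸ Cfsg.pCore 3 G) = QuotientGroup.mk d := by
      intro g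
      have hg : g ∈ zpowers d ⊔ Cfsg.pCore 3 G := by rw [h]; exact mem_top g
      obtain ⟨x, hx, y, hy, rfl⟩ := mem_sup_of_normal_right.1 hg
      obtain ⟨k, rfl⟩ := mem_zpowers_iff.1 hx
      rw [QuotientGroup.mk_mul, (QuotientGroup.eq_one_iff y).2 hy, mul_one, QuotientGroup.mk_zpow]
      exact hmem k
    have h4 : ∀ x ∈ D, (QuotientGroup.mk x : G ⧸ Cfsg.pCore 3 G) = QuotientGroup.mk d := by
      intro x hx
      rcases h3 x with h5 | h5
      · exfalso
        rw [QuotientGroup.eq_one_iff] at h5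
        exact ne_one hS hx (eq_one_of_mem hN Nat.prime_two (by norm_num) h5 (by rw [pow_two, sq hS hx]))
      · exact h5
    have h5 : a⁻¹ * b ∈ Cfsg.pCore 3 G := by
      rw [← QuotientGroup.eq, h4 a ha, h4 b hb]
    rw [inv_eq hS ha] at h5
    exact eq_of_three hS hN ha hb h5 hab

end Cfsg.Agent.S5346
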