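import Cfsg.Statements.S5350
import Cfsg.Agent.LibTTD28

set_option autoImplicit false
open Cfsg

namespace Cfsg.Agent.S5350

open CfsgLib.TT28 CfsgLib.TTB28 CfsgLib.TTC28 CfsgLib.TTD28 CfsgLib.Cores Subgroup

/-- Let D be a conjugacy class of 3-transpositions generating the finite group G, with at least two members, and d a member of D. Then the set of members w of D whose commuting partners in D (other than w) are exactly those of d (other than d) coincides with the set of members of D lying in the coset of d modulo the largest normal 3-subgroup of G, and also with the orbit of d under conjugation by that normal 3-subgroup. -/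
theorem result {G : Type*} [Group G] [Finite G] {D : Set G} (hD : Cfsg.IsThreeTranspositionClass D) (hD2 : ∃ a ∈ D, ∃ b ∈ D, a ≠ b) {d : G} (hd : d ∈ D) : {w : G | w ∈ D ∧ {y : G | y ∈ D ∧ y ≠ d ∧ Commute d y} = {y : G | y ∈ D ∧ y ≠ w ∧ Commute w y}} = {w : G | w ∈ D ∧ d⁻¹ * w ∈ Cfsg.pCore 3 G} ∧ {w : G | w ∈ D ∧ {y : G | y ∈ D ∧ y ≠ d ∧ Commute d y} = {y : G | y ∈ D ∧ y ≠ w ∧ Commute w y}} = {w : G | ∃ g ∈ Cfsg.pCore 3 G, w = g * d * g⁻¹} := by
  exact ⟨Ws_eq_coset hD.1 (CI_of_class hD.2.1) hd, Ws_eq_orbit hD.1 (CI_of_class hD.2.1) hd⟩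

end Cfsg.Agent.S5350
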