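import Cfsg.Statements.S5351
import Cfsg.Agent.LibTTF28

set_option autoImplicit false
open Cfsg

namespace Cfsg.Agent.S5351

open CfsgLib.TT28 CfsgLib.TTB28 CfsgLib.TTC28 CfsgLib.TTD28 CfsgLib.TTE28 CfsgLib.TTF28 CfsgLib.Cores Subgroup

/-- Let D be a conjugacy class of 3-transpositions generating the finite group G, with at least two members. Then for every prime p > 3 the largest normal p-subgroup of G is central, and exactly one of the following holds: the largest normal 2-subgroup of G is not central; the largest normal 3-subgroup of G is not central; the layer of G (the product of its components) is non-trivial. -/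
theorem result {G : Type*} [Group G] [Finite G] {D : Set G} (hD : Cfsg.IsThreeTranspositionClass D) (hD2 : ∃ a ∈ D, ∃ b ∈ D, a ≠ b) : (∀ p : ℕ, p.Prime → 3 < p → Cfsg.pCore p G ≤ Subgroup.center G) ∧ ((¬ Cfsg.pCore 2 G ≤ Subgroup.center G ∧ Cfsg.pCore 3 G ≤ Subgroup.center G ∧ Cfsg.layer G = ⊥) ∨ (Cfsg.pCore 2 G ≤ Subgroup.center G ∧ ¬ Cfsg.pCore 3 G ≤ Subgroup.center G ∧ Cfsg.layer G = ⊥) ∨ (Cfsg.pCore 2 G ≤ Subgroup.center G ∧ Cfsg.pCore 3 G ≤ Subgroup.center G ∧ Cfsg.layer G ≠ ⊥)) := by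
  have hS := hD.1
  have hC := CI_of_class hD.2.1
  have hgen := hD.2.2
  constructor
  · intro p hp hp3 x hx
    haveI : Fact p.Prime := ⟨hp⟩
    have hn : (Cfsg.pCore p G).Normal := inferInstance
    exact mem_center_of hgen fun d hd => commute_large hS hC hp hp3 (pCore_isPGroup p) hd
      (fun y hy => hn.conj_mem y hy d) hx
  · obtain ⟨d, hd, _⟩ := hD2
    have hD2 : ∃ a ∈ D, ∃ b ∈ D, a ≠ b := ⟨d, hd, by assumption⟩
    by_cases h2 : Cfsg.pCore 2 G ≤ Subgroup.center G
    · by_cases h3 : Cfsg.pCore 3 G ≤ Subgroup.center G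
      · exact Or.inr (Or.inr ⟨h2, h3, layer_ne_bot hD hD2 (fitting_le_center hS hC hgen h2 h3)⟩)
      · exact Or.inr (Or.inl ⟨h2, h3, layer_W hS hC hgen (W_of_noncentral hD h3)⟩)
    · have hV := V_of_noncentral hD hD2 h2
      by_cases h3 : Cfsg.pCore 3 G ≤ Subgroup.center G
      · exact Or.inl ⟨h2, h3, layer_V hS hC hgen hV⟩
      · exfalso
        obtain ⟨v, hv, hvd⟩ := hV d hd
        obtain ⟨w, hw, hwd⟩ := W_of_noncentral hD h3 d hd
        rcases V_or_W hd with h | h
        · rw [h] at hv; exact hvd hv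
        · rw [h] at hw; exact hwd hw

end Cfsg.Agent.S5351
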