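import Cfsg.Statements.S5354
import Cfsg.Agent.LibTTJ28

set_option autoImplicit false
open Cfsg

namespace Cfsg.Agent.S5354

open CfsgLib.TT28 CfsgLib.TTB28 CfsgLib.TTC28 CfsgLib.TTD28 CfsgLib.TTE28 CfsgLib.TTF28 CfsgLib.TTG28 CfsgLib.TTH28 CfsgLib.TTI28 CfsgLib.TTJ28 CfsgLib.Cores CfsgLib.Comp Subgroup

/-- Let D be a conjugation-invariant generating set of 3-transpositions of the finite group G on which G acts primitively by conjugation, and suppose two different members of D commute (width at least 2). Then G has a quasisimple normal subgroup L of index at most 2 with the generalized Fitting subgroup of G equal to L times the centre, the commuting graph of D is connected, and for d in D the subgroup generated by the members of D commuting with d is a maximal D-subgroup: it is proper, and every subgroup generated by members of D that contains it is either it or G. -/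
theorem result {G : Type*} [Group G] [Finite G] {D : Set G} (hD : Cfsg.IsThreeTranspositionGroup D) (hprim : Cfsg.IsPrimitiveUnderConj D) (hw : ∃ a ∈ D, ∃ b ∈ D, a ≠ b ∧ Commute a b) : (∃ L : Subgroup G, L.Normal ∧ Cfsg.IsQuasisimple L ∧ L.index ≤ 2 ∧ Cfsg.generalizedFittingSubgroup G = L ⊔ Subgroup.center G) ∧ (Cfsg.commutingGraph D).Connected ∧ ∀ d ∈ D, Subgroup.closure {y : G | y ∈ D ∧ Commute d y} ≠ ⊤ ∧ ∀ H : Subgroup G, Cfsg.IsDSubgroup D H → Subgroup.closure {y : G | y ∈ D ∧ Commute d y} ≤ H → H = Subgroup.closure {y : G | y ∈ D ∧ Commute d y} ∨ H = ⊤ := by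
  obtain ⟨h2, h3, hconn, hL⟩ := structure_of_prim hD hprim hw
  refine ⟨hL, hconn, ?_⟩
  intro d hd
  have hne : Md D d ≠ ⊤ := by
    intro h
    obtain ⟨e, he, hc⟩ := exists_ncomm (class_of_prim hD hprim) hprim.2.1 hd
    apply hc
    have h1 : Md D d ≤ centralizer ({d} : Set G) := by
      rw [Md, closure_le]
      rintro x ⟨hx, hx2⟩
      rw [SetLike.mem_coe, mem_centralizer_singleton_iff]
      exact hx2.symm
    rw [h] at h1
    exact (mem_centralizer_singleton_iff.1 (h1 (mem_top e))).symm
  refine ⟨hne, ?_⟩
  intro H hH hle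
  by_contra hcon
  rw [not_or] at hcon
  exact no_bad hD hprim hw hd ⟨H, hH, hle, hcon.1, hcon.2⟩

end Cfsg.Agent.S5354
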