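import Cfsg.Statements.S5355
import Cfsg.Agent.LibTTC28

set_option autoImplicit false
open Cfsg

namespace Cfsg.Agent.S5355

open CfsgLib.TT28 CfsgLib.TTB28 CfsgLib.TTC28 Subgroup

/-- Let D be a conjugacy class of 3-transpositions generating the finite group G, with at least two members, and d a member of D. Suppose that every member of D commuting with d commutes with exactly the same members of D as d does, and that exactly one member of D other than d commutes with d. Then G is isomorphic to the symmetric group of degree 4. -/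
theorem result {G : Type*} [Group G] [Finite G] {D : Set G} (hD : Cfsg.IsThreeTranspositionClass D) (hD2 : ∃ a ∈ D, ∃ b ∈ D, a ≠ b) {d : G} (hd : d ∈ D) (hV : {y : G | y ∈ D ∧ Commute d y} = {v : G | v ∈ D ∧ ∀ e ∈ D, Commute v e ↔ Commute d e}) (hm : {y : G | y ∈ D ∧ Commute d y}.ncard = 2) : Nonempty (G ≃* Equiv.Perm (Fin 4)) := by
  have hS := hD.1
  have hC := CI_of_class hD.2.1
  have hV' : Vs D d = {y : G | y ∈ D ∧ Commute d y} := hV.symm
  -- all members are alike
  have hconj : ∀ x ∈ D, ∃ g : G, x = g * d * g⁻¹ := by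
    intro x hx
    obtain ⟨d0, hd0, e⟩ := hD.2.1
    rw [e] at hx hd
    have hx' : IsConj d0 x := hx
    have hd' : IsConj d0 d := hd
    obtain ⟨c, hc⟩ := isConj_iff.1 (hd'.symm.trans hx')
    exact ⟨c, hc.symm⟩
  have hall : ∀ x ∈ D, ∀ y ∈ D, Commute x y → y ∈ Vs D x := by
    intro x hx y hy hc
    obtain ⟨g, rfl⟩ := hconj x hx
    have h1 : g⁻¹ * y * g ∈ Vs D d := by
      rw [hV']
      refine ⟨hC.inv hy, ?_⟩
      rw [← commute_conj g]
      have : g * (g⁻¹ * y * g) * g⁻¹ = y := by group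
      rwa [this]
    have h2 := Vs_conj hC g h1
    have : g * (g⁻¹ * y * g) * g⁻¹ = y := by group
    rwa [this] at h2
  have hcard : ∀ x ∈ D, (Vs D x).ncard = 2 := by
    intro x hx
    obtain ⟨g, rfl⟩ := hconj x hx
    have h1 : Vs D (g * d * g⁻¹) = (fun y => g * y * g⁻¹) '' Vs D d := by
      ext y
      constructor
      · intro hy
        refine ⟨g⁻¹ * y * g, ?_, by group⟩
        have := Vs_conj hC g⁻¹ hy
        have e1 : g⁻¹ * (g * d * g⁻¹) * g⁻¹⁻¹ = d := by group
        rwa [e1, inv_inv] at this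
      · rintro ⟨z, hz, rfl⟩
        exact Vs_conj hC g hz
    rw [h1, Set.ncard_image_of_injective _ (fun a b h => mul_left_cancel (mul_right_cancel h)), hV']
    exact hm
  have huniq : ∀ x ∈ D, ∀ y ∈ Vs D x, ∀ z ∈ Vs D x, y ≠ x → z ≠ x → y = z := by
    intro x hx y hy z hz hyx hzx
    obtain ⟨a, b, hab, hset⟩ := Set.ncard_eq_two.1 (hcard x hx)
    have h1 := Vs_self hx
    rw [hset] at hy hz h1
    simp only [Set.mem_insert_iff, Set.mem_singleton_iff] at hy hz h1
    rcases h1 with rfl | rfl <;> rcases hy with rfl | rfl <;> rcases hz with rfl | rfl <;> tauto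
  obtain ⟨e, he, hde⟩ := exists_ncomm hD hD2 hd
  -- the other member
  obtain ⟨d', hd', hne⟩ : ∃ v ∈ Vs D d, v ≠ d := by
    obtain ⟨a, b, hab, hset⟩ := Set.ncard_eq_two.1 (hcard d hd)
    by_cases h : a = d
    · exact ⟨b, by rw [hset]; simp, fun h' => hab (h.trans h'.symm)⟩
    · exact ⟨a, by rw [hset]; simp, h⟩
  have hdd : Commute d d' := Vs_comm (Vs_self hd) hd'
  have hcv : ¬ Commute d' e := fun h => hde ((hd'.2 e he).1 h)
  obtain ⟨φ, hφ, h0, h1, h2⟩ := exists_s4 hS hd he hd'.1 hne.symm hdd hde (fun h => hcv h.symm)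
  -- images of the other transpositions
  have e02 : φ (Equiv.swap 0 2) = e * d * e⁻¹ := by
    rw [← h0, ← h1, ← map_inv, ← map_mul, ← map_mul]; exact congrArg φ (by decide)
  have e13 : φ (Equiv.swap 1 3) = e * d' * e⁻¹ := by
    rw [← h2, ← h1, ← map_inv, ← map_mul, ← map_mul]; exact congrArg φ (by decide)
  have e03 : φ (Equiv.swap 0 3) = (d * d') * e * (d * d')⁻¹ := by
    rw [← h0, ← h1, ← h2, ← map_mul, ← map_inv, ← map_mul, ← map_mul]; exact congrArg φ (by decide)
  have m02 : φ (Equiv.swap 0 2) ∈ D := by rw [e02]; exact hC e d hd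
  have m13 : φ (Equiv.swap 1 3) ∈ Vs D (φ (Equiv.swap 0 2)) := by rw [e02, e13]; exact Vs_conj hC e hd'
  have m03 : φ (Equiv.swap 0 3) ∈ Vs D e := by rw [e03]; exact (V_move hS hC hd hd' he hne hde).1
  have hneq : ∀ σ τ : Equiv.Perm (Fin 4), σ ≠ τ → φ σ ≠ φ τ := fun σ τ h h' => h (hφ h')
  have hrange : ∀ f ∈ D, f ∈ φ.range := by
    intro f hf
    by_contra hfr
    have hno : ∀ x ∈ D, ∀ x' ∈ Vs D x, x' ≠ x → x ∈ φ.range → x' ∈ φ.range → ¬ Commute x f := by
      intro x hx x' hx' hxx hr hr' hc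
      have h3 := hall x hx f hf hc
      by_cases h4 : f = x
      · exact hfr (h4 ▸ hr)
      · rw [huniq x hx f h3 x' hx' h4 hxx] at hfr
        exact hfr hr'
    have n1 : ¬ Commute d f := hno d hd d' hd' hne ⟨_, h0⟩ ⟨_, h2⟩
    have n2 : ¬ Commute e f := by
      refine hno e he _ m03 ?_ ⟨_, h1⟩ ⟨_, rfl⟩
      rw [← h1]; exact hneq _ _ (by decide)
    have n3 : ¬ Commute (φ (Equiv.swap 0 2)) f := by
      refine hno _ m02 _ m13 ?_ ⟨_, rfl⟩ ⟨_, rfl⟩
      exact hneq _ _ (by decide)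
    obtain ⟨p1, q1, -⟩ := V_move hS hC hd hd' hf hne n1
    obtain ⟨p2, q2, -⟩ := V_move hS hC he m03 hf (by rw [← h1]; exact hneq _ _ (by decide)) n2
    obtain ⟨p3, q3, -⟩ := V_move hS hC m02 m13 hf (hneq _ _ (by decide)) n3
    have r1 := huniq f hf _ p1 _ p2 q1 q2
    have r2 := huniq f hf _ p1 _ p3 q1 q3
    -- `t₃ = t₁ t₂`
    have ht : φ (Equiv.swap 0 2) * φ (Equiv.swap 1 3) = (d * d') * (e * φ (Equiv.swap 0 3)) := by
      rw [← h0, ← h1, ← h2, ← map_mul, ← map_mul, ← map_mul, ← map_mul]; exact congrArg φ (by decide)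
    have ht2 : (d * d') * (d * d') = 1 := sq_of_comm hS hd hd'.1 hdd
    apply q1
    rw [ht] at r2
    have r3 : (d * d') * (e * φ (Equiv.swap 0 3)) * f * ((d * d') * (e * φ (Equiv.swap 0 3)))⁻¹ = f := by
      calc (d * d') * (e * φ (Equiv.swap 0 3)) * f * ((d * d') * (e * φ (Equiv.swap 0 3)))⁻¹
          = (d * d') * ((e * φ (Equiv.swap 0 3)) * f * (e * φ (Equiv.swap 0 3))⁻¹) * (d * d')⁻¹ := by group
        _ = (d * d') * (d * d' * f * (d * d')⁻¹) * (d * d')⁻¹ := by rw [r1]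
        _ = ((d * d') * (d * d')) * f * ((d * d') * (d * d'))⁻¹ := by group
        _ = f := by rw [ht2]; group
    rw [r2, r3]
  have hsurj : Function.Surjective φ := by
    rw [← MonoidHom.range_eq_top, eq_top_iff, ← hD.2.2, closure_le]
    exact hrange
  exact ⟨(MulEquiv.ofBijective φ ⟨hφ, hsurj⟩).symm⟩

end Cfsg.Agent.S5355
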