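import Cfsg.Statements.S5356
import Cfsg.Agent.LibTTK28

set_option autoImplicit false
open Cfsg

namespace Cfsg.Agent.S5356

open CfsgLib.TT28 CfsgLib.TTB28 CfsgLib.TTC28 CfsgLib.TTD28 CfsgLib.TTE28 CfsgLib.TTF28 CfsgLib.TTK28 CfsgLib.Cores CfsgLib.Comp Subgroup

/-- Let D be a conjugacy class of 3-transpositions generating the finite group G, with at least two members, and d a member of D such that every member of D commuting with d commutes with exactly the same members of D as d. Then there is a Sylow 3-subgroup P of G normalized by d such that G is generated by d, P and the largest normal 2-subgroup of G. -/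
theorem result {G : Type*} [Group G] [Finite G] {D : Set G} (hD : Cfsg.IsThreeTranspositionClass D) (hD2 : ∃ a ∈ D, ∃ b ∈ D, a ≠ b) {d : G} (hd : d ∈ D) (hV : {y : G | y ∈ D ∧ Commute d y} = {v : G | v ∈ D ∧ ∀ e ∈ D, Commute v e ↔ Commute d e}) : ∃ P : Sylow 3 G, d ∈ Subgroup.normalizer (P : Set G) ∧ Subgroup.zpowers d ⊔ (P : Subgroup G) ⊔ Cfsg.pCore 2 G = ⊤ := by
  have hS := hD.1
  have hC := CI_of_class hD.2.1
  have hgen := hD.2.2
  haveI : Fact (Nat.Prime 3) := ⟨Nat.prime_three⟩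
  have hV' : Vs D d = {y : G | y ∈ D ∧ Commute d y} := hV.symm
  have hall : ∀ x ∈ D, ∀ y ∈ D, Commute x y → y ∈ Vs D x := by
    intro x hx y hy hc
    obtain ⟨g, rfl⟩ := class_conj hD.2.1 hd hx
    have h1 : g⁻¹ * y * g ∈ Vs D d := by
      rw [hV']
      refine ⟨hC.inv hy, ?_⟩
      rw [← commute_conj g]
      have : g * (g⁻¹ * y * g) * g⁻¹ = y := by group
      rwa [this]
    have h2 := Vs_conj hC g h1
    have : g * (g⁻¹ * y * g) * g⁻¹ = y := by group
    rwa [this] at h2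
  obtain ⟨Q, e, he, hQ⟩ := exists_normalized_sylow hD hD2 hall
  obtain ⟨g, hg⟩ := class_conj hD.2.1 he hd
  refine ⟨g • Q, ?_, ?_⟩
  · have key : ∀ x ∈ ((g • Q : Sylow 3 G) : Subgroup G), d * x * d⁻¹ ∈ ((g • Q : Sylow 3 G) : Subgroup G) := by
      rintro _ ⟨x, hx, rfl⟩
      refine ⟨e * x * e⁻¹, hQ x hx, ?_⟩
      show g * (e * x * e⁻¹) * g⁻¹ = d * (g * x * g⁻¹) * d⁻¹
      rw [← hg]; group
    show d ∈ normalizer (((g • Q : Sylow 3 G) : Subgroup G) : Set G)
    rw [mem_normalizer_iff]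
    intro x
    refine ⟨key x, fun hx => ?_⟩
    have h3 := key _ hx
    have e1 : d * (d * x * d⁻¹) * d⁻¹ = (d * d) * x * (d * d)⁻¹ := by group
    rw [e1, sq hS hd] at h3
    simpa using h3
  · set P : Sylow 3 G := g • Q
    -- pass to the quotient by `O₂(G)`
    let π := QuotientGroup.mk' (Cfsg.pCore 2 G)
    let E : Set (G ⧸ Cfsg.pCore 2 G) := π '' D
    have hnot : ∀ x ∈ D, x ∉ Cfsg.pCore 2 G := by
      intro x hx hxN
      obtain ⟨y, hy, hc⟩ := exists_ncomm hD hD2 hx
      obtain ⟨c, rfl⟩ := class_conj hD.2.1 hx hy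
      exact hc (comm_of_two hS (pCore_isPGroup 2) hx hy (mul_mem hxN ((inferInstance : (Cfsg.pCore 2 G).Normal).conj_mem x hxN c)))
    have hE : Cfsg.IsThreeTranspositionSet E := by
      refine ⟨?_, ?_⟩
      · rintro _ ⟨x, hx, rfl⟩
        apply orderOf_eq_prime
        · rw [← map_pow, pow_two, sq hS hx, map_one]
        · intro h
          exact hnot x hx ((QuotientGroup.eq_one_iff x).1 h)
      · rintro _ ⟨x, hx, rfl⟩ _ ⟨y, hy, rfl⟩
        rw [← map_mul, ← map_pow, ← map_pow]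
        rcases hS.2 x hx y hy with h | h
        · left; rw [h, map_one]
        · right; rw [h, map_one]
    have hEC : CI E := by
      rintro q _ ⟨x, hx, rfl⟩
      obtain ⟨c, rfl⟩ := QuotientGroup.mk'_surjective _ q
      exact ⟨c * x * c⁻¹, hC c x hx, by rw [map_mul, map_mul, map_inv]⟩
    have hw := width_one hE hEC (by
      rintro _ ⟨x, hx, rfl⟩ _ ⟨y, hy, rfl⟩ hc
      by_cases hxy : Commute x y
      · have h3 := V_mem_pCore hS hC hx (hall x hx y hy hxy)
        have h4 : π (x * y) = 1 := (QuotientGroup.eq_one_iff _).2 h3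
        rw [map_mul] at h4
        exact eq_of_mul_eq_one hE ⟨y, hy, rfl⟩ h4
      · have h3 : (π x * π y) ^ 3 = 1 := by rw [← map_mul, ← map_pow, cube hS hx hy hxy, map_one]
        have h4 : (π x * π y) ^ 2 = 1 := by
          rw [pow_two]; exact sq_of_comm hE ⟨x, hx, rfl⟩ ⟨y, hy, rfl⟩ hc
        rw [pow_succ, h4, one_mul] at h3
        exact eq_of_mul_eq_one hE ⟨y, hy, rfl⟩ h3)
    let P' : Sylow 3 (G ⧸ Cfsg.pCore 2 G) := Sylow.mapSurjective (QuotientGroup.mk'_surjective (Cfsg.pCore 2 G)) P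
    have hP' : (P' : Subgroup (G ⧸ Cfsg.pCore 2 G)) = (P : Subgroup G).map π := rfl
    rw [eq_top_iff, ← hgen, closure_le]
    intro x hx
    have h5 := pCore_le_sylow P' (hw (π d) ⟨d, hd, rfl⟩ (π x) ⟨x, hx, rfl⟩)
    rw [hP'] at h5
    obtain ⟨p, hp, hpe⟩ := h5
    rw [← map_mul] at hpe
    have h6 : p⁻¹ * (d * x) ∈ Cfsg.pCore 2 G := QuotientGroup.eq.1 hpe
    have e1 : x = d * (p * (p⁻¹ * (d * x))) := by
      calc x = (d * d) * x := by rw [sq hS hd, one_mul]
        _ = _ := by group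
    rw [e1, SetLike.mem_coe]
    exact mul_mem (mem_sup_left (mem_sup_left (mem_zpowers d)))
      (mul_mem (mem_sup_left (mem_sup_right hp)) (mem_sup_right h6))

end Cfsg.Agent.S5356
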