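import Cfsg.Statements.S5358
import Cfsg.Agent.LibTTS28

set_option autoImplicit false
open scoped MatrixGroups
open Cfsg

namespace Cfsg.Agent.S5358

open Cfsg.Agent.H22 CfsgLib.TTR28 CfsgLib.TTS28

/-- Let Q be a non-degenerate quadratic form on the n-dimensional coordinate space over the field with three elements and u, v vectors of the same non-zero norm Q(u) = Q(v) spanning different lines (v ≠ u and v ≠ −u). Then the reflection matrices of u and v commute if and only if u and v are orthogonal for the polar form of Q. -/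
theorem result (n : ℕ) (Q : QuadraticForm (ZMod 3) (Fin n → ZMod 3)) (hQ : (QuadraticMap.polarBilin Q).Nondegenerate) (u v : Fin n → ZMod 3) (hu : Q u ≠ 0) (huv : Q u = Q v) (h1 : v ≠ u) (h2 : v ≠ -u) : Commute (Cfsg.reflectionMatrix (⇑Q) u) (Cfsg.reflectionMatrix (⇑Q) v) ↔ QuadraticMap.polar (⇑Q) u v = 0 := by
  have hv : Q v ≠ 0 := by rw [← huv]; exact hu
  have key := refl_comm_iff (Q := Q) hu hv
  have hM : ∀ (w : Fin n → ZMod 3) (hw : Q w ≠ 0) (x : Fin n → ZMod 3),
      Matrix.mulVec (Cfsg.reflectionMatrix (⇑Q) w) x = (oRefl Q w hw).1 x := by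
    intro w hw x
    rw [reflectionMatrix_mulVec, oRefl_apply]
  have htr : Commute (Cfsg.reflectionMatrix (⇑Q) u) (Cfsg.reflectionMatrix (⇑Q) v) ↔
      Commute (oRefl Q u hu) (oRefl Q v hv) := by
    constructor
    · intro h
      apply og_ext
      intro x
      rw [og_mul_apply, og_mul_apply, ← hM, ← hM, ← hM, ← hM, Matrix.mulVec_mulVec, Matrix.mulVec_mulVec]
      exact congrArg (fun M => Matrix.mulVec M x) h
    · intro h
      apply mat_ext
      intro x
      rw [← Matrix.mulVec_mulVec, ← Matrix.mulVec_mulVec, hM v hv, hM u hu, hM u hu, hM v hv, ← og_mul_apply, ← og_mul_apply]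
      exact congrArg (fun M : OGrp Q => M.1 x) h
  rw [htr, key]
  constructor
  · rintro ((h | h) | h)
    exacts [absurd h h1, absurd h h2, h]
  · exact fun h => Or.inr h

end Cfsg.Agent.S5358
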