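import Cfsg.Statements.S5363
import Cfsg.Agent.LibTTB28

set_option autoImplicit false
open Cfsg

namespace Cfsg.Agent.S5363

open CfsgLib.TT28 CfsgLib.TTB28 Subgroup

/-- Let D be a conjugation-invariant set of involutions of a finite group G. Then every product of two members of D has odd order or order 2 if and only if, for every a in D and every b in D different from a and commuting with a, the members of D commuting with a b are exactly those commuting with both a and b. -/
theorem result {G : Type*} [Group G] [Finite G] {D : Set G} (hinv : ∀ d ∈ D, orderOf d = 2) (hconj : ∀ g : G, ∀ d ∈ D, g * d * g⁻¹ ∈ D) : (∀ a ∈ D, ∀ b ∈ D, Odd (orderOf (a * b)) ∨ orderOf (a * b) = 2) ↔ ∀ a ∈ D, ∀ b ∈ D, b ≠ a → Commute a b → {y : G | y ∈ D ∧ Commute (a * b) y} = {y : G | y ∈ D ∧ Commute a y} ∩ {y : G | y ∈ D ∧ Commute b y} := by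
  have sq' : ∀ d ∈ D, d * d = 1 := fun d hd => by rw [← pow_two, ← hinv d hd, pow_orderOf_eq_one]
  have inv' : ∀ d ∈ D, d⁻¹ = d := fun d hd => inv_eq_of_mul_eq_one_left (sq' d hd)
  have hcj : ∀ g : G, ∀ d : G, d ∈ D → g * d * g⁻¹ ∈ D := hconj
  constructor
  · intro h a ha b hb hne hab
    ext y
    simp only [Set.mem_inter_iff, Set.mem_setOf_eq]
    constructor
    · rintro ⟨hy, hc⟩
      have hca : Commute a y := by
        rcases h y hy a ha with ho | ho
        · -- `y b = (y a) (a b)` of order `2 n`
          have hz2 : orderOf (a * b) = 2 := by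
            apply orderOf_eq_prime
            · have : a * b = b * a := hab
              rw [pow_two]
              calc a * b * (a * b) = a * (b * a) * b := by group
                _ = (a * a) * (b * b) := by rw [← this]; group
                _ = 1 := by rw [sq' a ha, sq' b hb, one_mul]
            · intro h1
              apply hne
              rw [← inv' a ha]
              exact (eq_inv_of_mul_eq_one_right h1)
          have hza : Commute (a * b) a := Commute.mul_left (Commute.refl a) hab.symm
          have hcomm : Commute (y * a) (a * b) := Commute.mul_left hc.symm hza.symm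
          have hyb : (y * a) * (a * b) = y * b := by
            calc (y * a) * (a * b) = y * (a * a) * b := by group
              _ = y * b := by rw [sq' a ha, mul_one]
          have hcop : (orderOf (y * a)).Coprime (orderOf (a * b)) := by
            rw [hz2]; exact (Nat.coprime_two_right).2 ho
          have hord := hcomm.orderOf_mul_eq_mul_orderOf_of_coprime hcop
          rw [hyb, hz2] at hord
          rcases h y hy b hb with h1 | h1
          · rw [hord] at h1
            exact absurd h1 (by rw [Nat.not_odd_iff_even]; exact even_two.mul_left _)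
          · rw [h1] at hord
            have h2 : orderOf (y * a) = 1 := by omega
            have h3 : y * a = 1 := orderOf_eq_one_iff.1 h2
            have h4 : y = a := by rw [← inv' a ha]; exact eq_inv_of_mul_eq_one_left h3
            rw [h4]
        · have h1 : (y * a) * (y * a) = 1 := by rw [← pow_two, ← ho, pow_orderOf_eq_one]
          have h2 : (y * a)⁻¹ = y * a := inv_eq_of_mul_eq_one_left h1
          rw [mul_inv_rev, inv' a ha, inv' y hy] at h2
          exact h2
      refine ⟨⟨hy, hca⟩, hy, ?_⟩
      have e : b = a * (a * b) := by rw [← mul_assoc, sq' a ha, one_mul]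
      rw [e]
      exact Commute.mul_left hca hc
    · rintro ⟨⟨hy, h1⟩, _, h2⟩
      exact ⟨hy, Commute.mul_left h1 h2⟩
  · intro h a ha b hb
    by_contra hcon
    rw [not_or, Nat.not_odd_iff_even] at hcon
    obtain ⟨⟨m, hm⟩, hn2⟩ := hcon
    have hpos : 0 < orderOf (a * b) := orderOf_pos _
    set u := (a * b) ^ m with hu
    have hu2 : u * u = 1 := by rw [hu, ← pow_add, ← hm, pow_orderOf_eq_one]
    have hu1 : u ≠ 1 := by
      intro h1
      have := orderOf_dvd_of_pow_eq_one h1
      have := Nat.le_of_dvd (by omega) this
      omega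
    have huinv : u⁻¹ = u := inv_eq_of_mul_eq_one_left hu2
    have hconj2 : a * (a * b) * a⁻¹ = (a * b)⁻¹ := by
      rw [mul_inv_rev, inv' a ha, inv' b hb, ← mul_assoc, sq' a ha, one_mul]
    have hau : a * u * a⁻¹ = u := by
      rw [hu]
      have : a * (a * b) ^ m * a⁻¹ = (a * (a * b) * a⁻¹) ^ m := by
        rw [← MulAut.conj_apply, ← MulAut.conj_apply, map_pow]
      rw [this, hconj2, inv_pow, ← hu, huinv]
    have hauc : Commute a u := by
      show a * u = u * a
      calc a * u = (a * u * a⁻¹) * a := by group
        _ = u * a := by rw [hau]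
    have hbuc : Commute b u := by
      have h1 : Commute (a * b) u := (Commute.refl (a * b)).pow_right m
      have e : b = a * (a * b) := by rw [← mul_assoc, sq' a ha, one_mul]
      rw [e]
      exact Commute.mul_left hauc h1
    have huD : u * a ∈ D := by
      have hpow : ∀ k : ℕ, (a * b) ^ k * a = a * ((a * b) ^ k)⁻¹ := by
        intro k
        have h1 : a * ((a * b) ^ k)⁻¹ * a⁻¹ = (a * b) ^ k := by
          rw [← inv_pow]
          have : a * ((a * b)⁻¹) ^ k * a⁻¹ = (a * (a * b)⁻¹ * a⁻¹) ^ k := by
            rw [← MulAut.conj_apply, ← MulAut.conj_apply, map_pow]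
          rw [this]
          congr 1
          have h2 : a * (a * b)⁻¹ * a⁻¹ = (a * (a * b) * a⁻¹)⁻¹ := by group
          rw [h2, hconj2, inv_inv]
        calc (a * b) ^ k * a = (a * ((a * b) ^ k)⁻¹ * a⁻¹) * a := by rw [h1]
          _ = a * ((a * b) ^ k)⁻¹ := by group
      rcases Nat.even_or_odd' m with ⟨k, hk | hk⟩
      · have : u * a = (a * b) ^ k * a * ((a * b) ^ k)⁻¹ := by
          rw [hu, hk, two_mul, pow_add]
          calc (a * b) ^ k * (a * b) ^ k * a = (a * b) ^ k * ((a * b) ^ k * a) := by rw [mul_assoc]
            _ = (a * b) ^ k * (a * ((a * b) ^ k)⁻¹) := by rw [hpow]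
            _ = (a * b) ^ k * a * ((a * b) ^ k)⁻¹ := by rw [mul_assoc]
        rw [this]; exact hcj _ _ ha
      · have hPc : (a * b) ^ k * (a * b) = (a * b) * (a * b) ^ k := (Commute.refl (a * b)).pow_left k
        have : u * a = (a * b) ^ k * (a * b * a⁻¹) * ((a * b) ^ k)⁻¹ := by
          rw [hu, hk, two_mul, pow_succ, pow_add]
          calc (a * b) ^ k * (a * b) ^ k * (a * b) * a = (a * b) ^ k * ((a * b) ^ k * (a * b)) * a := by
                rw [mul_assoc ((a * b) ^ k)]
            _ = (a * b) ^ k * ((a * b) * (a * b) ^ k) * a := by rw [hPc]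
            _ = (a * b) ^ k * (a * b) * ((a * b) ^ k * a) := by simp only [mul_assoc]
            _ = (a * b) ^ k * (a * b) * (a * ((a * b) ^ k)⁻¹) := by rw [hpow]
            _ = (a * b) ^ k * (a * b * a⁻¹) * ((a * b) ^ k)⁻¹ := by rw [inv' a ha]; simp only [mul_assoc]
        rw [this]; exact hcj _ _ (hcj _ _ hb)
    have hne : u * a ≠ a := fun h1 => hu1 (by simpa using h1)
    have h1 := h a ha (u * a) huD hne (Commute.mul_right hauc (Commute.refl a))
    have h2 : a * (u * a) = u := by
      calc a * (u * a) = (a * u) * a := by group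
        _ = (u * a) * a := by rw [show a * u = u * a from hauc]
        _ = u * (a * a) := by group
        _ = u := by rw [sq' a ha, mul_one]
    rw [h2] at h1
    have h3 : b ∈ {y : G | y ∈ D ∧ Commute u y} := ⟨hb, hbuc.symm⟩
    rw [h1] at h3
    have h4 : Commute a b := h3.1.2
    have h5 : (a * b) ^ 2 = 1 := by
      have : a * b = b * a := h4
      rw [pow_two]
      calc a * b * (a * b) = a * (b * a) * b := by group
        _ = (a * a) * (b * b) := by rw [← this]; group
        _ = 1 := by rw [sq' a ha, sq' b hb, one_mul]
    have h6 := Nat.le_of_dvd (by norm_num) (orderOf_dvd_of_pow_eq_one h5)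
    omega

end Cfsg.Agent.S5363
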