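import Cfsg.Statements.S5364
import Cfsg.Agent.LibTTB28

set_option autoImplicit false
open Cfsg

namespace Cfsg.Agent.S5364

open CfsgLib.TT28 CfsgLib.TTB28 Subgroup

/-- Let D be a conjugation-invariant set of involutions of a finite group G and t an involution in the centre of G such that d t does not lie in D for any d in D. If the images of the members of D in G modulo the subgroup generated by t satisfy the 3-transposition order conditions (each has order 2 and any two have product of order at most 3), then so do the members of D. -/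
theorem result {G : Type*} [Group G] [Finite G] {D : Set G} (hinv : ∀ d ∈ D, orderOf d = 2) (hconj : ∀ g : G, ∀ d ∈ D, g * d * g⁻¹ ∈ D) (t : G) (ht : orderOf t = 2) (htZ : t ∈ Subgroup.center G) (hDt : ∀ d ∈ D, d * t ∉ D) [(Subgroup.zpowers t).Normal] (himg : Cfsg.IsThreeTranspositionSet ((QuotientGroup.mk : G → G ⧸ Subgroup.zpowers t) '' D)) : Cfsg.IsThreeTranspositionSet D := by
  have sq' : ∀ d ∈ D, d * d = 1 := fun d hd => by rw [← pow_two, ← hinv d hd, pow_orderOf_eq_one]
  have inv' : ∀ d ∈ D, d⁻¹ = d := fun d hd => inv_eq_of_mul_eq_one_left (sq' d hd)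
  have ht2 : t * t = 1 := by rw [← pow_two, ← ht, pow_orderOf_eq_one]
  have hmem : ∀ x : G, x ∈ zpowers t → x = 1 ∨ x = t := by
    intro x hx
    rw [mem_zpowers_iff] at hx
    obtain ⟨k, rfl⟩ := hx
    rcases Int.even_or_odd' k with ⟨m, hm | hm⟩
    · left; rw [hm, zpow_mul, zpow_ofNat, pow_two, ht2, one_zpow]
    · right; rw [hm, zpow_add, zpow_mul, zpow_ofNat, pow_two, ht2, one_zpow, one_mul, zpow_one]
  have hcen : ∀ x : G, x * t = t * x := fun x => mem_center_iff.1 htZ x
  refine ⟨hinv, ?_⟩
  intro d hd e he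
  have h1 := himg.2 _ ⟨d, hd, rfl⟩ _ ⟨e, he, rfl⟩
  rw [← QuotientGroup.mk_mul, ← QuotientGroup.mk_pow, ← QuotientGroup.mk_pow, QuotientGroup.eq_one_iff,
    QuotientGroup.eq_one_iff] at h1
  rcases h1 with h1 | h1
  · rcases hmem _ h1 with h2 | h2
    · exact Or.inl h2
    · exfalso
      have h3 : e * d * e⁻¹ = d * t := by
        calc e * d * e⁻¹ = (d * d) * (e * d * e⁻¹) := by rw [sq' d hd, one_mul]
          _ = d * (d * e) ^ 2 := by rw [pow_two, inv' e he]; simp only [mul_assoc]
          _ = d * t := by rw [h2]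
      exact hDt d hd (h3 ▸ hconj e d hd)
  · rcases hmem _ h1 with h2 | h2
    · exact Or.inr h2
    · exfalso
      have h3 : (d * e) * d * (d * e)⁻¹ = e * t := by
        calc (d * e) * d * (d * e)⁻¹ = (d * e) * d * (e * d) := by rw [mul_inv_rev, inv' d hd, inv' e he]
          _ = (d * e) ^ 3 * e⁻¹ := by rw [pow_succ, pow_two, inv' e he]; simp only [mul_assoc, sq' e he, mul_one]
          _ = e * t := by rw [h2, inv' e he, ← hcen]
      exact hDt e he (h3 ▸ hconj (d * e) d hd)

end Cfsg.Agent.S5364
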