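import Cfsg.Statements.S5365
import Cfsg.Agent.LibTTL28
import Cfsg.Agent.LibTTM28

set_option autoImplicit false
open Cfsg

namespace Cfsg.Agent.S5365

open Cfsg Subgroup CfsgLib.TT28 CfsgLib.TTB28 CfsgLib.TTC28 CfsgLib.TTL28 CfsgLib.TTM28

/-- Let D be a non-empty conjugation-invariant set of involutions of a finite group G satisfying the 3-transposition order conditions, and suppose that for every d in D the members of D other than d commuting with d generate a subgroup isomorphic to the symmetric group of degree 3, and the largest normal 3-subgroup of the centralizer of d has order 3. Then the subgroup generated by D is isomorphic to the symmetric group of degree 5 or to the direct product of two symmetric groups of degree 3. -/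
theorem result {G : Type*} [Group G] [Finite G] {D : Set G} (hD : Cfsg.IsThreeTranspositionSet D) (hconj : ∀ g : G, ∀ d ∈ D, g * d * g⁻¹ ∈ D) (hne : D.Nonempty) (hloc : ∀ d ∈ D, Nonempty (↥(Subgroup.closure {y : G | y ∈ D ∧ y ≠ d ∧ Commute d y}) ≃* Equiv.Perm (Fin 3)) ∧ Nat.card (Cfsg.pCore 3 ↥(Subgroup.centralizer ({d} : Set G))) = 3) : Nonempty (↥(Subgroup.closure D) ≃* Equiv.Perm (Fin 5)) ∨ Nonempty (↥(Subgroup.closure D) ≃* Equiv.Perm (Fin 3) × Equiv.Perm (Fin 3)) := by
  have hC : CfsgLib.TT28.CI D := fun g d hd => hconj g d hd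
  have hloc' : ∀ d ∈ D, Nonempty (↥(Subgroup.closure (Nb D d)) ≃* Equiv.Perm (Fin 3)) := fun d hd => (hloc d hd).1
  by_cases h : ∀ d ∈ D, ∀ e ∈ D, d ≠ e → ∀ a b, a ∈ Nb D d → b ∈ Nb D d → a ∈ Nb D e → b ∈ Nb D e → a = b
  · exact Or.inl (caseB hD hC hloc' h hne)
  · push Not at h
    obtain ⟨d, hd, e, he, hde, a, b, had, hbd, hae, hbe, hab⟩ := h
    right
    by_cases hall : ∀ x ∈ D, (x = a ∨ x = b ∨ x = a * b * a) ∨ (x = d ∨ x = e ∨ x = d * e * d)
    · exact caseA_iso hD hC hloc' hd he hde had hbd hae hbe hab hall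
    · push Not at hall
      obtain ⟨x, hx, h1, h2⟩ := hall
      exact (caseA_false hD hC hloc' hd he hde had hbd hae hbe hab (hloc d hd).2 hx (by tauto) (by tauto)).elim

end Cfsg.Agent.S5365
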