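import Cfsg.Statements.S5392
import Mathlib
import Cfsg.Agent.LibMTF
import Cfsg.Agent.LibCoI

set_option autoImplicit false
open Cfsg

namespace Cfsg.Agent.S5392

open CfsgLib.Co CfsgLib.Leech CfsgLib.Golay CfsgLib.MT

theorem h4 : (4 : ℤ) = 4 ∨ (4 : ℤ) = -4 := Or.inl rfl
theorem h4' : (-4 : ℤ) = 4 ∨ (-4 : ℤ) = -4 := Or.inr rfl

theorem e8_eq {j : Cfsg.GolayPt} (_ : (none : Cfsg.GolayPt) ≠ j) : e8 none = PL none j h4 h4 + PL none j h4 h4' := by
  apply Subtype.ext
  funext k
  change (Pi.single none 8 : E) k = P none j 4 4 k + P none j 4 (-4) k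
  rw [P_apply, P_apply, Pi.single_apply]
  split_ifs <;> norm_num

theorem e8_eq' {j : Cfsg.GolayPt} (_ : (none : Cfsg.GolayPt) ≠ j) : e8 j = PL none j h4 h4 - PL none j h4 h4' := by
  apply Subtype.ext
  funext k
  change (Pi.single j 8 : E) k = P none j 4 4 k - P none j 4 (-4) k
  rw [P_apply, P_apply, Pi.single_apply]
  split_ifs <;> norm_num

theorem dotP (a b c d : Cfsg.GolayPt) {s t s' t' : ℤ} (hs : s = 4 ∨ s = -4) (ht : t = 4 ∨ t = -4) (hs' : s' = 4 ∨ s' = -4) (ht' : t' = 4 ∨ t' = -4) :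
    Cfsg.dotInt (PL a b hs ht : E) (PL c d hs' ht' : E) = s * P c d s' t' a + t * P c d s' t' b := dot_P_left _ _ _ _ _

theorem part1 (g : ↥Cfsg.Co0) (hg : ∀ v : LL, ∃ w : LL, g • v = v + (w + w)) : g ∈ Subgroup.center ↥Cfsg.Co0 := by
  have hpm : ∀ v : LL, Cfsg.sqNorm (v : E) = 32 → g • v = v ∨ g • v = -v := fun v hv => pm_of_Sv hv (hg v)
  have hfix : ∀ g' : ↥Cfsg.Co0, (∀ v : LL, Cfsg.sqNorm (v : E) = 32 → g' • v = v ∨ g' • v = -v) → g' • p44 = p44 → g' = 1 := by
    intro g' h1 h2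
    have h3 : ∀ v : LL, Cfsg.sqNorm (v : E) = 32 → Cfsg.dotInt (v : E) (p44 : E) ≠ 0 → g' • v = v := by
      intro v hv hd
      rcases h1 v hv with h | h
      · exact h
      · exfalso
        have h4 := act_dot g' v p44
        rw [h, h2] at h4
        have h5 : Cfsg.dotInt ((-v : LL) : E) (p44 : E) = -Cfsg.dotInt (v : E) (p44 : E) := dot_neg_left _ _
        rw [h5] at h4
        omega
    have key : ∀ j : Cfsg.GolayPt, (none : Cfsg.GolayPt) ≠ j → j ≠ pz → g' • e8 none = e8 none ∧ g' • e8 j = e8 j := by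
      intro j hj hjz
      have a1 := h3 (PL none j h4 h4) (norm_PL hj _ _) (by
        rw [show (p44 : E) = (PL none pz h4 h4 : E) from rfl, dotP, P_left nz, P_other (Ne.symm hj) hjz]; norm_num)
      have a2 := h3 (PL none j h4 h4') (norm_PL hj _ _) (by
        rw [show (p44 : E) = (PL none pz h4 h4 : E) from rfl, dotP, P_left nz, P_other (Ne.symm hj) hjz]; norm_num)
      rw [e8_eq hj, e8_eq' hj, act_add, act_sub, a1, a2]
      exact ⟨rfl, rfl⟩
    have k0 : g' • e8 none = e8 none := (key po no (by decide)).1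
    have kz : g' • e8 pz = e8 pz := by
      have e1 : e8 pz = (p44 + p44) - e8 none := by
        apply Subtype.ext
        funext k
        change (Pi.single pz 8 : E) k = (P none pz 4 4 k + P none pz 4 4 k) - (Pi.single none 8 : E) k
        rw [P_apply, Pi.single_apply, Pi.single_apply]
        split_ifs <;> norm_num
      rw [e1, act_sub, act_add, h2, k0]
    apply ext_e8
    intro i
    rw [one_smul]
    by_cases h5 : i = none
    · rw [h5, k0]
    · by_cases h6 : i = pz
      · rw [h6, kz]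
      · exact (key i (Ne.symm h5) h6).2
  rcases hpm p44 p44_norm with h | h
  · rw [hfix g hpm h]; exact one_mem _
  · have h1 : negCo * g = 1 := by
      apply hfix
      · intro v hv
        rw [mul_smul, negCo_apply]
        rcases hpm v hv with e | e
        · right; rw [e]
        · left; rw [e, neg_neg]
      · rw [mul_smul, negCo_apply, h, neg_neg]
    have h2 : g = negCo⁻¹ := eq_inv_of_mul_eq_one_right h1
    rw [h2]
    exact inv_mem negCo_mem

theorem W5_mem' : (fun k : Cfsg.GolayPt => if k = pz then (5 : ℤ) else 1) ∈ Lam := by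
  refine ⟨1, 0, Pi.single pz 1, Submodule.zero_mem _, fun i => ?_, ?_⟩
  · rw [Pi.zero_apply, lf_zero, Pi.single_apply]
    by_cases h : i = pz
    · simp [h]
    · simp [h]
  · rw [sum_single_pt]; norm_num

theorem W5_mem'' : W5 ∈ Lam := by
  refine ⟨1, 0, Pi.single none 1, Submodule.zero_mem _, fun i => ?_, ?_⟩
  · rw [W5, Pi.zero_apply, lf_zero, Pi.single_apply]
    split_ifs <;> norm_num
  · rw [sum_single_pt]; norm_num

theorem n5 (i : Cfsg.GolayPt) : Cfsg.sqNorm (fun k : Cfsg.GolayPt => if k = i then (5 : ℤ) else 1) = 48 := by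
  have h : ∀ k : Cfsg.GolayPt, (if k = i then (5 : ℤ) else 1) ^ 2 = 1 + 24 * (if k = i then 1 else 0) := by
    intro k; split_ifs <;> norm_num
  rw [Cfsg.sqNorm, Finset.sum_congr rfl fun k _ => h k, Finset.sum_add_distrib, ← Finset.mul_sum, Finset.sum_ite_eq' Finset.univ i]
  simp

theorem part2 (M : AddSubgroup LL) (h2 : ∀ v : LL, v + v ∈ M) (hinv : ∀ (g : ↥Cfsg.Co0) (v : LL), v ∈ M → g • v ∈ M) (x : LL) (hx : x ∈ M)
    (hx2 : ¬ ∃ w : LL, x = w + w) : M = ⊤ := by
  have t32 : ∀ v w : LL, v ∈ M → Cfsg.sqNorm (v : E) = 32 → Cfsg.sqNorm (w : E) = 32 → w ∈ M := by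
    intro v w hv hn hn'
    obtain ⟨g, hg⟩ := MT.tr32' hn hn'
    rw [← hg]; exact hinv g v hv
  have t64 : ∀ v w : LL, v ∈ M → Cfsg.sqNorm (v : E) = 64 → Cfsg.sqNorm (w : E) = 64 → w ∈ M := by
    intro v w hv hn hn'
    obtain ⟨g, hg⟩ := MT.tr64 hn hn'
    rw [← hg]; exact hinv g v hv
  have t48 : ∀ v w : LL, v ∈ M → Cfsg.sqNorm (v : E) = 48 → Cfsg.sqNorm (w : E) = 48 → w ∈ M := by
    intro v w hv hn hn'
    obtain ⟨g, hg⟩ := tr48 v hn
    obtain ⟨g', hg'⟩ := tr48 w hn'
    have e : w = g'⁻¹ • (g • v) := by rw [eq_inv_smul_iff]; exact Subtype.ext (hg'.trans hg.symm)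
    rw [e]; exact hinv _ _ (hinv g v hv)
  -- a minimal vector in `M`
  have hmin : ∃ v ∈ M, Cfsg.sqNorm (v : E) = 32 := by
    obtain ⟨y, hy, hn, u, hu, huv⟩ := Cfsg.Agent.S1570.result x x.2
    have e1 : (⟨y, hy⟩ : LL) = x - (⟨u, hu⟩ + ⟨u, hu⟩) := by
      apply Subtype.ext
      change y = (x : E) - (u + u)
      rw [← two_nsmul, ← huv]; abel
    have hyM : (⟨y, hy⟩ : LL) ∈ M := by rw [e1]; exact sub_mem hx (h2 _)
    have hy0 : y ≠ 0 := by
      rintro rfl
      apply hx2
      refine ⟨⟨u, hu⟩, ?_⟩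
      have : (⟨0, hy⟩ : LL) = 0 := rfl
      rw [this] at e1
      exact (sub_eq_zero.1 e1.symm)
    have h3 := min_norm (mem_LL.1 hy) hy0
    have h5 := dvd_sqNorm (mem_LL.1 hy)
    have hcase : Cfsg.sqNorm y = 32 ∨ Cfsg.sqNorm y = 48 ∨ Cfsg.sqNorm y = 64 := by omega
    rcases hcase with h | h | h
    · exact ⟨_, hyM, h⟩
    · have m1 := t48 _ ⟨W5, mem_LL.2 W5_mem''⟩ hyM h (n5 none)
      have m2 := t48 _ ⟨_, mem_LL.2 W5_mem'⟩ hyM h (n5 pz)
      refine ⟨PL none pz h4 h4', ?_, norm_PL nz _ _⟩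
      have e2 : PL none pz h4 h4' = (⟨W5, mem_LL.2 W5_mem''⟩ : LL) - ⟨_, mem_LL.2 W5_mem'⟩ := by
        apply Subtype.ext
        funext k
        change P none pz 4 (-4) k = W5 k - (if k = pz then (5 : ℤ) else 1)
        rw [P_apply, W5]
        by_cases a : k = none
        · rw [if_pos a, if_pos a, if_neg (by rw [a]; decide), if_neg (by rw [a]; decide)]; norm_num
        · by_cases b : k = pz
          · rw [if_neg a, if_pos b, if_neg a, if_pos b]; norm_num
          · rw [if_neg a, if_neg b, if_neg a, if_neg b]; norm_num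
      rw [e2]; exact sub_mem m1 m2
    · have n1 : Cfsg.sqNorm ((PL none pz h4 h4 + PL po (some 2) h4 h4 : LL) : E) = 64 := by
        rw [AddSubgroup.coe_add, sqNorm_add, norm_PL nz, norm_PL (by decide), dotP, P_other (by decide) (by decide), P_other (by decide) (by decide)]; norm_num
      have n2 : Cfsg.sqNorm ((PL pz po h4 h4 + PL (some 2) (some 3) h4 h4 : LL) : E) = 64 := by
        rw [AddSubgroup.coe_add, sqNorm_add, norm_PL (by decide), norm_PL (by decide), dotP, P_other (by decide) (by decide), P_other (by decide) (by decide)]; norm_num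
      have m1 := t64 _ _ hyM h n1
      have m2 := t64 _ _ hyM h n2
      refine ⟨PL none (some 3) h4 h4', ?_, norm_PL (by decide) _ _⟩
      have e2 : PL none (some 3) h4 h4' = (PL none pz h4 h4 + PL po (some 2) h4 h4) - (PL pz po h4 h4 + PL (some 2) (some 3) h4 h4) := by
        apply Subtype.ext
        funext k
        change P none (some 3) 4 (-4) k = (P none pz 4 4 k + P po (some 2) 4 4 k) - (P pz po 4 4 k + P (some 2) (some 3) 4 4 k)
        simp only [P_apply]
        split_ifs <;> norm_num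
      rw [e2]; exact sub_mem m1 m2
  obtain ⟨v, hv, hn⟩ := hmin
  rw [eq_top_iff]
  intro w _
  have h3 : (w : E) ∈ AddSubgroup.closure {x : E | x ∈ Cfsg.leechLattice ∧ Cfsg.sqNorm x = 32} := by
    rw [closure_min]; exact w.2
  have h5 : AddSubgroup.closure {x : E | x ∈ Cfsg.leechLattice ∧ Cfsg.sqNorm x = 32} ≤ M.map Cfsg.leechLattice.subtype := by
    rw [AddSubgroup.closure_le]
    rintro y ⟨hy, hyn⟩
    exact ⟨⟨y, hy⟩, t32 v ⟨y, hy⟩ hv hn hyn, rfl⟩
  obtain ⟨w', hw', hww⟩ := h5 h3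
  have : w' = w := Subtype.ext hww
  rwa [this] at hw'

/-- The Leech lattice modulo twice itself is a faithful irreducible module for the first Conway group: an automorphism of the rank-24 lattice built from the length-24 code that moves every lattice vector only by twice a lattice vector lies in the centre of the automorphism group (the centre consists of ±1, which act trivially there, so the kernel is exactly the centre), and an additive subgroup lying between twice the lattice and the lattice that is invariant under all lattice automorphisms is one of the two. -/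
theorem result : (∀ g : ↥Cfsg.Co0, (∀ v : ↥Cfsg.leechLattice, ∃ w : ↥Cfsg.leechLattice, ((g • v : ↥Cfsg.leechLattice) : Cfsg.GolayPt → ℤ) - (v : Cfsg.GolayPt → ℤ) = 2 • (w : Cfsg.GolayPt → ℤ)) → g ∈ Subgroup.center ↥Cfsg.Co0) ∧ ∀ M : AddSubgroup (Cfsg.GolayPt → ℤ), (∀ v ∈ Cfsg.leechLattice, (2 : ℤ) • v ∈ M) → M ≤ Cfsg.leechLattice → (∀ g : ↥Cfsg.Co0, ∀ v : ↥Cfsg.leechLattice, (v : Cfsg.GolayPt → ℤ) ∈ M → ((g • v : ↥Cfsg.leechLattice) : Cfsg.GolayPt → ℤ) ∈ M) → (∀ x ∈ M, ∃ w ∈ Cfsg.leechLattice, x = (2 : ℤ) • w) ∨ M = Cfsg.leechLattice := by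
  constructor
  · intro g hg
    apply part1
    intro v
    obtain ⟨w, hw⟩ := hg v
    refine ⟨w, Subtype.ext ?_⟩
    change ((g • v : LL) : E) = (v : E) + ((w : E) + (w : E))
    rw [← two_nsmul, ← hw]; abel
  · intro M h2 hle hinv
    by_cases hM : ∀ x ∈ M, ∃ w ∈ Cfsg.leechLattice, x = (2 : ℤ) • w
    · exact Or.inl hM
    · right
      push Not at hM
      obtain ⟨x, hx, hx2⟩ := hM
      have h3 := part2 (M.comap Cfsg.leechLattice.subtype) (fun v => by
          have := h2 v v.2
          rw [two_zsmul] at this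
          exact this) (fun g v hv => hinv g v hv) ⟨x, hle hx⟩ hx (by
          rintro ⟨w, hw⟩
          apply hx2 w w.2
          rw [two_zsmul]
          exact congrArg Subtype.val hw)
      apply le_antisymm hle
      intro y hy
      have : (⟨y, hy⟩ : LL) ∈ M.comap Cfsg.leechLattice.subtype := by rw [h3]; trivial
      exact this

end Cfsg.Agent.S5392
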