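import Cfsg.Statements.S5393
import Cfsg.Agent.LibSub28
import Cfsg.Agent.LibOrbG28

set_option autoImplicit false
open Cfsg

namespace Cfsg.Agent.S5393

open CfsgLib.M24 CfsgLib.Golay CfsgLib.Syn28 CfsgLib.Sub28 CfsgLib.OrbG28 Cfsg MulAction
open scoped Pointwise

def PT : List (ℕ × ℕ × ℕ) := [(118, 119, 0), (41, 43, 0), (43, 47, 0), (35, 43, 0), (43, 59, 0), (15, 47, 0),
  (30, 94, 0), (35, 163, 0), (35, 291, 0), (35, 547, 0), (19, 1043, 0), (15, 125, 2162)]

theorem PT_ok : ∀ b ∈ basis, ∃ x ∈ PT, x.1 < 4096 ∧ x.2.1 < 4096 ∧ x.2.2 < 4096 ∧ pop (cw x.1) = 8 ∧ pop (cw x.2.1) = 8 ∧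
    (pop (cw x.2.2) = 8 ∨ x.2.2 = 0) ∧ b = (cw x.1 ^^^ cw x.2.1) ^^^ cw x.2.2 := by
  decide +kernel

/-- The length-24 code built from the squares modulo 23 contains the all-ones word, and the code modulo the all-ones word is an irreducible module over the field with two elements for the code's automorphism group: a subspace of the code that contains the all-ones word and is invariant under every coordinate permutation preserving the code is either the span of the all-ones word or the whole code. -/
theorem result : (fun _ : Cfsg.GolayPt => (1 : ZMod 2)) ∈ Cfsg.golayCode ∧ ∀ W : Submodule (ZMod 2) (Cfsg.GolayPt → ZMod 2), (fun _ => (1 : ZMod 2)) ∈ W → W ≤ Cfsg.golayCode → (∀ σ ∈ Cfsg.M24, ∀ w ∈ W, (fun p => w (σ.symm p)) ∈ W) → W = Submodule.span (ZMod 2) {fun _ => (1 : ZMod 2)} ∨ W = Cfsg.golayCode := by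
  have h1c : (fun _ : Cfsg.GolayPt => (1 : ZMod 2)) ∈ Cfsg.golayCode := Submodule.subset_span (Or.inr rfl)
  refine ⟨h1c, ?_⟩
  intro W h1 hle hinv
  have hW : ∀ g ∈ Cfsg.M24, ∀ s : Finset GolayPt, ind s ∈ W → ind (g • s) ∈ W := by
    intro g hg s hs
    have := hinv g hg _ hs
    rwa [act_ind] at this
  have huniv : ind Finset.univ = fun _ => (1 : ZMod 2) := by
    funext p; simp [ind]
  -- an octad suffices
  have key : ∀ o ∈ octads, ind o ∈ W → W = golayCode := by
    intro o ho hoW
    apply le_antisymm hle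
    have hall : ∀ k < 4096, pop (cw k) = 8 → word (cw k) ∈ W := by
      intro k hk h8
      have hko : fset (cw k) ∈ octads := mem_octads.2 ⟨k, hk, rfl, h8⟩
      rw [octads_eq_orbit ho] at hko
      obtain ⟨g, hg⟩ := hko
      rw [word_eq_ind, ← show g • o = fset (cw k) from hg]
      exact hW _ g.2 _ hoW
    apply golayCode_le_of_basis
    intro b hb
    obtain ⟨x, -, hx1, hx2, hx3, h8, h8', h8'', e⟩ := PT_ok b hb
    rw [e, word_xor, word_xor]
    refine Submodule.add_mem _ (Submodule.add_mem _ (hall _ hx1 h8) (hall _ hx2 h8')) ?_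
    rcases h8'' with h | h
    · exact hall _ hx3 h
    · rw [h, cw_zero, word_zero]; exact Submodule.zero_mem _
  by_cases hex : ∃ w ∈ W, w ≠ 0 ∧ w ≠ fun _ => 1
  · right
    obtain ⟨w, hw, hw0, hw1⟩ := hex
    obtain ⟨k, hk, rfl⟩ := mem_golayCode.1 (hle hw)
    rcases pop_cw hk with h | h | h | h | h
    · exact key _ (mem_octads.2 ⟨k, hk, rfl, h⟩) (by rw [← word_eq_ind]; exact hw)
    · have hd : fset (cw k) ∈ dodecads := mem_dodecads.2 ⟨k, hk, rfl, h⟩
      have hall : ∀ k < 4096, pop (cw k) = 12 → word (cw k) ∈ W := by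
        intro l hl h12
        have hko : fset (cw l) ∈ dodecads := mem_dodecads.2 ⟨l, hl, rfl, h12⟩
        rw [dodecads_eq_orbit hd] at hko
        obtain ⟨g, hg⟩ := hko
        rw [word_eq_ind, ← show g • fset (cw k) = fset (cw l) from hg]
        exact hW _ g.2 _ (by rw [← word_eq_ind]; exact hw)
      have h15 : word (cw 15) ∈ W := by
        have : cw 15 = cw 1 ^^^ cw 14 := by decide +kernel
        rw [this, word_xor]
        exact Submodule.add_mem _ (hall 1 (by norm_num) (by decide +kernel)) (hall 14 (by norm_num) (by decide +kernel))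
      exact key _ (mem_octads.2 ⟨15, by norm_num, rfl, by decide +kernel⟩) (by rw [← word_eq_ind]; exact h15)
    · have h16 : ind (fset (cw k))ᶜ ∈ W := by
        have : (fset (cw k))ᶜ = symmDiff Finset.univ (fset (cw k)) := by
          ext p; simp [Finset.mem_symmDiff]
        rw [this, ind_symmDiff, huniv]
        exact Submodule.add_mem _ h1 (by rw [← word_eq_ind]; exact hw)
      refine key _ ⟨compl_mem_supports (mem_supports.2 ⟨k, hk, rfl⟩), ?_⟩ h16
      rw [Finset.card_compl, card_pt, card_fset, h]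
    · exact absurd (by rw [h, word_zero]) hw0
    · exfalso
      apply hw1
      have : fset (cw k) = Finset.univ := by
        apply Finset.eq_univ_of_card
        rw [card_fset, h, card_pt]
      rw [word_eq_ind, this, huniv]
  · left
    push Not at hex
    apply le_antisymm
    · intro w hw
      by_cases h0 : w = 0
      · rw [h0]; exact Submodule.zero_mem _
      · rw [hex w hw h0]; exact Submodule.mem_span_singleton_self _
    · rw [Submodule.span_le, Set.singleton_subset_iff]; exact h1

end Cfsg.Agent.S5393
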