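import Cfsg.Statements.S5394
import Cfsg.Agent.LibEltE28
import Cfsg.Agent.LibInvB28
import Cfsg.Agent.LibOrbG28

set_option autoImplicit false
open Cfsg

namespace Cfsg.Agent.S5394

open CfsgLib.M24 CfsgLib.Golay CfsgLib.Syn28 CfsgLib.Elt28 CfsgLib.EltD28 CfsgLib.EltE28 CfsgLib.InvB28 Cfsg
open scoped Pointwise

theorem fixPts_smul (g h : Equiv.Perm GolayPt) : fixPts (h * g * h⁻¹) = h • fixPts g := by
  ext p
  rw [← Finset.inv_smul_mem_iff, mem_fixPts, mem_fixPts]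
  constructor
  · intro h1
    have h2 : h (g (h⁻¹ p)) = p := h1
    show g (h⁻¹ p) = h⁻¹ p
    rw [Equiv.Perm.eq_inv_iff_eq]; exact h2
  · intro h1
    have h2 : g (h⁻¹ p) = h⁻¹ p := h1
    show h (g (h⁻¹ p)) = p
    rw [h2]; simp

theorem tA_fix : fixPts (mkPerm tA) ∈ octads := by
  have h1 : ∀ p : GolayPt, mkPerm tA p = p ↔ p ∈ fset 8536111 := by decide +kernel
  have h2 : fixPts (mkPerm tA) = fset 8536111 := by
    ext p; rw [mem_fixPts, h1]
  rw [h2]
  have h3 : (8536111 : ℕ) = cw (kOf 8536111) := by decide +kernel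
  rw [h3]
  exact CfsgLib.OrbG28.rootoctads_mem (by decide +kernel)

theorem tA_inv : mkPerm tA * mkPerm tA = 1 := by
  apply sq_of_isInv (rep_mkPerm (valid_of_isM24 oktA))
  decide +kernel

theorem sq_of_order {g : Equiv.Perm GolayPt} (h : orderOf g = 2) : g * g = 1 ∧ g ≠ 1 := by
  constructor
  · rw [← pow_two, ← h, pow_orderOf_eq_one]
  · rintro rfl; rw [orderOf_one] at h; omega

theorem order_of_sq {g : Equiv.Perm GolayPt} (h : g * g = 1) (h1 : g ≠ 1) : orderOf g = 2 :=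
  orderOf_eq_prime (by rw [pow_two, h]) h1

/-- The automorphism group of the length-24 code built from the squares modulo 23 has exactly two conjugacy classes of involutions: an involution either fixes exactly the eight points of an octad or has no fixed points, both kinds occur, and any two involutions of the same kind are conjugate in the group. -/
theorem result : (∀ g ∈ Cfsg.M24, orderOf g = 2 → (Finset.univ.filter fun p => g p = p) ∈ Cfsg.octads ∨ ∀ p, g p ≠ p) ∧ (∃ g ∈ Cfsg.M24, orderOf g = 2 ∧ (Finset.univ.filter fun p => g p = p) ∈ Cfsg.octads) ∧ (∃ g ∈ Cfsg.M24, orderOf g = 2 ∧ ∀ p, g p ≠ p) ∧ ∀ g ∈ Cfsg.M24, ∀ h ∈ Cfsg.M24, orderOf g = 2 → orderOf h = 2 → ((∀ p, g p ≠ p) ↔ (∀ p, h p ≠ p)) → ∃ k ∈ Cfsg.M24, k * g * k⁻¹ = h := by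
  have hdich : ∀ g ∈ Cfsg.M24, orderOf g = 2 → fixPts g ∈ octads ∨ ∀ p, g p ≠ p := by
    intro g hg ho
    obtain ⟨h2, h1⟩ := sq_of_order ho
    by_cases hp : ∀ p, g p ≠ p
    · exact Or.inr hp
    left
    push Not at hp
    obtain ⟨p, hp⟩ := hp
    obtain ⟨h, hh, e⟩ := inv_A hg h2 h1 hp
    have e2 : fixPts g = h⁻¹ • fixPts (mkPerm tA) := by
      rw [← e, fixPts_smul, inv_smul_smul]
    rw [e2]
    exact smul_mem_octads (inv_mem hh) tA_fix
  refine ⟨hdich, ⟨mkPerm tA, isM24_spec oktA, ?_, tA_fix⟩, ⟨mkPerm tB, tB_Om.1, ?_, tB_Om.2.2⟩, ?_⟩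
  · refine order_of_sq tA_inv ?_
    intro h
    have h1 := tA_fix.2
    rw [h] at h1
    have : fixPts (1 : Equiv.Perm GolayPt) = Finset.univ := by ext p; simp [mem_fixPts]
    rw [this] at h1
    revert h1; decide
  · refine order_of_sq tB_Om.2.1 ?_
    intro h
    exact tB_Om.2.2 none (by rw [h]; rfl)
  · intro g hg k hk ho ho' hiff
    obtain ⟨h2, h1⟩ := sq_of_order ho
    obtain ⟨k2, k1⟩ := sq_of_order ho'
    by_cases hp : ∀ p, g p ≠ p
    · obtain ⟨a, ha, -, e⟩ := inv_B hg h2 hp none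
      obtain ⟨b, hb, -, e'⟩ := inv_B hk k2 (hiff.1 hp) none
      refine ⟨b⁻¹ * a, mul_mem (inv_mem hb) ha, ?_⟩
      calc b⁻¹ * a * g * (b⁻¹ * a)⁻¹ = b⁻¹ * (a * g * a⁻¹) * b := by group
        _ = k := by rw [e, ← e']; group
    · have hp' : ¬ ∀ p, k p ≠ p := fun h => hp (hiff.2 h)
      push Not at hp hp'
      obtain ⟨p, hp⟩ := hp
      obtain ⟨q, hq⟩ := hp'
      obtain ⟨a, ha, e⟩ := inv_A hg h2 h1 hp
      obtain ⟨b, hb, e'⟩ := inv_A hk k2 k1 hq
      refine ⟨b⁻¹ * a, mul_mem (inv_mem hb) ha, ?_⟩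
      calc b⁻¹ * a * g * (b⁻¹ * a)⁻¹ = b⁻¹ * (a * g * a⁻¹) * b := by group
        _ = k := by rw [e, ← e']; group

end Cfsg.Agent.S5394
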