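import Cfsg.Statements.S5395
import Cfsg.Agent.LibExtraH28

set_option autoImplicit false
open Cfsg

namespace Cfsg.Agent.S5395

/-- For a finite extraspecial 2-group E, an automorphism of E that induces the identity on E modulo its centre is inner (so these automorphisms form exactly the inner automorphism group, an elementary abelian 2-group of order |E|/2). -/
theorem result {E : Type*} [Group E] [Finite E] (hE : Cfsg.IsExtraspecial 2 E) (φ : E ≃* E) (hφ : ∀ x : E, φ x * x⁻¹ ∈ Subgroup.center E) : ∃ g : E, ∀ x : E, φ x = g * x * g⁻¹ := by
  exact CfsgLib.ExtraH28.inner_of_trivial_mod_center hE φ.toMonoidHom hφ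

end Cfsg.Agent.S5395
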