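import Cfsg.Statements.S5396
import Cfsg.Agent.LibHeis

set_option autoImplicit false
open Cfsg

namespace Cfsg.Agent.S5396

theorem aux {E : Type} [Group E] [Finite E] {n r : ℕ} (h1 : ∃ A : Subgroup E, Cfsg.IsElementaryAbelian 2 A ∧ Nat.card A = 2 ^ r)
    (h2 : ∀ A : Subgroup E, Cfsg.IsElementaryAbelian 2 A → Nat.card A ≤ 2 ^ r) :
    sSup {k : ℕ | ∃ A : Subgroup E, Cfsg.IsElementaryAbelian 2 A ∧ Nat.card A = 2 ^ k} = r := by
  apply le_antisymm
  · refine csSup_le ⟨r, h1⟩ ?_
    rintro k ⟨A, hA, hc⟩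
    have h3 := h2 A hA
    rw [hc] at h3
    exact (Nat.pow_le_pow_iff_right (by norm_num)).mp h3
  · refine le_csSup ⟨r, ?_⟩ h1
    rintro k ⟨A, hA, hc⟩
    have h3 := h2 A hA
    rw [hc] at h3
    exact (Nat.pow_le_pow_iff_right (by norm_num)).mp h3


/-- For every n ≥ 1 there exist finite extraspecial 2-groups of order 2^(2n+1) whose 2-rank (the largest rank of an elementary abelian subgroup) is n, and ones whose 2-rank is n + 1 (so for each such order there are two non-isomorphic extraspecial 2-groups, told apart by their 2-rank). -/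
theorem result (n : ℕ) (hn : 1 ≤ n) : ∀ r ∈ ({n, n + 1} : Set ℕ), ∃ (E : Type) (_ : Group E) (_ : Finite E), Cfsg.IsExtraspecial 2 E ∧ Nat.card E = 2 ^ (2 * n + 1) ∧ sSup {k : ℕ | ∃ A : Subgroup E, Cfsg.IsElementaryAbelian 2 A ∧ Nat.card A = 2 ^ k} = r := by
  intro r hr
  rcases hr with rfl | rfl
  · obtain ⟨E, _, _, hE, ht⟩ := CfsgLib.ExForm.exists_extraspecial_type r hn 1
    refine ⟨E, inferInstance, inferInstance, hE, ht.card, ?_⟩
    exact aux (n := r) (ht.exists_elab_one hn) (fun A hA => ht.elab_le_one hn A hA.1 hA.2)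
  · obtain ⟨E, _, _, hE, ht⟩ := CfsgLib.ExForm.exists_extraspecial_type n hn 0
    refine ⟨E, inferInstance, inferInstance, hE, ht.card, ?_⟩
    exact aux (n := n) ht.exists_elab_zero (fun A hA => ht.elab_le A hA.1 hA.2)

end Cfsg.Agent.S5396
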