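import Cfsg.Statements.S5407
import Mathlib
import Cfsg.Agent.LibMTC

set_option autoImplicit false
open Cfsg

namespace Cfsg.Agent.S5407

/-- Let G be a finite group of Monster type at the involution z with Q the extraspecial normal subgroup of order 2^25 of C = C_G(z) (so C/Q is identified with the first Conway group with Q modulo its centre the Leech lattice modulo 2, and z is not weakly closed in Q). Then under any such identification ψ of the Leech lattice modulo 2 with Q modulo its centre, an element x of Q is a conjugate of z other than z exactly when x modulo the centre is the image under ψ of a lattice vector of squared length 64 in the coordinates used here, that is, of norm 8 in the customary normalisation in which the minimal vectors have norm 4 (twice the minimal norm). -/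
theorem result {G : Type*} [Group G] [Finite G] (z : G) (Q : Subgroup (Subgroup.centralizer ({z} : Set G))) [Q.Normal] (hM : Cfsg.IsOfMonsterType z Q) (e : (Subgroup.centralizer ({z} : Set G)) ⧸ Q ≃* Cfsg.Spor.Co1) (ψ : Cfsg.leechLattice → Q ⧸ Subgroup.center Q) (hψ : Cfsg.IsLeechModTwoIso Q e ψ) (x : Q) : (IsConj z ((x : Subgroup.centralizer ({z} : Set G)) : G) ∧ ((x : Subgroup.centralizer ({z} : Set G)) : G) ≠ z) ↔ ∃ v : Cfsg.leechLattice, Cfsg.sqNorm (v : Cfsg.GolayPt → ℤ) = 64 ∧ ψ v = QuotientGroup.mk x := by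
  obtain ⟨hS, -⟩ := hM
  have h := CfsgLib.MT.mt_of e ψ hS hψ
  constructor
  · rintro ⟨h1, h2⟩
    obtain ⟨a, ha⟩ := isConj_iff.1 h1
    have hx : ((x : Subgroup.centralizer ({z} : Set G)) : G) ∈ Q.map (Subgroup.centralizer ({z} : Set G)).subtype := ⟨x, x.2, rfl⟩
    obtain ⟨v, hv, hv'⟩ := h.rep_conj (g := a) (by rw [ha]; exact hx) (by rw [ha]; exact h2)
    rw [ha] at hv
    obtain ⟨_, _, h3⟩ := hv
    exact ⟨v, hv', h3⟩
  · rintro ⟨v, hv, hx⟩
    have hR : CfsgLib.MT.Rel ψ v ((x : Subgroup.centralizer ({z} : Set G)) : G) := ⟨x.1.2, x.2, hx⟩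
    obtain ⟨g, hg, hg'⟩ := CfsgLib.MT.exists_conj hS
    exact ⟨h.isConj_of_64 hg hg' hR hv, (h.ne_of hR (Or.inr (Or.inr hv))).2⟩

end Cfsg.Agent.S5407
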