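import Cfsg.Statements.S5408
import Mathlib
import Cfsg.Agent.LibMTE

set_option autoImplicit false
open Cfsg

namespace Cfsg.Agent.S5408

/-- Let G be a finite group of Monster type at the involution z with Q the extraspecial normal subgroup of order 2^25 of C = C_G(z) (so C/Q is identified with the first Conway group with Q modulo its centre the Leech lattice modulo 2, and z is not weakly closed in Q). Then Q is of plus type: it contains an elementary abelian subgroup of order 2^13. -/
theorem result {G : Type*} [Group G] [Finite G] (z : G) (Q : Subgroup (Subgroup.centralizer ({z} : Set G))) [Q.Normal] (hM : Cfsg.IsOfMonsterType z Q) : ∃ E : Subgroup Q, Cfsg.IsElementaryAbelian 2 E ∧ Nat.card E = 2 ^ 13 := by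
  obtain ⟨hS, e, ψ, hψ⟩ := hM
  have h := CfsgLib.MT.mt_of e ψ hS hψ
  obtain ⟨g, hg, hg'⟩ := CfsgLib.MT.exists_conj hS
  have h1 := (h.inter (CfsgLib.LargeGFH28.extraspecial_map hS.2.2.1) hg hg').1
  have hpair := h.pair_of hg hg'
  generalize (Q.map (Subgroup.centralizer ({z} : Set G)).subtype).map (MulAut.conj g).toMonoidHom = P at h1 hpair
  have hmem : ∀ {a : Q}, ((a : Subgroup.centralizer ({z} : Set G)) : G) ∈ Q.map (Subgroup.centralizer ({z} : Set G)).subtype :=
    fun {a} => ⟨a, a.2, rfl⟩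
  refine ⟨((Q.map (Subgroup.centralizer ({z} : Set G)).subtype ⊓ P).subgroupOf (Subgroup.centralizer ({z} : Set G))).subgroupOf Q,
    ⟨⟨⟨fun a b => Subtype.ext (Subtype.ext (Subtype.ext (hpair.E_comm a.2 b.2)))⟩⟩, fun a ha => ?_⟩, ?_⟩
  · have := hpair.E_sq ha
    apply Subtype.ext
    apply Subtype.ext
    rw [sq]; exact this
  · rw [← h1]
    refine Nat.card_congr ⟨fun a => ⟨a.1.1.1, a.2⟩, fun a => ⟨⟨⟨a.1, ?_⟩, ?_⟩, ?_⟩, fun _ => rfl, fun _ => rfl⟩
    · exact Subgroup.mem_centralizer_singleton_iff.2 (h.zc _ a.2.1)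
    · obtain ⟨q, hq, hqa⟩ := a.2.1
      have e1 : q = ⟨a.1, Subgroup.mem_centralizer_singleton_iff.2 (h.zc _ a.2.1)⟩ := Subtype.ext hqa
      rwa [e1] at hq
    · exact a.2

end Cfsg.Agent.S5408
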