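import Cfsg.Statements.S5410
import Mathlib
import Cfsg.Agent.LibMTE

set_option autoImplicit false
open Cfsg

namespace Cfsg.Agent.S5410

open CfsgLib.MT CfsgLib.Co Subgroup

theorem pm_ne (τ : Cfsg.M24) (h : pmHom τ = 1 ∨ pmHom τ = negCo) : τ = 1 := by
  rcases h with h | h
  · exact pmHom_inj (h.trans (map_one _).symm)
  · exfalso
    have h1 : ((pmHom τ • e8 none : LL) : Cfsg.GolayPt → ℤ) = ((negCo • e8 none : LL) : Cfsg.GolayPt → ℤ) := by rw [h]
    have h2 := congrFun h1 ((τ : Equiv.Perm Cfsg.GolayPt) none)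
    rw [pmHom_apply, pm_apply, negCo_apply] at h2
    have e1 : ((τ : Equiv.Perm Cfsg.GolayPt)⁻¹ ((τ : Equiv.Perm Cfsg.GolayPt) none)) = none := by simp
    rw [e1, e8_coe, Pi.single_eq_same] at h2
    have h3 : ((-e8 none : LL) : Cfsg.GolayPt → ℤ) ((τ : Equiv.Perm Cfsg.GolayPt) none) = -((Pi.single none 8 : Cfsg.GolayPt → ℤ) ((τ : Equiv.Perm Cfsg.GolayPt) none)) := rfl
    rw [h3, Pi.single_apply] at h2
    split_ifs at h2 <;> omega

/-- Let G be a finite group of Monster type at the involution z with Q the extraspecial normal subgroup of order 2^25 of C = C_G(z) (so C/Q is identified with the first Conway group with Q modulo its centre the Leech lattice modulo 2, and z is not weakly closed in Q). Let g in G with s = g z g⁻¹ a member of Q other than z, let X be the image in C/Q of the centralizer of s in C, and let E be the image in C/Q of the intersection of g Q g⁻¹ with C. Then E is a normal subgroup of X, elementary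 abelian of order 2^11, and it has a complement in X isomorphic to the Mathieu group of degree 24 (the automorphism group of the length-24 binary Golay code). -/
theorem result {G : Type*} [Group G] [Finite G] (z : G) (Q : Subgroup (Subgroup.centralizer ({z} : Set G))) [Q.Normal] (hM : Cfsg.IsOfMonsterType z Q) (s : G) (hsQ : ∃ hsc : s ∈ Subgroup.centralizer ({z} : Set G), (⟨s, hsc⟩ : Subgroup.centralizer ({z} : Set G)) ∈ Q) (hs : IsConj z s) (hs1 : s ≠ z) (g : G) (hg : g * z * g⁻¹ = s) (X E : Subgroup ((Subgroup.centralizer ({z} : Set G)) ⧸ Q)) (hX : X = ((Subgroup.centralizer ({z} : Set G) ⊓ Subgroup.centralizer ({s} : Set G)).subgroupOf (Subgroup.centralizer ({z} : Set G))).map (QuotientGroup.mk' Q)) (hE : E = (((Q.map (Subgroup.centralizer ({z} : Set G)).subtype).map (MulAut.conj g).toMonoidHom ⊓ Subgroup.centralizer ({z} : Set G)).subgroupOf (Subgroup.centralizer ({z} : Set G))).map (QuotientGroup.mk' Q)) : E ≤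 X ∧ (∀ x ∈ X, ∀ y ∈ E, x * y * x⁻¹ ∈ E) ∧ Cfsg.IsElementaryAbelian 2 E ∧ Nat.card E = 2 ^ 11 ∧ ∃ K : Subgroup ((Subgroup.centralizer ({z} : Set G)) ⧸ Q), K ≤ X ∧ E ⊓ K = ⊥ ∧ E ⊔ K = X ∧ Nonempty (K ≃* Cfsg.M24) := by
  obtain ⟨hS, e, ψ, hψ⟩ := hM
  have h := CfsgLib.MT.mt_of e ψ hS hψ
  subst hg
  have hsQ' := CfsgLib.MT.mem_map_of hsQ
  obtain ⟨i1, i2, i3⟩ := h.inter (CfsgLib.LargeGFH28.extraspecial_map hS.2.2.1) hsQ' hs1
  obtain ⟨v, hv, hn⟩ := h.rep_conj hsQ' hs1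
  have hpair := h.pair_of hsQ' hs1
  obtain ⟨k, hk⟩ := CfsgLib.MT.MT.tr64 hn (e8_norm none)
  have hNB := i3 v k hv hk
  generalize (Q.map (Subgroup.centralizer ({z} : Set G)).subtype).map (MulAut.conj g).toMonoidHom = P at hE i1 i2 hpair hNB
  generalize g * z * g⁻¹ = s at hsQ hs hs1 hX hsQ' hv hpair
  have hP := hpair.hP
  have memX : ∀ y, y ∈ X ↔ ∃ c : centralizer ({z} : Set G), (c : G) * s = s * c ∧ QuotientGroup.mk c = y := by
    intro y
    rw [hX]
    constructor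
    · rintro ⟨c, hc, rfl⟩
      exact ⟨c, mem_centralizer_singleton_iff.1 hc.2, rfl⟩
    · rintro ⟨c, hc, rfl⟩
      exact ⟨c, ⟨c.2, mem_centralizer_singleton_iff.2 hc⟩, rfl⟩
  have memE : ∀ y, y ∈ E ↔ ∃ c : centralizer ({z} : Set G), (c : G) ∈ P ∧ QuotientGroup.mk c = y := by
    intro y
    rw [hE]
    constructor
    · rintro ⟨c, hc, rfl⟩
      exact ⟨c, hc.1, rfl⟩
    · rintro ⟨c, hc, rfl⟩
      exact ⟨c, ⟨hc, c.2⟩, rfl⟩
  have mNB : ∀ n, n ∈ NB (pr e) P ↔ k * n * k⁻¹ ∈ sgn.range := by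
    intro n
    rw [← hNB]
    constructor
    · exact fun hn' => ⟨n, hn', rfl⟩
    · rintro ⟨m, hm, hmn⟩
      have : m = n := (MulAut.conj k).injective hmn
      rwa [← this]
  have hEX : E ≤ X := by
    intro y hy
    obtain ⟨c, hc, rfl⟩ := (memE y).1 hy
    exact (memX _).2 ⟨c, hP.zc _ hc, rfl⟩
  have hEn : ∀ y ∈ E, ∃ (n : ↥Cfsg.Co0) (d : Multiplicative Cfsg.golayCode), e y = (n : Cfsg.Co0 ⧸ center Cfsg.Co0) ∧ k * n * k⁻¹ = sgn d := by
    intro y hy
    obtain ⟨c, hc, rfl⟩ := (memE y).1 hy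
    obtain ⟨n, hn'⟩ := QuotientGroup.mk_surjective (e (QuotientGroup.mk c))
    obtain ⟨d, hd⟩ := (mNB n).1 (mem_NB.2 ⟨c, hc, hn'.symm⟩)
    exact ⟨n, d, hn'.symm, hd.symm⟩
  let κ0 : Cfsg.M24 →* Cfsg.Co0 ⧸ center Cfsg.Co0 :=
    (QuotientGroup.mk' (center Cfsg.Co0)).comp ((MulAut.conj k⁻¹).toMonoidHom.comp pmHom)
  let κ : Cfsg.M24 →* (centralizer ({z} : Set G)) ⧸ Q := e.symm.toMonoidHom.comp κ0
  have hκ : ∀ τ, e (κ τ) = ((k⁻¹ * pmHom τ * k : Cfsg.Co0) : Cfsg.Co0 ⧸ center Cfsg.Co0) := by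
    intro τ
    change e (e.symm (κ0 τ)) = _
    rw [e.apply_symm_apply]
    change ((k⁻¹ * pmHom τ * k⁻¹⁻¹ : Cfsg.Co0) : Cfsg.Co0 ⧸ center Cfsg.Co0) = _
    rw [inv_inv]
  have hκX : ∀ τ, κ τ ∈ X := by
    intro τ
    have h1 : k⁻¹ * pmHom τ * k ∈ Sv v := by
      rw [Sv_conj hk, Sv_e8]
      have e1 : k * (k⁻¹ * pmHom τ * k) * k⁻¹ = pmHom τ := by group
      rw [e1]; exact pm_mem τ
    obtain ⟨c, hc, hcs⟩ := h.exists_cent hv hP.z1 hs1 h1
    refine (memX _).2 ⟨c, mul_inv_eq_iff_eq_mul.1 hcs, e.injective ?_⟩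
    rw [hκ]; exact hc
  have hdis : ∀ τ, κ τ ∈ E → τ = 1 := by
    intro τ hτ
    obtain ⟨c, hc, hcτ⟩ := (memE _).1 hτ
    have h1 : k⁻¹ * pmHom τ * k ∈ NB (pr e) P := by
      refine mem_NB.2 ⟨c, hc, ?_⟩
      rw [← hκ, ← hcτ]; rfl
    rw [mNB] at h1
    obtain ⟨d, hd⟩ := h1
    have e1 : k * (k⁻¹ * pmHom τ * k) * k⁻¹ = pmHom τ := by group
    rw [e1] at hd
    exact (dec_inj (c := 1) (d := d) (τ := τ) (υ := 1) (by rw [map_one, one_mul, map_one, mul_one, hd])).2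
  have hinj : Function.Injective κ := by
    rw [injective_iff_map_eq_one]
    intro τ hτ
    exact hdis τ (by rw [hτ]; exact one_mem _)
  refine ⟨hEX, ?_, ⟨⟨⟨?_⟩⟩, ?_⟩, ?_, κ.range, ?_, ?_, ?_, ?_⟩
  · intro x hx y hy
    obtain ⟨c, hc, rfl⟩ := (memX x).1 hx
    obtain ⟨b, hb, rfl⟩ := (memE y).1 hy
    exact (memE _).2 ⟨c * b * c⁻¹, hP.NQ c hc b hb, rfl⟩
  · rintro ⟨a, ha⟩ ⟨b, hb⟩
    apply Subtype.ext
    apply e.injective
    obtain ⟨n, d, h1, h2⟩ := hEn a ha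
    obtain ⟨m, f, h3, h4⟩ := hEn b hb
    change e (a * b) = e (b * a)
    rw [map_mul, map_mul, h1, h3, ← QuotientGroup.mk_mul, ← QuotientGroup.mk_mul]
    congr 1
    have e1 : n = k⁻¹ * sgn d * k := by rw [← h2]; group
    have e2 : m = k⁻¹ * sgn f * k := by rw [← h4]; group
    have e3 : sgn d * sgn f = sgn f * sgn d := by rw [← map_mul, ← map_mul, mul_comm]
    rw [e1, e2]
    calc k⁻¹ * sgn d * k * (k⁻¹ * sgn f * k) = k⁻¹ * (sgn d * sgn f) * k := by group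
      _ = _ := by rw [e3]; group
  · intro a ha
    apply e.injective
    obtain ⟨n, d, h1, h2⟩ := hEn a ha
    rw [map_pow, h1, map_one, ← QuotientGroup.mk_pow]
    have e1 : n = k⁻¹ * sgn d * k := by rw [← h2]; group
    have e3 : sgn d * sgn d = 1 := by
      rw [← map_mul]
      have : d * d = 1 := by
        apply Multiplicative.toAdd.injective
        apply Subtype.ext
        funext i
        have : ∀ a : ZMod 2, a + a = 0 := by decide
        exact this _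
      rw [this, map_one]
    have e4 : n ^ 2 = 1 := by
      rw [sq, e1]
      calc k⁻¹ * sgn d * k * (k⁻¹ * sgn d * k) = k⁻¹ * (sgn d * sgn d) * k := by group
        _ = _ := by rw [e3]; group
    rw [e4]; rfl
  · rw [← i2]
    refine Nat.card_congr ⟨fun y => ⟨e y, ?_⟩, fun y => ⟨e.symm y, ?_⟩, fun y => Subtype.ext (e.symm_apply_apply _), fun y => Subtype.ext (e.apply_symm_apply _)⟩
    · obtain ⟨c, hc, hcy⟩ := (memE _).1 y.2
      exact ⟨c, hc, by rw [← hcy]; rfl⟩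
    · obtain ⟨c, hc, hcy⟩ := y.2
      refine (memE _).2 ⟨c, hc, ?_⟩
      apply e.injective
      rw [e.apply_symm_apply, ← hcy]; rfl
  · rintro _ ⟨τ, rfl⟩
    exact hκX τ
  · rw [eq_bot_iff]
    rintro _ ⟨hy, τ, rfl⟩
    rw [mem_bot, hdis τ hy, map_one]
  · apply le_antisymm
    · refine sup_le hEX ?_
      rintro _ ⟨τ, rfl⟩
      exact hκX τ
    · intro x hx
      obtain ⟨c, hc, rfl⟩ := (memX x).1 hx
      obtain ⟨g', hg'⟩ := QuotientGroup.mk_surjective (e (QuotientGroup.mk c))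
      have h1 : g' ∈ Sv v := h.fix_class hv (c := c) hg'.symm (Or.inl hc)
      rw [Sv_conj hk, Sv_e8] at h1
      obtain ⟨d, τ, h2⟩ := exists_dec h1
      have h3 : k⁻¹ * sgn d * k ∈ NB (pr e) P := by
        rw [mNB]
        have e1 : k * (k⁻¹ * sgn d * k) * k⁻¹ = sgn d := by group
        rw [e1]; exact ⟨d, rfl⟩
      obtain ⟨b, hb, hb'⟩ := mem_NB.1 h3
      have h4 : (QuotientGroup.mk c : (centralizer ({z} : Set G)) ⧸ Q) = QuotientGroup.mk b * κ τ := by
        apply e.injective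
        rw [map_mul, hκ, show e (QuotientGroup.mk b) = pr e b from rfl, hb', ← hg', ← QuotientGroup.mk_mul]
        congr 1
        have e2 : g' = k⁻¹ * (k * g' * k⁻¹) * k := by group
        rw [e2, h2]; group
      rw [h4]
      exact mul_mem (mem_sup_left ((memE _).2 ⟨b, hb, rfl⟩)) (mem_sup_right ⟨τ, rfl⟩)
  · exact ⟨(MonoidHom.ofInjective hinj).symm⟩

end Cfsg.Agent.S5410
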