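import Cfsg.Statements.S5420
import Cfsg.Agent.LibLargePairH28

set_option autoImplicit false
open Cfsg

namespace Cfsg.Agent.S5420

/-- Let Q be an extraspecial 2-subgroup of the finite group G whose centralizer in G is its centre Z and which is normal in the centralizer of Z. If Z lies in the largest normal 2-subgroup of G, then Q is a large extraspecial 2-subgroup of G: it normalizes no non-trivial subgroup of G of odd order. -/
theorem result {G : Type*} [Group G] [Finite G] (Q : Subgroup G) (hL1 : Cfsg.IsExtraspecial 2 ↥Q) (hL2 : Subgroup.centralizer (Q : Set G) = ((Subgroup.center ↥Q).map Q.subtype)) (hL3 : Subgroup.centralizer (((Subgroup.center ↥Q).map Q.subtype) : Set G) ≤ Subgroup.normalizer (Q : Set G)) (hZ : ((Subgroup.center ↥Q).map Q.subtype) ≤ Cfsg.pCore 2 G) : Cfsg.IsLargeExtraspecial Q := by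
  obtain ⟨z, hzQ, hz1, hzc, hz⟩ := CfsgLib.LargeExtraH28.exists_center_gen hL1
  have h := CfsgLib.LargePairH28.lset_of hL1 hL2 hL3 hz
  refine ⟨hL1, hL2, hL3, ?_⟩
  intro K hK hQK
  rw [Subgroup.eq_bot_iff_forall]
  intro k hk
  apply CfsgLib.LargePairH28.odd_eq_bot_of_comm h hK hQK hk
  have h1 : z ∈ Cfsg.pCore 2 G := hZ (by rw [hz]; exact Subgroup.mem_zpowers z)
  have hn : (Cfsg.pCore 2 G).Normal := inferInstance
  have h2 : k * z * k⁻¹ * z⁻¹ ∈ Cfsg.pCore 2 G :=
    mul_mem (hn.conj_mem z h1 k) (inv_mem h1)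
  have h3 : k * z * k⁻¹ * z⁻¹ ∈ K := by
    have : k * z * k⁻¹ * z⁻¹ = k * (z * k⁻¹ * z⁻¹) := by group
    rw [this]
    exact mul_mem hk ((Subgroup.mem_normalizer_iff.mp (hQK hzQ) _).mp (inv_mem hk))
  haveI : Fact (Nat.Prime 2) := ⟨Nat.prime_two⟩
  rcases CfsgLib.LargePairH28.not_mem_odd_of_pgroup (CfsgLib.Cores.pCore_isPGroup (G := G) 2) h2 with h4 | h4
  · exact CfsgLib.ExtraH28.comm_eq_one_iff.mp h4
  · exact absurd h3 (h4 K hK)

end Cfsg.Agent.S5420
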