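import Cfsg.Statements.S5421
import Cfsg.Agent.LibLargePairH28

set_option autoImplicit false
open Cfsg

namespace Cfsg.Agent.S5421

/-- Let Q be an extraspecial 2-subgroup of the finite group G whose centralizer in G is its centre Z and which is normal in the centralizer of Z. If some involution b of Q outside Z has Z inside the largest normal 2-subgroup of the centralizer of b, then Q is a large extraspecial 2-subgroup of G. -/
theorem result {G : Type*} [Group G] [Finite G] (Q : Subgroup G) (hL1 : Cfsg.IsExtraspecial 2 ↥Q) (hL2 : Subgroup.centralizer (Q : Set G) = ((Subgroup.center ↥Q).map Q.subtype)) (hL3 : Subgroup.centralizer (((Subgroup.center ↥Q).map Q.subtype) : Set G) ≤ Subgroup.normalizer (Q : Set G)) (b : G) (hbQ : b ∈ Q) (hbZ : b ∉ ((Subgroup.center ↥Q).map Q.subtype)) (hb : orderOf b = 2) (hZ : ((Subgroup.center ↥Q).map Q.subtype) ≤ (Cfsg.pCore 2 ↥(Subgroup.centralizer ({b} : Set G))).map (Subgroup.centralizer ({b} : Set G)).subtype) : Cfsg.IsLargeExtraspecial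 Q := by
  obtain ⟨z, hzQ, hz1, hzc, hz⟩ := CfsgLib.LargeExtraH28.exists_center_gen hL1
  have h := CfsgLib.LargePairH28.lset_of hL1 hL2 hL3 hz
  refine ⟨hL1, hL2, hL3, ?_⟩
  intro K hK hQK
  have hb1 : b ≠ 1 := by rintro rfl; simp at hb
  have hbz : b ≠ z := by
    rintro rfl; apply hbZ; rw [hz]; exact Subgroup.mem_zpowers b
  have hbb : b * b = 1 := by rw [← pow_two, ← hb]; exact pow_orderOf_eq_one b
  refine CfsgLib.LargePairH28.odd_eq_bot_of_core h hbQ hb1 hbz hbb ?_ hK hQK
  intro k hk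
  set P := (Cfsg.pCore 2 ↥(Subgroup.centralizer ({b} : Set G))).map (Subgroup.centralizer ({b} : Set G)).subtype with hP
  have hzP : z ∈ P := hZ (by rw [hz]; exact Subgroup.mem_zpowers z)
  haveI : Fact (Nat.Prime 2) := ⟨Nat.prime_two⟩
  have hP2 : IsPGroup 2 P := (CfsgLib.Cores.pCore_isPGroup 2).map _
  apply CfsgLib.LargePairH28.not_mem_odd_of_pgroup hP2
  refine mul_mem ?_ (inv_mem hzP)
  obtain ⟨w, hw, hwz⟩ := hzP
  have hn : (Cfsg.pCore 2 ↥(Subgroup.centralizer ({b} : Set G))).Normal := inferInstance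
  refine ⟨⟨k, Subgroup.mem_centralizer_singleton_iff.mpr hk⟩ * w *
    ⟨k, Subgroup.mem_centralizer_singleton_iff.mpr hk⟩⁻¹, hn.conj_mem w hw _, ?_⟩
  rw [← hwz]; rfl

end Cfsg.Agent.S5421
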