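import Cfsg.Statements.S5422
import Cfsg.Agent.LibLargePairH28

set_option autoImplicit false
open Cfsg

namespace Cfsg.Agent.S5422

/-- Let Q be an extraspecial 2-subgroup of the finite group G whose centralizer in G is its centre Z and which is normal in the centralizer of Z; suppose Q has width at least 2 (order 2^(2w+1) with w ≥ 2) and g is an element of G not normalizing Z with g Z g⁻¹ inside Q. Then Z lies inside g Q g⁻¹; writing V for the subgroup generated by Z and g Z g⁻¹ (a four-group), the normalizer of V induces on V its full automorphism group, that is, the centralizer of V has index 6 in the normalizer of V; and Q is a large extraspecial 2-subgroup of G. -/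
theorem result {G : Type*} [Group G] [Finite G] (Q : Subgroup G) (hL1 : Cfsg.IsExtraspecial 2 ↥Q) (hL2 : Subgroup.centralizer (Q : Set G) = ((Subgroup.center ↥Q).map Q.subtype)) (hL3 : Subgroup.centralizer (((Subgroup.center ↥Q).map Q.subtype) : Set G) ≤ Subgroup.normalizer (Q : Set G)) (w : ℕ) (hw : 2 ≤ w) (hcard : Nat.card ↥Q = 2 ^ (2 * w + 1)) (g : G) (hg : g ∉ Subgroup.normalizer (((Subgroup.center ↥Q).map Q.subtype) : Set G)) (hZg : (((Subgroup.center ↥Q).map Q.subtype)).map (MulAut.conj g).toMonoidHom ≤ Q) : ((Subgroup.center ↥Q).map Q.subtype) ≤ (Q).map (MulAut.conj g).toMonoidHom ∧ (Subgroup.centralizer ((((Subgroup.center ↥Q).map Q.subtype) ⊔ (((Subgroup.center ↥Q).map Q.subtype)).map (MulAut.conj g).toMonoidHom : Subgroup G) : Set G)).relIndex (Subgroup.normalizer ((((Subgroup.center ↥Q).map Q.subtype) ⊔ (((Subgroup.center ↥Q).map Q.subtype)).map (MulAut.conj g).toMonoidHom : Subgroup G) : Set G)) = 6 ∧ Cfsg.IsLargeExtraspecial Q := by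
  obtain ⟨z, hzQ, hz1, hzc, hz⟩ := CfsgLib.LargeExtraH28.exists_center_gen hL1
  have h := CfsgLib.LargePairH28.lset_of hL1 hL2 hL3 hz
  have hmap : (((Subgroup.center ↥Q).map Q.subtype)).map (MulAut.conj g).toMonoidHom = Subgroup.zpowers (g * z * g⁻¹) := by
    rw [hz, MonoidHom.map_zpowers]; rfl
  have hxQ : g * z * g⁻¹ ∈ Q := hZg (by rw [hmap]; exact Subgroup.mem_zpowers _)
  have hxz : g * z * g⁻¹ ≠ z := by
    intro hc
    apply hg
    rw [hz, Subgroup.mem_normalizer_iff]
    have h1 : Commute g z := by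
      show g * z = z * g
      nth_rw 2 [← hc]; group
    intro v
    constructor
    · rintro ⟨n, rfl⟩
      refine ⟨n, ?_⟩
      show z ^ n = g * z ^ n * g⁻¹
      rw [(h1.zpow_right n).eq]; group
    · rintro ⟨n, hn⟩
      refine ⟨n, ?_⟩
      have hn' : z ^ n = g * v * g⁻¹ := hn
      show z ^ n = v
      have h2 : g⁻¹ * z ^ n * g = v := by rw [hn']; group
      rw [← h2]
      have h3 : g⁻¹ * z ^ n = z ^ n * g⁻¹ := ((h1.inv_left).zpow_right n).eq
      rw [h3]; group
  have hp := CfsgLib.LargePairH28.pair_of h hxQ hxz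
  have hV : (((Subgroup.center ↥Q).map Q.subtype) ⊔ (((Subgroup.center ↥Q).map Q.subtype)).map (MulAut.conj g).toMonoidHom : Subgroup G) = Subgroup.closure ({z, g * z * g⁻¹} : Set G) := by
    rw [hmap, hz, Subgroup.zpowers_eq_closure, Subgroup.zpowers_eq_closure, ← Subgroup.closure_union]
    rfl
  refine ⟨?_, ?_, hL1, hL2, hL3, ?_⟩
  · rw [hz, Subgroup.zpowers_le]; exact hp.zP
  · rw [hV]; exact hp.relIndex_six
  · intro K hK hQK
    have hP2 : IsPGroup 2 ↥(Q.map (MulAut.conj g).toMonoidHom) := hL1.1.1.map _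
    exact hp.odd hP2 hK hQK

end Cfsg.Agent.S5422
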