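import Cfsg.Statements.S5423
import Cfsg.Agent.EqBase
import Cfsg.Agent.LibHolE28

set_option autoImplicit false
open Cfsg

namespace Cfsg.Agent.S5423

/-- Let G be a finite group that is the split extension of an elementary abelian normal subgroup U of order 2^(n+1), n ≥ 1, by its full automorphism group: U has a complement M in G whose conjugation action on U is faithful and realizes every automorphism of U. Let Z be a subgroup of U of order 2 and Q the largest normal 2-subgroup of the centralizer C of Z. Then Q is extraspecial of order 2^(2n+1) with an elementary abelian subgroup of order 2^(n+1) (plus type), Q is a large extraspecial 2-subgroup of G, and C is the split extension of Q by the general linear group of degree n over the field with two elements. -/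
theorem result {G : Type*} [Group G] [Finite G] (n : ℕ) (hn : 1 ≤ n) (U M : Subgroup G) [U.Normal] (hU : Cfsg.IsElementaryAbelian 2 U) (hUcard : Nat.card ↥U = 2 ^ (n + 1)) (hUM : U ⊓ M = ⊥) (hUM' : U ⊔ M = ⊤) (hfaith : ∀ m ∈ M, (∀ u ∈ U, m * u * m⁻¹ = u) → m = 1) (hfull : ∀ φ : ↥U ≃* ↥U, ∃ m ∈ M, ∀ u : ↥U, ((φ u : ↥U) : G) = m * u * m⁻¹) (Z : Subgroup G) (hZU : Z ≤ U) (hZ : Nat.card ↥Z = 2) (Q : Subgroup G) (hQ : Q = (Cfsg.pCore 2 ↥(Subgroup.centralizer (Z : Set G))).map (Subgroup.centralizer (Z : Set G)).subtype) : Cfsg.IsExtraspecial 2 ↥Q ∧ Nat.card ↥Q = 2 ^ (2 * n + 1) ∧ (∃ E : Subgroup G, E ≤ Q ∧ Cfsg.IsElementaryAbelian 2 E ∧ Nat.card ↥E = 2 ^ (n + 1)) ∧ Cfsg.IsLargeExtraspecial Q ∧ ∃ K : Subgroup G, K ≤ Subgroup.centralizer (Z : Set G) ∧ Q ⊓ K = ⊥ ∧ Q ⊔ K = Subgroup.centralizer (Z : Set G) ∧ Nonempty (↥K ≃* Matrix.GeneralLinearGroup (Fin n) (ZMod 2)) := by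
  haveI : Fact (Nat.Prime 2) := ⟨Nat.prime_two⟩
  have hUn : U.Normal := inferInstance
  have h : CfsgLib.Hol28.Hol U M :=
    { sq := fun u hu => by rw [← pow_two]; exact hU.2 u hu
      norm := fun m _ u hu => hUn.conj_mem u hu m
      disj := hUM
      faith := hfaith
      full := hfull }
  -- the generator
  haveI : Nontrivial ↥Z := Finite.one_lt_card_iff_nontrivial.1 (by rw [hZ]; norm_num)
  obtain ⟨⟨z, hzZ⟩, hz1'⟩ := exists_ne (1 : ↥Z)
  have hz1 : z ≠ 1 := fun h1 => hz1' (Subtype.ext h1)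
  have hz : z ∈ U := hZU hzZ
  have hZz : ∀ x ∈ Z, x = 1 ∨ x = z := by
    intro x hx
    have h1 := Nat.card_eq_two_iff' (1 : ↥Z)
    obtain ⟨y, hy1, hy2⟩ := h1.1 hZ
    by_cases hx1 : x = 1
    · exact Or.inl hx1
    · right
      have h2 := hy2 ⟨x, hx⟩ (fun h3 => hx1 (congrArg Subtype.val h3))
      have h3 := hy2 ⟨z, hzZ⟩ hz1'
      exact congrArg Subtype.val (h2.trans h3.symm)
  have hC : ∀ c, c ∈ Subgroup.centralizer (Z : Set G) ↔ c * z = z * c := by
    intro c
    rw [Subgroup.mem_centralizer_iff]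
    constructor
    · intro h1; exact (h1 z hzZ).symm
    · intro h1 x hx
      rcases hZz x hx with rfl | rfl
      · rw [one_mul, mul_one]
      · exact h1.symm
  have hP : ∀ c, c * z = z * c → ∃ u ∈ U, ∃ m ∈ M, c = u * m := by
    intro c _
    have h1 : c ∈ U ⊔ M := by rw [hUM']; trivial
    rw [Subgroup.mem_sup_of_normal_left] at h1
    obtain ⟨u, hu, m, hm, he⟩ := h1
    exact ⟨u, hu, m, hm, he.symm⟩
  exact CfsgLib.Hol28.main h hz hz1 hP hn hUcard hC hQ

end Cfsg.Agent.S5423
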