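import Cfsg.Statements.S5433
import Cfsg.Agent.LibLargePairH28

set_option autoImplicit false
open Cfsg

namespace Cfsg.Agent.S5433

/-- Let Q be a large extraspecial 2-subgroup of the finite group G (extraspecial; centralizer equal to its centre; normal in the centralizer of its centre; normalizing no non-trivial subgroup of odd order), and L a normal subgroup of G containing Q. Then G is the product of L and the normalizer of Q. -/
theorem result {G : Type*} [Group G] [Finite G] (Q : Subgroup G) (hQ : Cfsg.IsLargeExtraspecial Q) (L : Subgroup G) [L.Normal] (hQL : Q ≤ L) : L ⊔ Subgroup.normalizer (Q : Set G) = ⊤ := by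
  obtain ⟨z, hzQ, hz1, hzc, hz⟩ := CfsgLib.LargeExtraH28.exists_center_gen hQ.1
  have h := CfsgLib.LargePairH28.lset_of hQ.1 hQ.2.1 hQ.2.2.1 hz
  haveI : Fact (Nat.Prime 2) := ⟨Nat.prime_two⟩
  have hQ2 : IsPGroup 2 Q := hQ.1.1.1
  have hQL2 : IsPGroup 2 ↥(Q.subgroupOf L) := hQ2.comap_subtype
  obtain ⟨T, hT⟩ := hQL2.exists_le_sylow
  have hfr := Sylow.normalizer_sup_eq_top T
  set T' : Subgroup G := ((T : Subgroup L).map L.subtype) with hT'
  have hQT : Q ≤ T' := by
    intro q hq
    exact ⟨⟨q, hQL hq⟩, hT (by rw [Subgroup.mem_subgroupOf]; exact hq), rfl⟩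
  have hT2 : IsPGroup 2 T' := T.isPGroup'.map _
  haveI : Nontrivial T' := ⟨⟨⟨z, hQT hzQ⟩, 1, fun hc => hz1 (congrArg Subtype.val hc)⟩⟩
  have hcn := hT2.center_nontrivial
  obtain ⟨⟨c, hc⟩, hc1⟩ := exists_ne (1 : Subgroup.center T')
  have hczz : ∀ c : G, (∀ q ∈ Q, c * q = q * c) → c ≠ 1 → c = z := by
    intro c hc hc1
    have hcQ := h.CQ c hc
    by_contra hne
    obtain ⟨e, he, hec⟩ := h.noncentral hcQ hc1 hne
    rw [← hc e he] at hec
    exact h.z1 (mul_eq_right.mp hec.symm)
  have hcz : (c : G) = z := by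
    apply hczz
    · intro q hq
      exact (congrArg Subtype.val ((Subgroup.mem_center_iff.mp hc) ⟨q, hQT hq⟩)).symm
    · intro h1
      apply hc1
      apply Subtype.ext; apply Subtype.ext; exact h1
  have hzT : ∀ t ∈ T', t * z = z * t := by
    intro t ht
    rw [← hcz]
    exact congrArg Subtype.val ((Subgroup.mem_center_iff.mp hc) ⟨t, ht⟩)
  have hle : Subgroup.normalizer (T' : Set G) ≤ Subgroup.normalizer (Q : Set G) := by
    intro g hg
    have h1 : g * z * g⁻¹ = z := by
      apply hczz
      · intro q hq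
        have h2 : g⁻¹ * q * g ∈ T' := by
          have := (Subgroup.mem_normalizer_iff.mp (inv_mem hg) q).mp (hQT hq)
          simpa using this
        have h3 := hzT _ h2
        calc g * z * g⁻¹ * q = g * (z * (g⁻¹ * q * g)) * g⁻¹ := by group
          _ = g * ((g⁻¹ * q * g) * z) * g⁻¹ := by rw [h3]
          _ = _ := by group
      · intro h2
        apply hz1
        calc z = g⁻¹ * (g * z * g⁻¹) * g := by group
          _ = 1 := by rw [h2]; group
    apply hQ.2.2.1
    rw [hz, Subgroup.mem_centralizer_iff]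
    rintro _ ⟨n, rfl⟩
    have h2 : Commute g z := by
      show g * z = z * g
      nth_rw 2 [← h1]; group
    exact (h2.zpow_right n).eq.symm
  rw [eq_top_iff, ← hfr, sup_comm]
  exact sup_le_sup_left hle L

end Cfsg.Agent.S5433
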