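import Cfsg.Statements.S5427
import Cfsg.Agent.LibLargeGFH28
import Cfsg.Agent.S5433
import Cfsg.Agent.LibLargeExtra3H28

set_option autoImplicit false
open Cfsg

namespace Cfsg.Agent.S5427

/-- Let z be an involution of the finite group G whose centralizer C has generalized Fitting subgroup Q, an extraspecial 2-group of width at least 2 (order 2^(2w+1), w ≥ 2). Let K be a subgroup of G such that the subgroup U generated by the K-conjugates of z is abelian and C is generated by the C-conjugates of U. Suppose that either some K-conjugate of z other than z lies in Q, or some element u of U ∩ Q outside the subgroup generated by z has z in the largest normal 2-subgroup of its centralizer. Then G is simple and Q is a large extraspecial 2-subgroup of G. -/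
theorem result {G : Type*} [Group G] [Finite G] (z : G) (hz : orderOf z = 2) (Q : Subgroup G) (hQC : Q ≤ Subgroup.centralizer ({z} : Set G)) (hF : (Cfsg.generalizedFittingSubgroup ↥(Subgroup.centralizer ({z} : Set G))).map (Subgroup.centralizer ({z} : Set G)).subtype = Q) (hQ : Cfsg.IsExtraspecial 2 ↥Q) (w : ℕ) (hw : 2 ≤ w) (hcard : Nat.card ↥Q = 2 ^ (2 * w + 1)) (K U : Subgroup G) (hU : U = Subgroup.closure {x : G | ∃ k ∈ K, x = k * z * k⁻¹}) (hUab : IsMulCommutative ↥U) (hgen : Subgroup.closure {x : G | ∃ c ∈ Subgroup.centralizer ({z} : Set G), ∃ u ∈ U, x = c * u * c⁻¹} = Subgroup.centralizer ({z} : Set G)) (h3 : (∃ k ∈ K, k * z * k⁻¹ ∈ Q ∧ k * z * k⁻¹ ≠ z) ∨ ∃ u ∈ U ⊓ Q, u ∉ Subgroup.zpowers z ∧ (∃ hz' : z ∈ Subgroup.centralizer ({u} : Set G), (⟨z, hz'⟩ : ↥(Subgroup.centralizer ({u} : Set G))) ∈ Cfsg.pCore 2 ↥(Subgroup.centralizer ({u} : Set G)))) : IsSimpleGroup G ∧ Cfsg.IsLargeExtraspecial Q := by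
  haveI : Fact (Nat.Prime 2) := ⟨Nat.prime_two⟩
  subst hF
  have h := CfsgLib.LargeGFH28.lset_of_gF hz hQ
  obtain ⟨Q, hQdef⟩ : ∃ Q : Subgroup G, Q = (generalizedFittingSubgroup ↥(Subgroup.centralizer ({z} : Set G))).map (Subgroup.centralizer ({z} : Set G)).subtype := ⟨_, rfl⟩
  rw [← hQdef] at h hQ h3 ⊢
  have hQ2 : IsPGroup 2 Q := hQ.1.1
  have hzU : z ∈ U := by
    rw [hU]; exact Subgroup.subset_closure ⟨1, one_mem _, by group⟩
  have hUcomm : ∀ a ∈ U, ∀ b ∈ U, a * b = b * a := fun a ha b hb =>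
    congrArg Subtype.val (hUab.is_comm.comm (⟨a, ha⟩ : U) ⟨b, hb⟩)
  have hUsq : ∀ a ∈ U, a * a = 1 := by
    intro a ha
    rw [hU] at ha
    induction ha using Subgroup.closure_induction with
    | mem x hx =>
      obtain ⟨k, hk, rfl⟩ := hx
      have : k * z * k⁻¹ * (k * z * k⁻¹) = k * (z * z) * k⁻¹ := by group
      rw [this, h.zz]; group
    | one => simp
    | mul x y hx hy ihx ihy =>
      have h1 := hUcomm x (by rw [hU]; exact hx) y (by rw [hU]; exact hy)
      calc x * y * (x * y) = x * (y * x) * y := by group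
        _ = (x * x) * (y * y) := by rw [← h1]; group
        _ = 1 := by rw [ihx, ihy, one_mul]
    | inv x hx ihx =>
      calc x⁻¹ * x⁻¹ = (x * x)⁻¹ := by group
        _ = 1 := by rw [ihx, inv_one]
  have hodd : ∀ K : Subgroup G, Odd (Nat.card K) → Q ≤ Subgroup.normalizer (K : Set G) → K = ⊥ := by
    rcases h3 with ⟨k, _, hkQ, hkz⟩ | ⟨u, ⟨huU, huQ⟩, huz, hzz', hcore⟩
    · intro K hK hQK
      exact (CfsgLib.LargePairH28.pair_of h hkQ hkz).odd (hQ2.map _) hK hQK
    · intro L hL hQL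
      rw [h.mem_zpowers] at huz
      push Not at huz
      refine CfsgLib.LargePairH28.odd_eq_bot_of_core h huQ huz.1 huz.2 (hUsq u huU) ?_ hL hQL
      intro k hk
      have hP2 : IsPGroup 2 ↥((Cfsg.pCore 2 ↥(Subgroup.centralizer ({u} : Set G))).map (Subgroup.centralizer ({u} : Set G)).subtype) :=
        (CfsgLib.Cores.pCore_isPGroup 2).map _
      apply CfsgLib.LargePairH28.not_mem_odd_of_pgroup hP2
      have hzP : z ∈ (Cfsg.pCore 2 ↥(Subgroup.centralizer ({u} : Set G))).map (Subgroup.centralizer ({u} : Set G)).subtype :=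
        ⟨_, hcore, rfl⟩
      refine mul_mem ?_ (inv_mem hzP)
      have hn : (Cfsg.pCore 2 ↥(Subgroup.centralizer ({u} : Set G))).Normal := inferInstance
      exact ⟨⟨k, Subgroup.mem_centralizer_singleton_iff.mpr hk⟩ * ⟨z, hzz'⟩ *
        ⟨k, Subgroup.mem_centralizer_singleton_iff.mpr hk⟩⁻¹, hn.conj_mem _ hcore _, rfl⟩
  have hlarge := CfsgLib.LargeGFH28.large_of h hQ hodd
  refine ⟨?_, hlarge⟩
  haveI : Nontrivial G := ⟨⟨z, 1, h.z1⟩⟩
  refine ⟨fun N hN => ?_⟩
  haveI := hN
  by_cases hNodd : Odd (Nat.card N)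
  · left
    apply hodd N hNodd
    rw [Subgroup.normalizer_eq_top_iff.mpr hN]; exact le_top
  right
  have hzN : z ∈ N := CfsgLib.LargeGFH28.z_mem_of_normal h hQ2 N hNodd
  have hUN : U ≤ N := by
    rw [hU, Subgroup.closure_le]
    rintro _ ⟨k, _, rfl⟩
    exact hN.conj_mem z hzN k
  have hCN : Subgroup.centralizer ({z} : Set G) ≤ N := by
    rw [← hgen, Subgroup.closure_le]
    rintro _ ⟨c, _, u, hu, rfl⟩
    exact hN.conj_mem u (hUN hu) c
  have hQC' : Q ≤ Subgroup.centralizer ({z} : Set G) := by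
    intro q hq
    rw [Subgroup.mem_centralizer_singleton_iff]; exact h.zc q hq
  have hfr := Cfsg.Agent.S5433.result Q hlarge N (hQC'.trans hCN)
  have hNC : Subgroup.normalizer (Q : Set G) ≤ Subgroup.centralizer ({z} : Set G) := by
    intro a ha
    have h1 := CfsgLib.LargeExtra3H28.norm_fix h.toESet ha
    rw [Subgroup.mem_centralizer_singleton_iff]
    nth_rw 2 [← h1]; group
  rw [eq_top_iff, ← hfr]
  exact sup_le le_rfl (hNC.trans hCN)

end Cfsg.Agent.S5427
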