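import Cfsg.Statements.S5428
import Cfsg.Agent.LibLargeOddA28

set_option autoImplicit false
open Cfsg

namespace Cfsg.Agent.S5428

open CfsgLib.LargeExtraH28 CfsgLib.LargeGFH28 CfsgLib.LargeOddA28

/-- Let z be an involution of the finite group G whose centralizer C has generalized Fitting subgroup Q extraspecial (as a 2-group), let A be a subgroup of C of odd order, and let R be the centralizer of A in Q; suppose R has order at least 32, the largest normal subgroup of odd order of the centralizer of the subgroup generated by A and R lies in A, the order of that centralizer is not divisible by 4, and g is an element of G with g z g⁻¹ in R but outside the centre Z of Q. Let M be the subgroup generated by A and the centralizer of A (A is normal in it). Then: the centralizer in M of the subgroup generated by R and A, joined with A, equals the subgroup generated by A and Z; the image of R in M/A is a large extraspecial 2-subgroup of M/A; and g z g⁻¹ is conjugate to z inside the subgroup generated by R and the centralizer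 of A in g Q g⁻¹. -/
theorem result {G : Type*} [Group G] [Finite G] (z : G) (hz : orderOf z = 2) (Q : Subgroup G) (hQC : Q ≤ Subgroup.centralizer ({z} : Set G)) (hF : (Cfsg.generalizedFittingSubgroup ↥(Subgroup.centralizer ({z} : Set G))).map (Subgroup.centralizer ({z} : Set G)).subtype = Q) (hQ : Cfsg.IsExtraspecial 2 ↥Q) (A : Subgroup G) (hA : A ≤ Subgroup.centralizer ({z} : Set G)) (hAodd : Odd (Nat.card ↥A)) (R : Subgroup G) (hR : R = Q ⊓ Subgroup.centralizer (A : Set G)) (hR32 : 32 ≤ Nat.card ↥R) (hO : (Cfsg.oddCore ↥(Subgroup.centralizer ((A ⊔ R : Subgroup G) : Set G))).map (Subgroup.centralizer ((A ⊔ R : Subgroup G) : Set G)).subtype ≤ A) (h4 : ¬ 4 ∣ Nat.card ↥(Subgroup.centralizer ((A ⊔ R : Subgroup G) : Set G))) (g : G) (hgR : g * z * g⁻¹ ∈ R) (hgZ : g * z * g⁻¹ ∉ ((Subgroup.center ↥Q).map Q.subtype)) (M : Subgroup G) (hM : M = Subgroup.centralizer (A : Set G) ⊔ A) [hn : (A.subgroupOf M).Normal] : (M ⊓ Subgroup.centralizer ((R ⊔ A : Subgroup G) : Set G)) ⊔ A = A ⊔ ((Subgroup.center ↥Q).map Q.subtype) ∧ Cfsg.IsLargeExtraspecial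 ((R.subgroupOf M).map (QuotientGroup.mk' (A.subgroupOf M))) ∧ ∃ x ∈ R ⊔ ((Q).map (MulAut.conj g).toMonoidHom ⊓ Subgroup.centralizer (A : Set G)), x * (g * z * g⁻¹) * x⁻¹ = z := by
  have h : LSet Q z := by
    subst hF
    exact lset_of_gF hz hQ
  haveI : Fact (Nat.Prime 2) := ⟨Nat.prime_two⟩
  have hQ2 : IsPGroup 2 Q := hQ.1.1
  have hze := center_map_zpowers h hQ
  have hAz : ∀ a ∈ A, a * z = z * a := fun a ha =>
    Subgroup.mem_centralizer_singleton_iff.mp (hA ha)
  subst hR
  obtain ⟨hsQ, hsA⟩ := Da.mem_R.mp hgR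
  have hsz : g * z * g⁻¹ ≠ z := by
    intro e
    apply hgZ
    rw [hze, e]
    exact Subgroup.mem_zpowers z
  have hzR : z ∈ Q ⊓ Subgroup.centralizer (A : Set G) := Da.mem_R.mpr ⟨h.zQ, hAz⟩
  -- the centralizer of `A ⊔ R`
  set X := Subgroup.centralizer ((A ⊔ (Q ⊓ Subgroup.centralizer (A : Set G)) : Subgroup G) : Set G)
    with hXdef
  have hzc : ∀ x ∈ X, x * z = z * x := fun x hx =>
    ((Subgroup.mem_centralizer_iff.mp hx) z (Subgroup.mem_sup_right hzR)).symm
  have hzX : z ∈ X := by
    have h1 : A ⊔ (Q ⊓ Subgroup.centralizer (A : Set G)) ≤ Subgroup.centralizer ({z} : Set G) := by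
      refine sup_le hA ?_
      intro r hr
      exact Subgroup.mem_centralizer_singleton_iff.mpr (h.zc r hr.1)
    rw [hXdef, Subgroup.mem_centralizer_iff]
    intro y hy
    exact Subgroup.mem_centralizer_singleton_iff.mp (h1 hy)
  have hXA : ∀ x ∈ X, x ∈ A ∨ z * x ∈ A := by
    intro x hx
    have h1 := split_two (X := X) (z := ⟨z, hzX⟩) (by rw [Subgroup.orderOf_mk]; exact hz)
      (fun y => Subtype.ext (hzc y y.2)) h4 ⟨x, hx⟩
    rcases h1 with h1 | h1
    · exact Or.inl (hO ⟨_, h1, rfl⟩)
    · exact Or.inr (hO ⟨_, h1, rfl⟩)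
  have d : Da Q A z g := {
    h := h
    hE := hQ
    Q2 := hQ2
    Az := hAz
    Aodd := hAodd
    sQ := hsQ
    sA := hsA
    sz := hsz
    X := by
      intro x hxA hxR
      apply hXA
      have h1 : A ⊔ (Q ⊓ Subgroup.centralizer (A : Set G)) ≤
          Subgroup.centralizer ({x} : Set G) := by
        refine sup_le ?_ ?_
        · intro a ha
          exact Subgroup.mem_centralizer_singleton_iff.mpr (hxA a ha).symm
        · intro r hr
          obtain ⟨h2, h3⟩ := Da.mem_R.mp hr
          exact Subgroup.mem_centralizer_singleton_iff.mpr (hxR r h2 h3).symm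
      rw [hXdef, Subgroup.mem_centralizer_iff]
      intro y hy
      exact Subgroup.mem_centralizer_singleton_iff.mp (h1 hy) }
  have hRM : Q ⊓ Subgroup.centralizer (A : Set G) ≤ M := by
    rw [hM]; exact inf_le_right.trans le_sup_left
  refine ⟨?_, ?_, d.fuse⟩
  · rw [hze]
    apply le_antisymm
    · refine sup_le ?_ le_sup_left
      intro x hx
      have hxX : x ∈ X := by
        rw [hXdef, sup_comm]; exact hx.2
      rcases hXA x hxX with h1 | h1
      · exact Subgroup.mem_sup_left h1
      · have h2 : x = z * (z * x) := (h.toESet.zz' x).symm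
        rw [h2]
        exact mul_mem (Subgroup.mem_sup_right (Subgroup.mem_zpowers z)) (Subgroup.mem_sup_left h1)
    · refine sup_le le_sup_right ?_
      rw [Subgroup.zpowers_le]
      refine Subgroup.mem_sup_left (Subgroup.mem_inf.mpr ⟨hRM hzR, ?_⟩)
      rw [sup_comm]; exact hzX
  · refine d.large _ hRM (QuotientGroup.mk'_surjective _) ?_ hM
    intro c
    rw [QuotientGroup.mk'_apply, QuotientGroup.eq_one_iff, Subgroup.mem_subgroupOf]

end Cfsg.Agent.S5428
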