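import Cfsg.Statements.S5429
import Cfsg.Agent.LibLargeQuot28

set_option autoImplicit false
open Cfsg

namespace Cfsg.Agent.S5429

open CfsgLib.LargeExtraH28 CfsgLib.LargeGFH28 CfsgLib.LargeQuot28

/-- Let z be an involution of the finite group G with centralizer C whose generalized Fitting subgroup Q is extraspecial of width at least 3 (order 2^(2w+1), w ≥ 3); let g be an element of G with g z g⁻¹ in Q but outside the centre Z of Q, and t an involution lying in both Q and g Q g⁻¹ that is not conjugate to z; write P for the centralizer of t in Q and suppose that the elements of C acting trivially by conjugation on P modulo the subgroup generated by t and z are exactly the elements of Q. Then the image of P in the centralizer of t modulo the subgroup generated by t is a large extraspecial 2-subgroup there, and g z g⁻¹ is conjugate to z inside the subgroup generated by P and the centralizer of t in g Q g⁻¹. -/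
theorem result {G : Type*} [Group G] [Finite G] (z : G) (hz : orderOf z = 2) (Q : Subgroup G) (hQC : Q ≤ Subgroup.centralizer ({z} : Set G)) (hF : (Cfsg.generalizedFittingSubgroup ↥(Subgroup.centralizer ({z} : Set G))).map (Subgroup.centralizer ({z} : Set G)).subtype = Q) (hQ : Cfsg.IsExtraspecial 2 ↥Q) (w : ℕ) (hw : 3 ≤ w) (hcard : Nat.card ↥Q = 2 ^ (2 * w + 1)) (g : G) (hgQ : g * z * g⁻¹ ∈ Q) (hgZ : g * z * g⁻¹ ∉ ((Subgroup.center ↥Q).map Q.subtype)) (t : G) (ht : orderOf t = 2) (htQ : t ∈ Q ⊓ (Q).map (MulAut.conj g).toMonoidHom) (htz : ¬ IsConj z t) (P : Subgroup G) (hP : P = Q ⊓ Subgroup.centralizer ({t} : Set G)) (hCP : ∀ c ∈ Subgroup.centralizer ({z} : Set G), (∀ x ∈ P, ∃ y ∈ Subgroup.closure ({t, z} : Set G), c * x * c⁻¹ = x * y) ↔ c ∈ Q) [hn : ((Subgroup.zpowers t).subgroupOf (Subgroup.centralizer ({t} : Set G))).Normal] : Cfsg.IsLargeExtraspecial ((P.subgroupOf (Subgroup.centralizer ({t} : Set G))).map (QuotientGroup.mk' ((Subgroup.zpowers t).subgroupOf (Subgroup.centralizer ({t} : Set G))))) ∧ ∃ x ∈ P ⊔ ((Q).map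 (MulAut.conj g).toMonoidHom ⊓ Subgroup.centralizer ({t} : Set G)), x * (g * z * g⁻¹) * x⁻¹ = z := by
  have h : LSet Q z := by
    subst hF
    exact lset_of_gF hz hQ
  have hQ2 : IsPGroup 2 Q := IsPGroup.of_card hcard
  have hsz : g * z * g⁻¹ ≠ z := by
    intro e
    apply hgZ
    rw [center_map_zpowers h hQ, e]
    exact Subgroup.mem_zpowers z
  have ht1 : t ≠ 1 := by rintro rfl; simp at ht
  have htt : t * t = 1 := by
    have := pow_orderOf_eq_one t
    rwa [ht, pow_two] at this
  obtain ⟨htQ1, htQ2⟩ := Subgroup.mem_inf.mp htQ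
  have d : Dt Q (Q.map (MulAut.conj g).toMonoidHom) z (g * z * g⁻¹) t := {
    h := h
    h' := h.conj g
    sQ := hgQ
    zQ' := h.sym hgQ hsz
    tQ := htQ1
    tQ' := htQ2
    tt := htt
    t1 := ht1
    Q2 := hQ2
    Q2' := hQ2.map _
    sz := hsz
    cj := isConj_iff.mpr ⟨g, rfl⟩
    nc := htz }
  subst hP
  have hmemt : ∀ y : G, y ∈ Subgroup.zpowers t ↔ y = 1 ∨ y = t := by
    intro y
    constructor
    · intro hy
      obtain ⟨k, rfl⟩ := Subgroup.mem_zpowers_iff.mp hy
      rcases Int.emod_two_eq_zero_or_one k with hk | hk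
      · left
        rw [← zpow_mod_orderOf, ht]
        show t ^ (k % (2 : ℤ)) = 1
        rw [hk, zpow_zero]
      · right
        rw [← zpow_mod_orderOf, ht]
        show t ^ (k % (2 : ℤ)) = t
        rw [hk, zpow_one]
    · rintro (rfl | rfl)
      · exact one_mem _
      · exact Subgroup.mem_zpowers y
  constructor
  · refine d.large _ (QuotientGroup.mk'_surjective _) ?_ ?_
    · intro c
      rw [QuotientGroup.mk'_apply, QuotientGroup.eq_one_iff, Subgroup.mem_subgroupOf, hmemt]
    · intro c hcz hct hcx
      have hcC : c ∈ Subgroup.centralizer ({z} : Set G) :=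
        Subgroup.mem_centralizer_singleton_iff.mpr hcz
      refine (hCP c hcC).mp ?_
      intro x hx
      obtain ⟨hxQ, hxt⟩ := Subgroup.mem_inf.mp hx
      obtain ⟨y, hy, h1⟩ := hcx x hxQ (Subgroup.mem_centralizer_singleton_iff.mp hxt)
      refine ⟨y, ?_, h1⟩
      rcases hy with rfl | rfl
      · exact one_mem _
      · exact Subgroup.subset_closure (by simp)
  · exact d.fuse

end Cfsg.Agent.S5429
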