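import Cfsg.Statements.S5430
import Cfsg.Agent.LibLargePair2H28

set_option autoImplicit false
open Cfsg

namespace Cfsg.Agent.S5430

/-- Let Q be a large extraspecial 2-subgroup of the finite group G (extraspecial; centralizer equal to its centre; normal in the centralizer of its centre; normalizing no non-trivial subgroup of odd order) with centre generated by z, an involution, of width w ≥ 2 (order 2^(2w+1)); let g be an element outside the centralizer H of z with g z g⁻¹ in Q; write V for the subgroup generated by z and g z g⁻¹, X for the subgroup generated by Q and g Q g⁻¹, R for the subgroup generated by the centralizer of z in g Q g⁻¹ and the centralizer of g z g⁻¹ in Q, and E for the intersection of Q and g Q g⁻¹. Then R is the centralizer of V in X and is the largest normal 2-subgroup of X, and X/R is isomorphic to the symmetric group of degree 3; moreover the normalizer of V is the product of X and the centralizer of V in H, X is normal in it, and modulo R it is the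 direct product of X/R and of the centralizer of V in H modulo R. -/
theorem result {G : Type*} [Group G] [Finite G] (Q : Subgroup G) (hQ : Cfsg.IsLargeExtraspecial Q) (z : G) (hz : ((Subgroup.center ↥Q).map Q.subtype) = Subgroup.zpowers z) (hz2 : orderOf z = 2) (w : ℕ) (hw : 2 ≤ w) (hcard : Nat.card ↥Q = 2 ^ (2 * w + 1)) (g : G) (hgH : g ∉ Subgroup.centralizer ({z} : Set G)) (hgQ : g * z * g⁻¹ ∈ Q) (V X R E : Subgroup G) (hV : V = Subgroup.closure ({z, g * z * g⁻¹} : Set G)) (hX : X = Q ⊔ (Q).map (MulAut.conj g).toMonoidHom) (hR : R = ((Q).map (MulAut.conj g).toMonoidHom ⊓ Subgroup.centralizer ({z} : Set G)) ⊔ (Q ⊓ Subgroup.centralizer ({g * z * g⁻¹} : Set G))) (hE : E = Q ⊓ (Q).map (MulAut.conj g).toMonoidHom) : R = X ⊓ Subgroup.centralizer (V : Set G) ∧ R = (Cfsg.pCore 2 ↥X).map X.subtype ∧ (∃ h : (R.subgroupOf X).Normal, Nonempty (↥X ⧸ R.subgroupOf X ≃* Equiv.Perm (Fin 3))) ∧ Subgroup.normalizer (V : Set G) = X ⊔ (Subgroup.centralizer ({z} : Set G) ⊓ Subgroup.centralizer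 (V : Set G)) ∧ (∀ y ∈ Subgroup.normalizer (V : Set G), ∀ x ∈ X, y * x * y⁻¹ ∈ X) ∧ R ≤ Subgroup.centralizer ({z} : Set G) ⊓ Subgroup.centralizer (V : Set G) ∧ (∀ x ∈ X, ∀ c ∈ Subgroup.centralizer ({z} : Set G) ⊓ Subgroup.centralizer (V : Set G), x * c * x⁻¹ * c⁻¹ ∈ R) ∧ X ⊓ (Subgroup.centralizer ({z} : Set G) ⊓ Subgroup.centralizer (V : Set G)) = R := by
  have hL := CfsgLib.LargePairH28.lset_of hQ.1 hQ.2.1 hQ.2.2.1 hz
  have hne : g * z * g⁻¹ ≠ z := by
    intro hc
    apply hgH
    rw [Subgroup.mem_centralizer_singleton_iff]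
    nth_rw 2 [← hc]; group
  have h := CfsgLib.LargePair2H28.cpair_of hL hgQ hne
  have hQ2 : IsPGroup 2 Q := hQ.1.1.1
  have hP2 : IsPGroup 2 ↥(Q.map (MulAut.conj g).toMonoidHom) := hQ2.map _
  have hR' : R = CfsgLib.LargePair2H28.RR Q (Q.map (MulAut.conj g).toMonoidHom) z (g * z * g⁻¹) := hR
  subst hX hV
  rw [hR']
  refine ⟨h.inf_cV.symm, h.core_eq hQ2 hP2, h.quot_equiv, h.norm_eq, fun y hy x hx => h.X_normal hy hx, ?_, ?_, ?_⟩
  · refine le_inf ?_ h.RR_le_cV
    intro r hr
    rw [Subgroup.mem_centralizer_singleton_iff]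
    exact (h.mem_cV_iff.mp (h.RR_le_cV hr)).1
  · intro x hx c hc
    obtain ⟨hcz, hcV⟩ := Subgroup.mem_inf.mp hc
    rw [← h.inf_cV, Subgroup.mem_inf]
    refine ⟨?_, ?_⟩
    · have : x * c * x⁻¹ * c⁻¹ = x * (c * x⁻¹ * c⁻¹) := by group
      rw [this]
      exact mul_mem hx (h.cV_conj_X hcV (inv_mem hx))
    · have hxN : x ∈ Subgroup.normalizer ((Subgroup.closure ({z, g * z * g⁻¹} : Set G) : Subgroup G) : Set G) :=
        (sup_le h.Q_le_norm h.P_le_norm : _ ≤ _) hx
      exact mul_mem (h.cV_conj hxN hcV) (inv_mem hcV)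
  · rw [← h.inf_cV]
    ext t
    simp only [Subgroup.mem_inf]
    constructor
    · rintro ⟨h1, _, h2⟩; exact ⟨h1, h2⟩
    · rintro ⟨h1, h2⟩
      refine ⟨h1, ?_, h2⟩
      rw [Subgroup.mem_centralizer_singleton_iff]
      exact (h.mem_cV_iff.mp h2).1

end Cfsg.Agent.S5430
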