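import Cfsg.Statements.S5431
import Cfsg.Agent.LibLargePair2H28

set_option autoImplicit false
open Cfsg

namespace Cfsg.Agent.S5431

/-- Let Q be a large extraspecial 2-subgroup of the finite group G (extraspecial; centralizer equal to its centre; normal in the centralizer of its centre; normalizing no non-trivial subgroup of odd order) with centre generated by z, an involution, of width w ≥ 2 (order 2^(2w+1)); let g be an element outside the centralizer H of z with g z g⁻¹ in Q; write V for the subgroup generated by z and g z g⁻¹, X for the subgroup generated by Q and g Q g⁻¹, R for the subgroup generated by the centralizer of z in g Q g⁻¹ and the centralizer of g z g⁻¹ in Q, and E for the intersection of Q and g Q g⁻¹. Then V is the centre of R, E lies in the second centre of R, R is nilpotent of class at most 3, E and R/E are elementary abelian, R/E is the direct product of the images of the centralizer of g z g⁻¹ in Q and of the centralizer of z in g Q g⁻¹ (R is their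 product and they meet in E), and the commutator subgroup of X and E lies in V. -/
theorem result {G : Type*} [Group G] [Finite G] (Q : Subgroup G) (hQ : Cfsg.IsLargeExtraspecial Q) (z : G) (hz : ((Subgroup.center ↥Q).map Q.subtype) = Subgroup.zpowers z) (hz2 : orderOf z = 2) (w : ℕ) (hw : 2 ≤ w) (hcard : Nat.card ↥Q = 2 ^ (2 * w + 1)) (g : G) (hgH : g ∉ Subgroup.centralizer ({z} : Set G)) (hgQ : g * z * g⁻¹ ∈ Q) (V X R E : Subgroup G) (hV : V = Subgroup.closure ({z, g * z * g⁻¹} : Set G)) (hX : X = Q ⊔ (Q).map (MulAut.conj g).toMonoidHom) (hR : R = ((Q).map (MulAut.conj g).toMonoidHom ⊓ Subgroup.centralizer ({z} : Set G)) ⊔ (Q ⊓ Subgroup.centralizer ({g * z * g⁻¹} : Set G))) (hE : E = Q ⊓ (Q).map (MulAut.conj g).toMonoidHom) : (Subgroup.center ↥R).map R.subtype = V ∧ E ≤ (Subgroup.upperCentralSeries ↥R 2).map R.subtype ∧ Subgroup.upperCentralSeries ↥R 3 = ⊤ ∧ Cfsg.IsElementaryAbelian 2 E ∧ (∀ x ∈ R, ∀ y ∈ R, x * y * x⁻¹ * y⁻¹ ∈ E ∧ x ^ 2 ∈ E) ∧ ((Q).map (MulAut.conj g).toMonoidHom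 ⊓ Subgroup.centralizer ({z} : Set G)) ⊓ (Q ⊓ Subgroup.centralizer ({g * z * g⁻¹} : Set G)) = E ∧ ⁅X, E⁆ ≤ V := by
  have hL := CfsgLib.LargePairH28.lset_of hQ.1 hQ.2.1 hQ.2.2.1 hz
  have hne : g * z * g⁻¹ ≠ z := by
    intro hc
    apply hgH
    rw [Subgroup.mem_centralizer_singleton_iff]
    nth_rw 2 [← hc]; group
  have h := CfsgLib.LargePair2H28.cpair_of hL hgQ hne
  have hR' : R = CfsgLib.LargePair2H28.RR Q (Q.map (MulAut.conj g).toMonoidHom) z (g * z * g⁻¹) := hR
  have hRX : R ≤ X := by rw [hR', hX]; exact CfsgLib.LargePair2H28.CPair.RR_le_X _ _ _ _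
  have hVR : V ≤ R := by rw [hR', hV]; exact h.V_le_RR
  have hVE : V ≤ E := by rw [hE, hV]; exact h.V_le_E
  have hER : E ≤ R := by
    rw [hE, hR', ← h.inf_cV]
    refine le_inf (inf_le_left.trans le_sup_left) ?_
    intro e he
    rw [h.mem_cV_iff]; exact h.E_V he
  have hcenter : (Subgroup.center ↥R).map R.subtype = V := by
    ext c
    constructor
    · rintro ⟨c, hc, rfl⟩
      rw [hV]
      apply h.center_RR (by rw [← hR']; exact c.2)
      intro r hr
      rw [← hR'] at hr
      exact congrArg Subtype.val ((Subgroup.mem_center_iff.mp hc) ⟨r, hr⟩)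
    · intro hc
      refine ⟨⟨c, hVR hc⟩, ?_, rfl⟩
      rw [SetLike.mem_coe, Subgroup.mem_center_iff]
      intro r
      apply Subtype.ext
      have hr : (r : G) ∈ Subgroup.centralizer ((Subgroup.closure ({z, g * z * g⁻¹} : Set G) : Subgroup G) : Set G) := by
        apply h.RR_le_cV; rw [← hR']; exact r.2
      rw [hV] at hc
      exact ((Subgroup.mem_centralizer_iff.mp hr) c hc).symm
  have hE2 : E ≤ (Subgroup.upperCentralSeries ↥R 2).map R.subtype := by
    intro e he
    refine ⟨⟨e, hER he⟩, ?_, rfl⟩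
    rw [SetLike.mem_coe, Subgroup.mem_upperCentralSeries_succ_iff]
    intro y
    rw [Subgroup.upperCentralSeries_one]
    have h1 : (y : G) * e * (y : G)⁻¹ * e⁻¹ ∈ V := by
      rw [hV]; rw [hE] at he
      exact h.comm_XE (by rw [← hX]; exact hRX y.2) he
    have h2 : (((⟨e, hER he⟩ : R) * y * (⟨e, hER he⟩ : R)⁻¹ * y⁻¹ : R) : G) ∈ V := by
      have e1 : (((⟨e, hER he⟩ : R) * y * (⟨e, hER he⟩ : R)⁻¹ * y⁻¹ : R) : G) = ((y : G) * e * (y : G)⁻¹ * e⁻¹)⁻¹ := by
        show e * y * e⁻¹ * (y : G)⁻¹ = _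
        group
      rw [e1]; exact inv_mem h1
    rw [← hcenter] at h2
    obtain ⟨w, hw, hww⟩ := h2
    have : w = (⟨e, hER he⟩ : R) * y * (⟨e, hER he⟩ : R)⁻¹ * y⁻¹ := Subtype.ext hww
    rw [this] at hw
    exact hw
  refine ⟨hcenter, hE2, ?_, ?_, ?_, ?_, ?_⟩
  · rw [eq_top_iff]
    intro r _
    rw [Subgroup.mem_upperCentralSeries_succ_iff]
    intro s
    have h1 : (r : G) * s * (r : G)⁻¹ * (s : G)⁻¹ ∈ E := by
      rw [hE]; exact h.comm_RR (by rw [← hR']; exact r.2) (by rw [← hR']; exact s.2)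
    obtain ⟨w, hw, hww⟩ := hE2 h1
    have : w = r * s * r⁻¹ * s⁻¹ := Subtype.ext hww
    rw [this] at hw
    exact hw
  · rw [hE]
    refine ⟨⟨⟨fun a b => Subtype.ext (h.E_comm a.2 b.2)⟩⟩, ?_⟩
    intro a ha
    rw [pow_two]; exact h.E_sq ha
  · intro x hx y hy
    rw [hE]
    rw [hR'] at hx hy
    refine ⟨h.comm_RR hx hy, ?_⟩
    rw [pow_two]; exact h.sq_RR hx
  · rw [hE]; exact h.E_eq
  · rw [Subgroup.commutator_le]
    intro s hs e he
    rw [hV]
    rw [hX] at hs
    rw [hE] at he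
    exact h.comm_XE hs he

end Cfsg.Agent.S5431
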