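import Cfsg.Statements.S5432
import Cfsg.Agent.LibExOut

set_option autoImplicit false
open Cfsg

namespace Cfsg.Agent.S5432

/-- Let E be an extraspecial 2-group of order 2^(2n+1), n ≥ 1. If E contains an elementary abelian subgroup of order 2^(n+1) (plus type), then its outer automorphism group is isomorphic to the full isometry group of the hyperbolic quadratic form in dimension 2n over the field with two elements; otherwise (minus type) it is isomorphic to the full isometry group of the elliptic quadratic form in dimension 2n over that field. -/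
theorem result {E : Type*} [Group E] [Finite E] (hE : Cfsg.IsExtraspecial 2 E) (n : ℕ) (hn : 1 ≤ n) (hcard : Nat.card E = 2 ^ (2 * n + 1)) : ((∃ A : Subgroup E, Cfsg.IsElementaryAbelian 2 A ∧ Nat.card ↥A = 2 ^ (n + 1)) → Nonempty (Cfsg.Out E ≃* Cfsg.isometryGroup (ZMod 2) (Cfsg.quadFormPlus n (ZMod 2)))) ∧ ((¬ ∃ A : Subgroup E, Cfsg.IsElementaryAbelian 2 A ∧ Nat.card ↥A = 2 ^ (n + 1)) → Nonempty (Cfsg.Out E ≃* Cfsg.isometryGroup (ZMod 2) (Cfsg.quadFormMinus (n - 1) (ZMod 2) 1 1))) := by
  obtain ⟨m, t, hm, hc, ht⟩ := CfsgLib.ExForm.exists_hasType hE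
  have hmn : m = n := by
    rw [hcard] at hc
    have := Nat.pow_right_injective (le_refl 2) hc
    omega
  subst hmn
  obtain ⟨e⟩ := CfsgLib.ExForm.out_of_type hE ht
  constructor
  · intro h
    have h0 := (ht.eq_zero_iff hm).mpr h
    subst h0
    exact ⟨e.trans ((CfsgLib.ExForm.isoGrpCongr (CfsgLib.ExForm.plusEquiv m)
      (CfsgLib.ExForm.plusEquiv_form m)).trans (CfsgLib.ExForm.isoGrpMat _).symm)⟩
  · intro h
    have h0 : t = 1 := CfsgLib.QuadF2.eq_one_of_ne (fun h1 => h ((ht.eq_zero_iff hm).mp h1))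
    subst h0
    obtain ⟨k, rfl⟩ : ∃ k, m = k + 1 := ⟨m - 1, by omega⟩
    exact ⟨e.trans ((CfsgLib.ExForm.isoGrpCongr (CfsgLib.ExForm.minusEquiv k)
      (CfsgLib.ExForm.minusEquiv_form k)).trans (CfsgLib.ExForm.isoGrpMat _).symm)⟩

end Cfsg.Agent.S5432
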