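import Cfsg.Statements.S5434
import Cfsg.Agent.LibLargeExtra3H28

set_option autoImplicit false
open Cfsg

namespace Cfsg.Agent.S5434

/-- Let Q be a large extraspecial 2-subgroup of the finite group G (extraspecial; centralizer equal to its centre; normal in the centralizer of its centre; normalizing no non-trivial subgroup of odd order), and A a non-trivial subgroup of odd order of the normalizer of Q. Then Q is the central product of the centralizer of A in Q and the commutator subgroup [Q, A] (they generate Q and commute elementwise), [Q, A] is extraspecial, and the centralizer of A in Q is either the centre of Q or extraspecial. -/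
theorem result {G : Type*} [Group G] [Finite G] (Q : Subgroup G) (hQ : Cfsg.IsLargeExtraspecial Q) (A : Subgroup G) (hA : A ≤ Subgroup.normalizer (Q : Set G)) (hAodd : Odd (Nat.card ↥A)) (hA1 : A ≠ ⊥) : (Q ⊓ Subgroup.centralizer (A : Set G)) ⊔ ⁅Q, A⁆ = Q ∧ (∀ x ∈ Q ⊓ Subgroup.centralizer (A : Set G), ∀ y ∈ ⁅Q, A⁆, x * y = y * x) ∧ Cfsg.IsExtraspecial 2 ↥⁅Q, A⁆ ∧ (Q ⊓ Subgroup.centralizer (A : Set G) = ((Subgroup.center ↥Q).map Q.subtype) ∨ Cfsg.IsExtraspecial 2 ↥(Q ⊓ Subgroup.centralizer (A : Set G))) := by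
  obtain ⟨z, hzQ, hz1, hzc, hz⟩ := CfsgLib.LargeExtraH28.exists_center_gen hQ.1
  have h := CfsgLib.LargePairH28.lset_of hQ.1 hQ.2.1 hQ.2.2.1 hz
  refine CfsgLib.LargeExtra3H28.odd_decomp h.toESet hQ.1.1.1 hz hA hAodd ?_
  by_contra hcon
  push Not at hcon
  apply hA1
  rw [Subgroup.eq_bot_iff_forall]
  intro a ha
  exact CfsgLib.LargePairH28.odd_pow4 hAodd ha (CfsgLib.LargePairH28.pow4 h.toESet (h.CQ a (hcon a ha)))

end Cfsg.Agent.S5434
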