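import Cfsg.Statements.S5435
import Cfsg.Agent.LibCzD828C

set_option autoImplicit false
open Cfsg

namespace Cfsg.Agent.S5435

open CfsgLib.CzD828

/-- Let L be a finite non-abelian simple group with an involution z whose centralizer R is a Sylow 2-subgroup of L whose Frattini subgroup is the subgroup generated by z. Then R is dihedral of order 8. -/
theorem result {L : Type*} [Group L] [Finite L] [IsSimpleGroup L] (hL : ¬ IsMulCommutative L) (z : L) (hz : orderOf z = 2) (R : Sylow 2 L) (hR : (R : Subgroup L) = Subgroup.centralizer ({z} : Set L)) (hΦ : (frattini ↥(R : Subgroup L)).map (R : Subgroup L).subtype = Subgroup.zpowers z) : Nonempty (↥(R : Subgroup L) ≃* DihedralGroup 4) := by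
  haveI : Fact (Nat.Prime 2) := ⟨Nat.prime_two⟩
  have hz1 : z ≠ 1 := by rintro rfl; simp at hz
  have hzz : z * z = 1 := by
    have := pow_orderOf_eq_one z
    rwa [hz, pow_two] at this
  have hmem : ∀ a, a ∈ (R : Subgroup L) ↔ a * z = z * a := by
    intro a; rw [hR, Subgroup.mem_centralizer_singleton_iff]
  have hfr : ∀ a : ↥(R : Subgroup L), a ∈ frattini ↥(R : Subgroup L) → (a : L) = 1 ∨ (a : L) = z := by
    intro a ha
    have h1 : (a : L) ∈ Subgroup.zpowers z := by rw [← hΦ]; exact ⟨a, ha, rfl⟩
    obtain ⟨k, hk⟩ := Subgroup.mem_zpowers_iff.mp h1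
    rcases Int.emod_two_eq_zero_or_one k with h2 | h2
    · left
      rw [← hk, ← zpow_mod_orderOf, hz]
      show z ^ (k % (2 : ℤ)) = 1
      rw [h2, zpow_zero]
    · right
      rw [← hk, ← zpow_mod_orderOf, hz]
      show z ^ (k % (2 : ℤ)) = z
      rw [h2, zpow_one]
  have hp : IsPGroup 2 ↥(R : Subgroup L) := R.2
  have hCz : Cz z := {
    zz := hzz
    z1 := hz1
    sq := by
      intro a ha
      have h1 := hfr _ (CfsgLib.ExtraH28.pow_mem_frattini hp ⟨a, (hmem a).mpr ha⟩)
      simpa [pow_two] using h1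
    cm := by
      intro a b ha hb
      have h1 := hfr _ (CfsgLib.ExtraH28.comm_mem_frattini hp ⟨a, (hmem a).mpr ha⟩
        ⟨b, (hmem b).mpr hb⟩)
      change a * b * a⁻¹ * b⁻¹ = 1 ∨ a * b * a⁻¹ * b⁻¹ = z at h1
      rcases h1 with h1 | h1
      · left; exact CfsgLib.ExtraH28.comm_eq_one_iff.mp h1
      · right; rw [← h1]; group
    rt := by
      by_contra hcon
      push Not at hcon
      have hsq : ∀ a : ↥(R : Subgroup L), a ^ 2 = 1 := by
        intro a
        have h1 := hfr _ (CfsgLib.ExtraH28.pow_mem_frattini hp a)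
        rcases h1 with h1 | h1
        · exact Subtype.ext h1
        · exact absurd (by rw [← h1, pow_two]; rfl) (hcon (a : L))
      have hinv : ∀ a : ↥(R : Subgroup L), a⁻¹ = a := fun a =>
        inv_eq_of_mul_eq_one_left (by rw [← pow_two]; exact hsq a)
      have h1 : frattini ↥(R : Subgroup L) ≤ ⊥ := by
        apply CfsgLib.ExtraH28.frattini_le_of_elem (p := 2)
        · intro x; rw [hsq x]; exact one_mem _
        · intro x y
          have h2 : x * y * x⁻¹ * y⁻¹ = 1 := by
            rw [hinv x, hinv y, mul_assoc, ← pow_two]; exact hsq _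
          rw [h2]; exact one_mem _
      have h2 : z ∈ Subgroup.zpowers z := Subgroup.mem_zpowers z
      rw [← hΦ] at h2
      obtain ⟨a, ha, haz⟩ := h2
      have h3 : a = 1 := h1 ha
      apply hz1
      rw [← haz, h3]; rfl }
  have hS : CfsgLib.CzD828.Set z R := { toCz := hCz, hR := hmem }
  have hno : ∀ N : Subgroup L, N.Normal → N.index ≠ 2 := by
    intro N hN hN2
    haveI := hN
    rcases (IsSimpleGroup.eq_bot_or_eq_top_of_normal N hN) with h1 | h1
    · apply hL
      rw [h1, Subgroup.index_bot] at hN2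
      haveI : IsCyclic L := isCyclic_of_prime_card hN2
      letI := IsCyclic.commGroup (α := L)
      exact ⟨⟨fun a b => mul_comm a b⟩⟩
    · rw [h1, Subgroup.index_top] at hN2
      norm_num at hN2
  have hex : ∃ g : L, Commute z (g * z * g⁻¹) ∧ g * z * g⁻¹ ≠ z := by
    by_contra hcon
    push Not at hcon
    have hiso : Cfsg.IsIsolatedInvolution z := ⟨hz, hcon⟩
    have h1 := CfsgLib.ZStar.zstar hiso
    have hcore : Cfsg.pPrimeCore 2 L = ⊥ := by
      rcases (IsSimpleGroup.eq_bot_or_eq_top_of_normal (Cfsg.pPrimeCore 2 L)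
        (inferInstance)) with h2 | h2
      · exact h2
      · exfalso
        have h3 := CfsgLib.Cores.pPrimeCore_coprime (G := L) 2
        rw [h2, Subgroup.card_top] at h3
        have h4 : 2 ∣ Nat.card L := by rw [← hz]; exact orderOf_dvd_natCard z
        have := Nat.Coprime.eq_one_of_dvd h3.symm h4
        norm_num at this
    have hzc : z ∈ Subgroup.center L := by
      rw [Subgroup.mem_center_iff]
      intro g
      have h2 := h1 g
      change _ ∈ Cfsg.pPrimeCore 2 L at h2
      rw [hcore, Subgroup.mem_bot] at h2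
      exact (CfsgLib.ExtraH28.comm_eq_one_iff.mp h2).symm
    rcases (IsSimpleGroup.eq_bot_or_eq_top_of_normal (Subgroup.center L) inferInstance) with h2 | h2
    · rw [h2, Subgroup.mem_bot] at hzc
      exact hz1 hzc
    · apply hL
      refine ⟨⟨fun a b => ?_⟩⟩
      have h3 : b ∈ Subgroup.center L := by rw [h2]; trivial
      exact (Subgroup.mem_center_iff.mp h3) a
  obtain ⟨g, hg1, hg2⟩ := hex
  exact hS.d8 hno (hCz.conj g) hg2 hg1.symm

end Cfsg.Agent.S5435
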