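import Cfsg.Statements.S5436
import Cfsg.Agent.LibLargeGFH28
import Cfsg.Agent.S5433
import Cfsg.Agent.LibLargeExtra3H28

set_option autoImplicit false
open Cfsg

namespace Cfsg.Agent.S5436

/-- Let z be an involution of the finite group G with centralizer H whose generalized Fitting subgroup Q is extraspecial of width at least 2 (order 2^(2w+1), w ≥ 2); suppose some conjugate of z other than z lies in Q, H/Q is a non-abelian simple group, H acts irreducibly by conjugation on Q modulo the subgroup generated by z (the only H-invariant subgroups of Q containing z are that subgroup and Q), and Q is not the subgroup generated by the conjugates of z lying in H. Then G is simple. -/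
theorem result {G : Type*} [Group G] [Finite G] (z : G) (hz : orderOf z = 2) (Q : Subgroup (Subgroup.centralizer ({z} : Set G))) [Q.Normal] (hF : Cfsg.generalizedFittingSubgroup ↥(Subgroup.centralizer ({z} : Set G)) = Q) (hQ : Cfsg.IsExtraspecial 2 ↥Q) (w : ℕ) (hw : 2 ≤ w) (hcard : Nat.card ↥Q = 2 ^ (2 * w + 1)) (hnwc : ∃ g : G, (∃ hq : g * z * g⁻¹ ∈ Subgroup.centralizer ({z} : Set G), (⟨g * z * g⁻¹, hq⟩ : Subgroup.centralizer ({z} : Set G)) ∈ Q) ∧ g * z * g⁻¹ ≠ z) (hsimp : IsSimpleGroup (↥(Subgroup.centralizer ({z} : Set G)) ⧸ Q)) (hna : ¬ IsMulCommutative (↥(Subgroup.centralizer ({z} : Set G)) ⧸ Q)) (hirr : ∀ W : Subgroup (Subgroup.centralizer ({z} : Set G)), W.Normal → W ≤ Q → (W = Q ∨ ∀ x ∈ W, (x : G) ∈ Subgroup.zpowers z)) (hwcl : Subgroup.closure {x : Subgroup.centralizer ({z} : Set G) | IsConj z (x : G)} ≠ Q) : IsSimpleGroup G := by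
  haveI : Fact (Nat.Prime 2) := ⟨Nat.prime_two⟩
  have h := CfsgLib.LargeGFH28.lset_of_gF' hz hF hQ
  have hE := CfsgLib.LargeGFH28.extraspecial_map hQ
  obtain ⟨Q', hQ'⟩ : ∃ Q' : Subgroup G, Q' = Q.map (Subgroup.centralizer ({z} : Set G)).subtype := ⟨_, rfl⟩
  rw [← hQ'] at h hE
  obtain ⟨g, ⟨hgC, hgQ⟩, hgz⟩ := hnwc
  have hgQ' : g * z * g⁻¹ ∈ Q' := by rw [hQ']; exact ⟨⟨_, hgC⟩, hgQ, rfl⟩
  have hp := CfsgLib.LargePairH28.pair_of h hgQ' hgz
  have hQ2 : IsPGroup 2 Q' := hE.1.1
  have hodd : ∀ K : Subgroup G, Odd (Nat.card K) → Q' ≤ Subgroup.normalizer (K : Set G) → K = ⊥ :=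
    fun K hK hQK => hp.odd (hQ2.map _) hK hQK
  have hlarge := CfsgLib.LargeGFH28.large_of h hE hodd
  haveI : Nontrivial G := ⟨⟨z, 1, h.z1⟩⟩
  refine ⟨fun N hN => ?_⟩
  haveI := hN
  by_cases hNodd : Odd (Nat.card N)
  · left
    apply hodd N hNodd
    rw [Subgroup.normalizer_eq_top_iff.mpr hN]; exact le_top
  right
  have hzN : z ∈ N := CfsgLib.LargeGFH28.z_mem_of_normal h hQ2 N hNodd
  have hgN : ∀ g : G, g * z * g⁻¹ ∈ N := fun g => hN.conj_mem z hzN g
  have hgnz : ¬ ((g * z * g⁻¹) ∈ Subgroup.zpowers z) := by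
    rw [h.mem_zpowers]
    rintro (h1 | h1)
    · exact (h.conj g).z1 h1
    · exact hgz h1
  -- Q ≤ N
  have hW : (N.comap (Subgroup.centralizer ({z} : Set G)).subtype) ⊓ Q = Q := by
    rcases hirr ((N.comap (Subgroup.centralizer ({z} : Set G)).subtype) ⊓ Q) inferInstance inf_le_right with h1 | h1
    · exact h1
    · exact absurd (h1 ⟨g * z * g⁻¹, hgC⟩ ⟨hgN g, hgQ⟩) hgnz
  have hQN : Q ≤ N.comap (Subgroup.centralizer ({z} : Set G)).subtype := inf_eq_right.mp hW
  have hQ'N : Q' ≤ N := by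
    rw [hQ', Subgroup.map_le_iff_le_comap]; exact hQN
  have hfr := Cfsg.Agent.S5433.result Q' hlarge N hQ'N
  have hNC : Subgroup.normalizer (Q' : Set G) ≤ Subgroup.centralizer ({z} : Set G) := by
    intro a ha
    have h1 := CfsgLib.LargeExtra3H28.norm_fix h.toESet ha
    rw [Subgroup.mem_centralizer_singleton_iff]
    nth_rw 2 [← h1]; group
  -- the quotient
  have hsur : Function.Surjective (QuotientGroup.mk' Q) := QuotientGroup.mk'_surjective Q
  have hnorm : ((N.comap (Subgroup.centralizer ({z} : Set G)).subtype).map (QuotientGroup.mk' Q)).Normal :=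
    Subgroup.Normal.map inferInstance _ hsur
  rcases hsimp.eq_bot_or_eq_top_of_normal _ hnorm with h1 | h1
  · exfalso
    have h2 : N.comap (Subgroup.centralizer ({z} : Set G)).subtype ≤ Q := by
      rw [Subgroup.map_eq_bot_iff, QuotientGroup.ker_mk'] at h1
      exact h1
    set W := Subgroup.closure {x : ↥(Subgroup.centralizer ({z} : Set G)) | IsConj z (x : G)} with hWdef
    have hWQ : W ≤ Q := by
      rw [hWdef, Subgroup.closure_le]
      rintro x hx
      obtain ⟨a, ha⟩ := isConj_iff.mp hx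
      apply h2
      show (x : G) ∈ N
      rw [← ha]; exact hgN a
    have hWn : W.Normal := by
      rw [hWdef]
      refine ⟨fun n hn c => ?_⟩
      have hle : Subgroup.closure {x : ↥(Subgroup.centralizer ({z} : Set G)) | IsConj z (x : G)} ≤
          (Subgroup.closure {x : ↥(Subgroup.centralizer ({z} : Set G)) | IsConj z (x : G)}).comap (MulAut.conj c).toMonoidHom := by
        rw [Subgroup.closure_le]
        intro x hx
        apply Subgroup.subset_closure
        obtain ⟨a, ha⟩ := isConj_iff.mp hx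
        rw [Set.mem_setOf_eq, isConj_iff]
        refine ⟨c * a, ?_⟩
        show (c : G) * a * z * ((c : G) * a)⁻¹ = c * x * (c : G)⁻¹
        rw [← ha]; group
      exact hle hn
    rcases hirr W hWn hWQ with h3 | h3
    · exact hwcl h3
    · apply hgnz
      exact h3 ⟨g * z * g⁻¹, hgC⟩ (Subgroup.subset_closure (by
        rw [Set.mem_setOf_eq, isConj_iff]; exact ⟨g, rfl⟩))
  · have h2 : N.comap (Subgroup.centralizer ({z} : Set G)).subtype = ⊤ := by
      have h3 := congrArg (Subgroup.comap (QuotientGroup.mk' Q)) h1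
      rw [Subgroup.comap_map_eq, QuotientGroup.ker_mk', Subgroup.comap_top] at h3
      rw [← h3]
      exact (sup_eq_left.mpr hQN).symm
    have h4 : Subgroup.centralizer ({z} : Set G) ≤ N := by
      intro c hc
      have : (⟨c, hc⟩ : ↥(Subgroup.centralizer ({z} : Set G))) ∈ N.comap (Subgroup.centralizer ({z} : Set G)).subtype := by rw [h2]; trivial
      exact this
    rw [eq_top_iff, ← hfr]
    exact sup_le le_rfl (hNC.trans h4)

end Cfsg.Agent.S5436
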