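import Cfsg.Statements.S5437

set_option autoImplicit false
open Cfsg

namespace Cfsg.Agent.S5437

theorem mem_conj {G : Type*} [Group G] {H : Subgroup G} {g x : G} :
    x ∈ (H : Subgroup G).map (MulAut.conj g).toMonoidHom ↔ g⁻¹ * x * g ∈ H := by
  rw [Subgroup.mem_map]
  constructor
  · rintro ⟨h, hh, rfl⟩
    have : g⁻¹ * (MulAut.conj g).toMonoidHom h * g = h := by
      show g⁻¹ * (g * h * g⁻¹) * g = h
      group
    rw [this]; exact hh
  · intro h
    refine ⟨_, h, ?_⟩
    show g * (g⁻¹ * x * g) * g⁻¹ = x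
    group

theorem smul_eq_iff {G : Type*} [Group G] {H : Subgroup G} {g x : G} :
    x • (g : G ⧸ H) = (g : G ⧸ H) ↔ g⁻¹ * x * g ∈ H := by
  have : x • (g : G ⧸ H) = ((x * g : G) : G ⧸ H) := rfl
  rw [this, eq_comm, QuotientGroup.eq, mul_assoc]

/-- Let I be a set of involutions of the finite group G closed under conjugation, and H a subgroup of G. The following are equivalent: (1) for every member x of I lying in H, the conjugates of x lying in H form a single H-class and the centralizer of x lies in H; (2) for every g outside H, no member of I lies in both H and g H g⁻¹; (3) every member of I lying in H fixes exactly one coset in the action of G on the cosets of H. -/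
theorem result {G : Type*} [Group G] [Finite G] (I : Set G) (hI : ∀ x ∈ I, orderOf x = 2) (hIc : ∀ g : G, ∀ x ∈ I, g * x * g⁻¹ ∈ I) (H : Subgroup G) : ((∀ x ∈ I, x ∈ H → (∀ g : G, g * x * g⁻¹ ∈ H → ∃ h ∈ H, h * x * h⁻¹ = g * x * g⁻¹) ∧ Subgroup.centralizer ({x} : Set G) ≤ H) ↔ (∀ g : G, g ∉ H → ∀ x ∈ I, ¬ (x ∈ H ∧ x ∈ (H : Subgroup G).map (MulAut.conj g).toMonoidHom))) ∧ ((∀ g : G, g ∉ H → ∀ x ∈ I, ¬ (x ∈ H ∧ x ∈ (H : Subgroup G).map (MulAut.conj g).toMonoidHom)) ↔ ∀ x ∈ I, x ∈ H → ∃! c : G ⧸ H, x • c = c) := by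
  constructor
  · constructor
    · rintro hA g hg x hx ⟨hxH, h2⟩
      rw [mem_conj] at h2
      obtain ⟨h1, h3⟩ := hA x hx hxH
      obtain ⟨h, hh, h4⟩ := h1 g⁻¹ (by rwa [inv_inv])
      rw [inv_inv] at h4
      have h5 : g * h ∈ Subgroup.centralizer ({x} : Set G) := by
        rw [Subgroup.mem_centralizer_singleton_iff]
        have : g * (h * x * h⁻¹) = g * (g⁻¹ * x * g) := by rw [h4]
        calc g * h * x = g * (h * x * h⁻¹) * h := by group
          _ = g * (g⁻¹ * x * g) * h := by rw [this]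
          _ = x * (g * h) := by group
      have h6 := h3 h5
      exact hg ((Subgroup.mul_mem_cancel_right _ hh).1 h6)
    · intro hB x hx hxH
      constructor
      · intro g hg
        by_cases hgH : g ∈ H
        · exact ⟨g, hgH, rfl⟩
        · exfalso
          refine hB g⁻¹ (fun h => hgH (by simpa using H.inv_mem h)) x hx ⟨hxH, ?_⟩
          rw [mem_conj, inv_inv]; exact hg
      · intro g hg
        rw [Subgroup.mem_centralizer_singleton_iff] at hg
        by_contra hgH
        refine hB g hgH x hx ⟨hxH, ?_⟩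
        rw [mem_conj, mul_assoc, ← hg, ← mul_assoc, inv_mul_cancel, one_mul]; exact hxH
  · constructor
    · intro hB x hx hxH
      refine ⟨((1 : G) : G ⧸ H), ?_, ?_⟩
      · show x • ((1 : G) : G ⧸ H) = _
        rw [smul_eq_iff, inv_one, one_mul, mul_one]; exact hxH
      · intro c hc
        obtain ⟨g, rfl⟩ := QuotientGroup.mk_surjective c
        have h1 : g⁻¹ * x * g ∈ H := smul_eq_iff.1 hc
        have hgH : g ∈ H := by
          by_contra hgH
          exact hB g hgH x hx ⟨hxH, mem_conj.2 h1⟩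
        rw [QuotientGroup.eq, mul_one]
        exact H.inv_mem hgH
    · rintro hC g hg x hx ⟨hxH, h2⟩
      obtain ⟨c, _, hu⟩ := hC x hx hxH
      have h3 := hu (g : G ⧸ H) (smul_eq_iff.2 (mem_conj.1 h2))
      have h4 := hu ((1 : G) : G ⧸ H) (smul_eq_iff.2 (by rw [inv_one, one_mul, mul_one]; exact hxH))
      rw [← h4, eq_comm, QuotientGroup.eq, inv_one, one_mul] at h3
      exact hg h3

end Cfsg.Agent.S5437
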