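import Cfsg.Statements.S5438

set_option autoImplicit false
open Cfsg

namespace Cfsg.Agent.S5438

open scoped Pointwise

theorem pgroup_zpowers {G : Type*} [Group G] {x : G} {k : ℕ} (h : orderOf x = 2 ^ k) : IsPGroup 2 (Subgroup.zpowers x) :=
  IsPGroup.of_card (n := k) (by rw [Nat.card_zpowers, h])

/-- two `2`-elements are conjugate into a common Sylow subgroup -/
theorem common_sylow {G : Type*} [Group G] [Finite G] {x y : G} {k l : ℕ} (hx : orderOf x = 2 ^ k) (hy : orderOf y = 2 ^ l) :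
    ∃ (Q : Sylow 2 G) (c : G), x ∈ Q ∧ c * y * c⁻¹ ∈ Q := by
  obtain ⟨Q, hQ⟩ := (pgroup_zpowers hx).exists_le_sylow
  obtain ⟨R, hR⟩ := (pgroup_zpowers hy).exists_le_sylow
  obtain ⟨c, hc⟩ := MulAction.exists_smul_eq G R Q
  refine ⟨Q, c, hQ (Subgroup.mem_zpowers x), ?_⟩
  rw [← hc]
  have : c * y * c⁻¹ ∈ ((c • R : Sylow 2 G) : Subgroup G) := by
    rw [Sylow.coe_subgroup_smul]
    exact ⟨y, hR (Subgroup.mem_zpowers y), rfl⟩
  exact this

section
variable {G : Type*} [Group G] [Finite G] {z : G} (P : Sylow 2 G) (hz : orderOf z = 2) (hzP : z ∈ P) (hP : ∀ x ∈ P, x * z = z * x)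
  {H : Subgroup G} (hfix : ∀ g : G, g⁻¹ * z * g ∈ H → g ∈ H) (hzH : z ∈ H)

include hfix hzH in
theorem cent_le {g : G} (h : g * z = z * g) : g ∈ H := by
  apply hfix
  rw [mul_assoc, ← h, ← mul_assoc, inv_mul_cancel, one_mul]; exact hzH

include hP hfix hzH in
theorem two_le {T : Subgroup G} (hT : IsPGroup 2 T) {k : G} (hk : k ∈ H) (hkT : k * z * k⁻¹ ∈ T) : T ≤ H := by
  obtain ⟨Q, hQ⟩ := hT.exists_le_sylow
  obtain ⟨g, hg⟩ := MulAction.exists_smul_eq G P Q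
  have hQc : ∀ x ∈ Q, x * (g * z * g⁻¹) = (g * z * g⁻¹) * x := by
    intro x hx
    rw [← hg] at hx
    have hx2 : x ∈ ((g • P : Sylow 2 G) : Subgroup G) := hx
    rw [Sylow.coe_subgroup_smul] at hx2
    obtain ⟨p, hp, rfl⟩ := hx2
    show (g * p * g⁻¹) * (g * z * g⁻¹) = (g * z * g⁻¹) * (g * p * g⁻¹)
    have := hP p hp
    calc (g * p * g⁻¹) * (g * z * g⁻¹) = g * (p * z) * g⁻¹ := by group
      _ = g * (z * p) * g⁻¹ := by rw [this]
      _ = _ := by group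
  have h1 := hQc _ (hQ hkT)
  have h2 : k⁻¹ * (g * z * g⁻¹) * k ∈ H := by
    apply cent_le hfix hzH
    calc k⁻¹ * (g * z * g⁻¹) * k * z = k⁻¹ * ((g * z * g⁻¹) * (k * z * k⁻¹)) * k := by group
      _ = k⁻¹ * ((k * z * k⁻¹) * (g * z * g⁻¹)) * k := by rw [h1]
      _ = _ := by group
  have h3 : g * z * g⁻¹ ∈ H := by
    have := H.mul_mem (H.mul_mem hk h2) (H.inv_mem hk)
    have e : k * (k⁻¹ * (g * z * g⁻¹) * k) * k⁻¹ = g * z * g⁻¹ := by group
    rwa [e] at this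
  have h4 : g⁻¹ ∈ H := hfix _ (by rwa [inv_inv])
  intro x hx
  have h5 := hQc x (hQ hx)
  have h6 : g⁻¹ * x * g ∈ H := by
    apply cent_le hfix hzH
    calc g⁻¹ * x * g * z = g⁻¹ * (x * (g * z * g⁻¹)) * g := by group
      _ = g⁻¹ * ((g * z * g⁻¹) * x) * g := by rw [h5]
      _ = _ := by group
  have := H.mul_mem (H.mul_mem (H.inv_mem h4) h6) h4
  have e : (g⁻¹)⁻¹ * (g⁻¹ * x * g) * g⁻¹ = x := by group
  rwa [e] at this

include hP hfix hzH in
theorem conj_comm {x : G} (hx : x ∈ H) {k : ℕ} (ho : orderOf x = 2 ^ k) : ∃ h ∈ H, (h * x * h⁻¹) * z = z * (h * x * h⁻¹) := by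
  have hPH : (P : Subgroup G) ≤ H := fun p hp => cent_le hfix hzH (hP p hp)
  obtain ⟨R, hR⟩ := (pgroup_zpowers (x := (⟨x, hx⟩ : H)) (k := k) (by rw [← ho]; exact (Subgroup.orderOf_mk x hx))).exists_le_sylow
  obtain ⟨c, hc⟩ := MulAction.exists_smul_eq H R (P.subtype hPH)
  refine ⟨c, c.2, ?_⟩
  have h1 : c * (⟨x, hx⟩ : H) * c⁻¹ ∈ ((c • R : Sylow 2 H) : Subgroup H) := by
    rw [Sylow.coe_subgroup_smul]
    exact ⟨⟨x, hx⟩, hR (Subgroup.mem_zpowers _), rfl⟩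
  rw [hc] at h1
  exact hP _ h1
end

/-- Let z be a 2-central involution of the finite group G (an involution central in some Sylow 2-subgroup) and H a subgroup containing z such that the coset H is the only coset of H fixed by z (in the action of G on the cosets of H). Then H has odd index in G, and for every 2-element x of H the conjugates of x lying in H form a single H-class. -/
theorem result {G : Type*} [Group G] [Finite G] (z : G) (hz : Cfsg.IsTwoCentralInvolution z) (H : Subgroup G) (hzH : z ∈ H) (hfix : ∀ g : G, g⁻¹ * z * g ∈ H → g ∈ H) : Odd H.index ∧ ∀ x ∈ H, (∃ k : ℕ, orderOf x = 2 ^ k) → ∀ g : G, g * x * g⁻¹ ∈ H → ∃ h ∈ H, h * x * h⁻¹ = g * x * g⁻¹ := by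
  obtain ⟨hz2, P, hzP, hP⟩ := hz
  have hPH : (P : Subgroup G) ≤ H := fun p hp => cent_le hfix hzH (hP p hp)
  constructor
  · have h1 : ¬ 2 ∣ (P : Subgroup G).index := P.not_dvd_index
    have h2 := Subgroup.index_dvd_of_le hPH
    rw [← Nat.not_even_iff_odd, even_iff_two_dvd]
    exact fun h => h1 (h.trans h2)
  · rintro x hx ⟨k, hk⟩ g hg
    obtain ⟨h1, hh1, c1⟩ := conj_comm P hP hfix hzH hx hk
    have hk2 : orderOf (g * x * g⁻¹) = 2 ^ k := by
      rw [← hk]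
      exact orderOf_injective (MulAut.conj g).toMonoidHom (MulAut.conj g).injective x
    obtain ⟨h2, hh2, c2⟩ := conj_comm P hP hfix hzH hg hk2
    -- in the centralizer of `y`
    obtain ⟨y, hy⟩ : ∃ y, y = h2 * (g * x * g⁻¹) * h2⁻¹ := ⟨_, rfl⟩
    rw [← hy] at c2
    have hg1 : (h2 * g * h1⁻¹) * (h1 * x * h1⁻¹) * (h2 * g * h1⁻¹)⁻¹ = y := by rw [hy]; group
    obtain ⟨g1, hg1'⟩ : ∃ g1, g1 = h2 * g * h1⁻¹ := ⟨_, rfl⟩
    rw [← hg1'] at hg1
    have m1 : z ∈ Subgroup.centralizer ({y} : Set G) := by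
      rw [Subgroup.mem_centralizer_singleton_iff]; exact c2.symm
    have m2 : g1 * z * g1⁻¹ ∈ Subgroup.centralizer ({y} : Set G) := by
      rw [Subgroup.mem_centralizer_singleton_iff, ← hg1]
      calc g1 * z * g1⁻¹ * (g1 * (h1 * x * h1⁻¹) * g1⁻¹) = g1 * (z * (h1 * x * h1⁻¹)) * g1⁻¹ := by group
        _ = g1 * ((h1 * x * h1⁻¹) * z) * g1⁻¹ := by rw [c1]
        _ = _ := by group
    have o2 : orderOf (g1 * z * g1⁻¹) = 2 := by
      rw [← hz2]
      exact orderOf_injective (MulAut.conj g1).toMonoidHom (MulAut.conj g1).injective z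
    obtain ⟨Q, c, hQ1, hQ2⟩ := common_sylow (G := Subgroup.centralizer ({y} : Set G)) (x := ⟨z, m1⟩) (y := ⟨_, m2⟩) (k := 1) (l := 1)
      (by rw [Subgroup.orderOf_mk, hz2]; rfl) (by rw [Subgroup.orderOf_mk, o2]; rfl)
    have hT : IsPGroup 2 ((Q : Subgroup (Subgroup.centralizer ({y} : Set G))).map (Subgroup.centralizer ({y} : Set G)).subtype) :=
      Q.isPGroup'.map _
    have hTH := two_le P hP hfix hzH hT H.one_mem (by
      rw [one_mul, inv_one, mul_one]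
      exact ⟨_, hQ1, rfl⟩)
    have h3 : (c : G) * (g1 * z * g1⁻¹) * (c : G)⁻¹ ∈ H := hTH ⟨_, hQ2, rfl⟩
    have h4 : ((c : G) * g1)⁻¹ ∈ H := hfix _ (by
      have e : (((c : G) * g1)⁻¹)⁻¹ * z * ((c : G) * g1)⁻¹ = (c : G) * (g1 * z * g1⁻¹) * (c : G)⁻¹ := by group
      rw [e]; exact h3)
    have h5 : (c : G) * g1 ∈ H := by simpa using H.inv_mem h4
    have hc : (c : G) * y = y * c := by
      have := c.2
      rw [Subgroup.mem_centralizer_singleton_iff] at this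
      exact this
    refine ⟨h2⁻¹ * ((c : G) * g1) * h1, H.mul_mem (H.mul_mem (H.inv_mem hh2) h5) hh1, ?_⟩
    have e1 : h2⁻¹ * ((c : G) * g1) * h1 * x * (h2⁻¹ * ((c : G) * g1) * h1)⁻¹ = h2⁻¹ * ((c : G) * (g1 * (h1 * x * h1⁻¹) * g1⁻¹) * (c : G)⁻¹) * h2 := by group
    rw [e1, hg1, hc, mul_inv_cancel_right, hy]
    group

end Cfsg.Agent.S5438
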