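import Cfsg.Statements.S5439

set_option autoImplicit false
open Cfsg

namespace Cfsg.Agent.S5439

theorem smul_eq_iff {G : Type*} [Group G] {H : Subgroup G} {g x : G} :
    x • (g : G ⧸ H) = (g : G ⧸ H) ↔ g⁻¹ * x * g ∈ H := by
  have : x • (g : G ⧸ H) = ((x * g : G) : G ⧸ H) := rfl
  rw [this, eq_comm, QuotientGroup.eq, mul_assoc]

section
variable {G : Type*} [Group G] {a b : G} (ha : a * a = 1) (hb : b * b = 1)

include ha hb in
theorem flip (j : ℕ) : a * (a * b) ^ j = ((a * b) ^ j)⁻¹ * a := by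
  have ha' : a⁻¹ = a := inv_eq_of_mul_eq_one_left ha
  have hb' : b⁻¹ = b := inv_eq_of_mul_eq_one_left hb
  have h1 : a * (a * b) * a⁻¹ = (a * b)⁻¹ := by
    rw [mul_inv_rev, hb', ← mul_assoc, ha, one_mul, ha']
  have h2 : a * (a * b) ^ j * a⁻¹ = ((a * b) ^ j)⁻¹ := by
    rw [← conj_pow, h1, inv_pow]
  rw [← h2, inv_mul_cancel_right]

include ha hb in
theorem conj1 (j : ℕ) : IsConj a ((a * b) ^ (2 * j) * a) := by
  rw [isConj_iff]
  refine ⟨(a * b) ^ j, ?_⟩
  have h := flip ha hb j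
  have h2 : a * ((a * b) ^ j)⁻¹ = (a * b) ^ j * a := by
    rw [mul_inv_eq_iff_eq_mul, mul_assoc, h, mul_inv_cancel_left]
  rw [mul_assoc, h2, ← mul_assoc, ← pow_add, two_mul]

include ha hb in
theorem conj2 (j : ℕ) : IsConj b ((a * b) ^ (2 * j + 1) * a) := by
  have ha' : a⁻¹ = a := inv_eq_of_mul_eq_one_left ha
  have h0 : IsConj b (a * b * a) := by
    rw [isConj_iff]; exact ⟨a, by rw [ha']⟩
  refine h0.trans ?_
  rw [isConj_iff]
  refine ⟨(a * b) ^ j, ?_⟩
  have h := flip ha hb j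
  have h2 : a * ((a * b) ^ j)⁻¹ = (a * b) ^ j * a := by
    rw [mul_inv_eq_iff_eq_mul, mul_assoc, h, mul_inv_cancel_left]
  calc (a * b) ^ j * (a * b * a) * ((a * b) ^ j)⁻¹ = (a * b) ^ j * (a * b) * (a * ((a * b) ^ j)⁻¹) := by group
    _ = (a * b) ^ j * (a * b) * ((a * b) ^ j * a) := by rw [h2]
    _ = (a * b) ^ (2 * j + 1) * a := by
      rw [← pow_succ, ← mul_assoc, ← pow_add]
      congr 2; ring

include ha hb in
theorem exists_t [Finite G] (hab : ¬ IsConj a b) : ∃ t, t ≠ 1 ∧ t * t = 1 ∧ t * a = a * t ∧ t * b = b * t ∧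
    (IsConj a (a * t) ∨ IsConj b (a * t)) := by
  have hn : 0 < orderOf (a * b) := orderOf_pos _
  rcases Nat.even_or_odd' (orderOf (a * b)) with ⟨m, hm | hm⟩
  · have hm0 : 0 < m := by omega
    have ht2 : (a * b) ^ m * (a * b) ^ m = 1 := by rw [← pow_add, ← two_mul, ← hm, pow_orderOf_eq_one]
    have hinv : ((a * b) ^ m)⁻¹ = (a * b) ^ m := inv_eq_of_mul_eq_one_left ht2
    have hf := flip ha hb m
    rw [hinv] at hf
    have hab2 : (a * b) ^ m * (a * b) = (a * b) * (a * b) ^ m := by rw [← pow_succ, ← pow_succ']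
    refine ⟨(a * b) ^ m, ?_, ht2, hf.symm, ?_, ?_⟩
    · intro h1
      have := Nat.le_of_dvd hm0 (orderOf_dvd_of_pow_eq_one h1)
      omega
    · have h3 : a * ((a * b) ^ m * b) = a * (b * (a * b) ^ m) := by
        rw [← mul_assoc, hf, mul_assoc, hab2, mul_assoc]
      exact mul_left_cancel h3
    · rw [hf]
      rcases Nat.even_or_odd' m with ⟨j, hj | hj⟩
      · left; rw [hj]; exact conj1 ha hb j
      · right; rw [hj]; exact conj2 ha hb j
  · exfalso
    apply hab
    have h1 := conj1 ha hb m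
    have h2 : (a * b) ^ (2 * m) * a = b := by
      have h3 : (a * b) ^ (2 * m) * (a * b) = 1 := by rw [← pow_succ, ← hm, pow_orderOf_eq_one]
      rw [← mul_assoc] at h3
      have := eq_inv_of_mul_eq_one_left h3
      rw [this]; exact inv_eq_of_mul_eq_one_left hb
    rwa [h2] at h1
end

/-- Let I and J be two different conjugacy classes of involutions of the finite group G and H a subgroup such that every member of I ∪ J fixes exactly one coset in the action on the cosets of H, and such that for every a in I ∩ H and every b in (I ∪ J) ∩ H different from a and commuting with it, the centralizer of a b lies in H. Then H = G. -/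
theorem result {G : Type*} [Group G] [Finite G] (I J : Set G) (a₀ b₀ : G) (ha₀ : orderOf a₀ = 2) (hb₀ : orderOf b₀ = 2) (hI : I = {x | IsConj a₀ x}) (hJ : J = {x | IsConj b₀ x}) (hIJ : I ≠ J) (H : Subgroup G) (hfix : ∀ x ∈ I ∪ J, ∃! c : G ⧸ H, x • c = c) (hcent : ∀ a ∈ I, a ∈ H → ∀ b ∈ I ∪ J, b ∈ H → a ≠ b → a * b = b * a → Subgroup.centralizer ({a * b} : Set G) ≤ H) : H = ⊤ := by
  subst hI hJ
  have sq : ∀ {a₀ x : G}, orderOf a₀ = 2 → IsConj a₀ x → x * x = 1 := by
    intro a₀ x h1 h2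
    rw [← pow_two, ← orderOf_dvd_iff_pow_eq_one]
    obtain ⟨c, hc⟩ := isConj_iff.1 h2
    have : orderOf x = 2 := by
      rw [← h1, ← hc]
      exact orderOf_injective (MulAut.conj c).toMonoidHom (MulAut.conj c).injective a₀
    rw [this]
  have key : ∀ a ∈ {x | IsConj a₀ x}, ∀ b ∈ {x | IsConj b₀ x}, ∀ α β : G ⧸ H, a • α = α → b • β = β → β = α := by
    intro a ha b hb α β hα hβ
    have ha2 := sq ha₀ ha
    have hb2 := sq hb₀ hb
    have hnc : ¬ IsConj a b := by
      intro h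
      apply hIJ
      have h1 : IsConj a₀ b₀ := (ha.trans h).trans hb.symm
      ext x
      exact ⟨fun h => h1.symm.trans h, fun h => h1.trans h⟩
    obtain ⟨t, ht1, ht2, hta, htb, hat⟩ := exists_t ha2 hb2 hnc
    obtain ⟨k, rfl⟩ := QuotientGroup.mk_surjective α
    obtain ⟨γ, _, hu⟩ := hfix a (Or.inl ha)
    have htα : t • (k : G ⧸ H) = (k : G ⧸ H) := by
      have h1 : a • (t • (k : G ⧸ H)) = t • (k : G ⧸ H) := by
        have hα' : a • (k : G ⧸ H) = (k : G ⧸ H) := hα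
        rw [← mul_smul, ← hta, mul_smul, hα']
      rw [hu _ h1]; exact (hu _ hα).symm
    have hatH : k⁻¹ * (a * t) * k ∈ H := by
      apply smul_eq_iff.1
      rw [mul_smul, htα]; exact hα
    have haH : k⁻¹ * a * k ∈ H := smul_eq_iff.1 hα
    have hatc : k⁻¹ * (a * t) * k ∈ {x | IsConj a₀ x} ∪ {x | IsConj b₀ x} := by
      have h1 : IsConj (a * t) (k⁻¹ * (a * t) * k) := isConj_iff.2 ⟨k⁻¹, by rw [inv_inv]⟩
      rcases hat with h | h
      · exact Or.inl ((IsConj.trans ha h).trans h1)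
      · exact Or.inr ((IsConj.trans hb h).trans h1)
    have hac : IsConj a₀ (k⁻¹ * a * k) := IsConj.trans ha (isConj_iff.2 ⟨k⁻¹, by rw [inv_inv]⟩)
    have hC := hcent _ hac haH _ hatc hatH (by
      intro h
      apply ht1
      have h1 : a = a * t := by simpa using h
      exact (left_eq_mul.1 h1)) (by
      calc k⁻¹ * a * k * (k⁻¹ * (a * t) * k) = k⁻¹ * (a * (a * t)) * k := by group
        _ = k⁻¹ * (a * (t * a)) * k := by rw [hta]
        _ = _ := by group)
    have hbm : k⁻¹ * b * k ∈ Subgroup.centralizer ({k⁻¹ * a * k * (k⁻¹ * (a * t) * k)} : Set G) := by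
      have e : k⁻¹ * a * k * (k⁻¹ * (a * t) * k) = k⁻¹ * t * k := by
        calc k⁻¹ * a * k * (k⁻¹ * (a * t) * k) = k⁻¹ * ((a * a) * t) * k := by group
          _ = _ := by rw [ha2, one_mul]
      rw [e, Subgroup.mem_centralizer_singleton_iff]
      calc k⁻¹ * b * k * (k⁻¹ * t * k) = k⁻¹ * (b * t) * k := by group
        _ = k⁻¹ * (t * b) * k := by rw [htb]
        _ = _ := by group
    have hbH := hC hbm
    obtain ⟨δ, _, hv⟩ := hfix b (Or.inr hb)
    rw [hv _ hβ]
    exact (hv _ (smul_eq_iff.2 hbH)).symm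
  obtain ⟨β, hβ, _⟩ := hfix b₀ (Or.inr (IsConj.refl _))
  have hall : ∀ a ∈ {x | IsConj a₀ x}, a • β = β := by
    intro a ha
    obtain ⟨α, hα, _⟩ := hfix a (Or.inl ha)
    have := key a ha b₀ (IsConj.refl _) α β hα hβ
    rw [this]; exact hα
  obtain ⟨γ, _, hu⟩ := hfix a₀ (Or.inl (IsConj.refl _))
  obtain ⟨k, rfl⟩ := QuotientGroup.mk_surjective β
  have hG : ∀ g : G, g • (k : G ⧸ H) = (k : G ⧸ H) := by
    intro g
    have h1 := hall (g⁻¹ * a₀ * g) (isConj_iff.2 ⟨g⁻¹, by rw [inv_inv]⟩)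
    have h2 : a₀ • (g • (k : G ⧸ H)) = g • (k : G ⧸ H) := by
      have h1' : (g⁻¹ * a₀ * g) • (k : G ⧸ H) = (k : G ⧸ H) := h1
      rw [mul_smul, mul_smul, inv_smul_eq_iff] at h1'
      exact h1'
    rw [hu _ h2]
    exact (hu _ (hall a₀ (IsConj.refl _))).symm
  rw [eq_top_iff]
  intro g _
  have := smul_eq_iff.1 (hG (k * g * k⁻¹))
  have e : k⁻¹ * (k * g * k⁻¹) * k = g := by group
  rwa [e] at this

end Cfsg.Agent.S5439
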