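import Cfsg.Statements.S5459

set_option autoImplicit false
open Cfsg

namespace Cfsg.Agent.S5459

open Cfsg
open scoped commutatorElement

theorem adj_iff {G : Type*} [Group G] {D : Set G} {a b : D} : (commutingGraph D).Adj a b ↔ a ≠ b ∧ Commute (a : G) (b : G) := by
  unfold commutingGraph
  rw [SimpleGraph.fromRel_adj]
  constructor
  · rintro ⟨h, h1 | h1⟩
    · exact ⟨h, h1⟩
    · exact ⟨h, h1.symm⟩
  · rintro ⟨h, h1⟩; exact ⟨h, Or.inl h1⟩

theorem mcj {M : Type*} [Monoid M] {d x : M} : x ∈ conjugatesOf d ↔ IsConj d x := Iff.rfl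

theorem conj_mem {G : Type*} [Group G] {d x : G} (h : x ∈ conjugatesOf d) (g : G) : g * x * g⁻¹ ∈ conjugatesOf d :=
  IsConj.trans (mcj.1 h) (isConj_iff.2 ⟨g, rfl⟩)

/-- conjugation as a graph map -/
def cj {G : Type*} [Group G] (d : G) (g : G) : commutingGraph (conjugatesOf d) →g commutingGraph (conjugatesOf d) where
  toFun x := ⟨g * x * g⁻¹, conj_mem x.2 g⟩
  map_rel' := by
    intro a b h
    rw [adj_iff] at h ⊢
    refine ⟨fun h1 => h.1 (Subtype.ext ?_), ?_⟩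
    · have := congrArg Subtype.val h1
      simpa using this
    · exact h.2.map (MulAut.conj g).toMonoidHom

theorem odd_sqrt {G : Type*} [Group G] {Z : Subgroup G} (hodd : Odd (Nat.card Z)) {c : G} (hc : c ∈ Z) :
    ∃ w ∈ Z, w * w = c := by
  obtain ⟨m, hm⟩ := hodd
  refine ⟨c ^ (m + 1), Z.pow_mem hc _, ?_⟩
  have h1 : (⟨c, hc⟩ : Z) ^ Nat.card Z = 1 := pow_card_eq_one'
  have h2 : c ^ Nat.card Z = 1 := congrArg Subtype.val h1
  rw [← pow_add, show m + 1 + (m + 1) = Nat.card Z + 1 by omega, pow_succ, h2, one_mul]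

theorem sq_comm {Q : Type*} [Group Q] {u v : Q} (h1 : u * u = 1) (h2 : v * v = 1) (h : Commute u v) : (u * v) * (u * v) = 1 := by
  calc (u * v) * (u * v) = (u * v) * (v * u) := by rw [h.eq]
    _ = u * (v * v) * u := by group
    _ = 1 := by rw [h2, mul_one, h1]

/-- Let G be a finite group with a quasisimple normal subgroup L and an involution d such that G is generated by L and d, the centre of L has odd order, and d inverts every element of the centre of L. If the commuting graph on the conjugacy class of the image of d in G modulo the centre of L is connected, then the commuting graph on the conjugacy class of d is connected. -/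
theorem result {G : Type*} [Group G] [Finite G] (L : Subgroup G) [L.Normal] (hL : Cfsg.IsQuasisimple ↥L) (d : G) (hd : orderOf d = 2) (hgen : L ⊔ Subgroup.zpowers d = ⊤) (hodd : Odd (Nat.card ↥(Subgroup.center ↥L))) (hinv : ∀ c ∈ (Subgroup.center ↥L).map L.subtype, d * c * d⁻¹ = c⁻¹) [hn : ((Subgroup.center ↥L).map L.subtype).Normal] (hconn : (Cfsg.commutingGraph (conjugatesOf (QuotientGroup.mk d : G ⧸ (Subgroup.center ↥L).map L.subtype))).Connected) : (Cfsg.commutingGraph (conjugatesOf d)).Connected := by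
  obtain ⟨Z, hZ⟩ : ∃ Z, Z = (Subgroup.center ↥L).map L.subtype := ⟨_, rfl⟩
  have hZL : ∀ z ∈ Z, z ∈ L ∧ ∀ l ∈ L, z * l = l * z := by
    intro z hz
    rw [hZ] at hz
    obtain ⟨y, hy, rfl⟩ := hz
    refine ⟨y.2, fun l hl => ?_⟩
    have := Subgroup.mem_center_iff.1 hy ⟨l, hl⟩
    exact (congrArg Subtype.val this).symm
  have hZodd : Odd (Nat.card Z) := by
    rw [hZ, Subgroup.card_map_of_injective L.subtype_injective]
    exact hodd
  haveI hZn : Z.Normal := by rw [hZ]; exact hn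
  have hinv' : ∀ c ∈ Z, d * c * d⁻¹ = c⁻¹ := by rw [hZ]; exact hinv
  have hconn' : (commutingGraph (conjugatesOf (QuotientGroup.mk d : G ⧸ Z))).Connected := by
    subst hZ
    exact hconn
  clear hconn hinv
  obtain ⟨D, hD⟩ : ∃ D, D = conjugatesOf d := ⟨_, rfl⟩
  -- involutions
  have hsq : ∀ x ∈ conjugatesOf d, x * x = 1 := by
    intro x hx
    obtain ⟨c, rfl⟩ := isConj_iff.1 (mcj.1 hx)
    have : d * d = 1 := by rw [← pow_two, ← hd]; exact pow_orderOf_eq_one d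
    calc c * d * c⁻¹ * (c * d * c⁻¹) = c * (d * d) * c⁻¹ := by group
      _ = 1 := by rw [this]; group
  have hinvx : ∀ x ∈ conjugatesOf d, ∀ c ∈ Z, x * c * x⁻¹ = c⁻¹ := by
    intro x hx c hc
    obtain ⟨g, rfl⟩ := isConj_iff.1 (mcj.1 hx)
    have h1 := hinv' (g⁻¹ * c * g) (by simpa using hZn.conj_mem c hc g⁻¹)
    calc g * d * g⁻¹ * c * (g * d * g⁻¹)⁻¹ = g * (d * (g⁻¹ * c * g) * d⁻¹) * g⁻¹ := by group
      _ = g * (g⁻¹ * c * g)⁻¹ * g⁻¹ := by rw [h1]
      _ = c⁻¹ := by group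
  have hfib : ∀ x ∈ conjugatesOf d, ∀ c ∈ Z, ∃ w ∈ Z, x * c = w⁻¹ * x * w := by
    intro x hx c hc
    obtain ⟨w, hw, rfl⟩ := odd_sqrt hZodd hc
    refine ⟨w, hw, ?_⟩
    have h1 := hinvx x hx w hw
    have h2 : x * w = w⁻¹ * x := by rw [← h1]; group
    rw [← mul_assoc, h2]
  have hlift : ∀ x ∈ conjugatesOf d, ∀ y ∈ conjugatesOf d, (x * y) * (x * y) ∈ Z → ∃ c ∈ Z, Commute x (y * c) ∧ y * c ∈ conjugatesOf d := by
    intro x hx y hy hu
    obtain ⟨c, hc, hcc⟩ := odd_sqrt hZodd (Z.inv_mem hu)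
    obtain ⟨w, hw, hw2⟩ := hfib y hy c hc
    have hyc : y * c ∈ conjugatesOf d := by
      rw [hw2]
      have := conj_mem hy w⁻¹
      rwa [inv_inv] at this
    refine ⟨c, hc, ?_, hyc⟩
    have h1 : (x * y) * c = c * (x * y) := by
      have e1 := hinvx x hx c⁻¹ (Z.inv_mem hc)
      have e2 := hinvx y hy c hc
      have : (x * y) * c * (x * y)⁻¹ = c := by
        calc (x * y) * c * (x * y)⁻¹ = x * (y * c * y⁻¹) * x⁻¹ := by group
          _ = x * c⁻¹ * x⁻¹ := by rw [e2]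
          _ = c := by rw [e1, inv_inv]
      exact mul_inv_eq_iff_eq_mul.1 this
    have h2 : (x * (y * c)) * (x * (y * c)) = 1 := by
      calc (x * (y * c)) * (x * (y * c)) = (x * y) * (c * (x * y)) * c := by group
        _ = (x * y) * ((x * y) * c) * c := by rw [h1]
        _ = ((x * y) * (x * y)) * (c * c) := by group
        _ = 1 := by rw [hcc]; group
    have h3 := hsq x hx
    have h4 := hsq _ hyc
    have h5 : (x * (y * c))⁻¹ = x * (y * c) := inv_eq_of_mul_eq_one_left h2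
    rw [mul_inv_rev, inv_eq_of_mul_eq_one_left h3, inv_eq_of_mul_eq_one_left h4] at h5
    exact h5.symm
  -- lifting of paths
  have hdD : d ∈ conjugatesOf d := mcj.2 (IsConj.refl d)
  have hq : ∀ y : conjugatesOf (QuotientGroup.mk d : G ⧸ Z), ∃ x : conjugatesOf d, (QuotientGroup.mk (x : G) : G ⧸ Z) = y := by
    rintro ⟨y, hy⟩
    obtain ⟨g, hg⟩ := isConj_iff.1 (mcj.1 hy)
    obtain ⟨g, rfl⟩ := QuotientGroup.mk_surjective g
    exact ⟨⟨g * d * g⁻¹, conj_mem hdD g⟩, hg⟩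
  have hwalk : ∀ y : conjugatesOf (QuotientGroup.mk d : G ⧸ Z),
      (commutingGraph (conjugatesOf (QuotientGroup.mk d : G ⧸ Z))).Reachable ⟨_, mcj.2 (IsConj.refl _)⟩ y →
      ∃ x : conjugatesOf d, (QuotientGroup.mk (x : G) : G ⧸ Z) = y ∧ (commutingGraph (conjugatesOf d)).Reachable ⟨d, hdD⟩ x := by
    intro y hy
    rw [SimpleGraph.reachable_iff_reflTransGen] at hy
    induction hy with
    | refl => exact ⟨⟨d, hdD⟩, rfl, SimpleGraph.Reachable.refl _⟩
    | tail _ hbc ih =>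
      rename_i b c _
      obtain ⟨x, hx, hr⟩ := ih
      obtain ⟨y, hy⟩ := hq c
      rw [adj_iff] at hbc
      obtain ⟨hne, hcomm⟩ := hbc
      rw [← hx, ← hy] at hcomm
      have hu : ((x : G) * y) * ((x : G) * y) ∈ Z := by
        rw [← QuotientGroup.eq_one_iff]
        have h1 : ((x : G) : G ⧸ Z) * ((x : G) : G ⧸ Z) = 1 := by
          rw [← QuotientGroup.mk_mul, hsq _ x.2]; rfl
        have h2 : ((y : G) : G ⧸ Z) * ((y : G) : G ⧸ Z) = 1 := by
          rw [← QuotientGroup.mk_mul, hsq _ y.2]; rfl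
        exact sq_comm h1 h2 hcomm
      obtain ⟨c', hc', hcm, hcD⟩ := hlift x x.2 y y.2 hu
      have hmk : (QuotientGroup.mk ((y : G) * c') : G ⧸ Z) = QuotientGroup.mk (y : G) := by
        rw [QuotientGroup.eq]
        have : ((y : G) * c')⁻¹ * y = c'⁻¹ := by group
        rw [this]; exact Z.inv_mem hc'
      refine ⟨⟨(y : G) * c', hcD⟩, by rw [hmk, hy], hr.trans (SimpleGraph.Adj.reachable ?_)⟩
      rw [adj_iff]
      refine ⟨fun h => hne (Subtype.ext ?_), hcm⟩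
      rw [← hx, ← hy, ← hmk]
      exact congrArg QuotientGroup.mk (congrArg Subtype.val h)
  -- the stabiliser of the component
  let Γ := commutingGraph (conjugatesOf d)
  let M : Subgroup G :=
    { carrier := {g | Γ.Reachable ⟨d, hdD⟩ ⟨g * d * g⁻¹, conj_mem hdD g⟩}
      one_mem' := by
        have : (⟨(1 : G) * d * 1⁻¹, conj_mem hdD 1⟩ : conjugatesOf d) = ⟨d, hdD⟩ := Subtype.ext (by simp)
        show Γ.Reachable _ _
        rw [this]
      mul_mem' := by
        intro a b ha hb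
        have h1 : Γ.Reachable ⟨a * d * a⁻¹, conj_mem hdD a⟩ ⟨a * (b * d * b⁻¹) * a⁻¹, conj_mem (conj_mem hdD b) a⟩ :=
          SimpleGraph.Reachable.map (cj d a) hb
        have : (⟨a * b * d * (a * b)⁻¹, conj_mem hdD (a * b)⟩ : conjugatesOf d) = ⟨a * (b * d * b⁻¹) * a⁻¹, conj_mem (conj_mem hdD b) a⟩ :=
          Subtype.ext (by group)
        show Γ.Reachable _ _
        rw [this]
        exact SimpleGraph.Reachable.trans ha h1
      inv_mem' := by
        intro a ha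
        have h1 : Γ.Reachable ⟨a⁻¹ * d * (a⁻¹)⁻¹, conj_mem hdD a⁻¹⟩ ⟨a⁻¹ * (a * d * a⁻¹) * (a⁻¹)⁻¹, conj_mem (conj_mem hdD a) a⁻¹⟩ :=
          SimpleGraph.Reachable.map (cj d a⁻¹) ha
        have : (⟨a⁻¹ * (a * d * a⁻¹) * (a⁻¹)⁻¹, conj_mem (conj_mem hdD a) a⁻¹⟩ : conjugatesOf d) = ⟨d, hdD⟩ :=
          Subtype.ext (by group)
        rw [this] at h1
        exact h1.symm }
  have hM : ∀ g : G, ∃ w ∈ Z, w⁻¹ * g ∈ M := by
    intro g
    obtain ⟨x, hx, hr⟩ := hwalk ⟨QuotientGroup.mk (g * d * g⁻¹), mcj.2 (isConj_iff.2 ⟨QuotientGroup.mk g, rfl⟩)⟩ (hconn'.preconnected _ _)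
    have h1 : (g * d * g⁻¹)⁻¹ * (x : G) ∈ Z := QuotientGroup.eq.1 hx.symm
    obtain ⟨w, hw, hw2⟩ := hfib _ (conj_mem hdD g) _ h1
    refine ⟨w, hw, ?_⟩
    show Γ.Reachable _ _
    have : (⟨w⁻¹ * g * d * (w⁻¹ * g)⁻¹, conj_mem hdD (w⁻¹ * g)⟩ : conjugatesOf d) = x := by
      apply Subtype.ext
      rw [mul_inv_cancel_left] at hw2
      show w⁻¹ * g * d * (w⁻¹ * g)⁻¹ = x
      rw [hw2]; group
    rw [this]; exact hr
  have hLM : L ≤ M := by
    have hp := (Subgroup.isPerfect_iff (H := L)).1 hL.1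
    have h1 : ⁅L, L⁆ ≤ M := by
      rw [Subgroup.commutator_le]
      intro a ha b hb
      obtain ⟨w, hw, hwa⟩ := hM a
      obtain ⟨v, hv, hvb⟩ := hM b
      have c1 := (hZL w hw).2
      have c2 := (hZL v hv).2
      have hw' := (hZL w hw).1
      have hv' := (hZL v hv).1
      have : ⁅a, b⁆ = ⁅w⁻¹ * a, v⁻¹ * b⁆ := by
        obtain ⟨a', rfl⟩ : ∃ a', a = w * a' := ⟨w⁻¹ * a, by group⟩
        obtain ⟨b', rfl⟩ : ∃ b', b = v * b' := ⟨v⁻¹ * b, by group⟩
        rw [inv_mul_cancel_left, inv_mul_cancel_left]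
        have ha' : a' ∈ L := (Subgroup.mul_mem_cancel_left L hw').1 ha
        have hb' : b' ∈ L := (Subgroup.mul_mem_cancel_left L hv').1 hb
        simp only [commutatorElement_def]
        have e1 := c1 (a' * (v * b') * a'⁻¹) (L.mul_mem (L.mul_mem ha' hb) (L.inv_mem ha'))
        calc w * a' * (v * b') * (w * a')⁻¹ * (v * b')⁻¹ = (w * (a' * (v * b') * a'⁻¹)) * w⁻¹ * (v * b')⁻¹ := by group
          _ = ((a' * (v * b') * a'⁻¹) * w) * w⁻¹ * (v * b')⁻¹ := by rw [e1]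
          _ = (a' * v) * b' * a'⁻¹ * b'⁻¹ * v⁻¹ := by group
          _ = (v * a') * b' * a'⁻¹ * b'⁻¹ * v⁻¹ := by rw [← c2 a' ha']
          _ = (v * (a' * b' * a'⁻¹ * b'⁻¹)) * v⁻¹ := by group
          _ = ((a' * b' * a'⁻¹ * b'⁻¹) * v) * v⁻¹ := by
            rw [c2 _ (L.mul_mem (L.mul_mem (L.mul_mem ha' hb') (L.inv_mem ha')) (L.inv_mem hb'))]
          _ = _ := by group
      rw [this, commutatorElement_def]
      exact M.mul_mem (M.mul_mem (M.mul_mem hwa hvb) (M.inv_mem hwa)) (M.inv_mem hvb)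
    rwa [hp] at h1
  have hdM : d ∈ M := by
    show Γ.Reachable _ _
    have : (⟨d * d * d⁻¹, conj_mem hdD d⟩ : conjugatesOf d) = ⟨d, hdD⟩ := Subtype.ext (by group)
    rw [this]
  have htop : M = ⊤ := by
    rw [eq_top_iff, ← hgen, sup_le_iff]
    exact ⟨hLM, by rwa [Subgroup.zpowers_le]⟩
  have hall : ∀ x : conjugatesOf d, Γ.Reachable ⟨d, hdD⟩ x := by
    rintro ⟨x, hx⟩
    obtain ⟨g, rfl⟩ := isConj_iff.1 (mcj.1 hx)
    have : g ∈ M := by rw [htop]; trivial
    exact this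
  haveI : Nonempty (conjugatesOf d) := ⟨⟨d, hdD⟩⟩
  exact ⟨fun x y => (hall x).symm.trans (hall y)⟩

end Cfsg.Agent.S5459
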