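import Cfsg.Statements.S5541

set_option autoImplicit false
open Cfsg

namespace Cfsg.Agent.S5541

/-- Let ρ be a representation of a group H on a finite-dimensional real vector space U whose only ρ-invariant subspaces are the zero subspace and U, and suppose U carries a non-zero ρ-invariant symmetric bilinear form. Then the following are equivalent: (1) there is a non-zero ρ-equivariant commutative bilinear product on U of which every ρ-equivariant bilinear product is a scalar multiple; (2) there is a non-zero ρ-invariant trilinear form on U that is symmetric under all permutations of its arguments and of which every ρ-invariant trilinear form is a scalar multiple. -/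
theorem result {H : Type*} [Group H] {U : Type*} [AddCommGroup U] [Module ℝ U] [FiniteDimensional ℝ U] (ρ : Representation ℝ H U) (hirr : ∀ W : Submodule ℝ U, (∀ g : H, W.map (ρ g) ≤ W) → W = ⊥ ∨ W = ⊤) (B : LinearMap.BilinForm ℝ U) (hB0 : B ≠ 0) (hBs : ∀ u v, B u v = B v u) (hBi : ∀ (g : H) (u v : U), B (ρ g u) (ρ g v) = B u v) : (∃ m : U →ₗ[ℝ] U →ₗ[ℝ] U, m ≠ 0 ∧ (∀ u v, m u v = m v u) ∧ (∀ (g : H) (u v : U), m (ρ g u) (ρ g v) = ρ g (m u v)) ∧ ∀ m' : U →ₗ[ℝ] U →ₗ[ℝ] U, (∀ (g : H) (u v : U), m' (ρ g u) (ρ g v) = ρ g (m' u v)) → ∃ c : ℝ, m' = c • m) ↔ (∃ t : U →ₗ[ℝ] U →ₗ[ℝ] U →ₗ[ℝ] ℝ, t ≠ 0 ∧ (∀ u v w, t u v w = t v u w ∧ t u v w = t u w v) ∧ (∀ (g : H) (u v w : U), t (ρ g u) (ρ g v) (ρ g w) = t u v w) ∧ ∀ t' : U →ₗ[ℝ] U →ₗ[ℝ] U →ₗ[ℝ] ℝ, (∀ (g : H) (u v w : U), t' (ρ g u) (ρ g v) (ρ g w) = t' u v w) → ∃ c : ℝ, t' = c • t) := by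
  classical
  -- the form is nondegenerate
  have hinj : Function.Injective B := by
    rw [← LinearMap.ker_eq_bot]
    rcases hirr (LinearMap.ker B) (by
      intro g
      rintro _ ⟨u, hu, rfl⟩
      rw [SetLike.mem_coe, LinearMap.mem_ker] at hu
      rw [LinearMap.mem_ker]
      ext v
      have h1 := hBi g u (ρ g⁻¹ v)
      have h2 : ρ g (ρ g⁻¹ v) = v := by
        rw [← Module.End.mul_apply, ← map_mul, mul_inv_cancel, map_one, Module.End.one_apply]
      rw [h2, hu] at h1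
      exact h1) with h | h
    · exact h
    · exact absurd (LinearMap.ker_eq_top.1 h) hB0
  let e : U ≃ₗ[ℝ] (U →ₗ[ℝ] ℝ) := LinearEquiv.ofInjectiveOfFinrankEq B hinj (Subspace.dual_finrank_eq (K := ℝ) (V := U)).symm
  have he : ∀ u v, e u v = B u v := fun u v => rfl
  have he2 : ∀ φ v, B (e.symm φ) v = φ v := by
    intro φ v
    rw [← he, LinearEquiv.apply_symm_apply]
  have hext : ∀ u v, (∀ w, B u w = B v w) → u = v := fun u v h => hinj (LinearMap.ext h)
  -- the correspondence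
  let Φ : (U →ₗ[ℝ] U →ₗ[ℝ] U) → (U →ₗ[ℝ] U →ₗ[ℝ] U →ₗ[ℝ] ℝ) := fun m => m.compr₂ B
  let Ψ : (U →ₗ[ℝ] U →ₗ[ℝ] U →ₗ[ℝ] ℝ) → (U →ₗ[ℝ] U →ₗ[ℝ] U) := fun t => t.compr₂ (e.symm : (U →ₗ[ℝ] ℝ) →ₗ[ℝ] U)
  have hΦ : ∀ m u v w, Φ m u v w = B (m u v) w := fun m u v w => rfl
  have hΨ : ∀ t u v w, B (Ψ t u v) w = t u v w := fun t u v w => he2 _ _
  have hΦi : ∀ m : U →ₗ[ℝ] U →ₗ[ℝ] U, (∀ (g : H) (u v : U), m (ρ g u) (ρ g v) = ρ g (m u v)) → ∀ (g : H) (u v w : U), Φ m (ρ g u) (ρ g v) (ρ g w) = Φ m u v w := by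
    intro m hm g u v w
    rw [hΦ, hΦ, hm, hBi]
  have hΨi : ∀ t : U →ₗ[ℝ] U →ₗ[ℝ] U →ₗ[ℝ] ℝ, (∀ (g : H) (u v w : U), t (ρ g u) (ρ g v) (ρ g w) = t u v w) → ∀ (g : H) (u v : U), Ψ t (ρ g u) (ρ g v) = ρ g (Ψ t u v) := by
    intro t ht g u v
    apply hext
    intro w
    have h2 : ρ g (ρ g⁻¹ w) = w := by
      rw [← Module.End.mul_apply, ← map_mul, mul_inv_cancel, map_one, Module.End.one_apply]
    calc B (Ψ t (ρ g u) (ρ g v)) w = t (ρ g u) (ρ g v) w := hΨ _ _ _ _
      _ = t (ρ g u) (ρ g v) (ρ g (ρ g⁻¹ w)) := by rw [h2]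
      _ = t u v (ρ g⁻¹ w) := ht _ _ _ _
      _ = B (Ψ t u v) (ρ g⁻¹ w) := (hΨ _ _ _ _).symm
      _ = B (ρ g (Ψ t u v)) (ρ g (ρ g⁻¹ w)) := (hBi _ _ _).symm
      _ = B (ρ g (Ψ t u v)) w := by rw [h2]
  constructor
  · rintro ⟨m, hm0, hms, hmi, hmu⟩
    have huniq : ∀ t' : U →ₗ[ℝ] U →ₗ[ℝ] U →ₗ[ℝ] ℝ, (∀ (g : H) (u v w : U), t' (ρ g u) (ρ g v) (ρ g w) = t' u v w) → ∃ c : ℝ, t' = c • Φ m := by
      intro t' ht'
      obtain ⟨c, hc⟩ := hmu (Ψ t') (hΨi t' ht')
      refine ⟨c, ?_⟩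
      ext u v w
      rw [← hΨ t', hc]
      simp [hΦ]
    have hne : Φ m ≠ 0 := by
      intro h
      apply hm0
      ext u v
      apply hext
      intro w
      rw [← hΦ, h]; simp
    have hflip : ∀ u v w, Φ m u v w = Φ m u w v := by
      let t' : U →ₗ[ℝ] U →ₗ[ℝ] U →ₗ[ℝ] ℝ := LinearMap.mk₂ ℝ (fun u v => (Φ m u).flip v) (by
        intro a b v; ext w; simp) (by intro c a v; ext w; simp) (by intro a v v'; ext w; simp) (by intro c a v; ext w; simp)
      have ht' : ∀ u v w, t' u v w = Φ m u w v := fun u v w => rfl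
      obtain ⟨c, hc⟩ := huniq t' (by intro g u v w; rw [ht', ht', hΦi m hmi])
      have h1 : ∀ u v w, Φ m u w v = c * Φ m u v w := by
        intro u v w
        rw [← ht', hc]; simp
      have hcc : c * c = 1 := by
        by_contra hcc
        apply hne
        ext u v w
        have h2 := h1 u w v
        rw [h1 u v w] at h2
        have h3 : (c * c - 1) * Φ m u v w = 0 := by linear_combination - h2
        rcases mul_eq_zero.1 h3 with h3 | h3
        · exact absurd (by linear_combination h3) hcc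
        · rw [h3]; simp
      have hc1 : c = 1 ∨ c = -1 := by
        have : (c - 1) * (c + 1) = 0 := by linear_combination hcc
        rcases mul_eq_zero.1 this with h | h
        · left; linarith
        · right; linarith
      have hs : ∀ u v w, Φ m u v w = Φ m v u w := by
        intro u v w; rw [hΦ, hΦ, hms]
      rcases hc1 with rfl | rfl
      · intro u v w
        rw [h1 u v w, one_mul]
      · exfalso
        apply hne
        ext u v w
        have a1 := h1 u v w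
        have a2 := h1 v u w
        have a3 := h1 w u v
        have b1 := hs u v w
        have b2 := hs v w u
        have b3 := hs u w v
        simp only [LinearMap.zero_apply]
        linarith
    refine ⟨Φ m, hne, fun u v w => ⟨by rw [hΦ, hΦ, hms], hflip u v w⟩, hΦi m hmi, huniq⟩
  · rintro ⟨t, ht0, hts, hti, htu⟩
    refine ⟨Ψ t, ?_, ?_, hΨi t hti, ?_⟩
    · intro h
      apply ht0
      ext u v w
      rw [← hΨ, h]; simp
    · intro u v
      apply hext
      intro w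
      rw [hΨ, hΨ, (hts u v w).1]
    · intro m' hm'
      obtain ⟨c, hc⟩ := htu (Φ m') (hΦi m' hm')
      refine ⟨c, ?_⟩
      ext u v
      apply hext
      intro w
      rw [← hΦ, hc]
      simp [hΨ]

end Cfsg.Agent.S5541
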