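import Cfsg.Statements.S5543
import Cfsg.Agent.LibMaj28

set_option autoImplicit false
open Cfsg

namespace Cfsg.Agent.S5543

open Cfsg Cfsg.Axial CfsgLib.Maj28

section
variable {V : Type*} [AddCommGroup V] [Module ℝ V] {mul : V →ₗ[ℝ] V →ₗ[ℝ] V} {B : LinearMap.BilinForm ℝ V}

/-- three independent involutions of type `2A` give a contradiction -/
theorem no_eight (hV : IsMajoranaAmbient mul B) {μ : V ≃ₗ[ℝ] V} {x y xy z xz yz xyz : V} (hx : Ax mul B μ x)
    (hyy : mul y y = y) (hn : B yz yz = 1) (hn2 : B x x = 1) (hid : mul yz yz = yz)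
    (h1 : mul x y = (1 / 8 : ℝ) • (x + y - xy)) (h2 : mul x xy = (1 / 8 : ℝ) • (x + xy - y))
    (h3 : mul x z = (1 / 8 : ℝ) • (x + z - xz)) (h4 : mul x xz = (1 / 8 : ℝ) • (x + xz - z))
    (h5 : mul y z = (1 / 8 : ℝ) • (y + z - yz)) (h6 : mul y xz = (1 / 8 : ℝ) • (y + xz - xyz))
    (h7 : mul xy z = (1 / 8 : ℝ) • (xy + z - xyz)) (h8 : mul xy xz = (1 / 8 : ℝ) • (xy + xz - yz))
    (h9 : mul x yz = (1 / 8 : ℝ) • (x + yz - xyz)) (h10 : mul x xyz = (1 / 8 : ℝ) • (x + xyz - yz))
    (h11 : mul yz xyz = (1 / 8 : ℝ) • (yz + xyz - x)) : False := by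
  have e1 : mul x (y - xy) = (1 / 4 : ℝ) • (y - xy) := by
    rw [map_sub, h1, h2]; module
  have e2 : mul x (z - xz) = (1 / 4 : ℝ) • (z - xz) := by
    rw [map_sub, h3, h4]; module
  have e3 : mul (y - xy) (z - xz) = (-(1 / 4) : ℝ) • (yz - xyz) := by
    rw [map_sub, LinearMap.map_sub₂, LinearMap.map_sub₂, h5, h6, h7, h8]; module
  have e4 : mul x (yz - xyz) = (1 / 4 : ℝ) • (yz - xyz) := by
    rw [map_sub, h9, h10]; module
  obtain ⟨c, w, hw, hc⟩ := hx.f44 _ _ e1 e2
  rw [e3] at hc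
  have e5 := congrArg (mul x) hc
  rw [map_smul, e4, map_add, map_smul, hx.idem, hw, add_zero] at e5
  -- `yz - xyz = -16 c x`
  have e6 : yz - xyz = (-16 * c) • x := by
    have := congrArg (fun t => (-16 : ℝ) • t) e5
    simp only [smul_smul] at this
    rw [← this]; module
  rw [e6, map_smul, hx.idem] at e4
  have e7 : (-12 * c) • x = 0 := by
    have : (-12 * c) • x = (-16 * c) • x - (1 / 4 : ℝ) • (-16 * c) • x := by module
    rw [this, ← e4, sub_self]
  have hc0 : c = 0 := by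
    rcases smul_eq_zero.1 e7 with h | h
    · linarith
    · exact absurd h hx.ne
  rw [hc0, mul_zero, zero_smul, sub_eq_zero] at e6
  rw [← e6, hid] at h11
  have e8 : x = (-6 : ℝ) • yz := by
    have : x = (-6 : ℝ) • yz - (8 : ℝ) • ((1 / 8 : ℝ) • (yz + yz - x) - yz) := by module
    rw [this, ← h11]; simp
  rw [e8] at hn2
  simp only [map_smul, LinearMap.smul_apply, smul_eq_mul, hn] at hn2
  norm_num at hn2
end

/-- Let V be a finite-dimensional real vector space with a commutative bilinear product and a positive-definite symmetric bilinear form that associates with the product and satisfies the Norton inequality (the Majorana setting of the definitions). Let X be a group of linear automorphisms of V in which every element squares to the identity, and suppose every non-identity element x of X is a Majorana involution with an axial vector a(x) of squared length 1, such that for any two distinct non-identity x, y the product a(x) ∘ a(y) equals (1/8)(a(x) + a(y)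 − a(xy)) (the dihedral subalgebra of type 2A whose third axis belongs to the involution xy). Then X has order at most 4. -/
theorem result {V : Type*} [AddCommGroup V] [Module ℝ V] [FiniteDimensional ℝ V] (mul : V →ₗ[ℝ] V →ₗ[ℝ] V) (B : LinearMap.BilinForm ℝ V) (hV : Cfsg.Axial.IsMajoranaAmbient mul B) (X : Subgroup (V ≃ₗ[ℝ] V)) (hX : ∀ x ∈ X, x * x = 1) (ax : (V ≃ₗ[ℝ] V) → V) (hax : ∀ x ∈ X, x ≠ 1 → Cfsg.Axial.IsMajoranaPair mul B x (ax x)) (h1 : ∀ x ∈ X, x ≠ 1 → B (ax x) (ax x) = 1) (h2A : ∀ x ∈ X, ∀ y ∈ X, x ≠ 1 → y ≠ 1 → x ≠ y → mul (ax x) (ax y) = (1 / 8 : ℝ) • (ax x + ax y - ax (x * y))) : Nat.card ↥X ≤ 4 := by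
  by_contra hcard
  push Not at hcard
  haveI : Finite X := Nat.finite_of_card_ne_zero (by omega)
  have hinv : ∀ x ∈ X, x⁻¹ = x := fun x hx => inv_eq_of_mul_eq_one_left (hX x hx)
  have hcomm : ∀ x ∈ X, ∀ y ∈ X, x * y = y * x := by
    intro x hx y hy
    have := hinv _ (X.mul_mem hx hy)
    rw [mul_inv_rev, hinv x hx, hinv y hy] at this
    exact this.symm
  -- choose three independent elements
  have hchoose : ∀ s : Finset (V ≃ₗ[ℝ] V), s.card ≤ 4 → ∃ x ∈ X, x ∉ s := by
    intro s hs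
    by_contra hn
    push Not at hn
    have h1 : (X : Set (V ≃ₗ[ℝ] V)) ⊆ s := hn
    have h2 : Nat.card X ≤ s.card := by
      rw [← Set.ncard_coe_finset s]
      exact Set.ncard_le_ncard h1 (Finset.finite_toSet s)
    omega
  classical
  obtain ⟨x, hx, hx1⟩ := hchoose {1} (by simp)
  obtain ⟨y, hy, hy1⟩ := hchoose {1, x} (Finset.card_le_two.trans (by norm_num))
  obtain ⟨z, hz, hz1⟩ := hchoose {1, x, y, x * y} Finset.card_le_four
  simp only [Finset.mem_singleton] at hx1
  simp only [Finset.mem_insert, Finset.mem_singleton, not_or] at hy1 hz1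
  obtain ⟨hy1, hyx⟩ := hy1
  obtain ⟨hz1, hzx, hzy, hzxy⟩ := hz1
  have hxx := hX x hx
  have hyy := hX y hy
  have hzz := hX z hz
  have cxy := hcomm x hx y hy
  have cxz := hcomm x hx z hz
  have cyz := hcomm y hy z hz
  have hxy := X.mul_mem hx hy
  have hxz := X.mul_mem hx hz
  have hyz := X.mul_mem hy hz
  have hxyz := X.mul_mem hx hyz
  have n1 : x * y ≠ 1 := fun h => hyx (by rw [← inv_eq_of_mul_eq_one_right h, hinv x hx])
  have n2 : x * z ≠ 1 := fun h => hzx (by rw [← inv_eq_of_mul_eq_one_right h, hinv x hx])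
  have n3 : y * z ≠ 1 := fun h => hzy (by rw [← inv_eq_of_mul_eq_one_right h, hinv y hy])
  have n4 : x * (y * z) ≠ 1 := by
    intro h
    rw [← mul_assoc] at h
    exact hzxy (by rw [← inv_eq_of_mul_eq_one_right h, hinv _ hxy])
  have c1 : x * (x * y) = y := by rw [← mul_assoc, hxx, one_mul]
  have c2 : x * (x * z) = z := by rw [← mul_assoc, hxx, one_mul]
  have c3 : x * (x * (y * z)) = y * z := by rw [← mul_assoc, hxx, one_mul]
  have c4 : y * (x * z) = x * (y * z) := by rw [← mul_assoc, ← cxy, mul_assoc]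
  have c5 : x * y * z = x * (y * z) := by rw [mul_assoc]
  have c6 : x * y * (x * z) = y * z := by rw [cxy, mul_assoc, c2]
  have c7 : y * z * (x * (y * z)) = x := by
    rw [← mul_assoc, ← hcomm x hx _ hyz, mul_assoc, hX _ hyz, mul_one]
  have dxy : x ≠ x * y := fun h => hy1 (left_eq_mul.1 h)
  have dxz : x ≠ x * z := fun h => hz1 (left_eq_mul.1 h)
  have dxyz : x ≠ x * (y * z) := fun h => n3 (left_eq_mul.1 h)
  have d1 : y ≠ x * z := fun h => n4 (by rw [← c4, ← h, hyy])
  have d2 : x * y ≠ z := fun h => hzxy h.symm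
  have d3 : x * y ≠ x * z := fun h => hzy (mul_left_cancel h).symm
  have d4 : x ≠ y * z := fun h => n4 (by rw [← h, hxx])
  have d5 : y * z ≠ x * (y * z) := fun h => hx1 (right_eq_mul.1 h)
  refine no_eight hV (ax_of_pair (hax x hx hx1)) (y := ax y) (xy := ax (x * y)) (z := ax z) (xz := ax (x * z)) (yz := ax (y * z)) (xyz := ax (x * (y * z)))
    (ax_of_pair (hax y hy hy1)).idem (h1 _ hyz n3) (h1 _ hx hx1) (ax_of_pair (hax _ hyz n3)).idem
    ?_ ?_ ?_ ?_ ?_ ?_ ?_ ?_ ?_ ?_ ?_
  · exact h2A x hx y hy hx1 hy1 (fun h => hyx h.symm)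
  · have := h2A x hx _ hxy hx1 n1 dxy
    rwa [c1] at this
  · exact h2A x hx z hz hx1 hz1 (fun h => hzx h.symm)
  · have := h2A x hx _ hxz hx1 n2 dxz
    rwa [c2] at this
  · exact h2A y hy z hz hy1 hz1 (fun h => hzy h.symm)
  · have := h2A y hy _ hxz hy1 n2 d1
    rwa [c4] at this
  · have := h2A _ hxy z hz n1 hz1 d2
    rwa [c5] at this
  · have := h2A _ hxy _ hxz n1 n2 d3
    rwa [c6] at this
  · exact h2A x hx _ hyz hx1 n3 d4
  · have := h2A x hx _ hxyz hx1 n4 dxyz
    rwa [c3] at this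
  · have := h2A _ hyz _ hxyz n3 n4 d5
    rwa [c7] at this

end Cfsg.Agent.S5543
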