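import Cfsg.Statements.S5546
import Mathlib
import Cfsg.Agent.LibMTF

set_option autoImplicit false
open Cfsg

namespace Cfsg.Agent.S5546

open CfsgLib.Co CfsgLib.Leech CfsgLib.Golay CfsgLib.MT

/-- reduction modulo thirteen -/
def red (x : E) : Cfsg.GolayPt → ZMod 13 := fun i => (x i : ZMod 13)

theorem red_add (x y : E) : red (x + y) = red x + red y := by funext i; simp [red]

theorem e8_sum (v : LL) : (8 : ℤ) • v = ∑ j, (v : E) j • e8 j := by
  apply Subtype.ext
  rw [AddSubgroup.val_finset_sum]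
  funext k
  rw [Finset.sum_apply]
  change (8 : ℤ) * (v : E) k = ∑ j, (v : E) j * (Pi.single j 8 : E) k
  rw [Finset.sum_eq_single k]
  · rw [Pi.single_eq_same, mul_comm]
  · intro j _ hj
    rw [Pi.single_eq_of_ne (Ne.symm hj), mul_zero]
  · intro h; exact absurd (Finset.mem_univ k) h

theorem act8 (g : ↥Cfsg.Co0) (v : LL) (k : Cfsg.GolayPt) : 8 * ((g • v : LL) : E) k = ∑ j, (v : E) j * ((g • e8 j : LL) : E) k := by
  have h1 : g • ((8 : ℤ) • v) = ∑ j, (v : E) j • (g • e8 j) := by
    rw [e8_sum, act_sum]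
    exact Finset.sum_congr rfl fun j _ => act_zsmul g _ _
  rw [act_zsmul] at h1
  have h2 := congrFun (congrArg Subtype.val h1) k
  rw [AddSubgroup.val_finset_sum, Finset.sum_apply] at h2
  exact h2

/-- the representation modulo thirteen -/
def rho (g : ↥Cfsg.Co0) : Module.End (ZMod 13) (Cfsg.GolayPt → ZMod 13) where
  toFun x := fun k => ∑ j, x j * (5 * (((g • e8 j : LL) : E) k : ZMod 13))
  map_add' x y := by
    funext k
    simp only [Pi.add_apply, add_mul, Finset.sum_add_distrib]
  map_smul' c x := by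
    funext k
    simp only [Pi.smul_apply, smul_eq_mul, RingHom.id_apply, Finset.mul_sum, mul_assoc]

theorem rho_red (g : ↥Cfsg.Co0) (v : LL) : rho g (red (v : E)) = red ((g • v : LL) : E) := by
  funext k
  change ∑ j, (((v : E) j : ℤ) : ZMod 13) * (5 * (((g • e8 j : LL) : E) k : ZMod 13)) = ((((g • v : LL) : E) k : ℤ) : ZMod 13)
  have h1 := congrArg (fun t : ℤ => (5 : ZMod 13) * (t : ZMod 13)) (act8 g v k)
  push_cast at h1
  have h5 : (5 : ZMod 13) * (8 * ((((g • v : LL) : E) k : ℤ) : ZMod 13)) = ((((g • v : LL) : E) k : ℤ) : ZMod 13) := by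
    rw [← mul_assoc, show (5 : ZMod 13) * 8 = 1 from by decide, one_mul]
  rw [h5] at h1
  rw [h1, Finset.mul_sum]
  apply Finset.sum_congr rfl
  intro j _
  ring

theorem red_e8 (i : Cfsg.GolayPt) : red (e8 i : E) = 8 • (Pi.single i 1 : Cfsg.GolayPt → ZMod 13) := by
  funext k
  change (((Pi.single i 8 : E) k : ℤ) : ZMod 13) = 8 • (Pi.single i 1 : Cfsg.GolayPt → ZMod 13) k
  rw [Pi.single_apply, Pi.single_apply]
  split_ifs <;> simp

theorem ext_rho {f f' : Module.End (ZMod 13) (Cfsg.GolayPt → ZMod 13)} (h : ∀ v : LL, f (red (v : E)) = f' (red (v : E))) : f = f' := by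
  apply LinearMap.pi_ext'
  intro i
  apply LinearMap.ext_ring
  change f (Pi.single i 1) = f' (Pi.single i 1)
  have h1 := h (e8 i)
  rw [red_e8, map_nsmul, map_nsmul] at h1
  have h2 := congrArg (fun t : Cfsg.GolayPt → ZMod 13 => (5 : ℕ) • t) h1
  simp only [← mul_smul] at h2
  have h3 : ∀ t : Cfsg.GolayPt → ZMod 13, (5 * 8 : ℕ) • t = t := by
    intro t
    funext k
    change (5 * 8 : ℕ) • t k = t k
    rw [nsmul_eq_mul]
    have : ((5 * 8 : ℕ) : ZMod 13) = 1 := by decide
    rw [this, one_mul]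
  rw [h3, h3] at h2
  exact h2

/-- as a monoid homomorphism -/
def rhoHom : ↥Cfsg.Co0 →* Module.End (ZMod 13) (Cfsg.GolayPt → ZMod 13) where
  toFun := rho
  map_one' := ext_rho fun v => by rw [rho_red, one_smul]; rfl
  map_mul' g h := ext_rho fun v => by rw [rho_red, mul_smul, Module.End.mul_apply, rho_red, rho_red]

/-- the functional -/
def ell : (Cfsg.GolayPt → ZMod 13) →ₗ[ZMod 13] ZMod 13 where
  toFun x := x none + x pz
  map_add' x y := by simp only [Pi.add_apply]; ring
  map_smul' c x := by simp only [Pi.smul_apply, smul_eq_mul, RingHom.id_apply]; ring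

theorem ell_apply (x : Cfsg.GolayPt → ZMod 13) : ell x = x none + x pz := rfl

theorem ell_rho (g : ↥Cfsg.Co0) (hg : g • (Cfsg.Spor.leechU : LL) = Cfsg.Spor.leechU) (x : Cfsg.GolayPt → ZMod 13) :
    ell (rho g x) = ell x := by
  have key : ell.comp (rho g) = ell := by
    apply LinearMap.pi_ext'
    intro i
    apply LinearMap.ext_ring
    change ell (rho g (Pi.single i 1)) = ell (Pi.single i 1)
    have h1 := rho_red g (e8 i)
    rw [red_e8, map_nsmul] at h1
    have h2 := congrArg (fun t : Cfsg.GolayPt → ZMod 13 => (5 : ℕ) • t) h1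
    simp only [← mul_smul] at h2
    have h3 : ∀ t : Cfsg.GolayPt → ZMod 13, (5 * 8 : ℕ) • t = t := by
      intro t
      funext k
      change (5 * 8 : ℕ) • t k = t k
      rw [nsmul_eq_mul]
      have : ((5 * 8 : ℕ) : ZMod 13) = 1 := by decide
      rw [this, one_mul]
    rw [h3] at h2
    rw [h2, map_nsmul, ell_apply, ell_apply]
    have h4 : 4 * ((g • e8 i : LL) : E) none + 4 * ((g • e8 i : LL) : E) pz = 4 * (e8 i : E) none + 4 * (e8 i : E) pz := by
      rw [← dot_U, ← dot_U]
      have := act_dot g (e8 i) Cfsg.Spor.leechU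
      rwa [hg] at this
    have h5 : ((g • e8 i : LL) : E) none + ((g • e8 i : LL) : E) pz = (e8 i : E) none + (e8 i : E) pz := by omega
    have h6 : red ((g • e8 i : LL) : E) none + red ((g • e8 i : LL) : E) pz = red (e8 i : E) none + red (e8 i : E) pz := by
      change ((((g • e8 i : LL) : E) none : ℤ) : ZMod 13) + ((((g • e8 i : LL) : E) pz : ℤ) : ZMod 13) = (((e8 i : E) none : ℤ) : ZMod 13) + (((e8 i : E) pz : ℤ) : ZMod 13)
      rw [← Int.cast_add, h5, Int.cast_add]
    rw [h6, red_e8]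
    change (5 : ℕ) • ((8 : ℕ) • (Pi.single i 1 : Cfsg.GolayPt → ZMod 13) none + (8 : ℕ) • (Pi.single i 1 : Cfsg.GolayPt → ZMod 13) pz) = _
    rw [← smul_add, ← mul_smul, nsmul_eq_mul]
    have : ((5 * 8 : ℕ) : ZMod 13) = 1 := by decide
    rw [this, one_mul]
  exact LinearMap.congr_fun key x

/-- the space -/
abbrev VV : Submodule (ZMod 13) (Cfsg.GolayPt → ZMod 13) := LinearMap.ker ell

instance : Fact (Nat.Prime 13) := ⟨by norm_num⟩

theorem finrank_VV : Module.finrank (ZMod 13) VV = 23 := by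
  have h1 := LinearMap.finrank_range_add_finrank_ker ell
  have h2 : LinearMap.range ell = ⊤ := by
    rw [LinearMap.range_eq_top]
    intro t
    refine ⟨Pi.single none t, ?_⟩
    rw [ell_apply, Pi.single_eq_same, Pi.single_eq_of_ne (Ne.symm nz), add_zero]
  rw [h2, finrank_top, Module.finrank_self, Module.finrank_fintype_fun_eq_card] at h1
  have h3 : Fintype.card Cfsg.GolayPt = 24 := card_pt
  rw [h3] at h1
  change Module.finrank (ZMod 13) (LinearMap.ker ell) = 23
  omega

/-- elements of the second group -/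
def inc : ↥Cfsg.Spor.Co2 →* ↥Cfsg.Co0 := Subgroup.inclusion inf_le_left

theorem inc_fix (g : ↥Cfsg.Spor.Co2) : inc g • (Cfsg.Spor.leechU : LL) = Cfsg.Spor.leechU := g.2.2

/-- the restricted action -/
def act : ↥Cfsg.Spor.Co2 →* Module.End (ZMod 13) VV where
  toFun g := (rho (inc g)).restrict (p := VV) (q := VV) (fun x hx => by
    rw [LinearMap.mem_ker] at hx ⊢
    rw [ell_rho _ (inc_fix g), hx])
  map_one' := by
    apply LinearMap.ext
    intro x
    apply Subtype.ext
    change rhoHom (inc 1) (x : Cfsg.GolayPt → ZMod 13) = x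
    rw [map_one, map_one]; rfl
  map_mul' g h := by
    apply LinearMap.ext
    intro x
    apply Subtype.ext
    change rhoHom (inc (g * h)) (x : Cfsg.GolayPt → ZMod 13) = rhoHom (inc g) (rhoHom (inc h) x)
    rw [map_mul, map_mul]; rfl

theorem act_apply (g : ↥Cfsg.Spor.Co2) (x : VV) : ((act g x : VV) : Cfsg.GolayPt → ZMod 13) = rho (inc g) x := rfl

theorem act_nontriv : ∃ g : ↥Cfsg.Spor.Co2, act g ≠ 1 := by
  refine ⟨⟨(sgn (Multiplicative.ofAdd ⟨w4, w4_mem⟩) : ↥Cfsg.Co0), (sgn (Multiplicative.ofAdd ⟨w4, w4_mem⟩) : ↥Cfsg.Co0).2, sgn4_U⟩, ?_⟩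
  intro h
  have hx : (red (e8 (some 9) : E)) ∈ VV := by
    rw [LinearMap.mem_ker, ell_apply, red_e8]
    decide
  have h1 := congrArg (fun f : Module.End (ZMod 13) VV => ((f ⟨_, hx⟩ : VV) : Cfsg.GolayPt → ZMod 13) (some 9)) h
  rw [act_apply] at h1
  change rho (sgn (Multiplicative.ofAdd ⟨w4, w4_mem⟩)) (red (e8 (some 9) : E)) (some 9) = red (e8 (some 9) : E) (some 9) at h1
  rw [rho_red] at h1
  change ((((sgn (Multiplicative.ofAdd ⟨w4, w4_mem⟩) • e8 (some 9) : LL) : E) (some 9) : ℤ) : ZMod 13) = (((e8 (some 9) : E) (some 9) : ℤ) : ZMod 13) at h1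
  rw [sgn_apply, e8_coe, Pi.single_eq_same] at h1
  change (((1 - 2 * lf (w4 (some 9))) * 8 : ℤ) : ZMod 13) = ((8 : ℤ) : ZMod 13) at h1
  have h2 : lf (w4 (some 9)) = 1 := by decide +kernel
  rw [h2] at h1
  revert h1
  decide

/-- The second Conway group (the stabilizer in the Leech lattice automorphism group of the short vector fixed in the definitions) is isomorphic to a subgroup of the general linear group of degree 23 over the field with 13 elements: there is an injective homomorphism into it. -/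
theorem result : ∃ f : ↥Cfsg.Spor.Co2 →* GL (Fin 23) (ZMod 13), Function.Injective f := by
  have hinj : Function.Injective act.toHomUnits := by
    have hN : act.toHomUnits.ker.Normal := inferInstance
    rcases simple_SpCo2.eq_bot_or_eq_top_of_normal _ hN with h | h
    · exact (MonoidHom.ker_eq_bot_iff _).1 h
    · exfalso
      obtain ⟨g, hg⟩ := act_nontriv
      apply hg
      have : g ∈ act.toHomUnits.ker := by rw [h]; trivial
      rw [MonoidHom.mem_ker] at this
      have h5 := congrArg Units.val this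
      rwa [MonoidHom.coe_toHomUnits, Units.val_one] at h5
  let b : VV ≃ₗ[ZMod 13] (Fin 23 → ZMod 13) := LinearEquiv.ofFinrankEq _ _ (by rw [finrank_VV]; simp)
  let e1 : (Module.End (ZMod 13) VV)ˣ ≃* (Module.End (ZMod 13) (Fin 23 → ZMod 13))ˣ :=
    Units.mapEquiv (LinearEquiv.conjRingEquiv b).toMulEquiv
  let e2 : Matrix.GeneralLinearGroup (Fin 23) (ZMod 13) ≃* (Module.End (ZMod 13) (Fin 23 → ZMod 13))ˣ := Matrix.GeneralLinearGroup.toLin
  exact ⟨e2.symm.toMonoidHom.comp (e1.toMonoidHom.comp act.toHomUnits),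
    fun a b h => hinj (e1.injective (e2.symm.injective h))⟩

end Cfsg.Agent.S5546
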