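import Cfsg.Statements.S5548
import Cfsg.Agent.LibSub28

set_option autoImplicit false
open Cfsg

namespace Cfsg.Agent.S5548

open Cfsg CfsgLib.M24 CfsgLib.Golay CfsgLib.Syn28 CfsgLib.OrbG28 CfsgLib.Sub28 CfsgLib.Six28
open scoped Pointwise

theorem eq_sum (w : GolayPt → ZMod 2) (hw : ∑ p, w p = 0) :
    w = ∑ p, w p • (ind {p} + ind {(none : GolayPt)}) := by
  have h1 : ∑ p, w p • (ind {p} + ind {(none : GolayPt)}) = (∑ p, w p • ind {p}) + (∑ p, w p) • ind {(none : GolayPt)} := by
    rw [Finset.sum_smul, ← Finset.sum_add_distrib]
    apply Finset.sum_congr rfl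
    intro p _
    rw [smul_add]
  rw [h1, hw, zero_smul, add_zero]
  funext q
  rw [Finset.sum_apply]
  rw [Finset.sum_eq_single q]
  · simp [ind]
  · intro p _ hpq
    have : q ∉ ({p} : Finset GolayPt) := by simp [Ne.symm hpq]
    simp [ind, Ne.symm hpq]
  · intro h; exact absurd (Finset.mem_univ q) h

section
variable (W : Submodule (ZMod 2) (Cfsg.GolayPt → ZMod 2))
  (hW : ∀ σ ∈ Cfsg.M24, ∀ w ∈ W, (fun p => w (σ.symm p)) ∈ W)
include hW

theorem smulW {s : Finset GolayPt} (hs : ind s ∈ W) {g : Equiv.Perm GolayPt} (hg : g ∈ M24) : ind (g • s) ∈ W := by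
  rw [← act_ind]; exact hW g hg _ hs

omit hW in
theorem addW {s t : Finset GolayPt} (hs : ind s ∈ W) (ht : ind t ∈ W) : ind (symmDiff s t) ∈ W := by
  rw [ind_symmDiff]; exact W.add_mem hs ht

theorem even_of_duad {p q : GolayPt} (hpq : p ≠ q) (h : ind {p, q} ∈ W) (w : GolayPt → ZMod 2) (hw : ∑ p, w p = 0) :
    w ∈ W := by
  rw [eq_sum w hw]
  apply W.sum_mem
  intro r _
  apply W.smul_mem
  by_cases hr : r = none
  · rw [hr]
    have : ind {(none : GolayPt)} + ind {(none : GolayPt)} = 0 := by
      funext x
      simp only [Pi.add_apply, Pi.zero_apply]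
      generalize ind {(none : GolayPt)} x = a
      revert a; decide
    rw [this]; exact W.zero_mem
  · obtain ⟨g, hg, h1⟩ := finset_trans (s := {p, q}) (t := {r, none}) (by
      rw [Finset.card_pair hpq, Finset.card_pair hr]) (by rw [Finset.card_pair hpq]; norm_num)
    have h2 := smulW W hW h hg
    rw [h1] at h2
    have h3 : ({r, none} : Finset GolayPt) = symmDiff {r} {none} := by
      ext x
      simp only [Finset.mem_insert, Finset.mem_singleton, Finset.mem_symmDiff]
      constructor
      · rintro (rfl | rfl)
        · exact Or.inl ⟨rfl, hr⟩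
        · exact Or.inr ⟨rfl, Ne.symm hr⟩
      · rintro (⟨h, _⟩ | ⟨h, _⟩)
        · exact Or.inl h
        · exact Or.inr h
    rw [← ind_symmDiff, ← h3]
    exact h2

theorem duad_of {s f : Finset GolayPt} (hs : ind s ∈ W) (hf : f.card ≤ 4) (hne : f.Nonempty)
    (h : ∀ g ∈ M24, symmDiff s (g • s) = symmDiff f (g • f)) : ∃ p q : GolayPt, p ≠ q ∧ ind {p, q} ∈ W := by
  obtain ⟨p, hp⟩ := hne
  obtain ⟨q, hq⟩ : ∃ q, q ∉ f := by
    by_contra hcon
    push Not at hcon
    have h2 := Finset.card_le_card (show (Finset.univ : Finset GolayPt) ⊆ f from fun x _ => hcon x)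
    rw [card_univ_pt] at h2
    omega
  have hpq : p ≠ q := by rintro rfl; exact hq hp
  obtain ⟨g, hg, h1, h2⟩ := fix_move (f := f.erase p) (by
    rw [Finset.card_erase_of_mem hp]; omega) (Finset.notMem_erase p f) (fun h => hq (Finset.mem_of_mem_erase h))
  have h3 : g • f = insert q (f.erase p) := by
    rw [← Finset.insert_erase hp, Finset.smul_finset_insert, Finset.erase_insert (Finset.notMem_erase p f)]
    congr 1
    ext x
    rw [Finset.mem_smul_finset]
    constructor
    · rintro ⟨y, hy, rfl⟩
      show g y ∈ _
      rw [h1 y hy]; exact hy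
    · intro hx
      exact ⟨x, hx, h1 x hx⟩
  refine ⟨p, q, hpq, ?_⟩
  have h4 := addW W hs (smulW W hW hs hg)
  rw [h g hg, h3] at h4
  have h5 : symmDiff f (insert q (f.erase p)) = {p, q} := by
    ext x
    simp only [Finset.mem_symmDiff, Finset.mem_insert, Finset.mem_erase, Finset.mem_singleton]
    constructor
    · rintro (⟨h6, h7⟩ | ⟨h6, h7⟩)
      · by_cases hx : x = p
        · exact Or.inl hx
        · exact absurd (Or.inr ⟨hx, h6⟩) h7
      · rcases h6 with h6 | h6
        · exact Or.inr h6
        · exact absurd h6.2 h7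
    · rintro (rfl | rfl)
      · refine Or.inl ⟨hp, ?_⟩
        rintro (h6 | h6)
        · exact hpq h6
        · exact h6.1 rfl
      · exact Or.inr ⟨Or.inl rfl, hq⟩
  rwa [h5] at h4

omit hW in
theorem fsetx (a b : ℕ) : fset (cw a ^^^ cw b) = symmDiff (fset (cw a)) (fset (cw b)) := fset_xor _ _

theorem code_of_octad {o : Finset GolayPt} (ho : o ∈ octads) (h : ind o ∈ W) : golayCode ≤ W := by
  have hoct : ∀ o' ∈ octads, ind o' ∈ W := by
    intro o' ho'
    obtain ⟨g, hg, h1⟩ := octad_trans ho ho'
    rw [← h1]; exact smulW W hW h hg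
  have ho15 : fset (cw 15) ∈ octads := rootoctads_mem (by decide +kernel)
  have ho19 : fset (cw 19) ∈ octads := rootoctads_mem (by decide +kernel)
  have ho125 : fset (cw 125) ∈ octads := rootoctads_mem (by decide +kernel)
  have ho2162 : fset (cw 2162) ∈ octads := rootoctads_mem (by decide +kernel)
  have hd28 : fset (cw 28) ∈ dodecads := rootdodecads_mem (by decide +kernel)
  have hdod : ∀ d ∈ dodecads, ind d ∈ W := by
    intro d hd
    obtain ⟨g, hg, h1⟩ := dodecad_trans hd28 hd
    rw [← h1]
    apply smulW W hW _ hg
    have : fset (cw 28) = symmDiff (fset (cw 15)) (fset (cw 19)) := by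
      rw [← fset_xor]; rfl
    rw [this]
    exact addW W (hoct _ ho15) (hoct _ ho19)
  have huniv : ind Finset.univ ∈ W := by
    have : (Finset.univ : Finset GolayPt) = symmDiff (symmDiff (fset (cw 15)) (fset (cw 125))) (fset (cw 2162)) := by
      rw [← fset_full, ← fset_xor, ← fset_xor]; rfl
    rw [this]
    exact addW W (addW W (hoct _ ho15) (hoct _ ho125)) (hoct _ ho2162)
  apply golayCode_le_of_basis
  intro b hb
  rw [word_eq_ind]
  have key : ∀ b ∈ basis, (fun b => or (Nat.beq b 16777215) (and (isCW b) (Nat.beq (pop b) 12))) b = true := by decide +kernel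
  have h1 := key b hb
  simp only [Bool.or_eq_true, beq_iff, Bool.and_eq_true] at h1
  rcases h1 with h1 | h1
  · rw [h1, fset_full]; exact huniv
  · exact hdod _ ⟨isCW_mem_supports h1.1, by rw [card_fset]; exact h1.2⟩

theorem code_of_word {c : Finset GolayPt} (hc : c ∈ supports (golayCode : Set (GolayPt → ZMod 2))) (h0 : c ≠ ∅)
    (h1 : c ≠ Finset.univ) (h : ind c ∈ W) : golayCode ≤ W := by
  rcases card_of_mem_supports hc with h2 | h2 | h2 | h2 | h2
  · exact absurd h2 h0
  · exact code_of_octad W hW ⟨hc, h2⟩ h
  · -- dodecad
    have hd : c ∈ dodecads := ⟨hc, h2⟩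
    have hd1 : fset (cw 1) ∈ dodecads := rootdodecads_mem (by decide +kernel)
    have hd14 : fset (cw 14) ∈ dodecads := rootdodecads_mem (by decide +kernel)
    have ho15 : fset (cw 15) ∈ octads := rootoctads_mem (by decide +kernel)
    apply code_of_octad W hW ho15
    have e : fset (cw 15) = symmDiff (fset (cw 1)) (fset (cw 14)) := by
      rw [← fset_xor]; rfl
    rw [e]
    obtain ⟨g, hg, h3⟩ := dodecad_trans hd hd1
    obtain ⟨k, hk, h4⟩ := dodecad_trans hd hd14
    rw [← h3, ← h4]
    exact addW W (smulW W hW h hg) (smulW W hW h hk)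
  · -- complement of an octad
    have ho : cᶜ ∈ octads := by
      refine ⟨?_, ?_⟩
      · have h3 : cᶜ = symmDiff c Finset.univ := by
          ext x; simp [Finset.mem_symmDiff]
        rw [h3]
        have h4 : (Finset.univ : Finset GolayPt) ∈ supports (golayCode : Set (GolayPt → ZMod 2)) := by
          rw [← fset_full]; exact isCW_mem_supports (by decide +kernel)
        obtain ⟨a, ha, rfl⟩ := mem_supports.1 hc
        obtain ⟨b, hb, hb2⟩ := mem_supports.1 h4
        rw [hb2, ← fset_xor, ← cw_xor]
        exact cw_mem_supports _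
      · rw [Finset.card_compl, card_pt, h2]
    have ho15 : fset (cw 15) ∈ octads := rootoctads_mem (by decide +kernel)
    have ho38 : fset (cw 38) ∈ octads := rootoctads_mem (by decide +kernel)
    have ho41 : fset (cw 41) ∈ octads := rootoctads_mem (by decide +kernel)
    apply code_of_octad W hW ho41
    have e : fset (cw 41) = symmDiff (fset (cw 15)) (fset (cw 38)) := by
      rw [← fset_xor]; rfl
    obtain ⟨g, hg, h3⟩ := octad_trans ho ho15
    obtain ⟨k, hk, h4⟩ := octad_trans ho ho38
    have e2 : symmDiff (fset (cw 15)) (fset (cw 38)) = symmDiff (g • c) (k • c) := by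
      rw [← h3, ← h4]
      have h5 : ∀ g : Equiv.Perm GolayPt, g • cᶜ = (g • c)ᶜ := by
        intro g; ext x
        rw [← Finset.inv_smul_mem_iff, Finset.mem_compl, Finset.mem_compl, Finset.inv_smul_mem_iff]
      rw [h5, h5]
      ext x
      simp only [Finset.mem_symmDiff, Finset.mem_compl]
      constructor
      · rintro (⟨h6, h7⟩ | ⟨h6, h7⟩)
        · exact Or.inr ⟨not_not.1 h7, h6⟩
        · exact Or.inl ⟨not_not.1 h7, h6⟩
      · rintro (⟨h6, h7⟩ | ⟨h6, h7⟩)
        · exact Or.inr ⟨h7, not_not.2 h6⟩
        · exact Or.inl ⟨h7, not_not.2 h6⟩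
    rw [e, e2]
    exact addW W (smulW W hW h hg) (smulW W hW h hk)
  · exact absurd (by
      apply Finset.eq_univ_of_card
      rw [h2, card_pt]) h1

omit hW in
theorem symmDiff4 (a b c d : Finset GolayPt) : symmDiff (symmDiff a b) (symmDiff c d) = symmDiff (symmDiff a c) (symmDiff b d) := by
  apply ind_inj
  rw [ind_symmDiff, ind_symmDiff, ind_symmDiff, ind_symmDiff, ind_symmDiff, ind_symmDiff]
  abel

/-- a member of `W` outside the code gives a duad -/
theorem duad_of_not_code {s : Finset GolayPt} (hs : ind s ∈ W)
    (hc : s ∉ supports (golayCode : Set (GolayPt → ZMod 2))) : ∃ p q : GolayPt, p ≠ q ∧ ind {p, q} ∈ W := by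
  obtain ⟨f, hf, hsf⟩ := covering s
  have hfne : f.Nonempty := by
    rw [Finset.nonempty_iff_ne_empty]
    rintro rfl
    apply hc
    have : symmDiff s ∅ = s := by ext x; simp [Finset.mem_symmDiff]
    rwa [this] at hsf
  set c := symmDiff s f with hcdef
  have hsc : s = symmDiff f c := by
    rw [hcdef]
    ext x
    simp only [Finset.mem_symmDiff]
    tauto
  by_cases hcW : ind c ∈ W
  · -- then `f ∈ W`
    have hfW : ind f ∈ W := by
      have : f = symmDiff s c := by
        rw [hcdef]; ext x; simp only [Finset.mem_symmDiff]; tauto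
      rw [this]; exact addW W hs hcW
    exact duad_of W hW hfW hf hfne (fun g _ => rfl)
  · by_cases h0 : c = ∅
    · exfalso; apply hcW; rw [h0]
      have : ind (∅ : Finset GolayPt) = 0 := by funext x; simp [ind]
      rw [this]; exact W.zero_mem
    by_cases h1 : c = Finset.univ
    · apply duad_of W hW hs hf hfne
      intro g _
      rw [hsc, h1, Finset.smul_finset_symmDiff, symmDiff4]
      have : g • (Finset.univ : Finset GolayPt) = Finset.univ := Finset.smul_finset_univ
      rw [this, symmDiff_self]
      ext x; simp [Finset.mem_symmDiff]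
    · -- move c
      exfalso
      apply hcW
      have hcode : golayCode ≤ W := by
        have hcard : 8 ≤ c.card ∧ 8 ≤ cᶜ.card := by
          rw [Finset.card_compl, card_pt]
          rcases card_of_mem_supports hsf with h2 | h2 | h2 | h2 | h2
          · exact absurd h2 h0
          · omega
          · omega
          · omega
          · exact absurd (by
              apply Finset.eq_univ_of_card
              rw [h2, card_pt]) h1
        have hex : ∀ A : Finset GolayPt, 8 ≤ A.card → ∃ x ∈ A, x ∉ f := by
          intro A hA
          by_contra hcon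
          push Not at hcon
          have := Finset.card_le_card (show A ⊆ f from hcon)
          omega
        obtain ⟨x, hx, hxf⟩ := hex c hcard.1
        obtain ⟨y, hy, hyf⟩ := hex cᶜ hcard.2
        obtain ⟨g, hg, h2, h3⟩ := fix_move hf hxf hyf
        have hgc : y ∈ g • c := by
          rw [Finset.mem_smul_finset]; exact ⟨x, hx, h3⟩
        rw [Finset.mem_compl] at hy
        have hgf : g • f = f := by
          ext z
          rw [Finset.mem_smul_finset]
          constructor
          · rintro ⟨w, hw, rfl⟩
            show g w ∈ f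
            rw [h2 w hw]; exact hw
          · intro hz; exact ⟨z, hz, h2 z hz⟩
        have h4 := addW W hs (smulW W hW hs hg)
        have h5 : symmDiff s (g • s) = symmDiff c (g • c) := by
          conv_lhs => rw [hsc]
          rw [Finset.smul_finset_symmDiff, hgf, symmDiff4, symmDiff_self]
          ext z; simp [Finset.mem_symmDiff]
        rw [h5] at h4
        have hsup : symmDiff c (g • c) ∈ supports (golayCode : Set (GolayPt → ZMod 2)) := by
          have h6 := smul_mem_supports hg hsf
          obtain ⟨a, ha, ha2⟩ := mem_supports.1 hsf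
          obtain ⟨b, hb, hb2⟩ := mem_supports.1 h6
          rw [ha2] at hb2 ⊢
          rw [hb2, ← fset_xor, ← cw_xor]
          exact cw_mem_supports _
        apply code_of_word W hW hsup _ _ h4
        · intro h6
          rw [Finset.symmDiff_eq_empty] at h6
          rw [← h6] at hgc
          exact hy hgc
        · intro h6
          obtain ⟨z, hz⟩ := hfne
          have h7 : z ∈ symmDiff c (g • c) := by rw [h6]; exact Finset.mem_univ z
          have h8 : z ∈ g • c ↔ z ∈ c := by
            rw [Finset.mem_smul_finset]
            constructor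
            · rintro ⟨w, hw, hwz⟩
              have : w = z := by
                apply g.injective
                rw [h2 z hz]; exact hwz
              rwa [← this]
            · intro hzc; exact ⟨z, hzc, h2 z hz⟩
          rw [Finset.mem_symmDiff, h8] at h7
          tauto
      exact hcode (ind_mem_code.2 hsf)
end

/-- For the automorphism group of the length-24 binary Golay code of the definitions (the Mathieu group of degree 24) acting on binary words of length 24 by permuting coordinates, the only invariant subspaces of the space of all words are: zero, the span of the all-ones word, the code itself, the even-weight words, and the whole space. (So the permutation module has a unique composition series.) -/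
theorem result (W : Submodule (ZMod 2) (Cfsg.GolayPt → ZMod 2)) (hW : ∀ σ ∈ Cfsg.M24, ∀ w ∈ W, (fun p => w (σ.symm p)) ∈ W) : W = ⊥ ∨ W = Submodule.span (ZMod 2) {fun _ => (1 : ZMod 2)} ∨ W = Cfsg.golayCode ∨ (W : Set (Cfsg.GolayPt → ZMod 2)) = {w | ∑ p, w p = 0} ∨ W = ⊤ := by
  classical
  have hind : ∀ w : GolayPt → ZMod 2, w = ind (support₂ w) := fun w => (ind_supp w).symm
  by_cases hC : W ≤ golayCode
  · by_cases hsmall : ∀ w ∈ W, w = 0 ∨ w = fun _ => 1
    · by_cases h1 : (fun _ => (1 : ZMod 2)) ∈ W
      · right; left
        apply le_antisymm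
        · intro w hw
          rcases hsmall w hw with h | h
          · rw [h]; exact Submodule.zero_mem _
          · rw [h]; exact Submodule.subset_span rfl
        · rw [Submodule.span_le]
          rintro _ rfl
          exact h1
      · left
        rw [eq_bot_iff]
        intro w hw
        rcases hsmall w hw with h | h
        · rw [h]; exact Submodule.zero_mem _
        · rw [h] at hw; exact absurd hw h1
    · right; right; left
      push Not at hsmall
      obtain ⟨w, hw, h0, h1⟩ := hsmall
      apply le_antisymm hC
      have hw2 := hw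
      rw [hind w] at hw2
      apply code_of_word W hW (c := support₂ w) ⟨w, hC hw, rfl⟩ _ _ hw2
      · intro h
        apply h0
        rw [hind w, h]
        funext x; simp [ind]
      · intro h
        apply h1
        rw [hind w, h]
        funext x; simp [ind]
  · right; right; right
    have : ∃ w ∈ W, w ∉ golayCode := by
      by_contra hcon
      push Not at hcon
      exact hC hcon
    obtain ⟨w, hw, hwC⟩ := this
    have hw2 := hw
    rw [hind w] at hw2
    obtain ⟨p, q, hpq, hd⟩ := duad_of_not_code W hW hw2 (by
      intro h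
      apply hwC
      rw [hind w]; exact ind_mem_code.2 h)
    have hE := even_of_duad W hW hpq hd
    by_cases hodd : ∃ v ∈ W, ∑ p, v p ≠ 0
    · right
      obtain ⟨v, hv, hv2⟩ := hodd
      rw [eq_top_iff]
      intro u _
      by_cases hu : ∑ p, u p = 0
      · exact hE u hu
      · have h2 : ∀ a : ZMod 2, a ≠ 0 → a = 1 := by decide
        have h3 : ∑ p, (u + v) p = 0 := by
          simp only [Pi.add_apply]
          rw [Finset.sum_add_distrib, h2 _ hu, h2 _ hv2]; decide
        have h4 := W.add_mem (hE _ h3) hv
        have h5 : u + v + v = u := by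
          funext x
          simp only [Pi.add_apply]
          generalize u x = a
          generalize v x = b
          revert a b; decide
        rwa [h5] at h4
    · left
      push Not at hodd
      ext u
      exact ⟨fun hu => hodd u hu, fun hu => hE u hu⟩

end Cfsg.Agent.S5548
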