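import Cfsg.Statements.S5549
import Cfsg.Agent.LibFun28

set_option autoImplicit false
open Cfsg

namespace Cfsg.Agent.S5549

open Cfsg CfsgLib.M24 CfsgLib.Golay CfsgLib.Syn28 CfsgLib.OrbG28 CfsgLib.Sub28 CfsgLib.Fun28
open scoped Pointwise

/-- the functional of a word -/
def phi (w : Finset GolayPt) : ↥golayCode →ₗ[ZMod 2] ZMod 2 :=
  (∑ p ∈ w, LinearMap.proj p) ∘ₗ golayCode.subtype

theorem phi_apply (w : Finset GolayPt) (c : ↥golayCode) :
    phi w c = ((support₂ (c : GolayPt → ZMod 2) ∩ w).card : ZMod 2) := by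
  have h1 : phi w c = ∑ p ∈ w, (c : GolayPt → ZMod 2) p := by
    simp [phi, LinearMap.sum_apply]
  rw [h1, Finset.card_eq_sum_ones, Finset.inter_comm, ← Finset.filter_mem_eq_inter, Finset.sum_filter, Nat.cast_sum]
  apply Finset.sum_congr rfl
  intro p _
  have h01 : ∀ a : ZMod 2, a = 0 ∨ a = 1 := by decide
  have m1 : p ∈ support₂ (c : GolayPt → ZMod 2) ↔ (c : GolayPt → ZMod 2) p ≠ 0 := by simp [support₂]
  rw [if_congr m1 rfl rfl]
  rcases h01 ((c : GolayPt → ZMod 2) p) with h | h <;> simp [h]

theorem univ_mem : (Finset.univ : Finset GolayPt) ∈ supports (golayCode : Set (GolayPt → ZMod 2)) := by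
  rw [← fset_full]; exact isCW_mem_supports (by decide +kernel)

/-- a code element from its support -/
def ce {s : Finset GolayPt} (h : s ∈ supports (golayCode : Set (GolayPt → ZMod 2))) : ↥golayCode :=
  ⟨ind s, ind_mem_code.2 h⟩

theorem supp_ce {s : Finset GolayPt} (h : s ∈ supports (golayCode : Set (GolayPt → ZMod 2))) :
    support₂ ((ce h : ↥golayCode) : GolayPt → ZMod 2) = s := supp_ind s

theorem ce_univ : ((ce univ_mem : ↥golayCode) : GolayPt → ZMod 2) = fun _ => 1 := by
  funext p; simp [ce, ind]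

/-- a small word orthogonal to the code is in the code -/
theorem mem_of_orth {h : Finset GolayPt}
    (ho : ∀ c ∈ supports (golayCode : Set (GolayPt → ZMod 2)), ((c ∩ h).card : ZMod 2) = 0) :
    h ∈ supports (golayCode : Set (GolayPt → ZMod 2)) := by
  obtain ⟨f, hf, hhf⟩ := covering h
  have hof : ∀ c ∈ supports (golayCode : Set (GolayPt → ZMod 2)), ((c ∩ f).card : ZMod 2) = 0 := by
    intro c hc
    have h1 := card_inter_symmDiff c h f
    rw [orth hc hhf, ho c hc, zero_add] at h1
    exact h1.symm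
  have he := hof _ univ_mem
  rw [Finset.univ_inter, ZMod.natCast_eq_zero_iff] at he
  have hnot : ¬ (f.card = 2 ∨ f.card = 4) := by
    intro hcase
    have h1 := odd_count hcase
    have h2 : {o : Finset GolayPt | o ∈ octads ∧ ((o ∩ f).card : ZMod 2) = 1} = ∅ := by
      ext o
      simp only [Set.mem_setOf_eq, Set.mem_empty_iff_false, iff_false, not_and]
      intro h3 h4
      rw [hof o h3.1] at h4
      exact absurd h4 (by decide)
    rw [h2, Set.ncard_empty] at h1
    split at h1 <;> omega
  have h0 : f.card = 0 := by omega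
  rw [Finset.card_eq_zero] at h0
  rw [h0] at hhf
  have : symmDiff h ∅ = h := by ext x; simp [Finset.mem_symmDiff]
  rwa [this] at hhf

theorem empty_of_orth {h : Finset GolayPt} (h6 : h.card ≤ 7)
    (ho : ∀ c ∈ supports (golayCode : Set (GolayPt → ZMod 2)), ((c ∩ h).card : ZMod 2) = 0) : h = ∅ := by
  rcases card_of_mem_supports (mem_of_orth ho) with h1 | h1 | h1 | h1 | h1
  · exact h1
  all_goals omega

theorem star {α : Type*} [DecidableEq α] (A : α → Finset α) (p0 : α) (hc : ∀ q, q ≠ p0 → (A q).card = 2)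
    (hi : ∀ p q, p ≠ p0 → q ≠ p0 → p ≠ q → (A p ∩ A q).card = 1)
    (q1 q2 : α) (h1 : q1 ≠ p0) (h2 : q2 ≠ p0) (h12 : q1 ≠ q2)
    (hmore : ∀ q3, ∃ q4, q4 ≠ p0 ∧ q4 ≠ q1 ∧ q4 ≠ q2 ∧ q4 ≠ q3) : ∃ a, ∀ q, q ≠ p0 → a ∈ A q := by
  obtain ⟨a, ha⟩ := Finset.card_eq_one.1 (hi q1 q2 h1 h2 h12)
  have ha12 : a ∈ A q1 ∩ A q2 := by rw [ha]; exact Finset.mem_singleton_self a
  rw [Finset.mem_inter] at ha12
  refine ⟨a, ?_⟩
  by_contra hcon
  push Not at hcon
  obtain ⟨q3, h3, ha3⟩ := hcon
  have h31 : q3 ≠ q1 := by rintro rfl; exact ha3 ha12.1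
  have h32 : q3 ≠ q2 := by rintro rfl; exact ha3 ha12.2
  obtain ⟨b, hb⟩ := Finset.card_eq_one.1 (hi q3 q1 h3 h1 h31)
  obtain ⟨c, hc'⟩ := Finset.card_eq_one.1 (hi q3 q2 h3 h2 h32)
  have hb' : b ∈ A q3 ∩ A q1 := by rw [hb]; exact Finset.mem_singleton_self b
  have hc'' : c ∈ A q3 ∩ A q2 := by rw [hc']; exact Finset.mem_singleton_self c
  rw [Finset.mem_inter] at hb' hc''
  have hab : a ≠ b := by rintro rfl; exact ha3 hb'.1
  have hac : a ≠ c := by rintro rfl; exact ha3 hc''.1
  have hbc : b ≠ c := by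
    rintro rfl
    have : b ∈ A q1 ∩ A q2 := Finset.mem_inter.2 ⟨hb'.2, hc''.2⟩
    rw [ha, Finset.mem_singleton] at this
    exact hab this.symm
  have e1 : A q1 = {a, b} := by
    symm
    apply Finset.eq_of_subset_of_card_le
    · intro x hx
      rw [Finset.mem_insert, Finset.mem_singleton] at hx
      rcases hx with rfl | rfl
      · exact ha12.1
      · exact hb'.2
    · rw [hc q1 h1, Finset.card_pair hab]
  have e2 : A q2 = {a, c} := by
    symm
    apply Finset.eq_of_subset_of_card_le
    · intro x hx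
      rw [Finset.mem_insert, Finset.mem_singleton] at hx
      rcases hx with rfl | rfl
      · exact ha12.2
      · exact hc''.2
    · rw [hc q2 h2, Finset.card_pair hac]
  have e3 : A q3 = {b, c} := by
    symm
    apply Finset.eq_of_subset_of_card_le
    · intro x hx
      rw [Finset.mem_insert, Finset.mem_singleton] at hx
      rcases hx with rfl | rfl
      · exact hb'.1
      · exact hc''.1
    · rw [hc q3 h3, Finset.card_pair hbc]
  obtain ⟨q4, h4, h41, h42, h43⟩ := hmore q3
  have i1 := hi q4 q1 h4 h1 h41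
  have i2 := hi q4 q2 h4 h2 h42
  have i3 := hi q4 q3 h4 h3 h43
  rw [e1] at i1
  rw [e2] at i2
  rw [e3] at i3
  have cnt : ∀ x y : α, x ≠ y → (A q4 ∩ {x, y}).card = (if x ∈ A q4 then 1 else 0) + (if y ∈ A q4 then 1 else 0) := by
    intro x y hxy
    by_cases hx : x ∈ A q4 <;> by_cases hy : y ∈ A q4
    · have : A q4 ∩ {x, y} = {x, y} := by
        ext z; simp only [Finset.mem_inter, Finset.mem_insert, Finset.mem_singleton]
        constructor
        · exact fun h => h.2
        · rintro (rfl | rfl)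
          · exact ⟨hx, Or.inl rfl⟩
          · exact ⟨hy, Or.inr rfl⟩
      rw [this, Finset.card_pair hxy, if_pos hx, if_pos hy]
    · have : A q4 ∩ {x, y} = {x} := by
        ext z; simp only [Finset.mem_inter, Finset.mem_insert, Finset.mem_singleton]
        constructor
        · rintro ⟨h, rfl | rfl⟩
          · rfl
          · exact absurd h hy
        · rintro rfl; exact ⟨hx, Or.inl rfl⟩
      rw [this, Finset.card_singleton, if_pos hx, if_neg hy]
    · have : A q4 ∩ {x, y} = {y} := by
        ext z; simp only [Finset.mem_inter, Finset.mem_insert, Finset.mem_singleton]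
        constructor
        · rintro ⟨h, rfl | rfl⟩
          · exact absurd h hx
          · rfl
        · rintro rfl; exact ⟨hy, Or.inr rfl⟩
      rw [this, Finset.card_singleton, if_neg hx, if_pos hy]
    · have : A q4 ∩ {x, y} = ∅ := by
        ext z; simp only [Finset.mem_inter, Finset.mem_insert, Finset.mem_singleton, Finset.notMem_empty, iff_false]
        rintro ⟨h, rfl | rfl⟩
        · exact hx h
        · exact hy h
      rw [this, Finset.card_empty, if_neg hx, if_neg hy]
  rw [cnt a b hab] at i1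
  rw [cnt a c hac] at i2
  rw [cnt b c hbc] at i3
  omega

/-- Let X be a group of linear automorphisms of the length-24 binary Golay code of the definitions that fix the all-ones word, containing the coordinate-permutation action of every element of the code's automorphism group (the Mathieu group of degree 24), and such that every element of X sends each codeword into its orbit under that Mathieu group up to adding the all-ones word (X has the same orbits as the Mathieu group on the code modulo the all-ones word). Then every element of X agrees, modulo the all-ones word, with the action of a single element of the Mathieu group: X induces exactly the Mathieu group on the code modulo the all-ones word. -/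
theorem result (X : Subgroup (↥Cfsg.golayCode ≃ₗ[ZMod 2] ↥Cfsg.golayCode)) (h1 : ∀ x ∈ X, ∀ e : ↥Cfsg.golayCode, (e : (Cfsg.GolayPt → ZMod 2)) = (fun _ => (1 : ZMod 2)) → x e = e) (hM : ∀ σ ∈ Cfsg.M24, ∃ x ∈ X, ∀ c : ↥Cfsg.golayCode, ((x c : ↥Cfsg.golayCode) : (Cfsg.GolayPt → ZMod 2)) = fun p => (c : (Cfsg.GolayPt → ZMod 2)) (σ.symm p)) (horb : ∀ x ∈ X, ∀ c : ↥Cfsg.golayCode, ∃ σ ∈ Cfsg.M24, ((x c : ↥Cfsg.golayCode) : (Cfsg.GolayPt → ZMod 2)) = (fun p => (c : (Cfsg.GolayPt → ZMod 2)) (σ.symm p)) ∨ ((x c : ↥Cfsg.golayCode) : (Cfsg.GolayPt → ZMod 2)) = (fun p => (c : (Cfsg.GolayPt → ZMod 2)) (σ.symm p)) + fun _ => (1 : ZMod 2)) (x : ↥Cfsg.golayCode ≃ₗ[ZMod 2] ↥Cfsg.golayCode) (hx : x ∈ X) : ∃ σ ∈ Cfsg.M24, ∀ c : ↥Cfsg.golayCode, ((x c : ↥Cfsg.golayCode) : (Cfsg.GolayPt → ZMod 2)) = (fun p => (c : (Cfsg.GolayPt → ZMod 2)) (σ.symm p)) ∨ ((x c : ↥Cfsg.golayCode) : (Cfsg.GolayPt → ZMod 2)) = (fun p => (c : (Cfsg.GolayPt → ZMod 2)) (σ.symm p)) + fun _ => (1 : ZMod 2) := by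
  classical
  have h01 : ∀ a : ZMod 2, a = 0 ∨ a = 1 := by decide
  have hx1 : x (ce univ_mem) = ce univ_mem := h1 x hx _ ce_univ
  -- the image functional
  have hex : ∀ w : Finset GolayPt, ∃ f : Finset GolayPt, f.card ≤ 4 ∧ ∀ c : ↥golayCode,
      ((support₂ ((x c : ↥golayCode) : GolayPt → ZMod 2) ∩ f).card : ZMod 2) =
        ((support₂ (c : GolayPt → ZMod 2) ∩ w).card : ZMod 2) := by
    intro w
    obtain ⟨f, hf, h⟩ := rep_functional ((phi w) ∘ₗ (x.symm : ↥golayCode →ₗ[ZMod 2] ↥golayCode))
    refine ⟨f, hf, fun c => ?_⟩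
    rw [← h (x c), ← phi_apply]
    simp
  -- the map on octads
  have hoct : ∀ o ∈ octads, ∃ o' ∈ octads, ∀ (ho : o ∈ supports (golayCode : Set (GolayPt → ZMod 2)))
      (ho' : o' ∈ supports (golayCode : Set (GolayPt → ZMod 2))),
      x (ce ho) = ce ho' ∨ x (ce ho) = ce ho' + ce univ_mem := by
    intro o ho
    obtain ⟨σ, hσ, h⟩ := horb x hx (ce ho.1)
    refine ⟨σ • o, smul_mem_octads hσ ho, fun h2 h3 => ?_⟩
    have e : (fun p => ((ce ho.1 : ↥golayCode) : GolayPt → ZMod 2) (σ.symm p)) = ind (σ • o) := act_ind σ o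
    rw [e] at h
    rcases h with h | h
    · left; exact Subtype.ext h
    · right
      apply Subtype.ext
      rw [h]
      show _ = ind (σ • o) + ((ce univ_mem : ↥golayCode) : GolayPt → ZMod 2)
      rw [ce_univ]
  choose! F hF hFx using hoct
  have hFinj : Set.InjOn F octads := by
    intro o ho o' ho' hoo
    have e1 := hFx o ho ho.1 (hF o ho).1
    have e2 := hFx o' ho' ho'.1 (hF o' ho').1
    have key : x (ce ho.1) = x (ce ho'.1) ∨ x (ce ho.1) = x (ce ho'.1 + ce univ_mem) := by
      rw [map_add, hx1]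
      have e3 : (ce (hF o ho).1 : ↥golayCode) = ce (hF o' ho').1 := Subtype.ext (by
        show ind (F o) = ind (F o'); rw [hoo])
      have e4 : ∀ y : ↥golayCode, y + ce univ_mem + ce univ_mem = y := by
        intro y
        apply Subtype.ext
        funext p
        show (y : GolayPt → ZMod 2) p + ((ce univ_mem : ↥golayCode) : GolayPt → ZMod 2) p +
          ((ce univ_mem : ↥golayCode) : GolayPt → ZMod 2) p = _
        generalize (y : GolayPt → ZMod 2) p = a
        generalize ((ce univ_mem : ↥golayCode) : GolayPt → ZMod 2) p = b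
        revert a b; decide
      rcases e1 with e1 | e1 <;> rcases e2 with e2 | e2
      · left; rw [e1, e2, e3]
      · right; rw [e1, e2, e3, e4]
      · right; rw [e1, e2, e3]
      · left; rw [e1, e2, e3]
    rcases key with h | h
    · have := congrArg (fun z : ↥golayCode => support₂ (z : GolayPt → ZMod 2)) (x.injective h)
      simpa only [supp_ce] using this
    · exfalso
      have h2 := x.injective h
      have h3 : ind o = ind o' + ind Finset.univ := congrArg Subtype.val h2
      rw [← ind_symmDiff] at h3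
      have h4 := ind_inj h3
      have h5 := CfsgLib.M24.card_symmDiff o' Finset.univ
      rw [← h4, ho.2, ho'.2, Finset.inter_univ, card_univ_pt, ho'.2] at h5
      omega
  have hFsurj : ∀ o' ∈ octads, ∃ o ∈ octads, F o = o' := by
    have h : F '' octads = octads := by
      apply Set.eq_of_subset_of_ncard_le
      · rintro _ ⟨o, ho, rfl⟩
        exact hF o ho
      · rw [Set.ncard_image_of_injOn hFinj]
      · exact octads_finite
    intro o' ho'
    rw [← h] at ho'
    obtain ⟨o, ho, h2⟩ := ho'
    exact ⟨o, ho, h2⟩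
  -- images of duads are duads
  have hduad : ∀ w f : Finset GolayPt, w.card = 2 → f.card ≤ 4 → (∀ c : ↥golayCode,
      ((support₂ ((x c : ↥golayCode) : GolayPt → ZMod 2) ∩ f).card : ZMod 2) =
        ((support₂ (c : GolayPt → ZMod 2) ∩ w).card : ZMod 2)) → f.card = 2 := by
    intro w f hw hf h
    have heven : (f.card : ZMod 2) = 0 := by
      have h2 := h (ce univ_mem)
      rw [hx1, supp_ce, Finset.univ_inter, Finset.univ_inter, hw] at h2
      rw [h2]; decide
    rw [ZMod.natCast_eq_zero_iff] at heven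
    have hval : ∀ o ∈ octads, ((F o ∩ f).card : ZMod 2) = ((o ∩ w).card : ZMod 2) := by
      intro o ho
      have h2 := h (ce ho.1)
      rw [supp_ce] at h2
      rw [← h2]
      rcases hFx o ho ho.1 (hF o ho).1 with e | e
      · rw [e, supp_ce]
      · rw [e]
        have e5 : ((ce (hF o ho).1 + ce univ_mem : ↥golayCode) : GolayPt → ZMod 2) = ind (symmDiff (F o) Finset.univ) := by
          rw [ind_symmDiff]; rfl
        have h0 : (f.card : ZMod 2) = 0 := by rw [ZMod.natCast_eq_zero_iff]; exact heven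
        rw [e5, supp_ind, Finset.inter_comm (symmDiff (F o) Finset.univ) f, card_inter_symmDiff, Finset.inter_univ,
          Finset.inter_comm (F o) f, h0, add_zero]
    have hA := odd_count (f := w) (Or.inl hw)
    rw [if_pos hw] at hA
    have hB : {o : Finset GolayPt | o ∈ octads ∧ ((o ∩ f).card : ZMod 2) = 1}.ncard = 352 := by
      rw [← hA]
      have : {o : Finset GolayPt | o ∈ octads ∧ ((o ∩ f).card : ZMod 2) = 1} =
          F '' {o : Finset GolayPt | o ∈ octads ∧ ((o ∩ w).card : ZMod 2) = 1} := by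
        ext o'
        constructor
        · rintro ⟨ho', h2⟩
          obtain ⟨o, ho, rfl⟩ := hFsurj o' ho'
          exact ⟨o, ⟨ho, by rw [← hval o ho]; exact h2⟩, rfl⟩
        · rintro ⟨o, ⟨ho, h2⟩, rfl⟩
          exact ⟨hF o ho, by rw [hval o ho]; exact h2⟩
      rw [this, Set.ncard_image_of_injOn]
      exact hFinj.mono (fun o ho => ho.1)
    have hcase : f.card = 0 ∨ f.card = 2 ∨ f.card = 4 := by omega
    rcases hcase with h0 | h0 | h0
    · exfalso
      rw [Finset.card_eq_zero] at h0
      have : {o : Finset GolayPt | o ∈ octads ∧ ((o ∩ f).card : ZMod 2) = 1} = ∅ := by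
        ext o
        rw [h0]
        simp
      rw [this, Set.ncard_empty] at hB
      omega
    · exact h0
    · exfalso
      have := odd_count (f := f) (Or.inr h0)
      rw [hB, if_neg (by omega)] at this
      omega
  choose A hA4 hAx using hex
  have hAc : ∀ w, w.card = 2 → (A w).card = 2 := fun w hw => hduad w (A w) hw (hA4 w) (hAx w)
  let p0 : GolayPt := none
  have hpc : ∀ q, q ≠ p0 → ({p0, q} : Finset GolayPt).card = 2 := fun q hq => Finset.card_pair hq.symm
  have hrel : ∀ p q, p ≠ p0 → q ≠ p0 → p ≠ q → symmDiff (A {p0, p}) (A {p0, q}) = A {p, q} := by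
    intro p q hp hq hpq
    have h3 : symmDiff (symmDiff (A {p0, p}) (A {p0, q})) (A {p, q}) = ∅ := by
      apply empty_of_orth
      · have c1 := CfsgLib.M24.card_symmDiff (A {p0, p}) (A {p0, q})
        have c2 := CfsgLib.M24.card_symmDiff (symmDiff (A {p0, p}) (A {p0, q})) (A {p, q})
        rw [hAc _ (hpc p hp), hAc _ (hpc q hq)] at c1
        rw [hAc _ (Finset.card_pair hpq)] at c2
        omega
      · intro c hc
        obtain ⟨c', hc'⟩ := x.surjective (ce hc)
        have e1 := hAx {p0, p} c'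
        have e2 := hAx {p0, q} c'
        have e3 := hAx {p, q} c'
        rw [hc', supp_ce] at e1 e2 e3
        rw [card_inter_symmDiff, card_inter_symmDiff, e1, e2, e3, ← card_inter_symmDiff, ← card_inter_symmDiff]
        have : symmDiff (symmDiff ({p0, p} : Finset GolayPt) {p0, q}) {p, q} = ∅ := by
          ext z
          simp only [Finset.mem_symmDiff, Finset.mem_insert, Finset.mem_singleton, Finset.notMem_empty, iff_false]
          by_cases z0 : z = p0 <;> by_cases zp : z = p <;> by_cases zq : z = q <;> simp_all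
        rw [this]; simp
    rwa [Finset.symmDiff_eq_empty] at h3
  have hinter : ∀ p q, p ≠ p0 → q ≠ p0 → p ≠ q → (A {p0, p} ∩ A {p0, q}).card = 1 := by
    intro p q hp hq hpq
    have c1 := CfsgLib.M24.card_symmDiff (A {p0, p}) (A {p0, q})
    rw [hrel p q hp hq hpq, hAc _ (hpc p hp), hAc _ (hpc q hq), hAc _ (Finset.card_pair hpq)] at c1
    omega
  obtain ⟨a, ha⟩ := star (fun q => A {p0, q}) p0 (fun q hq => hAc _ (hpc q hq)) hinter (pt 0) (pt 1)
    (by decide +kernel) (by decide +kernel) (by decide +kernel) (by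
      intro q3
      by_contra hcon
      push Not at hcon
      have h1 : (Finset.univ : Finset GolayPt) ⊆ {p0, pt 0, pt 1, q3} := by
        intro q _
        simp only [Finset.mem_insert, Finset.mem_singleton]
        by_contra h
        push Not at h
        exact h.2.2.2 (hcon q h.1 h.2.1 h.2.2.1)
      have h2 := Finset.card_le_card h1
      have h3 : ({p0, pt 0, pt 1, q3} : Finset GolayPt).card ≤ 4 := Finset.card_le_four
      rw [card_univ_pt] at h2
      omega)
  have hτ : ∀ q, q ≠ p0 → ∃ b, b ≠ a ∧ A {p0, q} = {a, b} := by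
    intro q hq
    obtain ⟨y, z, hyz, e⟩ := Finset.card_eq_two.1 (hAc _ (hpc q hq))
    have h2 := ha q hq
    simp only [e, Finset.mem_insert, Finset.mem_singleton] at h2
    rcases h2 with rfl | rfl
    · exact ⟨z, hyz.symm, e⟩
    · exact ⟨y, hyz, by rw [e, Finset.pair_comm]⟩
  choose! τ hτa hτA using hτ
  let s : GolayPt → GolayPt := fun q => if q = p0 then a else τ q
  have hs0 : s p0 = a := if_pos rfl
  have hsq : ∀ q, q ≠ p0 → s q = τ q := fun q hq => if_neg hq
  have hsinj : Function.Injective s := by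
    intro p q hpq
    by_cases hp : p = p0 <;> by_cases hq : q = p0
    · rw [hp, hq]
    · exfalso
      rw [hp, hs0, hsq q hq] at hpq
      exact hτa q hq hpq.symm
    · exfalso
      rw [hq, hs0, hsq p hp] at hpq
      exact hτa p hp hpq
    · rw [hsq p hp, hsq q hq] at hpq
      by_contra hne
      have h3 := hinter p q hp hq hne
      rw [hτA p hp, hτA q hq, hpq, Finset.inter_self, Finset.card_pair (hτa q hq).symm] at h3
      omega
  let σ : Equiv.Perm GolayPt := Equiv.ofBijective s (Finite.injective_iff_bijective.1 hsinj)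
  have hσ : ∀ q, σ q = s q := fun q => rfl
  -- the relation between `x c` and `c`
  have hval : ∀ (c : ↥golayCode) (y z : GolayPt), y ≠ z →
      ((support₂ (c : GolayPt → ZMod 2) ∩ {y, z}).card : ZMod 2) = (c : GolayPt → ZMod 2) y + (c : GolayPt → ZMod 2) z := by
    intro c y z hyz
    rw [← phi_apply]
    simp [phi, LinearMap.sum_apply, Finset.sum_pair hyz]
  have hmain : ∀ (c : ↥golayCode) (q : GolayPt), ((x c : ↥golayCode) : GolayPt → ZMod 2) (σ q) =
      (c : GolayPt → ZMod 2) q + (((x c : ↥golayCode) : GolayPt → ZMod 2) a + (c : GolayPt → ZMod 2) p0) := by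
    intro c q
    by_cases hq : q = p0
    · rw [hq, hσ, hs0]
      generalize ((x c : ↥golayCode) : GolayPt → ZMod 2) a = u
      generalize (c : GolayPt → ZMod 2) p0 = v
      revert u v; decide
    · have h3 := hAx {p0, q} c
      rw [hτA q hq, hval _ _ _ (hτa q hq).symm, hval _ _ _ (Ne.symm hq)] at h3
      rw [hσ, hsq q hq]
      revert h3
      generalize ((x c : ↥golayCode) : GolayPt → ZMod 2) a = u
      generalize ((x c : ↥golayCode) : GolayPt → ZMod 2) (τ q) = u'
      generalize (c : GolayPt → ZMod 2) p0 = v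
      generalize (c : GolayPt → ZMod 2) q = v'
      revert u u' v v'; decide
  have hall : ∀ c : ↥golayCode, ((x c : ↥golayCode) : (Cfsg.GolayPt → ZMod 2)) = (fun p => (c : (Cfsg.GolayPt → ZMod 2)) (σ.symm p)) ∨ ((x c : ↥golayCode) : (Cfsg.GolayPt → ZMod 2)) = (fun p => (c : (Cfsg.GolayPt → ZMod 2)) (σ.symm p)) + fun _ => (1 : ZMod 2) := by
    intro c
    have h4 : ∀ p, ((x c : ↥golayCode) : GolayPt → ZMod 2) p =
        (c : GolayPt → ZMod 2) (σ.symm p) + (((x c : ↥golayCode) : GolayPt → ZMod 2) a + (c : GolayPt → ZMod 2) p0) := by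
      intro p
      have := hmain c (σ.symm p)
      rwa [Equiv.apply_symm_apply] at this
    rcases h01 (((x c : ↥golayCode) : GolayPt → ZMod 2) a + (c : GolayPt → ZMod 2) p0) with h5 | h5
    · left
      funext p
      rw [h4 p, h5, add_zero]
    · right
      funext p
      rw [h4 p, h5]; rfl
  refine ⟨σ, ?_, hall⟩
  rw [mem_M24_iff']
  intro w hw
  have h5 : (fun p => w (σ⁻¹ p)) = (fun p => ((⟨w, hw⟩ : ↥golayCode) : GolayPt → ZMod 2) (σ.symm p)) := rfl
  rw [h5]
  rcases hall ⟨w, hw⟩ with h | h
  · rw [← h]; exact (x ⟨w, hw⟩).2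
  · have h6 : (fun p => ((⟨w, hw⟩ : ↥golayCode) : GolayPt → ZMod 2) (σ.symm p)) =
        ((x ⟨w, hw⟩ : ↥golayCode) : GolayPt → ZMod 2) + ((ce univ_mem : ↥golayCode) : GolayPt → ZMod 2) := by
      rw [h, ce_univ]
      funext p
      simp only [Pi.add_apply]
      generalize w (σ.symm p) = b
      revert b; decide
    rw [h6]
    exact golayCode.add_mem (x ⟨w, hw⟩).2 (ce univ_mem : ↥golayCode).2

end Cfsg.Agent.S5549
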