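import Cfsg.Statements.S5550
import Cfsg.Agent.LibSub28
import Cfsg.Agent.LibOrbD28
import Cfsg.Agent.LibOrbE28

set_option autoImplicit false
open Cfsg

namespace Cfsg.Agent.S5550

open Cfsg CfsgLib.M24 CfsgLib.Golay CfsgLib.Syn28 CfsgLib.OrbG28 CfsgLib.OrbM28 CfsgLib.OrbD28 CfsgLib.OrbE28 CfsgLib.Sub28
open scoped Pointwise

theorem chkO : allB (fun s => or (Nat.beq s 0) (not (and (Nat.beq (xs octPC s) s) (Nat.beq (xs octQC s) s)))) 12 0 = true := by
  decide +kernel

theorem chkD : allB (fun s => or (Nat.beq s 0) (not (and (Nat.beq (xs dodPC s) s) (Nat.beq (xs dodQC s) s)))) 12 0 = true := by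
  decide +kernel

theorem sy_act {P A C : List ℕ} (h : okAC P A C = true) (w : Finset GolayPt) : sy (mkPerm P • w) = xs C (sy w) := by
  rw [okAC, Bool.and_eq_true, Bool.and_eq_true] at h
  have h1 : w = fset (mask w) := (fset_mask w).symm
  conv_lhs => rw [h1]
  rw [smul_fset h.1, sy_fset (pmask_lt h.1 _), syn_pmask h.2.2 _ (mask_lt w)]
  rfl

theorem base_move {P A C Q B D : List ℕ} (hP : okAC P A C = true) (hQ : okAC Q B D = true)
    (h : allB (fun s => or (Nat.beq s 0) (not (and (Nat.beq (xs C s) s) (Nat.beq (xs D s) s)))) 12 0 = true)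
    {u : Finset GolayPt} (hPu : el P • u = u) (hQu : el Q • u = u) {w : Finset GolayPt} (hw : sy w ≠ 0) :
    ∃ g ∈ M24, g • u = u ∧ sy (g • w) ≠ sy w := by
  have h1 := allB_spec _ _ _ h (sy w) (Nat.zero_le _) (by have := sy_lt w; omega)
  rw [Bool.or_eq_true, beq_iff, Bool.not_eq_true', Bool.and_eq_false_iff] at h1
  rcases h1 with h1 | h1 | h1
  · exact absurd h1 hw
  · refine ⟨mkPerm P, okA_mem (okAC_okA hP), ?_, ?_⟩
    · rw [← el_smul (okA_mem (okAC_okA hP))]; exact hPu
    · rw [sy_act hP]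
      intro h2
      rw [beq_iff.2 h2] at h1; exact absurd h1 (by decide)
  · refine ⟨mkPerm Q, okA_mem (okAC_okA hQ), ?_, ?_⟩
    · rw [← el_smul (okA_mem (okAC_okA hQ))]; exact hQu
    · rw [sy_act hQ]
      intro h2
      rw [beq_iff.2 h2] at h1; exact absurd h1 (by decide)

theorem sy_zero_smul {g : Equiv.Perm GolayPt} (hg : g ∈ M24) {w : Finset GolayPt} (hw : sy w ≠ 0) : sy (g • w) ≠ 0 := by
  intro h
  apply hw
  rw [sy_eq_zero_iff] at h ⊢
  have := smul_mem_supports (inv_mem hg) h
  rwa [inv_smul_smul] at this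

theorem transport {u v : Finset GolayPt} {h : Equiv.Perm GolayPt} (hh : h ∈ M24) (huv : h • u = v)
    (H : ∀ w : Finset GolayPt, sy w ≠ 0 → ∃ g ∈ M24, g • v = v ∧ sy (g • w) ≠ sy w) {w : Finset GolayPt} (hw : sy w ≠ 0) :
    ∃ g ∈ M24, g • u = u ∧ sy (g • w) ≠ sy w := by
  obtain ⟨g, hg, h1, h2⟩ := H (h • w) (sy_zero_smul hh hw)
  refine ⟨h⁻¹ * g * h, mul_mem (mul_mem (inv_mem hh) hg) hh, ?_, ?_⟩
  · rw [mul_smul, mul_smul, huv, h1, ← huv, inv_smul_smul]
  · intro h3
    apply h2
    have h4 := sy_smul_eq hh h3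
    rwa [mul_smul, mul_smul, smul_inv_smul] at h4

theorem compl_smul {g : Equiv.Perm GolayPt} {u : Finset GolayPt} : g • uᶜ = (g • u)ᶜ := by
  ext x
  rw [← Finset.inv_smul_mem_iff, Finset.mem_compl, Finset.mem_compl, Finset.inv_smul_mem_iff]

theorem main {u : Finset GolayPt} (hu : u ∈ supports (golayCode : Set (GolayPt → ZMod 2))) {w : Finset GolayPt} (hw : sy w ≠ 0) :
    ∃ g ∈ M24, g • u = u ∧ sy (g • w) ≠ sy w := by
  have hO : ∀ w : Finset GolayPt, sy w ≠ 0 → ∃ g ∈ M24, g • fset 8536111 = fset 8536111 ∧ sy (g • w) ≠ sy w :=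
    fun w hw => base_move octP_ok octQ_ok chkO octP_stab octQ_stab hw
  have hD : ∀ w : Finset GolayPt, sy w ≠ 0 → ∃ g ∈ M24, g • fset 8442831 = fset 8442831 ∧ sy (g • w) ≠ sy w :=
    fun w hw => base_move dodP_ok dodQ_ok chkD dodP_stab dodQ_stab hw
  rcases card_of_mem_supports hu with h | h | h | h | h
  · subst h
    obtain ⟨g, hg, _, h2⟩ := hO w hw
    exact ⟨g, hg, Finset.smul_finset_empty g, h2⟩
  · obtain ⟨g, hg, h1⟩ := octad_trans (o := u) ⟨hu, h⟩ o0_mem
    exact transport hg h1 hO hw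
  · obtain ⟨g, hg, h1⟩ := dodecad_trans (d := u) ⟨hu, h⟩ d0_mem'
    exact transport hg h1 hD hw
  · have ho : uᶜ ∈ octads := by
      refine ⟨?_, ?_⟩
      · have h3 : uᶜ = symmDiff u Finset.univ := by
          ext x; simp [Finset.mem_symmDiff]
        rw [h3]
        have h4 : (Finset.univ : Finset GolayPt) ∈ supports (golayCode : Set (GolayPt → ZMod 2)) := by
          rw [← fset_full]; exact isCW_mem_supports (by decide +kernel)
        obtain ⟨a, ha, rfl⟩ := mem_supports.1 hu
        obtain ⟨b, hb, hb2⟩ := mem_supports.1 h4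
        rw [hb2, ← fset_xor, ← cw_xor]
        exact cw_mem_supports _
      · rw [Finset.card_compl, card_pt, h]
    obtain ⟨g, hg, h1⟩ := octad_trans ho o0_mem
    obtain ⟨k, hk, h2, h3⟩ := transport hg h1 hO hw
    refine ⟨k, hk, ?_, h3⟩
    rw [compl_smul] at h2
    exact compl_injective h2
  · have : u = Finset.univ := by
      apply Finset.eq_univ_of_card
      rw [h, card_pt]
    subst this
    obtain ⟨g, hg, _, h2⟩ := hO w hw
    exact ⟨g, hg, Finset.smul_finset_univ, h2⟩

/-- Let u be a word of the length-24 binary Golay code of the definitions (possibly zero or all-ones) and w any binary word of length 24 outside the code. Then some automorphism of the code (a coordinate permutation preserving it) fixes u but moves w to a word not congruent to w modulo the code: the stabilizer of a codeword fixes no non-zero element of the quotient of the space of all words by the code. -/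
theorem result (u : (Cfsg.GolayPt → ZMod 2)) (hu : u ∈ Cfsg.golayCode) (w : (Cfsg.GolayPt → ZMod 2)) (hw : w ∉ Cfsg.golayCode) : ∃ σ ∈ Cfsg.M24, (fun p => u (σ.symm p)) = u ∧ (fun p => w (σ.symm p)) - w ∉ Cfsg.golayCode := by
  have hu' : support₂ u ∈ supports (golayCode : Set (GolayPt → ZMod 2)) := ⟨u, hu, rfl⟩
  have hw' : sy (support₂ w) ≠ 0 := by
    intro h
    apply hw
    rw [sy_eq_zero_iff] at h
    rw [← ind_supp w]
    exact ind_mem_code.2 h
  obtain ⟨g, hg, h1, h2⟩ := main hu' hw'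
  refine ⟨g, hg, ?_, ?_⟩
  · conv_lhs => rw [← ind_supp u]
    rw [act_ind, h1, ind_supp]
  · intro h3
    apply h2
    rw [sy_eq_iff, ← ind_mem_code, ind_symmDiff, ← act_ind, ind_supp]
    have h4 : (fun p => w (g.symm p)) + w = (fun p => w (g.symm p)) - w := by
      funext x
      simp only [Pi.add_apply, Pi.sub_apply]
      generalize w (g.symm x) = a
      generalize w x = b
      revert a b; decide
    rw [h4]; exact h3

end Cfsg.Agent.S5550
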