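import Cfsg.Statements.S5553
import Mathlib
import Cfsg.Agent.LibCoD

set_option autoImplicit false
open Cfsg

namespace Cfsg.Agent.S5553

open CfsgLib.Co CfsgLib.Leech CfsgLib.Golay

/-- coordinates modulo four -/
def f4 : ↥Cfsg.leechLattice →+ (Cfsg.GolayPt → ZMod 4) where
  toFun x := fun i => ((x : Cfsg.GolayPt → ℤ) i : ZMod 4)
  map_zero' := by funext i; simp
  map_add' x y := by funext i; simp

theorem f4_apply (x : ↥Cfsg.leechLattice) (i : Cfsg.GolayPt) : f4 x i = ((x : Cfsg.GolayPt → ℤ) i : ZMod 4) := rfl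

/-- the image code -/
def im4 (p : ZMod 2 × ↥Cfsg.golayCode) : Cfsg.GolayPt → ZMod 4 :=
  fun i => ((lf p.1 + 2 * lf ((p.2 : Cfsg.GolayPt → ZMod 2) i) : ℤ) : ZMod 4)

theorem im4_inj : Function.Injective im4 := by
  rintro ⟨m, c⟩ ⟨m', c'⟩ h
  have key : ∀ a b a' b' : ZMod 2, ((lf a + 2 * lf b : ℤ) : ZMod 4) = ((lf a' + 2 * lf b' : ℤ) : ZMod 4) → a = a' ∧ b = b' := by
    decide
  have h1 : ∀ i, m = m' ∧ (c : Cfsg.GolayPt → ZMod 2) i = (c' : Cfsg.GolayPt → ZMod 2) i := fun i => key _ _ _ _ (congrFun h i)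
  exact Prod.ext (h1 none).1 (Subtype.ext (funext fun i => (h1 i).2))

theorem f4_range : (f4.range : Set (Cfsg.GolayPt → ZMod 4)) = Set.range im4 := by
  have h4 : ((4 : ℤ) : ZMod 4) = 0 := by decide
  ext v
  constructor
  · rintro ⟨x, rfl⟩
    rcases cases_mem (mem_LL.1 x.2) with ⟨c, y, h⟩ | ⟨c, y, h⟩
    · refine ⟨(0, ⟨c, h.hc⟩), ?_⟩
      funext i
      rw [f4_apply, h.hx i, im4, lf_zero]
      push_cast
      have : (4 : ZMod 4) = 0 := by decide
      rw [this]; ring
    · refine ⟨(1, ⟨c, h.hc⟩), ?_⟩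
      funext i
      rw [f4_apply, h.hx i, im4, lf_one]
      push_cast
      have : (4 : ZMod 4) = 0 := by decide
      rw [this]; ring
  · rintro ⟨⟨m, c⟩, rfl⟩
    have hm : m = 0 ∨ m = 1 := by
      have : ∀ a : ZMod 2, a = 0 ∨ a = 1 := by decide
      exact this m
    rcases hm with rfl | rfl
    · refine ⟨⟨fun i => 2 * lf ((c : Cfsg.GolayPt → ZMod 2) i) + 4 * (0 : Cfsg.GolayPt → ℤ) i,
        mem_LL.2 (even_mem c.2 (by simp) (fun i => rfl))⟩, ?_⟩
      funext i
      rw [f4_apply, im4, lf_zero]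
      simp
    · refine ⟨⟨fun i => 1 + 2 * lf ((c : Cfsg.GolayPt → ZMod 2) i) + 4 * (Pi.single none (-1) : Cfsg.GolayPt → ℤ) i,
        mem_LL.2 ⟨1, c, Pi.single none (-1), c.2, fun i => rfl, by rw [sum_single_pt]; norm_num⟩⟩, ?_⟩
      funext i
      rw [f4_apply, im4, lf_one]
      push_cast
      have : (4 : ZMod 4) = 0 := by decide
      rw [this]; ring

theorem card_range : Nat.card f4.range = 8192 := by
  have h : Nat.card (Set.range im4) = 8192 := by
    rw [Nat.card_range_of_injective im4_inj, Nat.card_prod, card_code, Nat.card_eq_fintype_card, ZMod.card]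
  rw [← h]
  exact Nat.card_congr (Equiv.setCongr f4_range)

/-- the subgroup of order two -/
def T2 : AddSubgroup (Cfsg.GolayPt → ZMod 4) := AddSubgroup.zmultiples (fun _ => 2)

theorem T2_mem {v : Cfsg.GolayPt → ZMod 4} : v ∈ T2 ↔ v = 0 ∨ v = fun _ => 2 := by
  have h2 : addOrderOf (fun _ => 2 : Cfsg.GolayPt → ZMod 4) = 2 := by
    have : Fact (Nat.Prime 2) := ⟨Nat.prime_two⟩
    apply addOrderOf_eq_prime
    · funext i
      have : (2 : ℕ) • (2 : ZMod 4) = 0 := by decide
      exact this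
    · intro h
      have := congrFun h none
      revert this; decide
  constructor
  · intro h
    obtain ⟨k, hk⟩ := AddSubgroup.mem_zmultiples_iff.1 h
    rcases Int.even_or_odd' k with ⟨l, rfl | rfl⟩
    · left
      rw [← hk]
      funext i
      have h0 : (2 : ℤ) • (2 : ZMod 4) = 0 := by decide
      change (2 * l) • (2 : ZMod 4) = 0
      rw [mul_comm, mul_smul, h0, smul_zero]
    · right
      rw [← hk]
      funext i
      have h0 : (2 : ℤ) • (2 : ZMod 4) = 0 := by decide
      change (2 * l + 1) • (2 : ZMod 4) = 2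
      rw [add_smul, mul_comm, mul_smul, h0, smul_zero, one_smul, zero_add]
  · rintro (rfl | rfl)
    · exact zero_mem _
    · exact AddSubgroup.mem_zmultiples _

theorem T2_card : Nat.card T2 = 2 := by
  have h2 : addOrderOf (fun _ => 2 : Cfsg.GolayPt → ZMod 4) = 2 := by
    have : Fact (Nat.Prime 2) := ⟨Nat.prime_two⟩
    apply addOrderOf_eq_prime
    · funext i
      have : (2 : ℕ) • (2 : ZMod 4) = 0 := by decide
      exact this
    · intro h
      have := congrFun h none
      revert this; decide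
  rw [T2, Nat.card_zmultiples, h2]

theorem T2_le : T2 ≤ f4.range := by
  intro v hv
  rw [← SetLike.mem_coe, f4_range]
  rcases T2_mem.1 hv with rfl | rfl
  · refine ⟨(0, 0), ?_⟩
    funext i
    rw [im4]
    change ((lf 0 + 2 * lf 0 : ℤ) : ZMod 4) = 0
    rw [lf_zero]; decide
  · have h1 : (1 : Cfsg.GolayPt → ZMod 2) ∈ Cfsg.golayCode := Submodule.subset_span (Or.inr rfl)
    refine ⟨(0, ⟨1, h1⟩), ?_⟩
    funext i
    rw [im4]
    change ((lf 0 + 2 * lf 1 : ℤ) : ZMod 4) = 2
    rw [lf_zero, lf_one]; decide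

/-- The Leech lattice of the definitions has an additive subgroup A containing twice the lattice, of index 2^12 in the lattice, all of whose vectors have squared length divisible by 32: the invariant quadratic form 'squared length over 16 modulo 2' on the lattice modulo twice the lattice (a 24-dimensional space over the field with two elements) vanishes on a 12-dimensional subspace, so it is of plus type. -/
theorem result : ∃ A : AddSubgroup (Cfsg.GolayPt → ℤ), A ≤ Cfsg.leechLattice ∧ (∀ v ∈ Cfsg.leechLattice, (2 : ℤ) • v ∈ A) ∧ (A.addSubgroupOf Cfsg.leechLattice).index = 2 ^ 12 ∧ ∀ v ∈ A, (32 : ℤ) ∣ Cfsg.sqNorm v := by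
  refine ⟨(T2.comap f4).map Cfsg.leechLattice.subtype, ?_, ?_, ?_, ?_⟩
  · rintro _ ⟨x, -, rfl⟩
    exact x.2
  · intro v hv
    refine ⟨(2 : ℤ) • ⟨v, hv⟩, ?_, rfl⟩
    change f4 ((2 : ℤ) • ⟨v, hv⟩) ∈ T2
    rw [map_zsmul, T2_mem]
    obtain ⟨⟨m, c⟩, h⟩ : f4 ⟨v, hv⟩ ∈ Set.range im4 := by rw [← f4_range]; exact ⟨_, rfl⟩
    rw [← h]
    have hm : m = 0 ∨ m = 1 := by
      have : ∀ a : ZMod 2, a = 0 ∨ a = 1 := by decide
      exact this m
    have key0 : ∀ b : ZMod 2, (2 : ℤ) • (((lf 0 + 2 * lf b : ℤ) : ZMod 4)) = 0 := by decide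
    have key1 : ∀ b : ZMod 2, (2 : ℤ) • (((lf 1 + 2 * lf b : ℤ) : ZMod 4)) = 2 := by decide
    rcases hm with rfl | rfl
    · left; funext i; exact key0 _
    · right; funext i; exact key1 _
  · have e : (((T2.comap f4).map Cfsg.leechLattice.subtype).addSubgroupOf Cfsg.leechLattice) = T2.comap f4 := by
      rw [AddSubgroup.addSubgroupOf]
      exact AddSubgroup.comap_map_eq_self_of_injective (AddSubgroup.subtype_injective _) _
    rw [e, AddSubgroup.index_comap]
    have h1 : (T2.addSubgroupOf f4.range).index * Nat.card (T2.addSubgroupOf f4.range) = Nat.card f4.range :=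
      AddSubgroup.index_mul_card _
    have h2 : Nat.card (T2.addSubgroupOf f4.range) = 2 := by
      rw [← T2_card]
      exact Nat.card_congr (AddSubgroup.addSubgroupOfEquivOfLe T2_le).toEquiv
    rw [h2, card_range] at h1
    change (T2.addSubgroupOf f4.range).index = 4096
    omega
  · rintro _ ⟨x, hx, rfl⟩
    change f4 x ∈ T2 at hx
    change (32 : ℤ) ∣ Cfsg.sqNorm (x : Cfsg.GolayPt → ℤ)
    rcases cases_mem (mem_LL.1 x.2) with ⟨c, y, h⟩ | ⟨c, y, h⟩
    · rcases T2_mem.1 hx with h0 | h0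
      · have hy : ∀ i, (x : Cfsg.GolayPt → ℤ) i = 4 * y i := by
          intro i
          have h1 := congrFun h0 i
          rw [f4_apply] at h1
          have h2 := (ZMod.intCast_zmod_eq_zero_iff_dvd _ 4).1 h1
          have h3 := h.hx i
          rcases lf_cases (c i) with e | e <;> rw [e] at h3 <;> push_cast at h2 <;> omega
        have h5 : ∀ i, (x : Cfsg.GolayPt → ℤ) i ^ 2 = 16 * (y i * (y i - 1)) + 16 * y i := by
          intro i; rw [hy i]; ring
        rw [Cfsg.sqNorm, Finset.sum_congr rfl fun i _ => h5 i, Finset.sum_add_distrib, ← Finset.mul_sum, ← Finset.mul_sum]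
        have h6 : (2 : ℤ) ∣ ∑ i, y i * (y i - 1) := Finset.dvd_sum fun i _ => (Int.even_mul_pred_self (y i)).two_dvd
        have h7 := h.hy
        omega
      · have hy : ∀ i, (x : Cfsg.GolayPt → ℤ) i = 2 + 4 * y i := by
          intro i
          have h1 := congrFun h0 i
          rw [f4_apply] at h1
          have h1' : (((x : Cfsg.GolayPt → ℤ) i - 2 : ℤ) : ZMod 4) = 0 := by
            rw [Int.cast_sub, h1]; decide
          have h2 := (ZMod.intCast_zmod_eq_zero_iff_dvd _ 4).1 h1'
          have h3 := h.hx i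
          rcases lf_cases (c i) with e | e <;> rw [e] at h3 <;> push_cast at h2 <;> omega
        have h5 : ∀ i, (x : Cfsg.GolayPt → ℤ) i ^ 2 = 16 * (y i * (y i + 1)) + 4 := by
          intro i; rw [hy i]; ring
        rw [Cfsg.sqNorm, Finset.sum_congr rfl fun i _ => h5 i, Finset.sum_add_distrib, ← Finset.mul_sum]
        have h6 : (2 : ℤ) ∣ ∑ i, y i * (y i + 1) := Finset.dvd_sum fun i _ => (Int.even_mul_succ_self (y i)).two_dvd
        have h8 : (∑ _i : Cfsg.GolayPt, (4 : ℤ)) = 96 := by
          rw [Finset.sum_const, Finset.card_univ, card_pt]; norm_num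
        rw [h8]
        omega
    · exfalso
      have h3 := h.hx none
      rcases T2_mem.1 hx with h0 | h0
      · have h1 := congrFun h0 none
        rw [f4_apply] at h1
        have h2 := (ZMod.intCast_zmod_eq_zero_iff_dvd _ 4).1 h1
        push_cast at h2
        omega
      · have h1 := congrFun h0 none
        rw [f4_apply] at h1
        have h1' : (((x : Cfsg.GolayPt → ℤ) none - 2 : ℤ) : ZMod 4) = 0 := by
          rw [Int.cast_sub, h1]; decide
        have h2 := (ZMod.intCast_zmod_eq_zero_iff_dvd _ 4).1 h1'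
        push_cast at h2
        omega

end Cfsg.Agent.S5553
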