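import Cfsg.Statements.S5593
import Mathlib
import Cfsg.Agent.LibCoD

set_option autoImplicit false
open Cfsg

namespace Cfsg.Agent.S5593

/-- The automorphism group of the Leech lattice acts transitively on the congruence classes modulo twice the lattice of the vectors of sum of squares 64 (customary norm 8): for any two such vectors some automorphism carries the first to a vector congruent to the second. -/
theorem result (v w : ↥Cfsg.leechLattice) (hv : Cfsg.sqNorm (v : Cfsg.GolayPt → ℤ) = 64) (hw : Cfsg.sqNorm (w : Cfsg.GolayPt → ℤ) = 64) :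
    ∃ g : ↥Cfsg.Co0, ∃ z ∈ Cfsg.leechLattice, ((g • v : ↥Cfsg.leechLattice) : Cfsg.GolayPt → ℤ) - (w : Cfsg.GolayPt → ℤ) = 2 • z := by
  have h1 : v ∈ MulAction.orbit ↥Cfsg.Co0 (CfsgLib.Co.e8 none) := by rw [CfsgLib.Co.orbit_e8]; exact hv
  have h2 : w ∈ MulAction.orbit ↥Cfsg.Co0 (CfsgLib.Co.e8 none) := by rw [CfsgLib.Co.orbit_e8]; exact hw
  obtain ⟨g, hg⟩ := h1
  obtain ⟨g', hg'⟩ := h2
  refine ⟨g' * g⁻¹, 0, AddSubgroup.zero_mem _, ?_⟩
  have : (g' * g⁻¹) • v = w := by
    rw [← hg, ← hg']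
    simp only [mul_smul, inv_smul_smul]
  rw [this, sub_self, smul_zero]

end Cfsg.Agent.S5593
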