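import Cfsg.Statements.S5594
import Mathlib
import Cfsg.Agent.LibCoJ
import Cfsg.Agent.S0372

set_option autoImplicit false
open Cfsg

namespace Cfsg.Agent.S5594

theorem q0_mem : Cfsg.qrWord 0 ∈ Cfsg.golayCode := Submodule.subset_span (Or.inl ⟨0, rfl⟩)

/-- the monomial element with square `-1` -/
noncomputable def jj : ↥Cfsg.Co0 := CfsgLib.Co.mono Cfsg.projInv Cfsg.Agent.S0372.result (Cfsg.qrWord 0) q0_mem

theorem key : ∀ i : Cfsg.GolayPt, Cfsg.projInv (Cfsg.projInv i) = i ∧ Cfsg.qrWord 0 i + Cfsg.qrWord 0 (Cfsg.projInv i) = 1 := by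
  decide +kernel

theorem jj_sq : jj * jj = CfsgLib.Co.negCo := by
  apply CfsgLib.Co.co_ext
  intro v
  apply Subtype.ext
  funext i
  rw [mul_smul, jj, CfsgLib.Co.mono_apply, CfsgLib.Co.mono_apply, CfsgLib.Co.negCo_apply, (key i).1, ← mul_assoc]
  have h : ∀ a b : ZMod 2, a + b = 1 → (1 - 2 * CfsgLib.Leech.lf a) * (1 - 2 * CfsgLib.Leech.lf b) = -1 := by decide
  rw [h _ _ (key i).2, neg_one_mul]; rfl

/-- The automorphism group of the Leech lattice contains the negation map, and the subgroup of order 2 it generates has no complement: the automorphism group is a non-split extension of its quotient by that subgroup (it is not the direct product of a group of order 2 with the first Conway group). -/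
theorem result :
    ∃ n : ↥Cfsg.Co0, (∀ v : ↥Cfsg.leechLattice, ((n • v : ↥Cfsg.leechLattice) : Cfsg.GolayPt → ℤ) = -(v : Cfsg.GolayPt → ℤ)) ∧
    ∀ K : Subgroup ↥Cfsg.Co0, ¬ (Subgroup.zpowers n).IsComplement' K := by
  refine ⟨CfsgLib.Co.negCo, fun v => rfl, fun K hK => ?_⟩
  have hne := CfsgLib.Co.negCo_ne
  have h2 : orderOf CfsgLib.Co.negCo = 2 := by
    haveI : Fact (Nat.Prime 2) := ⟨Nat.prime_two⟩
    apply orderOf_eq_prime _ hne
    apply CfsgLib.Co.co_ext
    intro v
    rw [sq, mul_smul, CfsgLib.Co.negCo_apply, CfsgLib.Co.negCo_apply, neg_neg, one_smul]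
  have hidx : K.index = 2 := by rw [hK.index_eq_card, Nat.card_zpowers, h2]
  have h3 : CfsgLib.Co.negCo ∈ K := by
    rw [← jj_sq]; exact Subgroup.mul_self_mem_of_index_two hidx _
  have h4 := hK.disjoint
  exact hne (Subgroup.disjoint_def.1 h4 (Subgroup.mem_zpowers _) h3)

end Cfsg.Agent.S5594
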