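import Cfsg.Statements.S5599
import Cfsg.Agent.LibSix28
import Cfsg.Agent.LibM24e

set_option autoImplicit false
open scoped Pointwise
open Cfsg

namespace Cfsg.Agent.S5599

/-- In the automorphism group of the length-24 code, the two-point Mathieu group (permutations of the code's group fixing the extra point and the residue 0) has index 2 in the setwise stabiliser of that pair of points, and an element of the code's group interchanging the two points normalises the two-point group and induces on it, by conjugation, an automorphism that is not inner. -/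
theorem result (g : Equiv.Perm Cfsg.GolayPt) (hg : g ∈ Cfsg.M24) (h₁ : g none = some 0) (h₂ : g (some 0) = none) : Cfsg.Spor.M22.relIndex (Cfsg.M24 ⊓ MulAction.stabilizer (Equiv.Perm Cfsg.GolayPt) ({none, some 0} : Finset Cfsg.GolayPt)) = 2 ∧ (∀ x ∈ Cfsg.Spor.M22, g * x * g⁻¹ ∈ Cfsg.Spor.M22) ∧ ¬ ∃ h ∈ Cfsg.Spor.M22, ∀ x ∈ Cfsg.Spor.M22, g * x * g⁻¹ = h * x * h⁻¹ := by
  classical
  have hne : (none : GolayPt) ≠ some 0 := by simp
  have hM22 : ∀ x, x ∈ Spor.M22 ↔ x ∈ M24 ∧ x none = none ∧ x (some 0) = some 0 := by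
    intro x
    show x ∈ (M24 ⊓ MulAction.stabilizer (Equiv.Perm GolayPt) (none : GolayPt)) ⊓
      MulAction.stabilizer (Equiv.Perm GolayPt) (some 0 : GolayPt) ↔ _
    rw [Subgroup.mem_inf, Subgroup.mem_inf]
    exact and_assoc
  have hK : ∀ x, x ∈ M24 ⊓ MulAction.stabilizer (Equiv.Perm GolayPt) ({none, some 0} : Finset GolayPt) ↔
      x ∈ M24 ∧ ((x none = none ∧ x (some 0) = some 0) ∨ (x none = some 0 ∧ x (some 0) = none)) := by
    intro x
    rw [Subgroup.mem_inf, CfsgLib.Restr28.stab_iff]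
    constructor
    · rintro ⟨h1, h2⟩
      refine ⟨h1, ?_⟩
      have h3 := (h2 none).2 (by simp)
      have h4 := (h2 (some 0)).2 (by simp)
      rw [Finset.mem_insert, Finset.mem_singleton] at h3 h4
      rcases h3 with h3 | h3 <;> rcases h4 with h4 | h4
      · exact absurd (x.injective (h3.trans h4.symm)) hne
      · exact Or.inl ⟨h3, h4⟩
      · exact Or.inr ⟨h3, h4⟩
      · exact absurd (x.injective (h3.trans h4.symm)) hne
    · rintro ⟨h1, h2⟩
      refine ⟨h1, ?_⟩
      intro y
      rw [Finset.mem_insert, Finset.mem_singleton, Finset.mem_insert, Finset.mem_singleton]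
      rcases h2 with ⟨h3, h4⟩ | ⟨h3, h4⟩
      · constructor
        · rintro (h | h)
          · exact Or.inl (x.injective (h.trans h3.symm))
          · exact Or.inr (x.injective (h.trans h4.symm))
        · rintro (rfl | rfl)
          · exact Or.inl h3
          · exact Or.inr h4
      · constructor
        · rintro (h | h)
          · exact Or.inr (x.injective (h.trans h4.symm))
          · exact Or.inl (x.injective (h.trans h3.symm))
        · rintro (rfl | rfl)
          · exact Or.inr h3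
          · exact Or.inl h4
  refine ⟨?_, ?_, ?_⟩
  · rw [Subgroup.relIndex, Subgroup.index_eq_two_iff]
    refine ⟨⟨g, (hK g).2 ⟨hg, Or.inr ⟨h₁, h₂⟩⟩⟩, ?_⟩
    rintro ⟨b, hb⟩
    rw [Subgroup.mem_subgroupOf, Subgroup.mem_subgroupOf]
    show Xor' (b * g ∈ Spor.M22) (b ∈ Spor.M22)
    rw [hM22, hM22]
    obtain ⟨hb1, hb2⟩ := (hK b).1 hb
    rw [Equiv.Perm.mul_apply, Equiv.Perm.mul_apply, h₁, h₂]
    rcases hb2 with ⟨h3, h4⟩ | ⟨h3, h4⟩
    · right
      refine ⟨⟨hb1, h3, h4⟩, ?_⟩
      rintro ⟨_, h5, _⟩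
      rw [h4] at h5
      exact hne h5.symm
    · left
      refine ⟨⟨mul_mem hb1 hg, h4, h3⟩, ?_⟩
      rintro ⟨_, h5, _⟩
      rw [h3] at h5
      exact hne h5.symm
  · intro x hx
    rw [hM22] at hx ⊢
    have i1 : g⁻¹ none = some 0 := by rw [Equiv.Perm.inv_eq_iff_eq, h₂]
    have i2 : g⁻¹ (some 0) = none := by rw [Equiv.Perm.inv_eq_iff_eq, h₁]
    refine ⟨mul_mem (mul_mem hg hx.1) (inv_mem hg), ?_, ?_⟩
    · rw [Equiv.Perm.mul_apply, Equiv.Perm.mul_apply, i1, hx.2.2, h₂]
    · rw [Equiv.Perm.mul_apply, Equiv.Perm.mul_apply, i2, hx.2.1, h₁]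
  · rintro ⟨h, hh, hconj⟩
    rw [hM22] at hh
    have hk : h⁻¹ * g ∈ M24 := mul_mem (inv_mem hh.1) hg
    have hcomm : ∀ x ∈ Spor.M22, x * (h⁻¹ * g) = (h⁻¹ * g) * x := by
      intro x hx
      have := hconj x hx
      calc x * (h⁻¹ * g) = h⁻¹ * (h * x * h⁻¹) * g := by group
        _ = h⁻¹ * (g * x * g⁻¹) * g := by rw [this]
        _ = (h⁻¹ * g) * x := by group
    have k1 : (h⁻¹ * g) none = some 0 := by
      rw [Equiv.Perm.mul_apply, h₁, Equiv.Perm.inv_eq_iff_eq, hh.2.2]
    have k2 : (h⁻¹ * g) (some 0) = none := by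
      rw [Equiv.Perm.mul_apply, h₂, Equiv.Perm.inv_eq_iff_eq, hh.2.1]
    have hfix : ∀ p, p ≠ none → p ≠ some 0 → (h⁻¹ * g) p = p := by
      intro p hp1 hp2
      by_contra hq
      have hq1 : (h⁻¹ * g) p ≠ none := by
        intro h3
        exact hp2 ((h⁻¹ * g).injective (h3.trans k2.symm))
      have hq2 : (h⁻¹ * g) p ≠ some 0 := by
        intro h3
        exact hp1 ((h⁻¹ * g).injective (h3.trans k1.symm))
      -- a fifth point
      have h4c : ({none, some 0, p, (h⁻¹ * g) p} : Finset GolayPt).card ≤ 4 := Finset.card_le_four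
      obtain ⟨r, hr⟩ : ∃ r, r ∉ ({none, some 0, p, (h⁻¹ * g) p} : Finset GolayPt) := by
        by_contra hcon
        push Not at hcon
        have h5 : (Finset.univ : Finset GolayPt) ⊆ {none, some 0, p, (h⁻¹ * g) p} := fun r _ => hcon r
        have h6 := Finset.card_le_card h5
        rw [CfsgLib.M24.card_univ_pt] at h6
        omega
      simp only [Finset.mem_insert, Finset.mem_singleton, not_or] at hr
      obtain ⟨x, hx, hxa⟩ := CfsgLib.Six28.agree5 (Equiv.swap ((h⁻¹ * g) p) r)
        (F := {none, some 0, p, (h⁻¹ * g) p}) (by omega)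
      have x1 : x none = none := by
        rw [hxa none (by simp)]
        exact Equiv.swap_apply_of_ne_of_ne hq1.symm (Ne.symm hr.1)
      have x2 : x (some 0) = some 0 := by
        rw [hxa (some 0) (by simp)]
        exact Equiv.swap_apply_of_ne_of_ne hq2.symm (Ne.symm hr.2.1)
      have x3 : x p = p := by
        rw [hxa p (by simp)]
        exact Equiv.swap_apply_of_ne_of_ne (Ne.symm hq) (Ne.symm hr.2.2.1)
      have x4 : x ((h⁻¹ * g) p) = r := by
        rw [hxa _ (by simp)]
        exact Equiv.swap_apply_left _ _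
      have h7 := hcomm x ((hM22 x).2 ⟨hx, x1, x2⟩)
      have h8 : (x * (h⁻¹ * g)) p = ((h⁻¹ * g) * x) p := by rw [h7]
      rw [Equiv.Perm.mul_apply, x4, Equiv.Perm.mul_apply (h⁻¹ * g) x, x3] at h8
      exact hr.2.2.2 h8
    have h1 : h⁻¹ * g = 1 := by
      apply CfsgLib.M24.eq_one_of_nine hk
      have h9 : Finset.univ \ {none, some 0} ⊆ Finset.univ.filter fun p => (h⁻¹ * g) p = p := by
        intro p hp
        simp only [Finset.mem_sdiff, Finset.mem_univ, true_and, Finset.mem_insert, Finset.mem_singleton, not_or] at hp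
        rw [Finset.mem_filter]
        exact ⟨Finset.mem_univ _, hfix p hp.1 hp.2⟩
      have h10 := Finset.card_le_card h9
      rw [Finset.card_sdiff_of_subset (Finset.subset_univ _), CfsgLib.M24.card_univ_pt, Finset.card_pair hne] at h10
      refine le_trans (by norm_num : 9 ≤ 24 - 2) (le_trans h10 (le_of_eq ?_))
      congr!
    rw [h1] at k1
    exact hne k1

end Cfsg.Agent.S5599
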