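import Cfsg.Statements.S5601
import Cfsg.Agent.LibEltE28

set_option autoImplicit false
open scoped Pointwise
open Cfsg

namespace Cfsg.Agent.S5601

open CfsgLib.M24 CfsgLib.Golay CfsgLib.Elt28 CfsgLib.EltD28 CfsgLib.EltE28

theorem three_zpowers {X : Subgroup ↥Cfsg.M24} (h : Nat.card X = 3) :
    ∃ x : ↥Cfsg.M24, x ≠ 1 ∧ ((x : ↥Cfsg.M24) : Equiv.Perm Cfsg.GolayPt) * x * x = 1 ∧ X = Subgroup.zpowers x := by
  haveI : Fact (Nat.Prime 3) := ⟨by norm_num⟩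
  have hne : X ≠ ⊥ := by
    rintro rfl
    rw [Subgroup.card_bot] at h; norm_num at h
  obtain ⟨x, hx, hx1⟩ := (Subgroup.ne_bot_iff_exists_ne_one.1 hne).imp (fun x hx => And.intro x.2 hx)
  have hx1' : (x : ↥Cfsg.M24) ≠ 1 := fun h => hx1 (Subtype.ext h)
  have ho : orderOf (x : ↥Cfsg.M24) ∣ 3 := by
    rw [← h]; exact Subgroup.orderOf_dvd_natCard X hx
  have ho3 : orderOf (x : ↥Cfsg.M24) = 3 := by
    rcases (Nat.dvd_prime (by norm_num)).1 ho with h | h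
    · exact absurd (orderOf_eq_one_iff.1 h) hx1'
    · exact h
  refine ⟨x, hx1', ?_, ?_⟩
  · have h3 : (x : ↥Cfsg.M24) ^ 3 = 1 := by rw [← ho3]; exact pow_orderOf_eq_one _
    have h4 : (x : ↥Cfsg.M24) * x * x = 1 := by rw [← h3, pow_succ, pow_two]
    exact congrArg (fun z : ↥Cfsg.M24 => (z : Equiv.Perm Cfsg.GolayPt)) h4
  · symm
    apply Subgroup.eq_of_le_of_card_ge
    · rw [Subgroup.zpowers_le]; exact hx
    · rw [h, Nat.card_zpowers, ho3]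

theorem fix_zpowers (x : ↥Cfsg.M24) : {p : Cfsg.GolayPt | ∀ y ∈ Subgroup.zpowers x,
    ((y : ↥Cfsg.M24) : Equiv.Perm Cfsg.GolayPt) p = p}.ncard = (fixPts x).card := by
  rw [← Set.ncard_coe_finset]
  congr 1
  ext p
  rw [Finset.mem_coe, mem_fixPts, Set.mem_setOf_eq]
  constructor
  · intro h; exact h x (Subgroup.mem_zpowers x)
  · rintro h y ⟨n, rfl⟩
    show ((x : Equiv.Perm Cfsg.GolayPt) ^ n) p = p
    exact Equiv.Perm.zpow_apply_eq_self_of_apply_eq_self h n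

theorem zp_card {x : ↥Cfsg.M24} (h1 : x ≠ 1) (h3 : ((x : ↥Cfsg.M24) : Equiv.Perm Cfsg.GolayPt) * x * x = 1) :
    Nat.card (Subgroup.zpowers x) = 3 := by
  haveI : Fact (Nat.Prime 3) := ⟨by norm_num⟩
  rw [Nat.card_zpowers]
  apply orderOf_eq_prime _ h1
  rw [pow_succ, pow_two]
  exact Subtype.ext h3

theorem conj_zp {x y h : ↥Cfsg.M24} (hxy : h * x * h⁻¹ = y) : MulAut.conj h • Subgroup.zpowers x = Subgroup.zpowers y := by
  have h1 := MonoidHom.map_zpowers (MulAut.conj h).toMonoidHom x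
  have h2 : (MulAut.conj h).toMonoidHom x = y := hxy
  rw [h2] at h1
  exact h1

theorem fixed_of_ne {x : Equiv.Perm Cfsg.GolayPt} (h : (fixPts x).card ≠ 0) : ∃ p, x p = p := by
  obtain ⟨p, hp⟩ := Finset.card_ne_zero.1 h
  exact ⟨p, mem_fixPts.1 hp⟩

theorem free_of {x : Equiv.Perm Cfsg.GolayPt} (h : (fixPts x).card = 0) (p : Cfsg.GolayPt) : x p ≠ p := by
  intro hp
  rw [Finset.card_eq_zero] at h
  have := mem_fixPts.2 hp
  rw [h] at this; simp at this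

theorem cube_uA : mkPerm uA * mkPerm uA * mkPerm uA = 1 := by
  have h := rep_mkPerm (valid_of_isM24 okuA)
  have h2 := (h.mul h).mul h
  rw [show cmp (cmp uA uA) uA = idL by decide +kernel] at h2
  exact h2.unique rep_one

theorem cube_uB : mkPerm uB * mkPerm uB * mkPerm uB = 1 := by
  have h := rep_mkPerm (valid_of_isM24 okuB)
  have h2 := (h.mul h).mul h
  rw [show cmp (cmp uB uB) uB = idL by decide +kernel] at h2
  exact h2.unique rep_one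

theorem fix_uA : (fixPts (mkPerm uA)).card = 6 := by
  have : (fixPts (mkPerm uA)).card = fc uA := card_fixed (rep_mkPerm (valid_of_isM24 okuA))
  rw [this]; decide +kernel

theorem fix_uB : (fixPts (mkPerm uB)).card = 0 := by
  have : (fixPts (mkPerm uB)).card = fc uB := card_fixed (rep_mkPerm (valid_of_isM24 okuB))
  rw [this]; decide +kernel

theorem ne_one_of_fix {x : Equiv.Perm Cfsg.GolayPt} (h : (fixPts x).card < 24) : x ≠ 1 := by
  rintro rfl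
  have : fixPts 1 = Finset.univ := by
    ext p; simp [mem_fixPts]
  rw [this, Finset.card_univ, card_pt] at h
  omega

/-- The group of the length-24 code has exactly two conjugacy classes of subgroups of order 3: a subgroup of order 3 fixes either exactly 6 of the 24 points or none of them, both cases occur, and two subgroups of order 3 with the same number of fixed points are conjugate. -/
theorem result : (∀ X : Subgroup ↥Cfsg.M24, Nat.card X = 3 → {p : Cfsg.GolayPt | ∀ x ∈ X, ((x : ↥Cfsg.M24) : Equiv.Perm Cfsg.GolayPt) p = p}.ncard = 6 ∨ {p : Cfsg.GolayPt | ∀ x ∈ X, ((x : ↥Cfsg.M24) : Equiv.Perm Cfsg.GolayPt) p = p}.ncard = 0) ∧ (∃ X : Subgroup ↥Cfsg.M24, Nat.card X = 3 ∧ {p : Cfsg.GolayPt | ∀ x ∈ X, ((x : ↥Cfsg.M24) : Equiv.Perm Cfsg.GolayPt) p = p}.ncard = 6) ∧ (∃ X : Subgroup ↥Cfsg.M24, Nat.card X = 3 ∧ {p : Cfsg.GolayPt | ∀ x ∈ X, ((x : ↥Cfsg.M24) : Equiv.Perm Cfsg.GolayPt)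 p = p}.ncard = 0) ∧ ∀ X Y : Subgroup ↥Cfsg.M24, Nat.card X = 3 → Nat.card Y = 3 → {p : Cfsg.GolayPt | ∀ x ∈ X, ((x : ↥Cfsg.M24) : Equiv.Perm Cfsg.GolayPt) p = p}.ncard = {p : Cfsg.GolayPt | ∀ x ∈ Y, ((x : ↥Cfsg.M24) : Equiv.Perm Cfsg.GolayPt) p = p}.ncard → ∃ k : ↥Cfsg.M24, MulAut.conj k • X = Y := by
  refine ⟨?_, ?_, ?_, ?_⟩
  · intro X hX
    obtain ⟨x, h1, h3, rfl⟩ := three_zpowers hX
    rw [fix_zpowers]
    exact (three_dich x.2 h3 (fun h => h1 (Subtype.ext h))).symm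
  · refine ⟨Subgroup.zpowers ⟨mkPerm uA, isM24_spec okuA⟩, ?_, ?_⟩
    · apply zp_card _ cube_uA
      intro h
      exact ne_one_of_fix (by rw [fix_uA]; norm_num) (congrArg (fun z : ↥Cfsg.M24 => (z : Equiv.Perm Cfsg.GolayPt)) h)
    · rw [fix_zpowers]; exact fix_uA
  · refine ⟨Subgroup.zpowers ⟨mkPerm uB, isM24_spec okuB⟩, ?_, ?_⟩
    · apply zp_card _ cube_uB
      intro h
      exact ne_one_of_fix (by rw [fix_uB]; norm_num) (congrArg (fun z : ↥Cfsg.M24 => (z : Equiv.Perm Cfsg.GolayPt)) h)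
    · rw [fix_zpowers]; exact fix_uB
  · intro X Y hX hY hXY
    obtain ⟨x, hx1, hx3, rfl⟩ := three_zpowers hX
    obtain ⟨y, hy1, hy3, rfl⟩ := three_zpowers hY
    rw [fix_zpowers, fix_zpowers] at hXY
    have hx1' : (x : Equiv.Perm Cfsg.GolayPt) ≠ 1 := fun h => hx1 (Subtype.ext h)
    have hy1' : (y : Equiv.Perm Cfsg.GolayPt) ≠ 1 := fun h => hy1 (Subtype.ext h)
    have key : ∃ t : Equiv.Perm Cfsg.GolayPt, (∃ h ∈ Cfsg.M24, h * x * h⁻¹ = t) ∧ ∃ k ∈ Cfsg.M24, k * y * k⁻¹ = t := by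
      by_cases h0 : (fixPts x).card = 0
      · obtain ⟨h, hh, _, e⟩ := three_B x.2 hx3 (free_of h0) none
        obtain ⟨k, hk, _, e'⟩ := three_B y.2 hy3 (free_of (hXY ▸ h0)) none
        exact ⟨_, ⟨h, hh, e⟩, ⟨k, hk, e'⟩⟩
      · obtain ⟨p, hp⟩ := fixed_of_ne h0
        obtain ⟨q, hq⟩ := fixed_of_ne (x := y) (by rw [← hXY]; exact h0)
        obtain ⟨h, hh, e⟩ := three_A x.2 hx3 hx1' hp
        obtain ⟨k, hk, e'⟩ := three_A y.2 hy3 hy1' hq
        exact ⟨_, ⟨h, hh, e⟩, ⟨k, hk, e'⟩⟩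
    obtain ⟨t, ⟨h, hh, e⟩, ⟨k, hk, e'⟩⟩ := key
    refine ⟨(⟨k, hk⟩ : ↥Cfsg.M24)⁻¹ * ⟨h, hh⟩, conj_zp (Subtype.ext ?_)⟩
    show k⁻¹ * h * x * (k⁻¹ * h)⁻¹ = y
    calc k⁻¹ * h * x * (k⁻¹ * h)⁻¹ = k⁻¹ * (h * x * h⁻¹) * k := by group
      _ = k⁻¹ * (k * y * k⁻¹) * k := by rw [e, e']
      _ = y := by group

end Cfsg.Agent.S5601
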