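import Cfsg.Statements.S5602
import Cfsg.Agent.LibEltM28

set_option autoImplicit false
open scoped Pointwise
open Cfsg

namespace Cfsg.Agent.S5602

open CfsgLib.M24 CfsgLib.Golay CfsgLib.Elt28 CfsgLib.EltD28 CfsgLib.EltE28 CfsgLib.EltM28 CfsgLib.Cnt28 CfsgLib.OrbG28

/-- An element of order 3 of the group of the length-24 code having exactly 6 fixed points maps to themselves exactly 21 octads, exactly 15 trios, exactly 16 sextets and exactly 20 dodecads. -/
theorem result (g : Equiv.Perm Cfsg.GolayPt) (hg : g ∈ Cfsg.M24) (h₃ : orderOf g = 3) (h₆ : (Finset.univ.filter fun p => g p = p).card = 6) : {o : Finset Cfsg.GolayPt | o ∈ Cfsg.octads ∧ g • o = o}.ncard = 21 ∧ {T : Finset (Finset Cfsg.GolayPt) | T ∈ Cfsg.trios ∧ g • T = T}.ncard = 15 ∧ {S : Finset (Finset Cfsg.GolayPt) | S ∈ Cfsg.sextets ∧ g • S = S}.ncard = 16 ∧ {d : Finset Cfsg.GolayPt | d ∈ Cfsg.dodecads ∧ g • d = d}.ncard = 20 := by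
  have hx3 : g * g * g = 1 := by
    have := pow_orderOf_eq_one g
    rw [h₃, pow_succ, pow_two] at this
    exact this
  have hx1 : g ≠ 1 := by rintro rfl; rw [orderOf_one] at h₃; norm_num at h₃
  have h6 : (fixPts g).card = 6 := h₆
  obtain ⟨p, hp⟩ := Finset.card_ne_zero.1 (show (fixPts g).card ≠ 0 by omega)
  obtain ⟨h, hh, e⟩ := three_A hg hx3 hx1 (mem_fixPts.1 hp)
  rw [oct_conj' hh, tri_conj' hh, sex_conj' hh, dod_conj' hh, e, oct_fixed (okAC_okA uA_ok) uAA_lt,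
    dod_fixed (okAC_okA uA_ok) uAA_lt, sex_fixed uA_ok uAC_lt, tri_fixed (okAC_okA uA_ok) uAA_lt]
  decide +kernel

end Cfsg.Agent.S5602
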