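import Cfsg.Statements.S5603
import Cfsg.Agent.LibEltM28

set_option autoImplicit false
open scoped Pointwise
open Cfsg

namespace Cfsg.Agent.S5603

open CfsgLib.M24 CfsgLib.Golay CfsgLib.Elt28 CfsgLib.EltD28 CfsgLib.EltE28 CfsgLib.EltM28 CfsgLib.Cnt28 CfsgLib.OrbG28

/-- A fixed-point-free element of order 3 of the group of the length-24 code maps to themselves exactly 7 sextets and exactly 15 trios. -/
theorem result (g : Equiv.Perm Cfsg.GolayPt) (hg : g ∈ Cfsg.M24) (h₃ : orderOf g = 3) (h₀ : ∀ p, g p ≠ p) : {S : Finset (Finset Cfsg.GolayPt) | S ∈ Cfsg.sextets ∧ g • S = S}.ncard = 7 ∧ {T : Finset (Finset Cfsg.GolayPt) | T ∈ Cfsg.trios ∧ g • T = T}.ncard = 15 := by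
  have hx3 : g * g * g = 1 := by
    have := pow_orderOf_eq_one g
    rw [h₃, pow_succ, pow_two] at this
    exact this
  obtain ⟨h, hh, _, e⟩ := three_B hg hx3 h₀ none
  rw [tri_conj' hh, sex_conj' hh, e, sex_fixed uB_ok uBC_lt, tri_fixed (okAC_okA uB_ok) uBA_lt]
  decide +kernel

end Cfsg.Agent.S5603
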