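import Cfsg.Statements.S5604
import Cfsg.Agent.LibSev28
import Cfsg.Agent.LibSylN28

set_option autoImplicit false
open scoped Pointwise
open Cfsg

namespace Cfsg.Agent.S5604

open CfsgLib.M24 CfsgLib.Golay CfsgLib.Elt28 CfsgLib.EltD28 CfsgLib.EltE28 CfsgLib.EltG28 CfsgLib.Sev28 CfsgLib.SylN28 Cfsg
open scoped Pointwise

noncomputable def x0 : ↥M24 := ⟨mkPerm g7, isM24_spec g7_M24⟩

theorem x0_card : Nat.card (Subgroup.zpowers x0) = 7 := by
  haveI : Fact (Nat.Prime 7) := ⟨by norm_num⟩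
  rw [Nat.card_zpowers]
  apply orderOf_eq_prime
  · exact Subtype.ext pow7
  · intro h
    exact g7_ne (congrArg Subtype.val h)

theorem cent_zp (x : ↥M24) (c : ↥M24) : c ∈ Subgroup.centralizer (Subgroup.zpowers x : Set ↥M24) ↔ c * x = x * c := by
  rw [Subgroup.mem_centralizer_iff]
  constructor
  · intro h; exact (h x (Subgroup.mem_zpowers x)).symm
  · rintro h y ⟨n, rfl⟩
    have : Commute c x := h
    exact (this.zpow_right n).eq.symm

theorem cent_card (x : ↥M24) {h : ↥M24} (hx : h * x0 * h⁻¹ = x) :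
    Nat.card ↥(Subgroup.centralizer (Subgroup.zpowers x : Set ↥M24)) = 42 := by
  rw [← cent_ncard, ← Nat.card_coe_set_eq]
  symm
  apply Nat.card_congr
  refine ⟨fun c => ⟨h * ⟨c.1, c.2.1⟩ * h⁻¹, ?_⟩, fun c => ⟨((h⁻¹ * c.1 * h : ↥M24) : Equiv.Perm GolayPt), ?_, ?_⟩, ?_, ?_⟩
  · rw [cent_zp, ← hx]
    have h2 : (⟨c.1, c.2.1⟩ : ↥M24) * x0 = x0 * ⟨c.1, c.2.1⟩ := Subtype.ext c.2.2
    calc h * ⟨c.1, c.2.1⟩ * h⁻¹ * (h * x0 * h⁻¹) = h * (⟨c.1, c.2.1⟩ * x0) * h⁻¹ := by group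
      _ = h * (x0 * ⟨c.1, c.2.1⟩) * h⁻¹ := by rw [h2]
      _ = _ := by group
  · exact (h⁻¹ * c.1 * h).2
  · have h1 := (cent_zp x c.1).1 c.2
    have h2 : (h⁻¹ * c.1 * h) * x0 = x0 * (h⁻¹ * c.1 * h) := by
      have hx' : x0 = h⁻¹ * x * h := by rw [← hx]; group
      rw [hx']
      calc h⁻¹ * c.1 * h * (h⁻¹ * x * h) = h⁻¹ * (c.1 * x) * h := by group
        _ = h⁻¹ * (x * c.1) * h := by rw [h1]
        _ = _ := by group
    exact congrArg Subtype.val h2
  · intro c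
    apply Subtype.ext
    show ((h⁻¹ * (h * ⟨c.1, c.2.1⟩ * h⁻¹) * h : ↥M24) : Equiv.Perm GolayPt) = c.1
    have : h⁻¹ * (h * ⟨c.1, c.2.1⟩ * h⁻¹) * h = (⟨c.1, c.2.1⟩ : ↥M24) := by group
    rw [this]
  · intro c
    apply Subtype.ext
    show h * (h⁻¹ * c.1 * h) * h⁻¹ = c.1
    group

/-- For a subgroup S of order 7 of the group of the length-24 code (a Sylow 7-subgroup): the normaliser of S has order 126, the centraliser of S has order 42 and is non-abelian, and the whole normaliser leaves some trio invariant. (These are the orders of a Frobenius group of order 21 times a symmetric group of degree 3; the isomorphism type itself is not asserted here.) -/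
theorem result (S : Subgroup ↥Cfsg.M24) (hS : Nat.card S = 7) : Nat.card ↥(Subgroup.normalizer (S : Set ↥Cfsg.M24)) = 126 ∧ Nat.card ↥(Subgroup.centralizer (S : Set ↥Cfsg.M24)) = 42 ∧ (∃ x ∈ Subgroup.centralizer (S : Set ↥Cfsg.M24), ∃ y ∈ Subgroup.centralizer (S : Set ↥Cfsg.M24), x * y ≠ y * x) ∧ ∃ T ∈ Cfsg.trios, ∀ n ∈ Subgroup.normalizer (S : Set ↥Cfsg.M24), ((n : ↥Cfsg.M24) : Equiv.Perm Cfsg.GolayPt) • T = T := by
  have hM : Nat.card ↥M24 = 244823040 := card_M24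
  have h49 : ¬ 7 * 7 ∣ Nat.card ↥M24 := by rw [hM]; norm_num
  obtain ⟨h, hh⟩ := conj_of_card (p := 7) (by norm_num) x0_card hS h49
  have hzp : Subgroup.zpowers (h * x0 * h⁻¹) = S := by
    rw [← hh]
    have h1 := MonoidHom.map_zpowers (MulAut.conj h).toMonoidHom x0
    exact h1.symm
  subst hzp
  obtain ⟨⟨j, hj, hjc⟩, hmod⟩ := normalizer_arith (p := 7) (by norm_num) hS h49
  have hC := cent_card (h * x0 * h⁻¹) rfl
  rw [hC] at hjc
  have hmul := Subgroup.card_mul_index (Subgroup.normalizer (Subgroup.zpowers (h * x0 * h⁻¹) : Set ↥M24))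
  rw [hM, hjc] at hmul
  have hj3 : j = 3 := by
    have hj6 : j ≤ 6 := Nat.le_of_dvd (by norm_num) hj
    have hm : (Subgroup.normalizer (Subgroup.zpowers (h * x0 * h⁻¹) : Set ↥M24)).index % 7 = 1 := hmod
    generalize (Subgroup.normalizer (Subgroup.zpowers (h * x0 * h⁻¹) : Set ↥M24)).index = n at *
    interval_cases j <;> omega
  refine ⟨by rw [hjc, hj3], hC, ?_, ?_⟩
  · have hxy := cxy_check
    simp only [Bool.and_eq_true] at hxy
    obtain ⟨⟨⟨⟨h1, h2⟩, h3⟩, h4⟩, h5⟩ := hxy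
    have rx := rep_mkPerm (valid_of_isM24 h1)
    have ry := rep_mkPerm (valid_of_isM24 h2)
    let X : ↥M24 := ⟨mkPerm cx, isM24_spec h1⟩
    let Y : ↥M24 := ⟨mkPerm cy, isM24_spec h2⟩
    have hX : X * x0 = x0 * X := Subtype.ext (comm_of_commB rx rep7 h3)
    have hY : Y * x0 = x0 * Y := Subtype.ext (comm_of_commB ry rep7 h4)
    refine ⟨h * X * h⁻¹, ?_, h * Y * h⁻¹, ?_, ?_⟩
    · rw [cent_zp]
      calc h * X * h⁻¹ * (h * x0 * h⁻¹) = h * (X * x0) * h⁻¹ := by group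
        _ = h * (x0 * X) * h⁻¹ := by rw [hX]
        _ = _ := by group
    · rw [cent_zp]
      calc h * Y * h⁻¹ * (h * x0 * h⁻¹) = h * (Y * x0) * h⁻¹ := by group
        _ = h * (x0 * Y) * h⁻¹ := by rw [hY]
        _ = _ := by group
    · intro hxy
      have h6 : X * Y = Y * X := by
        calc X * Y = h⁻¹ * (h * X * h⁻¹ * (h * Y * h⁻¹)) * h := by group
          _ = h⁻¹ * (h * Y * h⁻¹ * (h * X * h⁻¹)) * h := by rw [hxy]
          _ = Y * X := by group
      rw [commB_of rx ry (congrArg Subtype.val h6)] at h5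
      exact absurd h5 (by decide)
  · obtain ⟨T, hT, hTo⟩ := fixed_octads
    refine ⟨(h : Equiv.Perm GolayPt) • T, CfsgLib.OrbG28.trios_inv h T hT, ?_⟩
    have hmem : ∀ o : Finset GolayPt, o ∈ (h : Equiv.Perm GolayPt) • T ↔
        (o ∈ octads ∧ ((h * x0 * h⁻¹ : ↥M24) : Equiv.Perm GolayPt) • o = o) := by
      intro o
      rw [← Finset.inv_smul_mem_iff, hTo]
      constructor
      · rintro ⟨h1, h2⟩
        have h3 := CfsgLib.OrbG28.octads_inv h _ h1
        have h3' : (h : Equiv.Perm GolayPt) • ((h : Equiv.Perm GolayPt)⁻¹ • o) ∈ octads := h3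
        rw [smul_inv_smul] at h3'
        refine ⟨h3', ?_⟩
        show ((h : Equiv.Perm GolayPt) * mkPerm g7 * (h : Equiv.Perm GolayPt)⁻¹) • o = o
        rw [mul_smul, mul_smul, h2, smul_inv_smul]
      · rintro ⟨h1, h2⟩
        have h3 := CfsgLib.OrbG28.octads_inv h⁻¹ _ h1
        refine ⟨h3, ?_⟩
        have h2' : ((h : Equiv.Perm GolayPt) * mkPerm g7 * (h : Equiv.Perm GolayPt)⁻¹) • o = o := h2
        rw [mul_smul, mul_smul, ← eq_inv_smul_iff (g := (h : Equiv.Perm GolayPt))] at h2'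
        exact h2'
    intro n hn
    have key : ∀ n ∈ Subgroup.normalizer (Subgroup.zpowers (h * x0 * h⁻¹) : Set ↥M24), ∀ o : Finset GolayPt,
        o ∈ (h : Equiv.Perm GolayPt) • T → (n : Equiv.Perm GolayPt) • o ∈ (h : Equiv.Perm GolayPt) • T := by
      intro n hn o ho
      rw [hmem] at ho ⊢
      refine ⟨CfsgLib.OrbG28.octads_inv n _ ho.1, ?_⟩
      have h1 : n⁻¹ * (h * x0 * h⁻¹) * n ∈ Subgroup.zpowers (h * x0 * h⁻¹) := by
        have h2 := inv_mem hn
        rw [Subgroup.mem_normalizer_iff] at h2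
        have h3 := (h2 (h * x0 * h⁻¹)).1 (Subgroup.mem_zpowers _)
        rwa [inv_inv] at h3
      obtain ⟨m, hm⟩ := h1
      have h4 : ((h * x0 * h⁻¹ : ↥M24)) * n = n * (h * x0 * h⁻¹) ^ m := by
        have hm' : (h * x0 * h⁻¹) ^ m = n⁻¹ * (h * x0 * h⁻¹) * n := hm
        rw [hm']; group
      have h5 : ((h * x0 * h⁻¹ : ↥M24)) • (n • o) = n • o := by
        rw [smul_smul, h4, mul_smul]
        have h6 : (h * x0 * h⁻¹) • o = o := ho.2
        have h7 : (h * x0 * h⁻¹) ^ m • o = o := by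
          have : (h * x0 * h⁻¹) ∈ MulAction.stabilizer ↥M24 o := h6
          exact Subgroup.zpow_mem _ this m
        rw [h7]
      exact h5
    apply Finset.eq_of_subset_of_card_le
    · intro o ho
      rw [← Finset.inv_smul_mem_iff] at ho
      have := key n hn _ ho
      rwa [smul_inv_smul] at this
    · rw [Finset.card_smul_finset, Finset.card_smul_finset, Finset.card_smul_finset]

end Cfsg.Agent.S5604
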