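import Cfsg.Statements.S5605
import Cfsg.Agent.LibEltM28

set_option autoImplicit false
open scoped Pointwise
open Cfsg

namespace Cfsg.Agent.S5605

open CfsgLib.M24 CfsgLib.Golay CfsgLib.Elt28 CfsgLib.EltD28 CfsgLib.EltE28 CfsgLib.EltM28 CfsgLib.Cnt28 CfsgLib.OrbG28

/-- An involution of the group of the length-24 code with exactly 8 fixed points maps to themselves exactly 71 octads, exactly 99 trios and exactly 91 sextets. -/
theorem result (g : Equiv.Perm Cfsg.GolayPt) (hg : g ∈ Cfsg.M24) (h₂ : orderOf g = 2) (h₈ : (Finset.univ.filter fun p => g p = p).card = 8) : {o : Finset Cfsg.GolayPt | o ∈ Cfsg.octads ∧ g • o = o}.ncard = 71 ∧ {T : Finset (Finset Cfsg.GolayPt) | T ∈ Cfsg.trios ∧ g • T = T}.ncard = 99 ∧ {S : Finset (Finset Cfsg.GolayPt) | S ∈ Cfsg.sextets ∧ g • S = S}.ncard = 91 := by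
  have hx2 : g * g = 1 := by
    have := pow_orderOf_eq_one g
    rw [h₂, pow_two] at this
    exact this
  have hx1 : g ≠ 1 := by rintro rfl; rw [orderOf_one] at h₂; norm_num at h₂
  have h8 : (fixPts g).card = 8 := h₈
  obtain ⟨p, hp⟩ := Finset.card_ne_zero.1 (show (fixPts g).card ≠ 0 by omega)
  obtain ⟨h, hh, e⟩ := inv_A hg hx2 hx1 (mem_fixPts.1 hp)
  rw [oct_conj' hh, tri_conj' hh, sex_conj' hh, e, oct_fixed (okAC_okA tA_ok) tAA_lt,
    sex_fixed tA_ok tAC_lt, tri_fixed (okAC_okA tA_ok) tAA_lt]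
  decide +kernel

end Cfsg.Agent.S5605
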