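import Cfsg.Statements.S5606
import Cfsg.Agent.LibEltM28

set_option autoImplicit false
open scoped Pointwise
open Cfsg

namespace Cfsg.Agent.S5606

open CfsgLib.M24 CfsgLib.Golay CfsgLib.Elt28 CfsgLib.EltD28 CfsgLib.EltE28 CfsgLib.EltM28 CfsgLib.Cnt28 CfsgLib.OrbG28

/-- A fixed-point-free involution of the group of the length-24 code maps to themselves exactly 15 octads, exactly 75 trios and exactly 51 sextets. -/
theorem result (g : Equiv.Perm Cfsg.GolayPt) (hg : g ∈ Cfsg.M24) (h₂ : orderOf g = 2) (h₀ : ∀ p, g p ≠ p) : {o : Finset Cfsg.GolayPt | o ∈ Cfsg.octads ∧ g • o = o}.ncard = 15 ∧ {T : Finset (Finset Cfsg.GolayPt) | T ∈ Cfsg.trios ∧ g • T = T}.ncard = 75 ∧ {S : Finset (Finset Cfsg.GolayPt) | S ∈ Cfsg.sextets ∧ g • S = S}.ncard = 51 := by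
  have hx2 : g * g = 1 := by
    have := pow_orderOf_eq_one g
    rw [h₂, pow_two] at this
    exact this
  obtain ⟨h, hh, _, e⟩ := inv_B hg hx2 h₀ none
  rw [oct_conj' hh, tri_conj' hh, sex_conj' hh, e, oct_fixed (okAC_okA tB_ok) tBA_lt,
    sex_fixed tB_ok tBC_lt, tri_fixed (okAC_okA tB_ok) tBA_lt]
  decide +kernel

end Cfsg.Agent.S5606
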