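import Cfsg.Statements.S5607
import Cfsg.Agent.LibInvB28

set_option autoImplicit false
open scoped Pointwise
open Cfsg

namespace Cfsg.Agent.S5607

open CfsgLib.M24 CfsgLib.Golay CfsgLib.Elt28 CfsgLib.EltD28 CfsgLib.EltE28 CfsgLib.InvB28
open scoped Pointwise

/-- For a fixed-point-free involution t of the group of the length-24 code: its centraliser in that group has order 7680, is transitive on the 24 points, and is contained, together with t, in the stabiliser of some sextet. -/
theorem result (t : Equiv.Perm Cfsg.GolayPt) (ht : t ∈ Cfsg.M24) (h₂ : orderOf t = 2) (h₀ : ∀ p, t p ≠ p) : Nat.card {c : Equiv.Perm Cfsg.GolayPt // c ∈ Cfsg.M24 ∧ c * t = t * c} = 7680 ∧ (∀ p q : Cfsg.GolayPt, ∃ c ∈ Cfsg.M24, c * t = t * c ∧ c p = q) ∧ ∃ S ∈ Cfsg.sextets, t • S = S ∧ ∀ c ∈ Cfsg.M24, c * t = t * c → c • S = S := by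
  have ht2 : t * t = 1 := by
    have := pow_orderOf_eq_one t
    rw [h₂, pow_two] at this
    exact this
  have hOm : t ∈ Om := ⟨ht, ht2, h₀⟩
  refine ⟨card_centralizer hOm, ?_, ?_⟩
  · intro p q
    obtain ⟨c, hc, e1, e2⟩ := Om_trans hOm hOm p q
    refine ⟨c, hc, ?_, e2⟩
    rwa [mul_inv_eq_iff_eq_mul] at e1
  · obtain ⟨S, hS, h1, h2⟩ := canonical_sextet hOm
    have key : ∀ c ∈ Cfsg.M24, c * t = t * c → c • S = S := by
      intro c hc hct
      apply h2 _ (CfsgLib.Syn28.smul_mem_sextets hc hS)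
      intro u hu
      rw [← Finset.inv_smul_mem_iff] at hu
      have h3 := h1 _ hu
      have h4 : c⁻¹ * t = t * c⁻¹ := by
        calc c⁻¹ * t = c⁻¹ * (t * c) * c⁻¹ := by group
          _ = c⁻¹ * (c * t) * c⁻¹ := by rw [hct]
          _ = t * c⁻¹ := by group
      rw [smul_smul, ← h4, mul_smul] at h3
      have := MulAction.injective c⁻¹ h3
      exact this
    exact ⟨S, hS, key t ht rfl, key⟩

end Cfsg.Agent.S5607
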