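import Cfsg.Statements.S5608
import Cfsg.Agent.LibEltG28

set_option autoImplicit false
open scoped Pointwise
open Cfsg

namespace Cfsg.Agent.S5608

open CfsgLib.M24 CfsgLib.Golay CfsgLib.Elt28 CfsgLib.EltD28 CfsgLib.EltE28 CfsgLib.EltF28 CfsgLib.EltG28

/-- If an element of order 3 and an involution of the group of the length-24 code commute, then either the element of order 3 has exactly 6 fixed points and the involution exactly 8, or both are fixed-point-free. -/
theorem result (x s : Equiv.Perm Cfsg.GolayPt) (hx : x ∈ Cfsg.M24) (hs : s ∈ Cfsg.M24) (h₃ : orderOf x = 3) (h₂ : orderOf s = 2) (hc : Commute x s) : ((Finset.univ.filter fun p => x p = p).card = 6 ∧ (Finset.univ.filter fun p => s p = p).card = 8) ∨ ((Finset.univ.filter fun p => x p = p).card = 0 ∧ (Finset.univ.filter fun p => s p = p).card = 0) := by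
  have hx3 : x * x * x = 1 := by
    have := pow_orderOf_eq_one x
    rw [h₃, pow_succ, pow_two] at this
    exact this
  have hs2 : s * s = 1 := by
    have := pow_orderOf_eq_one s
    rw [h₂, pow_two] at this
    exact this
  have hx1 : x ≠ 1 := by rintro rfl; rw [orderOf_one] at h₃; norm_num at h₃
  have hs1 : s ≠ 1 := by rintro rfl; rw [orderOf_one] at h₂; norm_num at h₂
  rcases three_dich hx hx3 hx1 with h | h
  · rcases inv_dich hs hs2 hs1 with h' | h'
    · exact Or.inr ⟨h, h'⟩
    · exact (no_zero_eight hx3 hc h h').elim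
  · rcases inv_dich hs hs2 hs1 with h' | h'
    · exact (no_six_zero hx hs hx3 hx1 hs2 hc h h').elim
    · exact Or.inl ⟨h, h'⟩

end Cfsg.Agent.S5608
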