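import Cfsg.Statements.S5609
import Cfsg.Agent.LibOctPair28

set_option autoImplicit false
open scoped Pointwise
open Cfsg

namespace Cfsg.Agent.S5609

/-- In the graph on the 759 octads of the length-24 code in which two octads are adjacent when they are disjoint, the graph is connected (of diameter 3) and two distinct octads are at distance 1, 2 or 3 exactly when they meet in 0, 4 or 2 points respectively. -/
theorem result (o o' : Finset Cfsg.GolayPt) (ho : o ∈ Cfsg.octads) (ho' : o' ∈ Cfsg.octads) (hne : o ≠ o') : (Cfsg.blockGraph Cfsg.octads).Connected ∧ ((Cfsg.blockGraph Cfsg.octads).dist ⟨o, ho⟩ ⟨o', ho'⟩ = 1 ↔ (o ∩ o').card = 0) ∧ ((Cfsg.blockGraph Cfsg.octads).dist ⟨o, ho⟩ ⟨o', ho'⟩ = 2 ↔ (o ∩ o').card = 4) ∧ ((Cfsg.blockGraph Cfsg.octads).dist ⟨o, ho⟩ ⟨o', ho'⟩ = 3 ↔ (o ∩ o').card = 2) := by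
  classical
  have adj_iff : ∀ a b : ↥octads, (blockGraph octads).Adj a b ↔ Disjoint (a : Finset GolayPt) b := by
    intro a b
    rw [blockGraph, SimpleGraph.fromRel_adj]
    constructor
    · rintro ⟨_, h | h⟩
      · exact h
      · exact h.symm
    · intro h
      refine ⟨fun hab => ?_, Or.inl h⟩
      exact CfsgLib.Trio28.ne_of_disjoint a.2 h (congrArg Subtype.val hab)
  have d0 : ∀ a b : ↥octads, ((a : Finset GolayPt) ∩ b).card = 0 → (blockGraph octads).dist a b = 1 := by
    intro a b h
    rw [SimpleGraph.dist_eq_one_iff_adj, adj_iff, Finset.disjoint_iff_inter_eq_empty]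
    exact Finset.card_eq_zero.1 h
  have r4 : ∀ a b : ↥octads, ((a : Finset GolayPt) ∩ b).card = 4 →
      ∃ w : (blockGraph octads).Walk a b, w.length = 2 := by
    intro a b h
    obtain ⟨w, hw, h1, h2⟩ := CfsgLib.OctPair28.common_of_four a.2 b.2 h
    have e1 : (blockGraph octads).Adj a ⟨w, hw⟩ := (adj_iff _ _).2 h1
    have e2 : (blockGraph octads).Adj ⟨w, hw⟩ b := (adj_iff _ _).2 h2
    exact ⟨SimpleGraph.Walk.cons e1 (SimpleGraph.Walk.cons e2 SimpleGraph.Walk.nil), rfl⟩
  have r2 : ∀ a b : ↥octads, ((a : Finset GolayPt) ∩ b).card = 2 →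
      ∃ w : (blockGraph octads).Walk a b, w.length = 3 := by
    intro a b h
    obtain ⟨u, hu, v, hv, h1, h2, h3⟩ := CfsgLib.OctPair28.path_of_two a.2 b.2 h
    have e1 : (blockGraph octads).Adj a ⟨u, hu⟩ := (adj_iff _ _).2 h1
    have e2 : (blockGraph octads).Adj ⟨u, hu⟩ ⟨v, hv⟩ := (adj_iff _ _).2 h2
    have e3 : (blockGraph octads).Adj ⟨v, hv⟩ b := (adj_iff _ _).2 h3
    exact ⟨SimpleGraph.Walk.cons e1 (SimpleGraph.Walk.cons e2 (SimpleGraph.Walk.cons e3 SimpleGraph.Walk.nil)), rfl⟩
  have ne_of : ∀ a b : ↥octads, ((a : Finset GolayPt) ∩ b).card ≠ 8 → a ≠ b := by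
    rintro a b h rfl
    apply h
    rw [Finset.inter_self]; exact a.2.2
  have d4 : ∀ a b : ↥octads, ((a : Finset GolayPt) ∩ b).card = 4 → (blockGraph octads).dist a b = 2 := by
    intro a b h
    obtain ⟨w, hw⟩ := r4 a b h
    have h1 := SimpleGraph.dist_le w
    rw [hw] at h1
    have h2 : (blockGraph octads).dist a b ≠ 0 := by
      intro h3
      rw [(SimpleGraph.Walk.reachable w).dist_eq_zero_iff] at h3
      exact ne_of a b (by omega) h3
    have h3 : (blockGraph octads).dist a b ≠ 1 := by
      intro h3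
      rw [SimpleGraph.dist_eq_one_iff_adj, adj_iff, Finset.disjoint_iff_inter_eq_empty, ← Finset.card_eq_zero] at h3
      omega
    omega
  have d2 : ∀ a b : ↥octads, ((a : Finset GolayPt) ∩ b).card = 2 → (blockGraph octads).dist a b = 3 := by
    intro a b h
    obtain ⟨w, hw⟩ := r2 a b h
    have h1 := SimpleGraph.dist_le w
    rw [hw] at h1
    have h2 : (blockGraph octads).dist a b ≠ 0 := by
      intro h3
      rw [(SimpleGraph.Walk.reachable w).dist_eq_zero_iff] at h3
      exact ne_of a b (by omega) h3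
    have h3 : (blockGraph octads).dist a b ≠ 1 := by
      intro h3
      rw [SimpleGraph.dist_eq_one_iff_adj, adj_iff, Finset.disjoint_iff_inter_eq_empty, ← Finset.card_eq_zero] at h3
      omega
    have h4 : (blockGraph octads).dist a b ≠ 2 := by
      intro h5
      obtain ⟨p, hp⟩ := (SimpleGraph.Walk.reachable w).exists_walk_length_eq_dist
      rw [h5] at hp
      cases p with
      | nil => simp at hp
      | cons e1 q =>
        cases q with
        | nil => simp at hp
        | cons e2 q' =>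
          cases q' with
          | nil =>
            rw [adj_iff] at e1 e2
            exact CfsgLib.OctPair28.no_common_of_two a.2 b.2 h (Subtype.property _) e1 e2
          | cons e3 q'' => simp at hp
    omega
  have hconn : (blockGraph octads).Connected := by
    haveI : Nonempty ↥octads := ⟨⟨o, ho⟩⟩
    refine SimpleGraph.Connected.mk ?_
    intro a b
    by_cases hab : a = b
    · rw [hab]
    · have hab' : (a : Finset GolayPt) ≠ b := fun h => hab (Subtype.ext h)
      rcases CfsgLib.OctPair28.oct_inter a.2 b.2 hab' with h | h | h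
      · apply SimpleGraph.Adj.reachable
        rw [adj_iff, Finset.disjoint_iff_inter_eq_empty]
        exact Finset.card_eq_zero.1 h
      · obtain ⟨w, _⟩ := r2 a b h
        exact w.reachable
      · obtain ⟨w, _⟩ := r4 a b h
        exact w.reachable
  refine ⟨hconn, ?_⟩
  rcases CfsgLib.OctPair28.oct_inter ho ho' hne with h | h | h
  · have := d0 ⟨o, ho⟩ ⟨o', ho'⟩ h
    omega
  · have := d2 ⟨o, ho⟩ ⟨o', ho'⟩ h
    omega
  · have := d4 ⟨o, ho⟩ ⟨o', ho'⟩ h
    omega

end Cfsg.Agent.S5609
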