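import Cfsg.Statements.S5610
import Cfsg.Agent.LibOrbF28

set_option autoImplicit false
open scoped Pointwise
open Cfsg

namespace Cfsg.Agent.S5610

/-- The stabiliser of an octad in the group of the length-24 code has exactly three orbits on the 3795 trios, of sizes 15, 420 and 3360, and exactly three orbits on the 1771 sextets, of sizes 35, 840 and 896. -/
theorem result (o : Finset Cfsg.GolayPt) (ho : o ∈ Cfsg.octads) : (∃ X₁ ∈ Cfsg.trios, ∃ X₂ ∈ Cfsg.trios, ∃ X₃ ∈ Cfsg.trios, (MulAction.orbit ↥(MulAction.stabilizer Cfsg.M24 o) X₁).ncard = 15 ∧ (MulAction.orbit ↥(MulAction.stabilizer Cfsg.M24 o) X₂).ncard = 420 ∧ (MulAction.orbit ↥(MulAction.stabilizer Cfsg.M24 o) X₃).ncard = 3360 ∧ Cfsg.trios = MulAction.orbit ↥(MulAction.stabilizer Cfsg.M24 o) X₁ ∪ MulAction.orbit ↥(MulAction.stabilizer Cfsg.M24 o) X₂ ∪ MulAction.orbit ↥(MulAction.stabilizer Cfsg.M24 o) X₃) ∧ (∃ Y₁ ∈ Cfsg.sextets,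 ∃ Y₂ ∈ Cfsg.sextets, ∃ Y₃ ∈ Cfsg.sextets, (MulAction.orbit ↥(MulAction.stabilizer Cfsg.M24 o) Y₁).ncard = 35 ∧ (MulAction.orbit ↥(MulAction.stabilizer Cfsg.M24 o) Y₂).ncard = 840 ∧ (MulAction.orbit ↥(MulAction.stabilizer Cfsg.M24 o) Y₃).ncard = 896 ∧ Cfsg.sextets = MulAction.orbit ↥(MulAction.stabilizer Cfsg.M24 o) Y₁ ∪ MulAction.orbit ↥(MulAction.stabilizer Cfsg.M24 o) Y₂ ∪ MulAction.orbit ↥(MulAction.stabilizer Cfsg.M24 o) Y₃) := by
  open CfsgLib.OrbG28 CfsgLib.OrbD28 CfsgLib.OrbF28 CfsgLib.OrbAbs28 CfsgLib.Trio28 in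
  have ho' := ho
  rw [CfsgLib.OrbG28.octads_eq_orbit CfsgLib.OrbD28.o0_mem] at ho'
  obtain ⟨g, hg⟩ := ho'
  have hg' : g • CfsgLib.Golay.fset 8536111 = o := hg
  constructor
  · have htr := CfsgLib.OrbF28.dec_to
    have hoct := CfsgLib.OrbG28.octads_eq_orbit ho
    obtain ⟨Y, hY⟩ := htr.transfer hoct (m := ![15, 420, 3360]) (by
      rw [← CfsgLib.Trio28.trios_eq_orbit CfsgLib.OrbF28.T0_mem, ← hoct, CfsgLib.Trio28.trios_ncard,
        CfsgLib.OrbG28.octads_card]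
      decide)
    rw [← CfsgLib.Trio28.trios_eq_orbit CfsgLib.OrbF28.T0_mem] at hY
    exact CfsgLib.Trio28.Dec.out3 hY CfsgLib.OrbG28.trios_inv
  · have hd := CfsgLib.OrbD28.dec_os.smul CfsgLib.OrbG28.sextets_inv g
    rw [hg'] at hd
    exact CfsgLib.Trio28.Dec.out3 (n₁ := 35) (n₂ := 840) (n₃ := 896) hd CfsgLib.OrbG28.sextets_inv

end Cfsg.Agent.S5610
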