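import Cfsg.Statements.S5611
import Cfsg.Agent.LibOrbF28

set_option autoImplicit false
open scoped Pointwise
open Cfsg

namespace Cfsg.Agent.S5611

/-- The stabiliser of a sextet in the group of the length-24 code has exactly three orbits on the 759 octads, of sizes 15, 360 and 384, and exactly four orbits on the 3795 trios, of sizes 15, 180, 720 and 2880. -/
theorem result (S : Finset (Finset Cfsg.GolayPt)) (hS : S ∈ Cfsg.sextets) : (∃ X₁ ∈ Cfsg.octads, ∃ X₂ ∈ Cfsg.octads, ∃ X₃ ∈ Cfsg.octads, (MulAction.orbit ↥(MulAction.stabilizer Cfsg.M24 S) X₁).ncard = 15 ∧ (MulAction.orbit ↥(MulAction.stabilizer Cfsg.M24 S) X₂).ncard = 360 ∧ (MulAction.orbit ↥(MulAction.stabilizer Cfsg.M24 S) X₃).ncard = 384 ∧ Cfsg.octads = MulAction.orbit ↥(MulAction.stabilizer Cfsg.M24 S) X₁ ∪ MulAction.orbit ↥(MulAction.stabilizer Cfsg.M24 S) X₂ ∪ MulAction.orbit ↥(MulAction.stabilizer Cfsg.M24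 S) X₃) ∧ (∃ Y₁ ∈ Cfsg.trios, ∃ Y₂ ∈ Cfsg.trios, ∃ Y₃ ∈ Cfsg.trios, ∃ Y₄ ∈ Cfsg.trios, (MulAction.orbit ↥(MulAction.stabilizer Cfsg.M24 S) Y₁).ncard = 15 ∧ (MulAction.orbit ↥(MulAction.stabilizer Cfsg.M24 S) Y₂).ncard = 180 ∧ (MulAction.orbit ↥(MulAction.stabilizer Cfsg.M24 S) Y₃).ncard = 720 ∧ (MulAction.orbit ↥(MulAction.stabilizer Cfsg.M24 S) Y₄).ncard = 2880 ∧ Cfsg.trios = MulAction.orbit ↥(MulAction.stabilizer Cfsg.M24 S) Y₁ ∪ MulAction.orbit ↥(MulAction.stabilizer Cfsg.M24 S) Y₂ ∪ MulAction.orbit ↥(MulAction.stabilizer Cfsg.M24 S) Y₃ ∪ MulAction.orbit ↥(MulAction.stabilizer Cfsg.M24 S) Y₄) := by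
  have hsex := CfsgLib.OrbG28.sextets_eq_orbit hS
  constructor
  · obtain ⟨Y, hY⟩ := CfsgLib.OrbD28.dec_os.transfer hsex (m := ![15, 360, 384]) (by
      rw [← CfsgLib.OrbG28.octads_eq_orbit CfsgLib.OrbD28.o0_mem, ← hsex, CfsgLib.OrbG28.sextets_card,
        CfsgLib.OrbG28.octads_card]
      decide)
    rw [← CfsgLib.OrbG28.octads_eq_orbit CfsgLib.OrbD28.o0_mem] at hY
    exact CfsgLib.Trio28.Dec.out3 hY CfsgLib.OrbG28.octads_inv
  · obtain ⟨Y, hY⟩ := CfsgLib.OrbF28.dec_ts.transfer hsex (m := ![15, 180, 720, 2880]) (by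
      rw [← CfsgLib.Trio28.trios_eq_orbit CfsgLib.OrbF28.T0_mem, ← hsex, CfsgLib.Trio28.trios_ncard,
        CfsgLib.OrbG28.sextets_card]
      decide)
    rw [← CfsgLib.Trio28.trios_eq_orbit CfsgLib.OrbF28.T0_mem] at hY
    exact CfsgLib.Trio28.Dec.out4 hY CfsgLib.OrbG28.trios_inv

end Cfsg.Agent.S5611
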