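import Cfsg.Statements.S5612
import Cfsg.Agent.LibOrbF28

set_option autoImplicit false
open scoped Pointwise
open Cfsg

namespace Cfsg.Agent.S5612

/-- The stabiliser of a trio in the group of the length-24 code has exactly three orbits on the 759 octads, of sizes 3, 84 and 672, and exactly four orbits on the 1771 sextets, of sizes 7, 84, 336 and 1344. -/
theorem result (T : Finset (Finset Cfsg.GolayPt)) (hT : T ∈ Cfsg.trios) : (∃ X₁ ∈ Cfsg.octads, ∃ X₂ ∈ Cfsg.octads, ∃ X₃ ∈ Cfsg.octads, (MulAction.orbit ↥(MulAction.stabilizer Cfsg.M24 T) X₁).ncard = 3 ∧ (MulAction.orbit ↥(MulAction.stabilizer Cfsg.M24 T) X₂).ncard = 84 ∧ (MulAction.orbit ↥(MulAction.stabilizer Cfsg.M24 T) X₃).ncard = 672 ∧ Cfsg.octads = MulAction.orbit ↥(MulAction.stabilizer Cfsg.M24 T) X₁ ∪ MulAction.orbit ↥(MulAction.stabilizer Cfsg.M24 T) X₂ ∪ MulAction.orbit ↥(MulAction.stabilizer Cfsg.M24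 T) X₃) ∧ (∃ Y₁ ∈ Cfsg.sextets, ∃ Y₂ ∈ Cfsg.sextets, ∃ Y₃ ∈ Cfsg.sextets, ∃ Y₄ ∈ Cfsg.sextets, (MulAction.orbit ↥(MulAction.stabilizer Cfsg.M24 T) Y₁).ncard = 7 ∧ (MulAction.orbit ↥(MulAction.stabilizer Cfsg.M24 T) Y₂).ncard = 84 ∧ (MulAction.orbit ↥(MulAction.stabilizer Cfsg.M24 T) Y₃).ncard = 336 ∧ (MulAction.orbit ↥(MulAction.stabilizer Cfsg.M24 T) Y₄).ncard = 1344 ∧ Cfsg.sextets = MulAction.orbit ↥(MulAction.stabilizer Cfsg.M24 T) Y₁ ∪ MulAction.orbit ↥(MulAction.stabilizer Cfsg.M24 T) Y₂ ∪ MulAction.orbit ↥(MulAction.stabilizer Cfsg.M24 T) Y₃ ∪ MulAction.orbit ↥(MulAction.stabilizer Cfsg.M24 T) Y₄) := by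
  have hT' := hT
  rw [CfsgLib.Trio28.trios_eq_orbit CfsgLib.OrbF28.T0_mem] at hT'
  obtain ⟨g, hg⟩ := hT'
  have hg' : g • CfsgLib.OrbF28.T0 = T := hg
  constructor
  · have hd := CfsgLib.OrbF28.dec_to.smul CfsgLib.OrbG28.octads_inv g
    rw [hg'] at hd
    exact CfsgLib.Trio28.Dec.out3 (n₁ := 3) (n₂ := 84) (n₃ := 672) hd CfsgLib.OrbG28.octads_inv
  · have hd := CfsgLib.OrbF28.dec_ts.smul CfsgLib.OrbG28.sextets_inv g
    rw [hg'] at hd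
    exact CfsgLib.Trio28.Dec.out4 (n₁ := 7) (n₂ := 84) (n₃ := 336) (n₄ := 1344) hd CfsgLib.OrbG28.sextets_inv

end Cfsg.Agent.S5612
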