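import Cfsg.Statements.S5614
import Cfsg.Agent.LibHexad28

set_option autoImplicit false
open scoped Pointwise
open Cfsg

namespace Cfsg.Agent.S5614

/-- In the group of the length-24 code, the joint stabiliser of two octads meeting in exactly two points is isomorphic to the symmetric group of degree 6. -/
theorem result (o o' : Finset Cfsg.GolayPt) (ho : o ∈ Cfsg.octads) (ho' : o' ∈ Cfsg.octads) (h₂ : (o ∩ o').card = 2) : Nonempty (↥(MulAction.stabilizer Cfsg.M24 o ⊓ MulAction.stabilizer Cfsg.M24 o') ≃* Equiv.Perm (Fin 6)) := by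
  classical
  have h8 : o.card = 8 := ho.2
  have h8' : o'.card = 8 := ho'.2
  have hd : symmDiff o o' ∈ dodecads := by
    refine ⟨CfsgLib.Golay.symmDiff_mem_supports ho.1 ho'.1, ?_⟩
    have := CfsgLib.M24.card_symmDiff o o'
    omega
  have hoC : o ∩ symmDiff o o' = o \ o' := by
    ext p
    simp only [Finset.mem_inter, Finset.mem_symmDiff, Finset.mem_sdiff]
    tauto
  have hC : (o \ o').card = 6 := by
    have := Finset.card_sdiff_add_card_inter o o'
    omega
  obtain ⟨e⟩ := CfsgLib.Hexad28.hexad_equiv hd ho hoC hC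
  have heq : MulAction.stabilizer ↥M24 o ⊓ MulAction.stabilizer ↥M24 o' =
      MulAction.stabilizer ↥M24 (symmDiff o o') ⊓ MulAction.stabilizer ↥M24 (o \ o') := by
    ext g
    rw [Subgroup.mem_inf, Subgroup.mem_inf, MulAction.mem_stabilizer_iff, MulAction.mem_stabilizer_iff,
      MulAction.mem_stabilizer_iff, MulAction.mem_stabilizer_iff]
    constructor
    · rintro ⟨h1, h2⟩
      exact ⟨by rw [Finset.smul_finset_symmDiff, h1, h2], by rw [Finset.smul_finset_sdiff, h1, h2]⟩
    · rintro ⟨h1, h2⟩
      have h3 : g • o = o := by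
        apply CfsgLib.M24.octad_eq (CfsgLib.M24.smul_mem_octads g.2 ho) ho
        have h4 : o \ o' ⊆ g • o ∩ o := by
          intro p hp
          rw [Finset.mem_inter]
          refine ⟨?_, (Finset.mem_sdiff.1 hp).1⟩
          rw [← h2] at hp
          exact Finset.smul_finset_subset_smul_finset Finset.sdiff_subset hp
        have := Finset.card_le_card h4
        exact le_trans (by omega) this
      refine ⟨h3, ?_⟩
      have h5 : o' = symmDiff o (symmDiff o o') := by
        rw [symmDiff_symmDiff_cancel_left]
      rw [h5, Finset.smul_finset_symmDiff, h3, h1]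
  rw [heq]
  exact ⟨e⟩

end Cfsg.Agent.S5614
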