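import Cfsg.Statements.S5616
import Cfsg.Agent.LibTriad28

set_option autoImplicit false
open scoped Pointwise
open Cfsg

namespace Cfsg.Agent.S5616

open CfsgLib.Golay CfsgLib.M24 CfsgLib.Syn28 CfsgLib.Triad28 CfsgLib.Six28 in
theorem sum_inter {s : ℕ} (hS : sextetOf s ∈ sextets) (Y : Finset GolayPt) :
    ∑ t ∈ sextetOf s, (t ∩ Y).card = Y.card := by
  classical
  obtain ⟨t0, ht0⟩ := sextet_nonempty hS
  have e0 := eq_sextetOf hS ht0
  have h4 := hS.2.1 t0 ht0
  have h1 : Y = (sextetOf s).biUnion fun t => t ∩ Y := by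
    ext p
    rw [Finset.mem_biUnion]
    constructor
    · intro hp
      obtain ⟨u, hu, hus, hpu⟩ := exists_tetrad h4 p
      refine ⟨u, ?_, Finset.mem_inter.2 ⟨hpu, hp⟩⟩
      rw [e0, mem_sextetOf]; exact ⟨hu, hus⟩
    · rintro ⟨t, _, ht⟩
      exact (Finset.mem_inter.1 ht).2
  conv_rhs => rw [h1]
  rw [Finset.card_biUnion]
  intro t ht u hu htu
  rw [Function.onFun, Finset.disjoint_left]
  intro p hp hq
  exact htu (sextetOf_unique ht hu (Finset.mem_inter.1 hp).1 (Finset.mem_inter.1 hq).1)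

open CfsgLib.Golay CfsgLib.M24 CfsgLib.Syn28 CfsgLib.Triad28 CfsgLib.Six28 in
theorem class_iff {Y : Finset GolayPt} (hY : Y.card = 3) {S : Finset (Finset GolayPt)} (hS : S ∈ sextets) :
    ((S.filter fun t => (t ∩ Y).Nonempty).card = 1 ∧ ∃ t ∈ S, (Y ∩ t).card = 3) ∨
    ((S.filter fun t => (t ∩ Y).Nonempty).card = 2 ∧ ∃ t ∈ S, (Y ∩ t).card = 2) ∨
    ((S.filter fun t => (t ∩ Y).Nonempty).card = 3 ∧ ∀ t ∈ S, (Y ∩ t).card ≤ 1) := by
  classical
  obtain ⟨t1, h4, hSt⟩ := mem_sextets_iff.1 hS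
  have hsum : ∑ t ∈ S, (t ∩ Y).card = 3 := by
    rw [hSt, sum_inter (by rw [← hSt]; exact hS), hY]
  have hsumF : ∑ t ∈ S.filter (fun t => (t ∩ Y).Nonempty), (t ∩ Y).card = 3 := by
    rw [← hsum]
    apply Finset.sum_filter_of_ne
    intro t _ h
    rw [← Finset.card_pos]; omega
  have hpos : ∀ t ∈ S.filter (fun t => (t ∩ Y).Nonempty), 1 ≤ (t ∩ Y).card := by
    intro t ht
    have := (Finset.mem_filter.1 ht).2
    rw [← Finset.card_pos] at this
    exact this
  by_cases hall : ∀ t ∈ S, (Y ∩ t).card ≤ 1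
  · right; right
    refine ⟨?_, hall⟩
    have h1 : ∀ t ∈ S.filter (fun t => (t ∩ Y).Nonempty), (t ∩ Y).card = 1 := by
      intro t ht
      have h2 := hpos t ht
      have h3 := hall t (Finset.mem_filter.1 ht).1
      rw [Finset.inter_comm] at h3
      omega
    rw [Finset.sum_congr rfl h1, Finset.sum_const, smul_eq_mul, mul_one] at hsumF
    exact hsumF
  · push Not at hall
    obtain ⟨t, ht, h1⟩ := hall
    have h2 : (Y ∩ t).card ≤ Y.card := Finset.card_le_card Finset.inter_subset_left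
    have htF : t ∈ S.filter (fun t => (t ∩ Y).Nonempty) := by
      rw [Finset.mem_filter, ← Finset.card_pos, Finset.inter_comm]
      exact ⟨ht, by omega⟩
    have h3 := Finset.add_sum_erase _ (fun t => (t ∩ Y).card) htF
    rw [hsumF, Finset.inter_comm t Y] at h3
    have h4 : ((S.filter fun t => (t ∩ Y).Nonempty).erase t).card ≤
        ∑ u ∈ (S.filter fun t => (t ∩ Y).Nonempty).erase t, (u ∩ Y).card := by
      rw [Finset.card_eq_sum_ones]
      apply Finset.sum_le_sum
      intro u hu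
      exact hpos u (Finset.mem_of_mem_erase hu)
    have h5 := Finset.card_erase_of_mem htF
    have h6 : 0 < (S.filter fun t => (t ∩ Y).Nonempty).card := Finset.card_pos.2 ⟨t, htF⟩
    have h7 : (Y ∩ t).card = 3 ∨ (Y ∩ t).card = 2 := by omega
    rcases h7 with h7 | h7
    · left
      exact ⟨by omega, t, ht, h7⟩
    · right; left
      refine ⟨?_, t, ht, h7⟩
      have h8 : ((S.filter fun t => (t ∩ Y).Nonempty).erase t).card ≠ 0 := by
        intro h9
        rw [Finset.card_eq_zero] at h9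
        rw [h9, Finset.sum_empty] at h3
        omega
      omega

open CfsgLib.Golay CfsgLib.M24 CfsgLib.Syn28 CfsgLib.Triad28 CfsgLib.Six28 in
theorem count_class {Y : Finset GolayPt} (hY : Y.card = 3) (j : ℕ) (hj : j ≤ 4) (hj2 : 2 ≤ j) :
    {S : Finset (Finset GolayPt) | S ∈ sextets ∧ ∃ t ∈ S, (Y ∩ t).card = j}.ncard =
      Nat.choose 3 j * Nat.choose 21 (4 - j) := by
  classical
  have h1 := count_inter Y 4 j hj
  rw [hY] at h1
  rw [← h1]
  have h2 : {S : Finset (Finset GolayPt) | S ∈ sextets ∧ ∃ t ∈ S, (Y ∩ t).card = j} =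
      (fun t => sextetOf (sy t)) '' {U : Finset GolayPt | U.card = 4 ∧ (Y ∩ U).card = j} := by
    ext S
    constructor
    · rintro ⟨hS, t, ht, htj⟩
      exact ⟨t, ⟨hS.2.1 t ht, htj⟩, (eq_sextetOf hS ht).symm⟩
    · rintro ⟨t, ⟨h4, htj⟩, rfl⟩
      exact ⟨sextetOf_mem h4, t, mem_sextetOf.2 ⟨h4, rfl⟩, htj⟩
  rw [h2]
  apply Set.ncard_image_of_injOn
  rintro t ⟨ht4, htj⟩ u ⟨hu4, huj⟩ htu
  have htu' : sextetOf (sy t) = sextetOf (sy u) := htu
  have h3 : t ∈ sextetOf (sy u) := by rw [← htu']; exact mem_sextetOf.2 ⟨ht4, rfl⟩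
  by_contra hne
  have h5 := (union_octad ht4 hu4 hne (mem_sextetOf.1 h3).2).2
  have h6 : Disjoint (Y ∩ t) (Y ∩ u) := Disjoint.mono Finset.inter_subset_right Finset.inter_subset_right h5
  have h7 := Finset.card_union_of_disjoint h6
  have h8 : (Y ∩ t ∪ Y ∩ u).card ≤ Y.card := Finset.card_le_card (Finset.union_subset Finset.inter_subset_left Finset.inter_subset_left)
  omega

open CfsgLib.Golay CfsgLib.M24 CfsgLib.Syn28 CfsgLib.Triad28 CfsgLib.Six28 in
theorem conj_of_tetrads {Y t t' : Finset GolayPt} (ht : t.card = 4) (ht' : t'.card = 4)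
    {S S' : Finset (Finset GolayPt)} (hS : S ∈ sextets) (hS' : S' ∈ sextets) (htS : t ∈ S) (htS' : t' ∈ S')
    {g : ↥M24} (hY : g • Y = Y) (hg : g • t = t') : ∃ g ∈ M24, g • Y = Y ∧ g • S = S' := by
  have hg' : (g : Equiv.Perm GolayPt) • t = t' := hg
  have e1 := eq_sextetOf hS htS
  have e2 := eq_sextetOf hS' htS'
  have e3 := smul_sextetOf g.2 (t := t)
  rw [hg', ← e1, ← e2] at e3
  exact ⟨g, g.2, hY, e3⟩

/-- Let Y be a set of 3 of the 24 points. The sextets of the length-24 code whose tetrads meeting Y number 1, 2 or 3 are respectively 21, 630 and 1120 in number, and two sextets with the same number of tetrads meeting Y are conjugate under the setwise stabiliser of Y in the code's group. -/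
theorem result (Y : Finset Cfsg.GolayPt) (hY : Y.card = 3) : {S : Finset (Finset Cfsg.GolayPt) | S ∈ Cfsg.sextets ∧ (S.filter fun t => (t ∩ Y).Nonempty).card = 1}.ncard = 21 ∧ {S : Finset (Finset Cfsg.GolayPt) | S ∈ Cfsg.sextets ∧ (S.filter fun t => (t ∩ Y).Nonempty).card = 2}.ncard = 630 ∧ {S : Finset (Finset Cfsg.GolayPt) | S ∈ Cfsg.sextets ∧ (S.filter fun t => (t ∩ Y).Nonempty).card = 3}.ncard = 1120 ∧ ∀ S S' : Finset (Finset Cfsg.GolayPt), S ∈ Cfsg.sextets → S' ∈ Cfsg.sextets → (S.filter fun t => (t ∩ Y).Nonempty).card = (S'.filter fun t => (t ∩ Y).Nonempty).card → ∃ g ∈ Cfsg.M24, g • Y = Y ∧ g • S = S' := by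
  classical
  open CfsgLib.Golay CfsgLib.M24 CfsgLib.Syn28 CfsgLib.Triad28 CfsgLib.Six28 in
  have c1 : {S : Finset (Finset GolayPt) | S ∈ sextets ∧ (S.filter fun t => (t ∩ Y).Nonempty).card = 1} =
      {S : Finset (Finset GolayPt) | S ∈ sextets ∧ ∃ t ∈ S, (Y ∩ t).card = 3} := by
    ext S
    constructor
    · rintro ⟨hS, h⟩
      rcases class_iff hY hS with h' | h' | h'
      · exact ⟨hS, h'.2⟩
      · have := h'.1; omega
      · have := h'.1; omega
    · rintro ⟨hS, t, ht, h⟩
      rcases class_iff hY hS with h' | ⟨h', u, hu, huY⟩ | h'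
      · exact ⟨hS, h'.1⟩
      · exfalso
        by_cases hut : u = t
        · rw [hut] at huY; omega
        · have h5 := (CfsgLib.Syn28.union_octad (hS.2.1 u hu) (hS.2.1 t ht) hut
            ((CfsgLib.Syn28.sy_of_union (hS.2.1 u hu) (hS.2.1 t ht) (hS.2.2 u hu t ht hut)).1)).2
          have h6 : Disjoint (Y ∩ u) (Y ∩ t) := Disjoint.mono Finset.inter_subset_right Finset.inter_subset_right h5
          have h7 := Finset.card_union_of_disjoint h6
          have h8 : (Y ∩ u ∪ Y ∩ t).card ≤ Y.card :=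
            Finset.card_le_card (Finset.union_subset Finset.inter_subset_left Finset.inter_subset_left)
          omega
      · have := h'.2 t ht; omega
  have c2 : {S : Finset (Finset GolayPt) | S ∈ sextets ∧ (S.filter fun t => (t ∩ Y).Nonempty).card = 2} =
      {S : Finset (Finset GolayPt) | S ∈ sextets ∧ ∃ t ∈ S, (Y ∩ t).card = 2} := by
    ext S
    constructor
    · rintro ⟨hS, h⟩
      rcases class_iff hY hS with h' | h' | h'
      · have := h'.1; omega
      · exact ⟨hS, h'.2⟩
      · have := h'.1; omega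
    · rintro ⟨hS, t, ht, h⟩
      rcases class_iff hY hS with ⟨h', u, hu, huY⟩ | h' | h'
      · exfalso
        by_cases hut : u = t
        · rw [hut] at huY; omega
        · have h5 := (CfsgLib.Syn28.union_octad (hS.2.1 u hu) (hS.2.1 t ht) hut
            ((CfsgLib.Syn28.sy_of_union (hS.2.1 u hu) (hS.2.1 t ht) (hS.2.2 u hu t ht hut)).1)).2
          have h6 : Disjoint (Y ∩ u) (Y ∩ t) := Disjoint.mono Finset.inter_subset_right Finset.inter_subset_right h5
          have h7 := Finset.card_union_of_disjoint h6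
          have h8 : (Y ∩ u ∪ Y ∩ t).card ≤ Y.card :=
            Finset.card_le_card (Finset.union_subset Finset.inter_subset_left Finset.inter_subset_left)
          omega
      · exact ⟨hS, h'.1⟩
      · have := h'.2 t ht; omega
  have n1 : {S : Finset (Finset GolayPt) | S ∈ sextets ∧ (S.filter fun t => (t ∩ Y).Nonempty).card = 1}.ncard = 21 := by
    rw [c1, count_class hY 3 (by norm_num) (by norm_num)]; decide
  have n2 : {S : Finset (Finset GolayPt) | S ∈ sextets ∧ (S.filter fun t => (t ∩ Y).Nonempty).card = 2}.ncard = 630 := by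
    rw [c2, count_class hY 2 (by norm_num) (by norm_num)]; decide
  refine ⟨n1, n2, ?_, ?_⟩
  · have h1 : sextets = ({S : Finset (Finset GolayPt) | S ∈ sextets ∧ (S.filter fun t => (t ∩ Y).Nonempty).card = 1} ∪
        {S : Finset (Finset GolayPt) | S ∈ sextets ∧ (S.filter fun t => (t ∩ Y).Nonempty).card = 2}) ∪
        {S : Finset (Finset GolayPt) | S ∈ sextets ∧ (S.filter fun t => (t ∩ Y).Nonempty).card = 3} := by
      ext S
      constructor
      · intro hS
        rcases class_iff hY hS with h' | h' | h'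
        · exact Or.inl (Or.inl ⟨hS, h'.1⟩)
        · exact Or.inl (Or.inr ⟨hS, h'.1⟩)
        · exact Or.inr ⟨hS, h'.1⟩
      · rintro ((h | h) | h) <;> exact h.1
    have h2 := CfsgLib.Syn28.sextets_ncard
    rw [h1, Set.ncard_union_eq, Set.ncard_union_eq, n1, n2] at h2
    · omega
    · rw [Set.disjoint_left]
      rintro S ⟨_, h⟩ ⟨_, h'⟩
      omega
    · rw [Set.disjoint_left]
      rintro S (⟨_, h⟩ | ⟨_, h⟩) ⟨_, h'⟩ <;> omega
  · intro S S' hS hS' h
    have hun : ∀ t : Finset GolayPt, (Y ∪ t).card + (Y ∩ t).card = Y.card + t.card :=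
      fun t => Finset.card_union_add_card_inter Y t
    rcases class_iff hY hS with ⟨h', t, ht, htY⟩ | ⟨h', t, ht, htY⟩ | ⟨h', hall⟩
    · rcases class_iff hY hS' with ⟨h'', t', ht', htY'⟩ | ⟨h'', _⟩ | ⟨h'', _⟩
      · have e1 := hS.2.1 t ht
        have e2 := hS'.2.1 t' ht'
        have e3 := hun t
        obtain ⟨g, hg, hgt⟩ := CfsgLib.Triad28.pair5 (S := Y) (U := t) (S' := Y) (U' := t') rfl (e1.trans e2.symm)
          (htY.trans htY'.symm) (by omega)
        exact conj_of_tetrads e1 e2 hS hS' ht ht' hg hgt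
      · omega
      · omega
    · rcases class_iff hY hS' with ⟨h'', _⟩ | ⟨h'', t', ht', htY'⟩ | ⟨h'', _⟩
      · omega
      · have e1 := hS.2.1 t ht
        have e2 := hS'.2.1 t' ht'
        have e3 := hun t
        obtain ⟨g, hg, hgt⟩ := CfsgLib.Triad28.pair5 (S := Y) (U := t) (S' := Y) (U' := t') rfl (e1.trans e2.symm)
          (htY.trans htY'.symm) (by omega)
        exact conj_of_tetrads e1 e2 hS hS' ht ht' hg hgt
      · omega
    · rcases class_iff hY hS' with ⟨h'', _⟩ | ⟨h'', _⟩ | ⟨h'', hall'⟩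
      · omega
      · omega
      · -- choose tetrads meeting `Y` in one point
        have key : ∀ R ∈ sextets, (∀ t ∈ R, (Y ∩ t).card ≤ 1) → ∃ t ∈ R, (Y ∩ t).card = 1 ∧
            ¬ CfsgLib.Six28.Special (Y ∪ t) := by
          intro R hR hRall
          obtain ⟨p, hp⟩ : Y.Nonempty := by rw [← Finset.card_pos, hY]; norm_num
          obtain ⟨t0, ht0, hRt⟩ := CfsgLib.Syn28.mem_sextets_iff.1 hR
          obtain ⟨t, ht4, hts, hpt⟩ := CfsgLib.Syn28.exists_tetrad ht0 p
          have htR : t ∈ R := by rw [hRt, CfsgLib.Syn28.mem_sextetOf]; exact ⟨ht4, hts⟩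
          have h1 : (Y ∩ t).card = 1 := by
            have h2 := hRall t htR
            have h3 : 0 < (Y ∩ t).card := Finset.card_pos.2 ⟨p, Finset.mem_inter.2 ⟨hp, hpt⟩⟩
            omega
          refine ⟨t, htR, h1, ?_⟩
          rintro ⟨o, ho, hsub⟩
          have hto : t ⊆ o := Finset.subset_union_right.trans hsub
          have hYo : Y ⊆ o := Finset.subset_union_left.trans hsub
          have hc : (o \ t).card = 4 := by
            rw [Finset.card_sdiff_of_subset hto, show o.card = 8 from ho.2, ht4]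
          have hR2 : o \ t ∈ R := by
            rw [hRt, CfsgLib.Syn28.mem_sextetOf]
            refine ⟨hc, ?_⟩
            rw [← hts]
            refine (CfsgLib.Syn28.sy_of_union ht4 hc ?_).1.symm
            rw [Finset.union_sdiff_of_subset hto]; exact ho
          have h2 := hRall _ hR2
          have h3 : Y ∩ (o \ t) = Y \ t := by
            ext x
            rw [Finset.mem_inter, Finset.mem_sdiff, Finset.mem_sdiff]
            exact ⟨fun h => ⟨h.1, h.2.2⟩, fun h => ⟨h.1, hYo h.1, h.2⟩⟩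
          rw [h3] at h2
          have h4 := Finset.card_sdiff_add_card_inter Y t
          omega
        obtain ⟨t, ht, htY, hns⟩ := key S hS hall
        obtain ⟨t', ht', htY', hns'⟩ := key S' hS' hall'
        have e1 := hS.2.1 t ht
        have e2 := hS'.2.1 t' ht'
        have e3 := hun t
        obtain ⟨g, hg, hgt⟩ := CfsgLib.Triad28.pair6 (S := Y) (U := t) (S' := Y) (U' := t') rfl (e1.trans e2.symm)
          (htY.trans htY'.symm) (by omega) ⟨fun h => absurd h hns, fun h => absurd h hns'⟩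
        exact conj_of_tetrads e1 e2 hS hS' ht ht' hg hgt

end Cfsg.Agent.S5616
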