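import Cfsg.Statements.S5617
import Cfsg.Agent.LibOrbE28
import Cfsg.Agent.LibTrio28

set_option autoImplicit false
open scoped Pointwise
open Cfsg

namespace Cfsg.Agent.S5617

/-- The setwise stabiliser, in the group of the length-24 code, of a complementary pair of dodecads has exactly three orbits on the 1771 sextets, of sizes 396, 495 and 880. -/
theorem result (d : Finset Cfsg.GolayPt) (hd : d ∈ Cfsg.dodecads) : ∃ X₁ ∈ Cfsg.sextets, ∃ X₂ ∈ Cfsg.sextets, ∃ X₃ ∈ Cfsg.sextets, (MulAction.orbit ↥(MulAction.stabilizer Cfsg.M24 ({d, Finset.univ \ d} : Finset (Finset Cfsg.GolayPt))) X₁).ncard = 396 ∧ (MulAction.orbit ↥(MulAction.stabilizer Cfsg.M24 ({d, Finset.univ \ d} : Finset (Finset Cfsg.GolayPt))) X₂).ncard = 495 ∧ (MulAction.orbit ↥(MulAction.stabilizer Cfsg.M24 ({d, Finset.univ \ d} : Finset (Finset Cfsg.GolayPt))) X₃).ncard = 880 ∧ Cfsg.sextets = MulAction.orbit ↥(MulAction.stabilizer Cfsg.M24 ({d,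 Finset.univ \ d} : Finset (Finset Cfsg.GolayPt))) X₁ ∪ MulAction.orbit ↥(MulAction.stabilizer Cfsg.M24 ({d, Finset.univ \ d} : Finset (Finset Cfsg.GolayPt))) X₂ ∪ MulAction.orbit ↥(MulAction.stabilizer Cfsg.M24 ({d, Finset.univ \ d} : Finset (Finset Cfsg.GolayPt))) X₃ := by
  have hc : ({d, Finset.univ \ d} : Finset (Finset GolayPt)) = CfsgLib.OrbG28.cpl d := by
    rw [CfsgLib.OrbG28.cpl, Finset.compl_eq_univ_sdiff]
  rw [hc]
  have hd' := hd
  rw [CfsgLib.OrbG28.dodecads_eq_orbit CfsgLib.OrbE28.d0_mem'] at hd'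
  obtain ⟨g, hg⟩ := hd'
  have hg' : g • CfsgLib.OrbG28.cpl (CfsgLib.Golay.fset 8442831) = CfsgLib.OrbG28.cpl d := by
    rw [CfsgLib.OrbG28.smul_cpl]
    congr 1
  have hd2 := CfsgLib.OrbE28.dec_ds.smul CfsgLib.OrbG28.sextets_inv g
  rw [hg'] at hd2
  exact CfsgLib.Trio28.Dec.out3 (n₁ := 396) (n₂ := 495) (n₃ := 880) hd2 CfsgLib.OrbG28.sextets_inv

end Cfsg.Agent.S5617
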