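import Cfsg.Statements.S5618
import Cfsg.Agent.LibHexad28

set_option autoImplicit false
open scoped Pointwise
open Cfsg

namespace Cfsg.Agent.S5618

/-- For a dodecad d of the length-24 code and a hexad C on it (a 6-point intersection of d with an octad): the joint stabiliser of d and C in the code's group is isomorphic to the symmetric group of degree 6, and it acts faithfully both on the six points of C and on the six points of d outside C. -/
theorem result (d : Finset Cfsg.GolayPt) (hd : d ∈ Cfsg.dodecads) (C : Finset Cfsg.GolayPt) (hC : C ∈ Cfsg.hexadsOn d) : Nonempty (↥(MulAction.stabilizer Cfsg.M24 d ⊓ MulAction.stabilizer Cfsg.M24 C) ≃* Equiv.Perm (Fin 6)) ∧ (∀ g ∈ MulAction.stabilizer Cfsg.M24 d ⊓ MulAction.stabilizer Cfsg.M24 C, (∀ p ∈ C, ((g : ↥Cfsg.M24) : Equiv.Perm Cfsg.GolayPt) p = p) → g = 1) ∧ ∀ g ∈ MulAction.stabilizer Cfsg.M24 d ⊓ MulAction.stabilizer Cfsg.M24 C, (∀ p ∈ d \ C, ((g : ↥Cfsg.M24) : Equiv.Perm Cfsg.GolayPt) p = p) → g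 = 1 := by
  obtain ⟨hC6, o, ho, hoC⟩ := hC
  refine ⟨CfsgLib.Hexad28.hexad_equiv hd ho hoC hC6, ?_, ?_⟩
  · intro g hg h
    exact CfsgLib.Hexad28.hexad_faithful hd ho hoC hC6 (Subgroup.mem_inf.1 hg).1 h
  · intro g hg h
    exact CfsgLib.Hexad28.hexad_faithful' hd ho hoC hC6 (Subgroup.mem_inf.1 hg).1 h

end Cfsg.Agent.S5618
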