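import Cfsg.Statements.S5619
import Cfsg.Agent.LibM9H28
import Cfsg.Agent.LibHexad28
import Cfsg.Agent.LibDihedral

set_option autoImplicit false
open scoped Pointwise
open Cfsg

namespace Cfsg.Agent.S5619

/-- generator of the quaternion group -/
def QA : List ℕ := [0, 1, 2, 6, 22, 21, 14, 3, 15, 8, 11, 20, 9, 16, 7, 12, 13, 19, 10, 5, 18, 17, 4, 23]
/-- generator of the quaternion group -/
def QB : List ℕ := [0, 1, 2, 8, 16, 11, 9, 15, 14, 7, 19, 17, 3, 22, 12, 6, 4, 18, 5, 20, 21, 10, 13, 23]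

open CfsgLib.Golay CfsgLib.M24 in
theorem QA_ok : isM24 QA = true := by decide +kernel
open CfsgLib.Golay CfsgLib.M24 in
theorem QB_ok : isM24 QB = true := by decide +kernel

open CfsgLib.Golay CfsgLib.M24 in
theorem rel_of_lists {P Q : List ℕ} (hP : valid P = true) (hQ : valid Q = true) :
    ((List.range 24).all (fun i => Nat.beq (Q.getD (Q.getD i 0) 0) (P.getD (P.getD i 0) 0)) = true →
      mkPerm Q * mkPerm Q = mkPerm P * mkPerm P) ∧
    ((List.range 24).all (fun i => Nat.beq (P.getD (Q.getD (P.getD i 0) 0) 0) (Q.getD i 0)) = true →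
      mkPerm P * mkPerm Q * mkPerm P = mkPerm Q) := by
  constructor
  · intro h
    rw [List.all_eq_true] at h
    apply Equiv.ext
    intro p
    apply idx_injective
    rw [Equiv.Perm.mul_apply, Equiv.Perm.mul_apply, idx_mkPerm hQ, idx_mkPerm hQ, idx_mkPerm hP, idx_mkPerm hP]
    exact beq_iff.1 (h (idx p) (List.mem_range.2 (idx_lt p)))
  · intro h
    rw [List.all_eq_true] at h
    apply Equiv.ext
    intro p
    apply idx_injective
    rw [Equiv.Perm.mul_apply, Equiv.Perm.mul_apply, idx_mkPerm hP, idx_mkPerm hQ, idx_mkPerm hP, idx_mkPerm hQ]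
    exact beq_iff.1 (h (idx p) (List.mem_range.2 (idx_lt p)))

open CfsgLib.Golay CfsgLib.M24 in
theorem base_rel : (mkPerm QA * mkPerm QA) ≠ 1 ∧ (mkPerm QA * mkPerm QA) * (mkPerm QA * mkPerm QA) = 1 ∧
    mkPerm QB * mkPerm QB = mkPerm QA * mkPerm QA ∧ mkPerm QA * mkPerm QB * mkPerm QA = mkPerm QB := by
  have hA := valid_of_isM24 QA_ok
  have hB := valid_of_isM24 QB_ok
  refine ⟨?_, ?_, (rel_of_lists hA hB).1 (by decide +kernel), (rel_of_lists hA hB).2 (by decide +kernel)⟩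
  · intro h
    have h1 : idx ((mkPerm QA * mkPerm QA) (pt 3)) = idx (pt 3) := by rw [h]; rfl
    rw [Equiv.Perm.mul_apply, idx_mkPerm hA, idx_mkPerm hA, idx_pt 3 (by norm_num)] at h1
    revert h1
    decide
  · apply Equiv.ext
    intro p
    apply idx_injective
    rw [Equiv.Perm.mul_apply, Equiv.Perm.mul_apply, Equiv.Perm.mul_apply, idx_mkPerm hA, idx_mkPerm hA, idx_mkPerm hA,
      idx_mkPerm hA]
    have h : (List.range 24).all (fun i => Nat.beq (QA.getD (QA.getD (QA.getD (QA.getD i 0) 0) 0) 0) i) = true := by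
      decide +kernel
    rw [List.all_eq_true] at h
    exact beq_iff.1 (h (idx p) (List.mem_range.2 (idx_lt p)))

open CfsgLib.Golay CfsgLib.M24 in
/-- an embedding of five points from a list without repetition -/
theorem emb5 {a b c d e : GolayPt} (hab : a ≠ b) (hac : a ≠ c) (had : a ≠ d) (hae : a ≠ e) (hbc : b ≠ c)
    (hbd : b ≠ d) (hbe : b ≠ e) (hcd : c ≠ d) (hce : c ≠ e) (hde : d ≠ e) :
    ∃ x : Fin 5 ↪ GolayPt, x 0 = a ∧ x 1 = b ∧ x 2 = c ∧ x 3 = d ∧ x 4 = e := by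
  refine ⟨⟨![a, b, c, d, e], ?_⟩, rfl, rfl, rfl, rfl, rfl⟩
  intro i j hij
  fin_cases i <;> fin_cases j <;>
    first
      | rfl
      | (simp at hij; first | exact absurd hij (by assumption) | exact absurd hij.symm (by assumption))

/-- In the group of the length-24 code, the subgroup fixing a dodecad setwise and three of its points individually (a group of order 72) has a normal Sylow 3-subgroup that is elementary abelian of order 9, and its Sylow 2-subgroups are quaternion of order 8. -/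
theorem result (d : Finset Cfsg.GolayPt) (hd : d ∈ Cfsg.dodecads) (p q r : Cfsg.GolayPt) (hp : p ∈ d) (hq : q ∈ d) (hr : r ∈ d) (hpq : p ≠ q) (hpr : p ≠ r) (hqr : q ≠ r) : (∀ Q : Sylow 3 ↥(MulAction.stabilizer Cfsg.M24 d ⊓ MulAction.stabilizer Cfsg.M24 p ⊓ MulAction.stabilizer Cfsg.M24 q ⊓ MulAction.stabilizer Cfsg.M24 r), (Q : Subgroup ↥(MulAction.stabilizer Cfsg.M24 d ⊓ MulAction.stabilizer Cfsg.M24 p ⊓ MulAction.stabilizer Cfsg.M24 q ⊓ MulAction.stabilizer Cfsg.M24 r)).Normal ∧ Nat.card ↥Q = 9 ∧ ∀ x ∈ (Q : Subgroup ↥(MulAction.stabilizer Cfsg.M24 d ⊓ MulAction.stabilizer Cfsg.M24 p ⊓ MulAction.stabilizer Cfsg.M24 q ⊓ MulAction.stabilizer Cfsg.M24 r)), x ^ 3 = 1) ∧ ∀ P : Sylow 2 ↥(MulAction.stabilizer Cfsg.M24 d ⊓ MulAction.stabilizer Cfsg.M24 p ⊓ MulAction.stabilizer Cfsg.M24 q ⊓ MulAction.stabilizer Cfsg.M24 r), Nonempty (↥P ≃* QuaternionGroup 2) := by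
  classical
  have hd12 : d.card = 12 := hd.2
  -- the nine points
  have hpqr : ({p, q, r} : Finset GolayPt).card = 3 := by
    rw [Finset.card_insert_of_notMem, Finset.card_pair hqr]
    rw [Finset.mem_insert, Finset.mem_singleton]; tauto
  have hsub : ({p, q, r} : Finset GolayPt) ⊆ d := by
    intro x hx
    rw [Finset.mem_insert, Finset.mem_insert, Finset.mem_singleton] at hx
    rcases hx with rfl | rfl | rfl <;> assumption
  have hX9 : (d \ {p, q, r}).card = 9 := by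
    rw [Finset.card_sdiff_of_subset hsub, hd12, hpqr]
  have hXmem : ∀ x, x ∈ d \ ({p, q, r} : Finset GolayPt) ↔ x ∈ d ∧ x ≠ p ∧ x ≠ q ∧ x ≠ r := by
    intro x
    rw [Finset.mem_sdiff, Finset.mem_insert, Finset.mem_insert, Finset.mem_singleton, not_or, not_or]
  have hHmem : ∀ g : ↥M24, g ∈ (MulAction.stabilizer ↥M24 d ⊓ MulAction.stabilizer ↥M24 p ⊓ MulAction.stabilizer ↥M24 q ⊓
      MulAction.stabilizer ↥M24 r) ↔ g • d = d ∧ (g : Equiv.Perm GolayPt) p = p ∧ (g : Equiv.Perm GolayPt) q = q ∧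
        (g : Equiv.Perm GolayPt) r = r := by
    intro g
    rw [Subgroup.mem_inf, Subgroup.mem_inf, Subgroup.mem_inf]
    constructor
    · rintro ⟨⟨⟨h1, h2⟩, h3⟩, h4⟩; exact ⟨h1, h2, h3, h4⟩
    · rintro ⟨h1, h2, h3, h4⟩; exact ⟨⟨⟨h1, h2⟩, h3⟩, h4⟩
  have hH : ∀ g ∈ (MulAction.stabilizer ↥M24 d ⊓ MulAction.stabilizer ↥M24 p ⊓ MulAction.stabilizer ↥M24 q ⊓
      MulAction.stabilizer ↥M24 r), ∀ x, (g : Equiv.Perm GolayPt) x ∈ d \ ({p, q, r} : Finset GolayPt) ↔
        x ∈ d \ ({p, q, r} : Finset GolayPt) := by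
    intro g hg x
    obtain ⟨h1, h2, h3, h4⟩ := (hHmem g).1 hg
    have h5 := CfsgLib.Hexad28.stabM_iff.1 (show g ∈ MulAction.stabilizer ↥M24 d from h1) x
    have hinj := (g : Equiv.Perm GolayPt).injective
    rw [hXmem, hXmem, h5]
    constructor
    · rintro ⟨a, b, c, e⟩
      exact ⟨a, fun h => b (by rw [h, h2]), fun h => c (by rw [h, h3]), fun h => e (by rw [h, h4])⟩
    · rintro ⟨a, b, c, e⟩
      exact ⟨a, fun h => b (hinj (h.trans h2.symm)), fun h => c (hinj (h.trans h3.symm)),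
        fun h => e (hinj (h.trans h4.symm))⟩
  have hsharp : CfsgLib.M9H28.Sharp2 (CfsgLib.Hexad28.rho _ _ hH) := by
    constructor
    · rintro ⟨a, ha⟩ ⟨b, hb⟩ ⟨c, hc⟩ ⟨e, he⟩ hab hce
      have ha' := (hXmem a).1 ha
      have hb' := (hXmem b).1 hb
      have hc' := (hXmem c).1 hc
      have he' := (hXmem e).1 he
      have hab' : a ≠ b := fun h => hab (Subtype.ext h)
      have hce' : c ≠ e := fun h => hce (Subtype.ext h)
      obtain ⟨x, x0, x1, x2, x3, x4⟩ := emb5 hpq hpr (Ne.symm ha'.2.1) (Ne.symm hb'.2.1) hqr (Ne.symm ha'.2.2.1)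
        (Ne.symm hb'.2.2.1) (Ne.symm ha'.2.2.2) (Ne.symm hb'.2.2.2) hab'
      obtain ⟨y, y0, y1, y2, y3, y4⟩ := emb5 hpq hpr (Ne.symm hc'.2.1) (Ne.symm he'.2.1) hqr (Ne.symm hc'.2.2.1)
        (Ne.symm he'.2.2.1) (Ne.symm hc'.2.2.2) (Ne.symm he'.2.2.2) hce'
      obtain ⟨g, hg, hgd, hgxy⟩ := CfsgLib.M24.sharp_five hd x y
        (by
          intro i
          fin_cases i
          · show x 0 ∈ d; rw [x0]; exact hp
          · show x 1 ∈ d; rw [x1]; exact hq
          · show x 2 ∈ d; rw [x2]; exact hr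
          · show x 3 ∈ d; rw [x3]; exact ha'.1
          · show x 4 ∈ d; rw [x4]; exact hb'.1)
        (by
          intro i
          fin_cases i
          · show y 0 ∈ d; rw [y0]; exact hp
          · show y 1 ∈ d; rw [y1]; exact hq
          · show y 2 ∈ d; rw [y2]; exact hr
          · show y 3 ∈ d; rw [y3]; exact hc'.1
          · show y 4 ∈ d; rw [y4]; exact he'.1)
      have g0 := hgxy 0
      have g1 := hgxy 1
      have g2 := hgxy 2
      have g3 := hgxy 3
      have g4 := hgxy 4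
      rw [x0, y0] at g0
      rw [x1, y1] at g1
      rw [x2, y2] at g2
      rw [x3, y3] at g3
      rw [x4, y4] at g4
      exact ⟨⟨⟨g, hg⟩, (hHmem ⟨g, hg⟩).2 ⟨hgd, g0, g1, g2⟩⟩, Subtype.ext g3, Subtype.ext g4⟩
    · rintro ⟨g, hg⟩ ⟨a, ha⟩ ⟨b, hb⟩ hab h1 h2
      have ha' := (hXmem a).1 ha
      have hb' := (hXmem b).1 hb
      have hab' : a ≠ b := fun h => hab (Subtype.ext h)
      obtain ⟨g1, g2, g3, g4⟩ := (hHmem g).1 hg
      have h1' : (g : Equiv.Perm GolayPt) a = a := congrArg Subtype.val h1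
      have h2' : (g : Equiv.Perm GolayPt) b = b := congrArg Subtype.val h2
      apply Subtype.ext
      apply CfsgLib.Hexad28.eq_one_of_five hd g1 (X := insert a (insert b {p, q, r}))
      · intro x hx
        rw [Finset.mem_insert, Finset.mem_insert] at hx
        rcases hx with rfl | rfl | hx
        · exact ha'.1
        · exact hb'.1
        · exact hsub hx
      · rw [Finset.card_insert_of_notMem, Finset.card_insert_of_notMem, hpqr]
        · rw [Finset.mem_insert, Finset.mem_insert, Finset.mem_singleton]; tauto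
        · rw [Finset.mem_insert, Finset.mem_insert, Finset.mem_insert, Finset.mem_singleton]; tauto
      · intro x hx
        rw [Finset.mem_insert, Finset.mem_insert, Finset.mem_insert, Finset.mem_insert, Finset.mem_singleton] at hx
        rcases hx with rfl | rfl | rfl | rfl | rfl <;> assumption
  have h9 : Fintype.card ↥(d \ ({p, q, r} : Finset GolayPt)) = 9 := by
    rw [Fintype.card_coe]; exact hX9
  refine ⟨fun Q => CfsgLib.M9H28.sylow3 hsharp h9 Q, fun P => ?_⟩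
  -- the quaternion group
  obtain ⟨s, hs⟩ : (d \ ({p, q, r} : Finset GolayPt)).Nonempty := by
    rw [← Finset.card_pos, hX9]; norm_num
  obtain ⟨t, ht, hts⟩ := Finset.exists_mem_ne (by rw [hX9]; norm_num : 1 < (d \ ({p, q, r} : Finset GolayPt)).card) s
  have hs' := (hXmem s).1 hs
  have ht' := (hXmem t).1 ht
  obtain ⟨x, x0, x1, x2, x3, x4⟩ := emb5 hpq hpr (Ne.symm hs'.2.1) (Ne.symm ht'.2.1) hqr (Ne.symm hs'.2.2.1)
        (Ne.symm ht'.2.2.1) (Ne.symm hs'.2.2.2) (Ne.symm ht'.2.2.2) hts.symm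
  obtain ⟨k, hk, hkx, hkd⟩ := CfsgLib.M24.move_dodecad hd x (by
          intro i
          fin_cases i
          · show x 0 ∈ d; rw [x0]; exact hp
          · show x 1 ∈ d; rw [x1]; exact hq
          · show x 2 ∈ d; rw [x2]; exact hr
          · show x 3 ∈ d; rw [x3]; exact hs'.1
          · show x 4 ∈ d; rw [x4]; exact ht'.1)
  have k0 := hkx 0
  have k1 := hkx 1
  have k2 := hkx 2
  have k3 := hkx 3
  rw [x0] at k0
  rw [x1] at k1
  rw [x2] at k2
  rw [x3] at k3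
  -- elements of the stabilizer of `s` from lists
  have mkel : ∀ L : List ℕ, CfsgLib.M24.isM24 L = true → L.getD 23 0 = 23 → L.getD 0 0 = 0 → L.getD 1 0 = 1 →
      L.getD 2 0 = 2 → CfsgLib.M24.pmask L CfsgLib.M24.d0 = CfsgLib.M24.d0 →
      ∃ a : ↥(CfsgLib.M9H28.stb (CfsgLib.Hexad28.rho _ _ hH) ⟨s, hs⟩),
        (((a : _) : ↥M24) : Equiv.Perm GolayPt) = k⁻¹ * CfsgLib.M24.mkPerm L * k := by
    intro L hL l23 l0 l1 l2 ld
    have hv := CfsgLib.M24.valid_of_isM24 hL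
    have hm : k⁻¹ * CfsgLib.M24.mkPerm L * k ∈ M24 :=
      mul_mem (mul_mem (inv_mem hk) (CfsgLib.M24.isM24_spec hL)) hk
    have fixpt : ∀ (i : ℕ) (z : GolayPt), i < 24 → L.getD i 0 = i → k z = CfsgLib.Golay.pt i →
        (k⁻¹ * CfsgLib.M24.mkPerm L * k) z = z := by
      intro i z hi hLi hz
      rw [Equiv.Perm.mul_apply, Equiv.Perm.mul_apply, hz, Equiv.Perm.inv_eq_iff_eq, hz]
      apply CfsgLib.Golay.idx_injective
      rw [CfsgLib.M24.idx_mkPerm hv, CfsgLib.Golay.idx_pt i hi, hLi]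
    have f0 := fixpt 23 p (by norm_num) l23 k0
    have f1 := fixpt 0 q (by norm_num) l0 k1
    have f2 := fixpt 1 r (by norm_num) l1 k2
    have f3 := fixpt 2 s (by norm_num) l2 k3
    have fd : (k⁻¹ * CfsgLib.M24.mkPerm L * k) • d = d := by
      rw [mul_smul, mul_smul, hkd, CfsgLib.M24.smul_fset hv, ld, ← hkd, inv_smul_smul]
    exact ⟨⟨⟨⟨_, hm⟩, (hHmem ⟨_, hm⟩).2 ⟨fd, f0, f1, f2⟩⟩, Subtype.ext f3⟩, rfl⟩
  obtain ⟨a, ha⟩ := mkel QA QA_ok (by decide) (by decide) (by decide) (by decide) (by decide +kernel)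
  obtain ⟨b, hb⟩ := mkel QB QB_ok (by decide) (by decide) (by decide) (by decide) (by decide +kernel)
  obtain ⟨r1, r2, r3, r4⟩ := base_rel
  have hinj : Function.Injective (fun y : ↥(CfsgLib.M9H28.stb (CfsgLib.Hexad28.rho _ _ hH) ⟨s, hs⟩) =>
      (((y : _) : ↥M24) : Equiv.Perm GolayPt)) := by
    intro y z hyz
    exact Subtype.ext (Subtype.ext (Subtype.ext hyz))
  have e1 : a * a ≠ 1 := by
    intro h
    apply r1
    have h1 : (k⁻¹ * CfsgLib.M24.mkPerm QA * k) * (k⁻¹ * CfsgLib.M24.mkPerm QA * k) = 1 := by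
      rw [← ha]
      exact congrArg (fun y : ↥(CfsgLib.M9H28.stb (CfsgLib.Hexad28.rho _ _ hH) ⟨s, hs⟩) =>
      (((y : _) : ↥M24) : Equiv.Perm GolayPt)) h
    calc CfsgLib.M24.mkPerm QA * CfsgLib.M24.mkPerm QA = k * ((k⁻¹ * CfsgLib.M24.mkPerm QA * k) *
        (k⁻¹ * CfsgLib.M24.mkPerm QA * k)) * k⁻¹ := by group
      _ = 1 := by rw [h1]; group
  have e2 : (a * a) * (a * a) = 1 := by
    apply hinj
    show (((a : _) : ↥M24) : Equiv.Perm GolayPt) * (((a : _) : ↥M24) : Equiv.Perm GolayPt) *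
      ((((a : _) : ↥M24) : Equiv.Perm GolayPt) * (((a : _) : ↥M24) : Equiv.Perm GolayPt)) = 1
    rw [ha]
    calc k⁻¹ * CfsgLib.M24.mkPerm QA * k * (k⁻¹ * CfsgLib.M24.mkPerm QA * k) *
        (k⁻¹ * CfsgLib.M24.mkPerm QA * k * (k⁻¹ * CfsgLib.M24.mkPerm QA * k)) =
        k⁻¹ * ((CfsgLib.M24.mkPerm QA * CfsgLib.M24.mkPerm QA) * (CfsgLib.M24.mkPerm QA * CfsgLib.M24.mkPerm QA)) * k := by
          group
      _ = 1 := by rw [r2]; group
  have e3 : b * b = a * a := by
    apply hinj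
    show (((b : _) : ↥M24) : Equiv.Perm GolayPt) * (((b : _) : ↥M24) : Equiv.Perm GolayPt) =
      (((a : _) : ↥M24) : Equiv.Perm GolayPt) * (((a : _) : ↥M24) : Equiv.Perm GolayPt)
    rw [ha, hb]
    calc k⁻¹ * CfsgLib.M24.mkPerm QB * k * (k⁻¹ * CfsgLib.M24.mkPerm QB * k) =
        k⁻¹ * (CfsgLib.M24.mkPerm QB * CfsgLib.M24.mkPerm QB) * k := by group
      _ = k⁻¹ * (CfsgLib.M24.mkPerm QA * CfsgLib.M24.mkPerm QA) * k := by rw [r3]
      _ = _ := by group
  have e4 : a * b * a = b := by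
    apply hinj
    show (((a : _) : ↥M24) : Equiv.Perm GolayPt) * (((b : _) : ↥M24) : Equiv.Perm GolayPt) *
      (((a : _) : ↥M24) : Equiv.Perm GolayPt) = (((b : _) : ↥M24) : Equiv.Perm GolayPt)
    rw [ha, hb]
    calc k⁻¹ * CfsgLib.M24.mkPerm QA * k * (k⁻¹ * CfsgLib.M24.mkPerm QB * k) * (k⁻¹ * CfsgLib.M24.mkPerm QA * k) =
        k⁻¹ * (CfsgLib.M24.mkPerm QA * CfsgLib.M24.mkPerm QB * CfsgLib.M24.mkPerm QA) * k := by group
      _ = _ := by rw [r4]
  have hord : orderOf a = 2 * 2 := by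
    have : orderOf a = 2 ^ (1 + 1) := by
      apply orderOf_eq_prime_pow
      · intro h
        apply e1
        rw [pow_one, pow_two] at h
        exact h
      · rw [show (2 : ℕ) ^ (1 + 1) = 2 + 2 by norm_num, pow_add, pow_two]; exact e2
    rw [this]; norm_num
  have hbab : b * a * b⁻¹ = a⁻¹ := by
    have h1 : b * a = a⁻¹ * b := by
      conv_rhs => rw [← e4]
      group
    rw [h1]; group
  have hnot : b ∉ Subgroup.zpowers a := by
    intro h
    obtain ⟨n, hn⟩ := Subgroup.mem_zpowers_iff.1 h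
    have hcomm : a * b = b * a := by
      rw [← hn]
      exact (Commute.refl a).zpow_right n
    apply e1
    have h1 : b * a * b⁻¹ = a := by rw [← hcomm]; group
    rw [h1] at hbab
    nth_rewrite 2 [hbab]
    group
  obtain ⟨e⟩ := CfsgLib.Dihedral.nonempty_equiv_quaternion (n := 2) hord (by rw [e3, pow_two]) hbab hnot
  have htop : Subgroup.closure ({a, b} : Set ↥(CfsgLib.M9H28.stb (CfsgLib.Hexad28.rho _ _ hH) ⟨s, hs⟩)) = ⊤ := by
    apply Subgroup.eq_top_of_card_eq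
    rw [Nat.card_congr e.toEquiv, Nat.card_eq_fintype_card, QuaternionGroup.card, CfsgLib.M9H28.card_stb hsharp h9]
  obtain ⟨f⟩ := CfsgLib.M9H28.sylow2 hsharp h9 P ⟨s, hs⟩
  rw [htop] at e
  exact ⟨f.trans (Subgroup.topEquiv.symm.trans e)⟩

end Cfsg.Agent.S5619
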