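import Cfsg.Statements.S5620
import Cfsg.Agent.LibOrbG28

set_option autoImplicit false
open scoped Pointwise
open Cfsg

namespace Cfsg.Agent.S5620

/-- an element of order four of the stabiliser of the base dodecad -/
def QA : List ℕ := [0, 1, 2, 6, 22, 21, 14, 3, 15, 8, 11, 20, 9, 16, 7, 12, 13, 19, 10, 5, 18, 17, 4, 23]

open CfsgLib.Golay CfsgLib.M24 in
theorem QA_ok : isM24 QA = true := by decide +kernel

open CfsgLib.Golay CfsgLib.M24 in
theorem QA_free : ∀ i < 24, ¬ d0.testBit i = true → QA.getD i 0 = i → False := by decide +kernel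

open CfsgLib.Golay CfsgLib.M24 in
/-- there is an element fixing `p ∈ d` without fixed points outside `d`. -/
theorem exists_free {d : Finset GolayPt} (hd : d ∈ dodecads) {p : GolayPt} (hp : p ∈ d) :
    ∃ z ∈ M24, z • d = d ∧ z p = p ∧ ∀ q, q ∉ d → z q ≠ q := by
  classical
  have h12 : d.card = 12 := hd.2
  obtain ⟨y, hy⟩ := exists_emb (s := d.erase p) (n := 4) (by rw [Finset.card_erase_of_mem hp, h12]; norm_num)
  have hyd : ∀ i, y i ∈ d := fun i => Finset.mem_of_mem_erase (hy i)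
  have hyp : ∀ i, y i ≠ p := fun i => Finset.ne_of_mem_erase (hy i)
  let x : Fin 5 ↪ GolayPt := ⟨Fin.cons p y, by
    rw [Fin.cons_injective_iff]
    refine ⟨?_, y.injective⟩
    rintro ⟨i, hi⟩
    exact hyp i hi⟩
  obtain ⟨k, hk, hkx, hkd⟩ := move_dodecad hd x (by
    intro i
    refine Fin.cases ?_ ?_ i
    · exact hp
    · intro j; exact hyd j)
  have k0 : k p = pt 23 := hkx 0
  have hv := valid_of_isM24 QA_ok
  refine ⟨k⁻¹ * mkPerm QA * k, mul_mem (mul_mem (inv_mem hk) (isM24_spec QA_ok)) hk, ?_, ?_, ?_⟩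
  · have ld : pmask QA d0 = d0 := by decide +kernel
    rw [mul_smul, mul_smul, hkd, smul_fset hv, ld, ← hkd, inv_smul_smul]
  · rw [Equiv.Perm.mul_apply, Equiv.Perm.mul_apply, k0, Equiv.Perm.inv_eq_iff_eq, k0]
    apply idx_injective
    rw [idx_mkPerm hv, idx_pt 23 (by norm_num)]; decide
  · intro q hq h
    rw [Equiv.Perm.mul_apply, Equiv.Perm.mul_apply, Equiv.Perm.inv_eq_iff_eq] at h
    have h1 : k q ∉ fset d0 := by
      rw [← hkd]
      intro h2
      exact hq ((Finset.smul_mem_smul_finset_iff k).1 h2)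
    have h2 := congrArg idx h
    rw [idx_mkPerm hv] at h2
    rw [mem_fset] at h1
    exact QA_free _ (idx_lt (k q)) h1 h2

open CfsgLib.Golay CfsgLib.M24 in
theorem exists_move {d e : Finset GolayPt} (hd : d ∈ dodecads) (he : e ∈ dodecads) {p q : GolayPt} (hp : p ∈ d)
    (hq : q ∈ e) : ∃ g ∈ M24, g • d = e ∧ g p = q := by
  classical
  have key : ∀ d : Finset GolayPt, d ∈ dodecads → ∀ p ∈ d, ∃ k ∈ M24, k p = pt 23 ∧ k • d = fset d0 := by
    intro d hd p hp
    have h12 : d.card = 12 := hd.2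
    obtain ⟨y, hy⟩ := exists_emb (s := d.erase p) (n := 4) (by rw [Finset.card_erase_of_mem hp, h12]; norm_num)
    have hyd : ∀ i, y i ∈ d := fun i => Finset.mem_of_mem_erase (hy i)
    have hyp : ∀ i, y i ≠ p := fun i => Finset.ne_of_mem_erase (hy i)
    let x : Fin 5 ↪ GolayPt := ⟨Fin.cons p y, by
      rw [Fin.cons_injective_iff]
      refine ⟨?_, y.injective⟩
      rintro ⟨i, hi⟩
      exact hyp i hi⟩
    obtain ⟨k, hk, hkx, hkd⟩ := move_dodecad hd x (by
      intro i
      refine Fin.cases ?_ ?_ i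
      · exact hp
      · intro j; exact hyd j)
    exact ⟨k, hk, hkx 0, hkd⟩
  obtain ⟨k, hk, k1, k2⟩ := key d hd p hp
  obtain ⟨l, hl, l1, l2⟩ := key e he q hq
  refine ⟨l⁻¹ * k, mul_mem (inv_mem hl) hk, ?_, ?_⟩
  · rw [mul_smul, k2, ← l2, inv_smul_smul]
  · rw [Equiv.Perm.mul_apply, k1, Equiv.Perm.inv_eq_iff_eq, l1]

/-- Inside the stabiliser of the dodecad of squares (a Mathieu group of degree 12), the stabiliser of the residue 0 (a point of the dodecad) and the stabiliser of the extra point (a point outside the dodecad) are isomorphic but not conjugate; conjugation by a suitable element of the code's group that maps the dodecad of squares onto its complement carries the first onto the second. -/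
theorem result : Nonempty (↥(Cfsg.Spor.M12 ⊓ MulAction.stabilizer (Equiv.Perm Cfsg.GolayPt) (none : Cfsg.GolayPt)) ≃* ↥Cfsg.Spor.M11) ∧ (¬ ∃ k ∈ Cfsg.Spor.M12, MulAut.conj k • Cfsg.Spor.M11 = Cfsg.Spor.M12 ⊓ MulAction.stabilizer (Equiv.Perm Cfsg.GolayPt) (none : Cfsg.GolayPt)) ∧ ∃ g ∈ Cfsg.M24, g • Cfsg.Spor.squareDodecad = Finset.univ \ Cfsg.Spor.squareDodecad ∧ MulAut.conj g • Cfsg.Spor.M11 = Cfsg.Spor.M12 ⊓ MulAction.stabilizer (Equiv.Perm Cfsg.GolayPt) (none : Cfsg.GolayPt) := by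
  classical
  have hD : Spor.squareDodecad ∈ dodecads := by
    have h1 : Spor.squareDodecad = CfsgLib.Golay.fset (CfsgLib.Golay.cw 1) := by
      show support₂ (qrWord 0) = _
      rw [CfsgLib.Golay.qrWord_eq, CfsgLib.Golay.support_word]; rfl
    rw [h1]
    exact CfsgLib.OrbG28.rootdodecads_mem (k := 1) (by decide +kernel)
  have h0 : (some 0 : GolayPt) ∈ Spor.squareDodecad := by
    have h1 : Spor.squareDodecad = CfsgLib.Golay.fset (CfsgLib.Golay.cw 1) := by
      show support₂ (qrWord 0) = _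
      rw [CfsgLib.Golay.qrWord_eq, CfsgLib.Golay.support_word]; rfl
    rw [h1, CfsgLib.Golay.mem_fset]; decide +kernel
  have hn : (none : GolayPt) ∈ Spor.squareDodecadᶜ := by
    have h1 : Spor.squareDodecad = CfsgLib.Golay.fset (CfsgLib.Golay.cw 1) := by
      show support₂ (qrWord 0) = _
      rw [CfsgLib.Golay.qrWord_eq, CfsgLib.Golay.support_word]; rfl
    rw [Finset.mem_compl, h1, CfsgLib.Golay.mem_fset]; decide +kernel
  have hDc : Spor.squareDodecadᶜ ∈ dodecads := CfsgLib.OrbG28.compl_mem_dodecads hD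
  have m12 : ∀ x, x ∈ Spor.M12 ↔ x ∈ M24 ∧ x • Spor.squareDodecad = Spor.squareDodecad := by
    intro x; exact Subgroup.mem_inf
  have m11 : ∀ x, x ∈ Spor.M11 ↔ x ∈ M24 ∧ x • Spor.squareDodecad = Spor.squareDodecad ∧ x (some 0) = some 0 := by
    intro x
    show x ∈ Spor.M12 ⊓ _ ↔ _
    rw [Subgroup.mem_inf, m12]
    exact and_assoc
  have mN : ∀ x, x ∈ Spor.M12 ⊓ MulAction.stabilizer (Equiv.Perm GolayPt) (none : GolayPt) ↔
      x ∈ M24 ∧ x • Spor.squareDodecad = Spor.squareDodecad ∧ x none = none := by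
    intro x
    rw [Subgroup.mem_inf, m12]
    exact and_assoc
  have hsc : ∀ (x : Equiv.Perm GolayPt) (s : Finset GolayPt), x • sᶜ = (x • s)ᶜ := by
    intro x s
    ext y
    rw [← Finset.inv_smul_mem_iff, Finset.mem_compl, Finset.mem_compl, ← Finset.inv_smul_mem_iff]
  have hcd : ∀ x : Equiv.Perm GolayPt, x • Spor.squareDodecadᶜ = Spor.squareDodecadᶜ ↔
      x • Spor.squareDodecad = Spor.squareDodecad := by
    intro x
    rw [hsc, compl_inj_iff]
  obtain ⟨g, hg, hgD, hg0⟩ := exists_move hD hDc h0 hn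
  have hconj : MulAut.conj g • Spor.M11 = Spor.M12 ⊓ MulAction.stabilizer (Equiv.Perm GolayPt) (none : GolayPt) := by
    ext x
    rw [Subgroup.mem_pointwise_smul_iff_inv_smul_mem, m11, mN]
    have e1 : (MulAut.conj g)⁻¹ • x = g⁻¹ * x * g := by
      show (MulAut.conj g)⁻¹ x = _
      rw [← map_inv, MulAut.conj_apply, inv_inv]
    rw [e1]
    have e2 : g⁻¹ • Spor.squareDodecadᶜ = Spor.squareDodecad := by rw [← hgD, inv_smul_smul]
    constructor
    · rintro ⟨h1, h2, h3⟩
      refine ⟨?_, ?_, ?_⟩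
      · have := mul_mem (mul_mem hg h1) (inv_mem hg)
        rwa [show g * (g⁻¹ * x * g) * g⁻¹ = x by group] at this
      · rw [← hcd, ← hgD]
        rw [mul_smul, mul_smul, inv_smul_eq_iff] at h2
        exact h2
      · rw [Equiv.Perm.mul_apply, Equiv.Perm.mul_apply, hg0, Equiv.Perm.inv_eq_iff_eq, hg0] at h3
        exact h3
    · rintro ⟨h1, h2, h3⟩
      refine ⟨mul_mem (mul_mem (inv_mem hg) h1) hg, ?_, ?_⟩
      · rw [mul_smul, mul_smul, hgD, (hcd x).2 h2, e2]
      · rw [Equiv.Perm.mul_apply, Equiv.Perm.mul_apply, hg0, h3, Equiv.Perm.inv_eq_iff_eq, hg0]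
  refine ⟨?_, ?_, g, hg, ?_, hconj⟩
  · rw [← hconj]
    exact ⟨(Subgroup.equivSMul (MulAut.conj g) Spor.M11).symm⟩
  · rintro ⟨k, hk, hkc⟩
    obtain ⟨z, hz, hzD, hzn, hzf⟩ := exists_free hDc hn
    have hzN : z ∈ Spor.M12 ⊓ MulAction.stabilizer (Equiv.Perm GolayPt) (none : GolayPt) :=
      (mN z).2 ⟨hz, (hcd z).1 hzD, hzn⟩
    rw [← hkc, Subgroup.mem_pointwise_smul_iff_inv_smul_mem, m11] at hzN
    have e1 : (MulAut.conj k)⁻¹ • z = k⁻¹ * z * k := by
      show (MulAut.conj k)⁻¹ z = _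
      rw [← map_inv, MulAut.conj_apply, inv_inv]
    rw [e1] at hzN
    have h3 := hzN.2.2
    rw [Equiv.Perm.mul_apply, Equiv.Perm.mul_apply, Equiv.Perm.inv_eq_iff_eq] at h3
    apply hzf (k (some 0)) _ h3
    rw [Finset.mem_compl, not_not]
    have h4 := ((m12 k).1 hk).2
    rw [← h4]
    exact Finset.smul_mem_smul_finset (a := k) h0
  · rw [hgD, Finset.compl_eq_univ_sdiff]

end Cfsg.Agent.S5620
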