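import Cfsg.Statements.S5622
import Cfsg.Agent.LibAbsGolayH28

set_option autoImplicit false
open Cfsg

namespace Cfsg.Agent.S5622

/-- Let C be a self-dual binary code of length 24 with minimum weight at least 8 (a 12-dimensional subspace of the 24-dimensional space over the field with two elements, any two of whose words have dot product zero, with no non-zero word of weight below 8 — an abstract extended binary Golay code). Then the minimum weight of C is exactly 8, and the supports of the words of weight 8 (the octads) form a Steiner system S(5, 8, 24) on the 24 coordinates: every 5 coordinates lie in the support of exactly one word of weight 8. -/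
theorem result (C : Submodule (ZMod 2) (Fin 24 → ZMod 2)) (hdim : Module.finrank (ZMod 2) C = 12) (horth : ∀ v ∈ C, ∀ w ∈ C, ∑ i, v i * w i = 0) (hmin : ∀ w ∈ C, w ≠ 0 → 8 ≤ hammingNorm w) : (∃ w ∈ C, hammingNorm w = 8) ∧ Cfsg.IsSteinerSystem 5 8 (Cfsg.wordsOfWeight (C : Set (Fin 24 → ZMod 2)) 8) := by
  classical
  refine ⟨?_, ?_, ?_⟩
  · obtain ⟨c, hc, h8, -⟩ := CfsgLib.AbsGolayH28.exists_octad hmin hdim {0, 1, 2, 3, 4} (by decide)
    exact ⟨c, hc, h8⟩
  · rintro b ⟨-, hb⟩; exact hb
  · intro s hs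
    obtain ⟨c, hc, h8, hsc⟩ := CfsgLib.AbsGolayH28.exists_octad hmin hdim s hs
    refine ⟨Cfsg.support₂ c, ⟨⟨⟨c, hc, rfl⟩, h8⟩, hsc⟩, ?_⟩
    rintro b ⟨⟨⟨c', hc', rfl⟩, h8'⟩, hsc'⟩
    by_contra hne
    have hcc : c' ≠ c := fun h => hne (by rw [h])
    have h1 := hmin (c' - c) (C.sub_mem hc' hc) (sub_ne_zero.mpr hcc)
    rw [CfsgLib.AbsGolayH28.norm_eq, CfsgLib.AbsGolayH28.supp_sub] at h1
    have h2 := CfsgLib.AbsGolayH28.card_symmDiff' (CfsgLib.AbsGolayH28.supp c') (CfsgLib.AbsGolayH28.supp c)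
    have h3 : 5 ≤ (CfsgLib.AbsGolayH28.supp c' ∩ CfsgLib.AbsGolayH28.supp c).card := by
      rw [← hs]; exact Finset.card_le_card (Finset.subset_inter hsc' hsc)
    have h4 : (CfsgLib.AbsGolayH28.supp c').card = 8 := h8'
    have h5 : (CfsgLib.AbsGolayH28.supp c).card = 8 := h8
    omega

end Cfsg.Agent.S5622
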