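import Cfsg.Statements.S5625
import Cfsg.Agent.LibSteiner

set_option autoImplicit false
open Cfsg

namespace Cfsg.Agent.S5625

open CfsgLib.Steiner in
theorem aux {α : Type*} [Fintype α] [DecidableEq α] (hα : Fintype.card α = 24)
    (B : Set (Finset α)) (hB : Cfsg.IsSteinerSystem 5 8 B) (Y : Finset α) (hY : Y.card = 3) :
    meet B Y 3 = 21 ∧ meet B Y 2 = 168 ∧ meet B Y 1 = 360 ∧ meet B Y 0 = 210 := by
  have key : ∀ j ≤ 3, ∀ L : ℕ, L * Nat.choose (8 - j) (5 - j) = Nat.choose (24 - j) (5 - j) →
      0 < Nat.choose (8 - j) (5 - j) →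
      ∑ i ∈ Finset.range 4, meet B Y i * Nat.choose i j = Nat.choose 3 j * L := by
    intro j hj L hL hpos
    rw [← sum_meet B Y (fun i => Nat.choose i j) 3 (by omega), sum_choose_inter]
    rw [← hY, ← Finset.card_powersetCard j Y, ← smul_eq_mul, ← Finset.sum_const]
    apply Finset.sum_congr rfl
    intro s hs
    rw [Finset.mem_powersetCard] at hs
    have := lam_mul hB s (by omega)
    rw [hα, hs.2, ← hL] at this
    exact Nat.eq_of_mul_eq_mul_right hpos this
  have h3 := key 3 (by norm_num) 21 (by decide +kernel) (by decide +kernel)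
  have h2 := key 2 (by norm_num) 77 (by decide +kernel) (by decide +kernel)
  have h1 := key 1 (by norm_num) 253 (by decide +kernel) (by decide +kernel)
  have h0 := key 0 (by norm_num) 759 (by decide +kernel) (by decide +kernel)
  simp only [Finset.sum_range_succ, Finset.sum_range_zero] at h0 h1 h2 h3
  norm_num [Nat.choose] at h0 h1 h2 h3
  omega

/-- In any Steiner system S(5, 8, 24) and for any set Y of three points, the blocks meeting Y in exactly 3, 2, 1 and 0 points number 21, 168, 360 and 210 respectively (so there are 759 blocks in all). -/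
theorem result (α : Type*) [Fintype α] [DecidableEq α] (hα : Fintype.card α = 24) (B : Set (Finset α)) (hB : Cfsg.IsSteinerSystem 5 8 B) (Y : Finset α) (hY : Y.card = 3) : {b : Finset α | b ∈ B ∧ (b ∩ Y).card = 3}.ncard = 21 ∧ {b : Finset α | b ∈ B ∧ (b ∩ Y).card = 2}.ncard = 168 ∧ {b : Finset α | b ∈ B ∧ (b ∩ Y).card = 1}.ncard = 360 ∧ {b : Finset α | b ∈ B ∧ (b ∩ Y).card = 0}.ncard = 210 := by
  classical
  obtain ⟨h3, h2, h1, h0⟩ := aux hα B hB Y hY
  have key : ∀ n : ℕ, {b : Finset α | b ∈ B ∧ (b ∩ Y).card = n}.ncard = CfsgLib.Steiner.meet B Y n := by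
    intro n
    rw [CfsgLib.Steiner.meet, ← Set.ncard_coe_finset]
    congr 1
    ext b
    simp [Finset.inter_comm]
  rw [key, key, key, key]
  exact ⟨h3, h2, h1, h0⟩

end Cfsg.Agent.S5625
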