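import Cfsg.Statements.S5626
import Cfsg.Agent.EqBase
import Cfsg.Agent.LibPlaneB28
import Cfsg.Agent.LibPlaneD28

set_option autoImplicit false
open Cfsg

namespace Cfsg.Agent.S5626

/-- Uniqueness of the projective plane of order 4: any two Steiner systems S(2, 5, 21) (21 points, lines of 5 points, two points on exactly one line) are isomorphic. -/
theorem result {α β : Type*} [Fintype α] [DecidableEq α] [Fintype β] [DecidableEq β] (hα : Fintype.card α = 21) (hβ : Fintype.card β = 21) {L : Set (Finset α)} {L' : Set (Finset β)} (hL : Cfsg.IsSteinerSystem 2 5 L) (hL' : Cfsg.IsSteinerSystem 2 5 L') : Cfsg.SetSystemIso L L' := by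
  have h : CfsgLib.Plane28.Pl L := ⟨hα, hL⟩
  have h' : CfsgLib.Plane28.Pl L' := ⟨hβ, hL'⟩
  obtain ⟨H, hH⟩ := CfsgLib.Plane28.exists_hyp h
  obtain ⟨H', hH'⟩ := CfsgLib.Plane28.exists_hyp h'
  have σ : ↥H ≃ ↥H' := Fintype.equivOfCardEq (by rw [Fintype.card_coe, Fintype.card_coe, hH.1, hH'.1])
  exact ⟨CfsgLib.Plane28.gg h h' hH hH' σ, CfsgLib.Plane28.gg_iso h h' hH hH' σ⟩

end Cfsg.Agent.S5626
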