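import Cfsg.Statements.S5628
import Cfsg.Agent.EqBase
import Cfsg.Agent.LibPlaneB28
import Cfsg.Agent.LibPlaneD28

set_option autoImplicit false
open Cfsg

namespace Cfsg.Agent.S5628

open scoped Pointwise in
theorem mem_aut {α : Type*} [DecidableEq α] {L : Set (Finset α)} {g : Equiv.Perm α} :
    g ∈ Cfsg.setSystemAut L ↔ (fun l : Finset α => l.image g) '' L = L := by
  rw [Cfsg.setSystemAut, MulAction.mem_stabilizer_iff]
  rfl

/-- In a projective plane of order 4 (a Steiner system S(2, 5, 21)), every permutation of the six points of a hyperoval (a 6-set met by no line in more than two points) is the restriction of exactly one automorphism of the plane. In particular the stabiliser of a hyperoval in the automorphism group is isomorphic to the symmetric group of degree 6 acting faithfully on the hyperoval. -/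
theorem result {α : Type*} [Fintype α] [DecidableEq α] (hα : Fintype.card α = 21) (L : Set (Finset α)) (hL : Cfsg.IsSteinerSystem 2 5 L) (H : Finset α) (hH : (H.card = 6 ∧ ∀ l ∈ L, (l ∩ H).card ≤ 2)) (σ : Equiv.Perm ↥H) : ∃! g : Equiv.Perm α, g ∈ Cfsg.setSystemAut L ∧ ∀ p : ↥H, g p = σ p := by
  have h : CfsgLib.Plane28.Pl L := ⟨hα, hL⟩
  have key : ∀ g : Equiv.Perm α, g ∈ Cfsg.setSystemAut L ↔ (fun l : Finset α => l.image g) '' L = L := fun g => mem_aut
  refine ⟨CfsgLib.Plane28.gg h h hH hH σ, ⟨(key _).2 (CfsgLib.Plane28.gg_iso h h hH hH σ), CfsgLib.Plane28.gg_mem h h hH hH σ⟩, ?_⟩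
  -- uniqueness
  have uni : ∀ g : Equiv.Perm α, g ∈ Cfsg.setSystemAut L → (∀ p : ↥H, g p = σ p) → ∀ p : {p : α // p ∉ H},
      ∃ hp : g p ∉ H, CfsgLib.Plane28.sy h hH ⟨g p, hp⟩ = CfsgLib.Plane28.synCongr σ (CfsgLib.Plane28.sy h hH p) := by
    intro g hg hgσ p
    have hgl : ∀ l ∈ L, l.image g ∈ L := by
      intro l hl
      have h1 := (key g).1 hg
      rw [← h1]
      exact ⟨l, hl, rfl⟩
    have hp : g p ∉ H := by
      intro h1
      obtain ⟨x, hx⟩ := σ.surjective ⟨g p, h1⟩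
      have h2 : g x = g p := by rw [hgσ, hx]
      exact p.2 ((g.injective h2) ▸ x.2)
    refine ⟨hp, ?_⟩
    apply Subtype.ext
    ext y
    obtain ⟨x, rfl⟩ := σ.surjective y
    rw [CfsgLib.Plane28.synCongr_apply]
    obtain ⟨h2, l, hl, h3⟩ := CfsgLib.Plane28.mt_spec h hH p.2 x
    have h4 : CfsgLib.Plane28.mt h hH hp (σ x) = σ (CfsgLib.Plane28.mt h hH p.2 x) := by
      apply CfsgLib.Plane28.mt_eq h hH hp (fun h5 => h2 (σ.injective h5)) (hgl l hl)
      refine ⟨Finset.mem_image.2 ⟨_, h3.1, rfl⟩, Finset.mem_image.2 ⟨_, h3.2.1, hgσ x⟩, Finset.mem_image.2 ⟨_, h3.2.2, hgσ _⟩⟩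
    exact congrArg Subtype.val h4
  rintro g ⟨hg, hgσ⟩
  have hG : CfsgLib.Plane28.gg h h hH hH σ ∈ Cfsg.setSystemAut L := (key _).2 (CfsgLib.Plane28.gg_iso h h hH hH σ)
  ext x
  by_cases hx : x ∈ H
  · rw [hgσ ⟨x, hx⟩, CfsgLib.Plane28.gg_mem h h hH hH σ ⟨x, hx⟩]
  · obtain ⟨h1, h2⟩ := uni g hg hgσ ⟨x, hx⟩
    obtain ⟨h3, h4⟩ := uni _ hG (CfsgLib.Plane28.gg_mem h h hH hH σ) ⟨x, hx⟩
    have h5 := CfsgLib.Plane28.sy_inj h hH (h2.trans h4.symm)
    exact congrArg Subtype.val h5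

end Cfsg.Agent.S5628
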