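import Cfsg.Statements.S5631
import Mathlib
import Cfsg.Agent.LibMaxTv29b

set_option autoImplicit false
open Cfsg

namespace Cfsg.Agent.S5631

open CfsgLib.MaxTv29

/-- For a finite field F and n ≥ 13, the stabiliser in SL_n(F) of any proper non-zero subspace W of F^n is a maximal subgroup of SL_n(F). Here SL_n(F) is the kernel of the determinant inside GL_n(F) and the stabiliser is the set of elements of determinant one mapping W onto itself. -/
theorem result {F : Type*} [Field F] [Fintype F] (n : ℕ) (hn : 13 ≤ n) (W : Submodule F (Fin n → F)) (hW0 : W ≠ ⊥) (hW1 : W ≠ ⊤) : Cfsg.Geo.IsMaximalIn (Cfsg.Geo.specialLinear (Fin n) F) (Cfsg.Geo.subspaceStabilizer W ⊓ Cfsg.Geo.specialLinear (Fin n) F) := by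
  classical
  have hexW : ∃ a, a ∉ W := by
    by_contra hcon
    push Not at hcon
    exact hW1 (eq_top_iff.mpr fun x _ => hcon x)
  refine ⟨?_, fun M hHM hMS => ?_⟩
  · refine lt_of_le_of_ne inf_le_right ?_
    intro heq
    obtain ⟨w, hwW, hw0⟩ := Submodule.exists_mem_ne_zero_of_ne_bot hW0
    obtain ⟨a, ha⟩ := hexW
    have hw : w ∉ Submodule.span F {a} := by
      intro hmem
      obtain ⟨c, rfl⟩ := Submodule.mem_span_singleton.mp hmem
      have hc : c ≠ 0 := by rintro rfl; simp at hw0
      exact ha ((W.smul_mem_iff hc).mp hwW)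
    obtain ⟨φ, hφ1, hφ2⟩ := exists_functional _ w hw
    have hφa : φ a = 0 := hφ2 a (Submodule.mem_span_singleton_self a)
    have h1 : tv a φ hφa ∈ Geo.specialLinear (Fin n) F := tv_mem_special _ _ _
    rw [← heq] at h1
    exact tv_notMem_stab W a φ hφa ha w hwW (by rw [hφ1]; exact one_ne_zero) h1.1
  by_cases hMH : M = Geo.subspaceStabilizer W ⊓ Geo.specialLinear (Fin n) F
  · exact Or.inl hMH
  right
  apply le_antisymm hMS
  obtain ⟨g, hgM, hgW⟩ : ∃ g ∈ M, g ∉ Geo.subspaceStabilizer W := by
    by_contra hcon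
    push Not at hcon
    exact hMH (le_antisymm (le_inf hcon hMS) hHM)
  apply special_le_of_full
  have hW : ∀ w ∈ W, Full M w := fun w hw φ h => hHM ⟨tv_mem_stab_of_mem W w φ h hw, tv_mem_special _ _ _⟩
  obtain ⟨a, haT, haW⟩ : ∃ a, Full M a ∧ a ∉ W := by
    rw [mem_stab] at hgW
    push Not at hgW
    obtain ⟨w, hw, hgw⟩ := hgW
    exact ⟨_, (hW w hw).mulVec hgM, hgw⟩
  intro x
  by_cases hxW : x ∈ W
  · exact hW x hxW
  by_cases hx : x ∈ W ⊔ Submodule.span F {a}
  · obtain ⟨w, hw, z, hz, rfl⟩ := Submodule.mem_sup.mp hx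
    obtain ⟨c, rfl⟩ := Submodule.mem_span_singleton.mp hz
    have hc : c ≠ 0 := by
      rintro rfl
      rw [zero_smul, add_zero] at hxW
      exact hxW hw
    have h1 : c • a ∉ Submodule.span F {w} := by
      intro hmem
      have h2 : Submodule.span F {w} ≤ W := by
        rw [Submodule.span_singleton_le_iff_mem]; exact hw
      exact haW ((W.smul_mem_iff hc).mp (h2 hmem))
    obtain ⟨φ, hφ1, hφ2⟩ := exists_functional _ _ h1
    have hφw : φ w = 0 := hφ2 w (Submodule.mem_span_singleton_self w)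
    have h3 := (haT.smul c).mulVec (hW w hw φ hφw)
    rw [tv_mulVec, hφ1, one_smul, add_comm] at h3
    exact h3
  · have h1 : a ∉ W ⊔ Submodule.span F {x - a} := by
      intro hmem
      obtain ⟨w, hw, z, hz, hwz⟩ := Submodule.mem_sup.mp hmem
      obtain ⟨c, rfl⟩ := Submodule.mem_span_singleton.mp hz
      by_cases hc : c = 0
      · subst hc
        rw [zero_smul, add_zero] at hwz
        exact haW (hwz ▸ hw)
      · apply hx
        have h2 : x = c⁻¹ • (-w) + (c⁻¹ * (1 + c)) • a := by
          have h3 : c • x = -w + (1 + c) • a := by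
            have h4 : c • x = (w + c • (x - a)) - w + c • a := by rw [smul_sub]; abel
            rw [h4, hwz, add_smul, one_smul]; abel
          rw [← smul_smul, ← smul_add, ← h3, smul_smul, inv_mul_cancel₀ hc, one_smul]
        rw [h2]
        exact Submodule.add_mem_sup (W.smul_mem _ (W.neg_mem hw)) (Submodule.smul_mem _ _ (Submodule.mem_span_singleton_self a))
    obtain ⟨φ, hφ1, hφ2⟩ := exists_functional _ _ h1
    have hφb : φ (x - a) = 0 := hφ2 _ (Submodule.mem_sup_right (Submodule.mem_span_singleton_self _))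
    have h3 : tv (x - a) φ hφb ∈ M := hHM ⟨tv_mem_stab_of_le_ker W _ φ hφb (fun w hw => hφ2 w (Submodule.mem_sup_left hw)), tv_mem_special _ _ _⟩
    have h4 := haT.mulVec h3
    rw [tv_mulVec, hφ1, one_smul, add_sub_cancel] at h4
    exact h4

end Cfsg.Agent.S5631
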