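import Cfsg.Statements.S5632
import Mathlib
import Cfsg.Agent.LibMaxTv29

set_option autoImplicit false
open Cfsg

namespace Cfsg.Agent.S5632

open CfsgLib.MaxTv29

/-- For a finite field F and subspaces 0 < W < U of F^n with dim W + dim U = n, the elements of SL_n(F) stabilising both W and U form a subgroup that is not maximal in SL_n(F): some subgroup lies strictly between it and SL_n(F). -/
theorem result {F : Type*} [Field F] [Fintype F] (n : ℕ) (W U : Submodule F (Fin n → F)) (hW0 : W ≠ ⊥) (hWU : W < U) (hdim : Module.finrank F W + Module.finrank F U = n) : ∃ K : Subgroup (Matrix.GeneralLinearGroup (Fin n) F), Cfsg.Geo.subspaceStabilizer W ⊓ Cfsg.Geo.subspaceStabilizer U ⊓ Cfsg.Geo.specialLinear (Fin n) F < K ∧ K < Cfsg.Geo.specialLinear (Fin n) F := by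
  classical
  have hdW : 0 < Module.finrank F W := by
    rw [Module.finrank_pos_iff, Submodule.nontrivial_iff_ne_bot]; exact hW0
  have hUtop : U ≠ ⊤ := by
    intro h
    rw [h, finrank_top, Module.finrank_fin_fun] at hdim
    omega
  have hWtop : W ≠ ⊤ := fun h => by
    rw [h] at hWU
    exact not_top_lt hWU
  refine ⟨Geo.subspaceStabilizer W ⊓ Geo.specialLinear (Fin n) F, ?_, ?_⟩
  · refine lt_of_le_of_ne (inf_le_inf_right _ inf_le_left) ?_
    intro heq
    obtain ⟨u, huU, huW⟩ := Set.exists_of_ssubset hWU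
    obtain ⟨a, ha⟩ : ∃ a, a ∉ U := by
      by_contra hcon
      push Not at hcon
      exact hUtop (eq_top_iff.mpr fun x _ => hcon x)
    have hu : u ∉ W ⊔ Submodule.span F {a} := by
      intro hmem
      obtain ⟨w, hw, z, hz, hwz⟩ := Submodule.mem_sup.mp hmem
      obtain ⟨c, rfl⟩ := Submodule.mem_span_singleton.mp hz
      by_cases hc : c = 0
      · subst hc
        rw [zero_smul, add_zero] at hwz
        exact huW (hwz ▸ hw)
      · have h1 : c • a ∈ U := by
          have : c • a = u - w := by rw [← hwz]; abel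
          rw [this]; exact U.sub_mem huU (hWU.le hw)
        exact ha ((U.smul_mem_iff hc).mp h1)
    obtain ⟨φ, hφ1, hφ2⟩ := exists_functional _ u hu
    have hφa : φ a = 0 := hφ2 a (Submodule.mem_sup_right (Submodule.mem_span_singleton_self a))
    have h1 : tv a φ hφa ∈ Geo.subspaceStabilizer W ⊓ Geo.specialLinear (Fin n) F :=
      ⟨tv_mem_stab_of_le_ker W a φ hφa (fun w hw => hφ2 w (Submodule.mem_sup_left hw)), tv_mem_special _ _ _⟩
    rw [← heq] at h1
    exact tv_notMem_stab U a φ hφa ha u huU (by rw [hφ1]; exact one_ne_zero) h1.1.2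
  · refine lt_of_le_of_ne inf_le_right ?_
    intro heq
    obtain ⟨w, hwW, hw0⟩ := Submodule.exists_mem_ne_zero_of_ne_bot hW0
    obtain ⟨a, ha⟩ : ∃ a, a ∉ W := by
      by_contra hcon
      push Not at hcon
      exact hWtop (eq_top_iff.mpr fun x _ => hcon x)
    have hw : w ∉ Submodule.span F {a} := by
      intro hmem
      obtain ⟨c, rfl⟩ := Submodule.mem_span_singleton.mp hmem
      have hc : c ≠ 0 := by rintro rfl; simp at hw0
      exact ha ((W.smul_mem_iff hc).mp hwW)
    obtain ⟨φ, hφ1, hφ2⟩ := exists_functional _ w hw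
    have hφa : φ a = 0 := hφ2 a (Submodule.mem_span_singleton_self a)
    have h1 : tv a φ hφa ∈ Geo.specialLinear (Fin n) F := tv_mem_special _ _ _
    rw [← heq] at h1
    exact tv_notMem_stab W a φ hφa ha w hwW (by rw [hφ1]; exact one_ne_zero) h1.1

end Cfsg.Agent.S5632
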