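import Cfsg.Statements.S5633
import Mathlib
import Cfsg.Agent.LibMaxTv29

set_option autoImplicit false
open Cfsg

namespace Cfsg.Agent.S5633

open CfsgLib.MaxTv29

/-- For a finite field F and complementary non-zero subspaces W ⊕ U = F^n with dim W < dim U, the elements of SL_n(F) stabilising both W and U form a subgroup that is not maximal in SL_n(F): some subgroup lies strictly between it and SL_n(F). -/
theorem result {F : Type*} [Field F] [Fintype F] (n : ℕ) (W U : Submodule F (Fin n → F)) (hW0 : W ≠ ⊥) (hWU : W ⊓ U = ⊥) (hWU' : W ⊔ U = ⊤) (hdim : Module.finrank F W < Module.finrank F U) : ∃ K : Subgroup (Matrix.GeneralLinearGroup (Fin n) F), Cfsg.Geo.subspaceStabilizer W ⊓ Cfsg.Geo.subspaceStabilizer U ⊓ Cfsg.Geo.specialLinear (Fin n) F < K ∧ K < Cfsg.Geo.specialLinear (Fin n) F := by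
  classical
  have hdW : 0 < Module.finrank F W := by
    rw [Module.finrank_pos_iff, Submodule.nontrivial_iff_ne_bot]; exact hW0
  have hU0 : U ≠ ⊥ := by
    rintro rfl
    rw [finrank_bot] at hdim
    omega
  obtain ⟨w, hwW, hw0⟩ := Submodule.exists_mem_ne_zero_of_ne_bot hW0
  obtain ⟨u, huU, hu0⟩ := Submodule.exists_mem_ne_zero_of_ne_bot hU0
  have hwU : w ∉ U := by
    intro h
    have : w ∈ W ⊓ U := ⟨hwW, h⟩
    rw [hWU] at this
    exact hw0 this
  have huW : u ∉ W := by
    intro h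
    have : u ∈ W ⊓ U := ⟨h, huU⟩
    rw [hWU] at this
    exact hu0 this
  refine ⟨Geo.subspaceStabilizer W ⊓ Geo.specialLinear (Fin n) F, ?_, ?_⟩
  · refine lt_of_le_of_ne (inf_le_inf_right _ inf_le_left) ?_
    intro heq
    obtain ⟨φ, hφ1, hφ2⟩ := exists_functional W u huW
    have h1 : tv w φ (hφ2 w hwW) ∈ Geo.subspaceStabilizer W ⊓ Geo.specialLinear (Fin n) F :=
      ⟨tv_mem_stab_of_le_ker W w φ _ hφ2, tv_mem_special _ _ _⟩
    rw [← heq] at h1
    exact tv_notMem_stab U w φ (hφ2 w hwW) hwU u huU (by rw [hφ1]; exact one_ne_zero) h1.1.2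
  · refine lt_of_le_of_ne inf_le_right ?_
    intro heq
    obtain ⟨φ, hφ1, hφ2⟩ := exists_functional U w hwU
    have h1 : tv u φ (hφ2 u huU) ∈ Geo.specialLinear (Fin n) F := tv_mem_special _ _ _
    rw [← heq] at h1
    exact tv_notMem_stab W u φ (hφ2 u huU) huW w hwW (by rw [hφ1]; exact one_ne_zero) h1.1

end Cfsg.Agent.S5633
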