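import Cfsg.Statements.S5635
import Cfsg.Agent.LibNMax2
import Cfsg.Agent.LibAschNumH13

set_option autoImplicit false
open Cfsg

namespace Cfsg.Agent.S5635

open CfsgLib.NMax in
theorem aux {F : Type*} [Field F] [Fintype F] (n : ℕ) (hn : 13 ≤ n) {t : ℕ} (m : ℕ) (D : Fin t → Submodule F (Fin n → F))
    (hD : Cfsg.Geo.IsMDecomposition m D) (h : (m = 1 ∧ Fintype.card F ≤ 4) ∨ (m = 2 ∧ Fintype.card F = 2)) :
    ∃ f : (Fin n → F) → (Fin n → F) → F, (∀ v x y, f v (x + y) = f v x + f v y) ∧ Cfsg.Geo.IsNondegenerateForm f ∧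
      Cfsg.Geo.decompositionStabilizer D ≤ Cfsg.Geo.similarityGroup f ∧ ∃ g : Matrix.GeneralLinearGroup (Fin n) F,
        g ∈ Cfsg.Geo.similarityGroup f ∧ g ∈ Cfsg.Geo.specialLinear (Fin n) F ∧
        g ∉ Cfsg.Geo.decompositionStabilizer D := by
  classical
  have htm : t * m = n := by
    have := CfsgLib.AschNum.dec_mul hD
    simpa using this
  rcases h with ⟨rfl, hq⟩ | ⟨rfl, hq⟩
  · have ht : 8 ≤ t := by omega
    have h1 : 1 < Fintype.card F := Fintype.one_lt_card
    have h3 : Fintype.card F = 2 ∨ Fintype.card F = 3 ∨ Fintype.card F = 4 := by omega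
    rcases h3 with h3 | h3 | h3
    · refine lines_case ht hD (RingEquiv.refl F) (fun _ => rfl) ?_ ?_
      · linear_combination 3 * two_char h3
      · intro c hc
        rcases two_cases h3 c with h | h
        · exact absurd h hc
        · rw [h, map_one, mul_one]
    · refine lines_case ht hD (RingEquiv.refl F) (fun _ => rfl) ?_ ?_
      · have h4 : (Fintype.card F : F) = 0 := Nat.cast_card_eq_zero F
        rw [h3] at h4
        push_cast at h4
        linear_combination 2 * h4
      · intro c hc
        have := FiniteField.pow_card_sub_one_eq_one c hc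
        rw [h3] at this
        change c * c = 1
        rw [← sq]; exact this
    · have h4 : (Fintype.card F : F) = 0 := Nat.cast_card_eq_zero F
      rw [h3] at h4
      push_cast at h4
      have h2 : (2 : F) = 0 := by
        have : (2 : F) * 2 = 0 := by linear_combination h4
        rcases mul_eq_zero.mp this with h | h <;> exact h
      haveI hc2 : CharP F 2 := (CharP.charP_iff_prime_eq_zero Nat.prime_two).mpr (by exact_mod_cast h2)
      obtain ⟨σ, hσ1, hσ2, hσ3⟩ := CfsgLib.Asch18.exists_sigma (F := F) (d := 1) Nat.prime_two (by rw [h3]; norm_num) one_pos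
      refine lines_case ht hD σ hσ2 (by linear_combination 3 * h2) (fun c hc => ?_)
      have := FiniteField.pow_card_sub_one_eq_one c hc
      rw [h3] at this
      rw [hσ3, pow_one, ← pow_succ']; exact this
  · exact planes_case hq (by omega) hD

/-- For a finite field F with q elements and n ≥ 13, let D be a decomposition of F^n into t ≥ 2 independent subspaces of equal dimension m spanning F^n, where m = 1 and q ≤ 4, or m = 2 and q = 2. Then the elements of SL_n(F) permuting the members of D form a subgroup that is not maximal: some subgroup lies strictly between it and SL_n(F). -/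
theorem result {F : Type*} [Field F] [Fintype F] (n : ℕ) (hn : 13 ≤ n) {t : ℕ} (m : ℕ) (D : Fin t → Submodule F (Fin n → F)) (hD : Cfsg.Geo.IsMDecomposition m D) (h : (m = 1 ∧ Fintype.card F ≤ 4) ∨ (m = 2 ∧ Fintype.card F = 2)) : ∃ K : Subgroup (Matrix.GeneralLinearGroup (Fin n) F), Cfsg.Geo.decompositionStabilizer D ⊓ Cfsg.Geo.specialLinear (Fin n) F < K ∧ K < Cfsg.Geo.specialLinear (Fin n) F := by
  classical
  obtain ⟨f, hadd, hnd, hle, g, hg1, hg2, hg3⟩ := aux n hn m D hD h
  refine ⟨Cfsg.Geo.similarityGroup f ⊓ Cfsg.Geo.specialLinear (Fin n) F, ?_, ?_⟩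
  · refine lt_of_le_of_ne (inf_le_inf_right _ hle) (fun heq => ?_)
    have : g ∈ Cfsg.Geo.decompositionStabilizer D ⊓ Cfsg.Geo.specialLinear (Fin n) F := by
      rw [heq]
      exact Subgroup.mem_inf.mpr ⟨hg1, hg2⟩
    exact hg3 (Subgroup.mem_inf.mp this).1
  · refine lt_of_le_of_ne inf_le_right (fun heq => ?_)
    refine CfsgLib.AschSL1.not_le_form (by simp; omega) hadd hnd ?_
    exact inf_eq_right.mp heq

end Cfsg.Agent.S5635
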