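import Cfsg.Statements.S5638
import Cfsg.Agent.LibNMax1

set_option autoImplicit false
open Cfsg

namespace Cfsg.Agent.S5638

/-- Over the field with 2 elements, for n = 2 n₂ ≥ 13, the stabiliser in SL_n of a tensor decomposition with factors of dimensions 2 and n₂ (the conjugate by any P of the Kronecker-product subgroup transported along any bijection Fin n ≃ Fin 2 × Fin n₂, intersected with SL_n) is not a maximal subgroup: some subgroup lies strictly between it and SL_n. -/
theorem result {F : Type*} [Field F] [Fintype F] (n : ℕ) (hn : 13 ≤ n) (hq : Fintype.card F = 2) (n₂ : ℕ) (e : Fin n ≃ Fin 2 × Fin n₂) (P : Matrix.GeneralLinearGroup (Fin n) F) : ∃ K : Subgroup (Matrix.GeneralLinearGroup (Fin n) F), Cfsg.Geo.tensorProductSubgroup 2 n₂ e P ⊓ Cfsg.Geo.specialLinear (Fin n) F < K ∧ K < Cfsg.Geo.specialLinear (Fin n) F := by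
  classical
  have hcard : n = 2 * n₂ := by
    have := Fintype.card_congr e
    simpa using this
  have hn2 : 2 ≤ n₂ := by omega
  let j : Fin n₂ := ⟨0, by omega⟩
  let j' : Fin n₂ := ⟨1, by omega⟩
  have hj : j' ≠ j := by
    intro h
    have := congrArg Fin.val h
    simp [j, j'] at this
  let Φ : Matrix.GeneralLinearGroup (Fin 2 × Fin n₂) F ≃* Matrix.GeneralLinearGroup (Fin n) F :=
    (Cfsg.Geo.glReindex e.symm).trans (MulAut.conj P)
  have hT : Cfsg.Geo.tensorProductSubgroup 2 n₂ e P = (Cfsg.Geo.kroneckerSubgroup 2 n₂ F).map Φ.toMonoidHom := by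
    rw [Cfsg.Geo.tensorProductSubgroup, Subgroup.map_map]
    rfl
  have hinj : Function.Injective Φ.toMonoidHom := Φ.injective
  rw [CfsgLib.NMax.sl_top hq, inf_top_eq, hT]
  refine ⟨(CfsgLib.NMax.NN hq n₂).map Φ.toMonoidHom, ?_, ?_⟩
  · refine lt_of_le_of_ne (Subgroup.map_mono (CfsgLib.NMax.kron_le hq n₂)) ?_
    intro h
    have h2 := Subgroup.map_injective hinj h
    apply CfsgLib.NMax.bl_not hq j j' hj
    rw [h2]
    exact CfsgLib.NMax.bl_mem hq j
  · refine lt_of_le_of_ne le_top ?_
    intro h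
    have h3 : Φ (CfsgLib.NMax.tv j j' hj) ∈ (CfsgLib.NMax.NN hq n₂).map Φ.toMonoidHom := by
      rw [h]
      exact Subgroup.mem_top _
    obtain ⟨x, hx, hxe⟩ := Subgroup.mem_map.mp h3
    have : x = CfsgLib.NMax.tv j j' hj := hinj hxe
    rw [this] at hx
    exact CfsgLib.NMax.tv_not hq j j' hj hx

end Cfsg.Agent.S5638
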