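import Cfsg.Statements.S5642
import Mathlib
import Cfsg.Agent.LibSympTv29

set_option autoImplicit false
open Cfsg

namespace Cfsg.Agent.S5642

open CfsgLib.MaxTv29 CfsgLib.SympTv29
open scoped MatrixGroups Matrix

/-- transvection `x ↦ x + f x z • u` -/
def sv {ι : Type} [Fintype ι] [DecidableEq ι] {F : Type*} [Field F] {f : (ι → F) → (ι → F) → F}
    (hf : Geo.IsSymplecticForm f) (u z : ι → F) (h : f u z = 0) : GL ι F := tv u (fd hf z) h

theorem sv_mulVec {ι : Type} [Fintype ι] [DecidableEq ι] {F : Type*} [Field F] {f : (ι → F) → (ι → F) → F}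
    (hf : Geo.IsSymplecticForm f) (u z : ι → F) (h : f u z = 0) (x : ι → F) :
    ((sv hf u z h : GL ι F) : Matrix ι ι F) *ᵥ x = x + f x z • u := tv_mulVec u (fd hf z) h x

/-- If `M` contains all symplectic transvections and one transvection with centre `u` not in the symplectic group, then it
contains all transvections with centre `u`. -/
theorem full_of_one {ι : Type} [Fintype ι] [DecidableEq ι] {F : Type*} [Field F] {f : (ι → F) → (ι → F) → F}
    (hf : Geo.IsSymplecticForm f) (M : Subgroup (GL ι F)) (hM : ∀ v c, st hf v c ∈ M)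
    (u z : ι → F) (hz : f u z = 0) (hzu : z ∉ Submodule.span F {u}) (h : sv hf u z hz ∈ M) : Full M u := by
  -- conjugation by st w c with w ∈ u^⊥
  have hconj : ∀ z', ∀ (hz' : f u z' = 0), sv hf u z' hz' ∈ M → ∀ w, f u w = 0 → ∀ c : F,
      ∀ h'' : f u ((c * f z' w) • w) = 0, sv hf u ((c * f z' w) • w) h'' ∈ M := by
    intro z' hz' h' w hw c h''
    have h1 : st hf w c * sv hf u z' hz' * (st hf w c)⁻¹ ∈ M := M.mul_mem (M.mul_mem (hM _ _) h') (M.inv_mem (hM _ _))
    have h2 : st hf w c * sv hf u z' hz' * (st hf w c)⁻¹ * (sv hf u z' hz')⁻¹ ∈ M := M.mul_mem h1 (M.inv_mem h')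
    have h3 : st hf w c * sv hf u z' hz' * (st hf w c)⁻¹ * (sv hf u z' hz')⁻¹ = sv hf u ((c * f z' w) • w) h'' := by
      rw [mul_inv_eq_iff_eq_mul, mul_inv_eq_iff_eq_mul]
      apply gl_ext
      intro x
      simp only [Units.val_mul, ← Matrix.mulVec_mulVec, sv_mulVec, st_mulVec, fd_apply, hf.bilinear.add_left, hf.bilinear.smul_left,
        hf.bilinear.smul_right, hf.alternating, hw, hz', mul_zero, add_zero]
      rw [hf.skew w z']
      module
    rw [← h3]; exact h2
  have hadd : ∀ z1 z2, ∀ (h1 : f u z1 = 0) (h2 : f u z2 = 0) (h3 : f u (z1 + z2) = 0), sv hf u z1 h1 ∈ M → sv hf u z2 h2 ∈ M →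
      sv hf u (z1 + z2) h3 ∈ M := by
    intro z1 z2 h1 h2 h3 h4 h5
    have : sv hf u (z1 + z2) h3 = sv hf u z1 h1 * sv hf u z2 h2 := by
      apply gl_ext
      intro x
      simp only [Units.val_mul, ← Matrix.mulVec_mulVec, sv_mulVec, hf.bilinear.add_left, hf.bilinear.add_right, hf.bilinear.smul_left, h1]
      module
    rw [this]; exact M.mul_mem h4 h5
  -- some w0 ∈ u^⊥ with f z w0 ≠ 0
  obtain ⟨w0, hw0, hw0'⟩ := exists_perp hf _ z hzu
  have hw0u : f u w0 = 0 := hw0' u (Submodule.mem_span_singleton_self u)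
  have hA : ∀ w, f u w = 0 → f z w ≠ 0 → ∀ h'' : f u w = 0, sv hf u w h'' ∈ M := by
    intro w hw hzw h''
    have h1 := hconj z hz h w hw (f z w)⁻¹
    rw [inv_mul_cancel₀ hzw, one_smul] at h1
    exact h1 h''
  have hB : ∀ w, ∀ (hw : f u w = 0), sv hf u w hw ∈ M := by
    intro w hw
    by_cases hzw : f z w = 0
    · have h1 : f u (w + w0) = 0 := by rw [hf.bilinear.add_right, hw, hw0u, add_zero]
      have h2 : f z (w + w0) ≠ 0 := by rw [hf.bilinear.add_right, hzw, hw0, zero_add]; exact one_ne_zero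
      have h3 : f u (-w0) = 0 := by rw [neg_right hf, hw0u, neg_zero]
      have h4 : f z (-w0) ≠ 0 := by rw [neg_right hf, hw0]; exact neg_ne_zero.mpr one_ne_zero
      have h5 := hadd (w + w0) (-w0) h1 h3 (by rw [add_neg_cancel_right]; exact hw) (hA _ h1 h2 h1) (hA _ h3 h4 h3)
      simpa only [add_neg_cancel_right] using h5
    · exact hA w hw hzw hw
  intro φ hφ
  obtain ⟨z', hz'⟩ := riesz hf φ
  have h1 : φ = fd hf z' := LinearMap.ext hz'
  subst h1
  exact hB z' hφ

/-- If `M` contains all symplectic transvections and one non-similarity then it contains all transvections. -/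
theorem full_of_not_sim {ι : Type} [Fintype ι] [DecidableEq ι] {F : Type*} [Field F] {f : (ι → F) → (ι → F) → F}
    (hf : Geo.IsSymplecticForm f) (M : Subgroup (GL ι F)) (hM : ∀ v c, st hf v c ∈ M)
    (g : GL ι F) (hgM : g ∈ M) (hg : g ∉ Geo.similarityGroup f) : ∀ a, Full M a := by
  have hmain : ∃ u, u ≠ 0 ∧ Full M u := by
    by_contra hcon
    push Not at hcon
    apply hg
    -- for all v, f(g⁻¹ x, v) is a multiple of f(x, g v)
    have h1 : ∀ v, v ≠ 0 → ∃ c : F, ∀ x, f x v = c * f ((g : Matrix ι ι F) *ᵥ x) ((g : Matrix ι ι F) *ᵥ v) := by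
      intro v hv
      set u := (g : Matrix ι ι F) *ᵥ v with hu
      have hu0 : u ≠ 0 := by
        intro h
        apply hv
        have := mulVec_injective g (a₁ := v) (a₂ := 0) (by simp only [Matrix.mulVec_zero]; exact h)
        exact this
      obtain ⟨z, hz⟩ := riesz hf ((fd hf v).comp (le g).symm.toLinearMap)
      have hz' : ∀ x, f x v = f ((g : Matrix ι ι F) *ᵥ x) z := by
        intro x
        rw [← hz]
        simp only [LinearMap.comp_apply, LinearEquiv.coe_coe, le_symm_apply, inv_mulVec_mulVec, fd_apply]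
      by_cases hzs : z ∈ Submodule.span F {u}
      · obtain ⟨c, rfl⟩ := Submodule.mem_span_singleton.mp hzs
        exact ⟨c, fun x => by rw [hz', hf.bilinear.smul_right]⟩
      · exfalso
        have huz : f u z = 0 := by rw [hu, ← hz', hf.alternating]
        apply hcon u hu0
        apply full_of_one hf M hM u z huz hzs
        have h2 : g * st hf v 1 * g⁻¹ ∈ M := M.mul_mem (M.mul_mem hgM (hM _ _)) (M.inv_mem hgM)
        have h3 : g * st hf v 1 * g⁻¹ = sv hf u z huz := by
          rw [mul_inv_eq_iff_eq_mul]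
          apply gl_ext
          intro x
          simp only [Units.val_mul, ← Matrix.mulVec_mulVec, sv_mulVec, st_mulVec, Matrix.mulVec_add, Matrix.mulVec_smul, one_mul, hz']
          rfl
        rw [← h3]; exact h2
    choose c hc using h1
    have hcc : ∀ v hv w hw, c v hv = c w hw := by
      have h2 : ∀ v hv w hw, f v w ≠ 0 → c v hv = c w hw := by
        intro v hv w hw hvw
        have e1 := hc w hw v
        have e2 := hc v hv w
        rw [hf.skew w v, hf.skew ((g : Matrix ι ι F) *ᵥ w)] at e2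
        have e3 : f v w = c v hv * f ((g : Matrix ι ι F) *ᵥ v) ((g : Matrix ι ι F) *ᵥ w) := by
          have := congrArg (fun t => -t) e2
          simp only [neg_neg, mul_neg] at this
          exact this
        have e4 : f ((g : Matrix ι ι F) *ᵥ v) ((g : Matrix ι ι F) *ᵥ w) ≠ 0 := by
          intro h0
          rw [h0, mul_zero] at e3
          exact hvw e3
        exact mul_right_cancel₀ e4 (e3.symm.trans e1)
      intro v hv w hw
      obtain ⟨y, hy1, hy2⟩ := exists_both hf hv hw
      have hy0 : y ≠ 0 := by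
        rintro rfl
        exact hy1 (zero_right hf v)
      rw [h2 v hv y hy0 hy1, h2 w hw y hy0 hy2]
    by_cases htriv : ∃ v : ι → F, v ≠ 0
    · obtain ⟨v0, hv0⟩ := htriv
      have hc0 : c v0 hv0 ≠ 0 := by
        intro h0
        obtain ⟨⟨x, hx⟩, _⟩ := hf.nondegenerate v0 hv0
        apply hx
        rw [hc v0 hv0, h0, zero_mul]
      refine ⟨(Units.mk0 _ hc0)⁻¹, fun x y => ?_⟩
      by_cases hy : y = 0
      · subst hy
        rw [Matrix.mulVec_zero, zero_right hf, zero_right hf, mul_zero]
      · rw [hc y hy x, hcc y hy v0 hv0, Units.val_inv_eq_inv_val, Units.val_mk0, inv_mul_cancel_left₀ hc0]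
    · push Not at htriv
      refine ⟨1, fun x y => ?_⟩
      rw [htriv x, htriv y, Matrix.mulVec_zero, zero_right hf, mul_zero]
  obtain ⟨u, hu0, hu⟩ := hmain
  intro a
  by_cases ha : a = 0
  · subst ha; exact full_zero M
  · obtain ⟨h, hhM, hh⟩ := exists_move hf M hM hu0 ha
    rw [← hh]; exact hu.mulVec hhM

/-- For a finite field F and n ≥ 13, let f be a non-degenerate symplectic form on F^n (so n is even). Then the elements of SL_n(F) that are similarities of f (f(gu, gv) = c f(u, v) for a non-zero scalar c depending on g) form a maximal subgroup of SL_n(F). -/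
theorem result {F : Type*} [Field F] [Fintype F] (n : ℕ) (hn : 13 ≤ n) (f : (Fin n → F) → (Fin n → F) → F) (hf : Cfsg.Geo.IsSymplecticForm f) : Cfsg.Geo.IsMaximalIn (Cfsg.Geo.specialLinear (Fin n) F) (Cfsg.Geo.similarityGroup f ⊓ Cfsg.Geo.specialLinear (Fin n) F) := by
  classical
  have hst : ∀ v c, st hf v c ∈ Geo.similarityGroup f ⊓ Geo.specialLinear (Fin n) F := by
    intro v c
    refine ⟨⟨1, fun x y => ?_⟩, tv_mem_special _ _ _⟩
    rw [(mem_iso _).mp (st_mem_iso hf v c) x y, Units.val_one, one_mul]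
  refine ⟨lt_of_le_of_ne inf_le_right ?_, fun M hHM hMS => ?_⟩
  · intro heq
    -- find x, a, y
    have hne : ∃ x : Fin n → F, x ≠ 0 := ⟨Pi.single ⟨0, by omega⟩ 1, by simp⟩
    obtain ⟨x, hx⟩ := hne
    obtain ⟨⟨a, ha⟩, _⟩ := hf.nondegenerate x hx
    -- y in x^⊥ not in span x
    obtain ⟨y, hy1, hy2⟩ : ∃ y, f x y = 0 ∧ y ∉ Submodule.span F {x, a} := by
      by_contra hcon
      push Not at hcon
      have h1 : LinearMap.ker (fd hf x) ≤ Submodule.span F {x, a} := fun y hy => hcon y (swap_eq hf hy)
      have h2 := Submodule.finrank_mono h1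
      have h3 : Module.finrank F (Submodule.span F ({x, a} : Set (Fin n → F))) ≤ 2 := by
        have := finrank_span_finset_le_card (R := F) ({x, a} : Finset (Fin n → F))
        rw [Finset.coe_pair] at this
        exact this.trans Finset.card_le_two
      have h4 := LinearMap.finrank_range_add_finrank_ker (fd hf x)
      have h5 : Module.finrank F (LinearMap.range (fd hf x)) ≤ 1 := by
        refine (Submodule.finrank_le _).trans ?_
        simp
      rw [Module.finrank_fin_fun] at h4
      omega
    obtain ⟨φ, hφ1, hφ2⟩ := exists_functional _ y hy2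
    have hφx : φ x = 0 := hφ2 x (Submodule.subset_span (by simp))
    have hφa : φ a = 0 := hφ2 a (Submodule.subset_span (by simp))
    have h1 : tv a φ hφa ∈ Geo.specialLinear (Fin n) F := tv_mem_special _ _ _
    rw [← heq] at h1
    obtain ⟨c, hc⟩ := h1.1
    have h2 := hc x y
    rw [tv_mulVec, tv_mulVec, hφx, hφ1, zero_smul, add_zero, one_smul, hf.bilinear.add_right, hy1, mul_zero, zero_add] at h2
    exact ha (swap_eq hf h2)
  · by_cases hMH : M = Geo.similarityGroup f ⊓ Geo.specialLinear (Fin n) F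
    · exact Or.inl hMH
    right
    apply le_antisymm hMS
    obtain ⟨g, hgM, hg⟩ : ∃ g ∈ M, g ∉ Geo.similarityGroup f := by
      by_contra hcon
      push Not at hcon
      exact hMH (le_antisymm (le_inf hcon hMS) hHM)
    exact special_le_of_full (full_of_not_sim hf M (fun v c => hHM (hst v c)) g hgM hg)

end Cfsg.Agent.S5642
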