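import Cfsg.Statements.S5643
import Mathlib
import Cfsg.Agent.LibUn29e

set_option autoImplicit false
open Cfsg

namespace Cfsg.Agent.S5643

open CfsgLib.MaxTv29 CfsgLib.Un29
open scoped MatrixGroups Matrix

/-- For a finite field F and n ≥ 13, let σ be a field automorphism of F of order two and f a non-degenerate unitary form on F^n with respect to σ. Then the elements of SL_n(F) that are similarities of f form a maximal subgroup of SL_n(F). -/
theorem result {F : Type*} [Field F] [Fintype F] (n : ℕ) (hn : 13 ≤ n) (σ : F ≃+* F) (f : (Fin n → F) → (Fin n → F) → F) (hf : Cfsg.Geo.IsUnitaryForm σ f) : Cfsg.Geo.IsMaximalIn (Cfsg.Geo.specialLinear (Fin n) F) (Cfsg.Geo.similarityGroup f ⊓ Cfsg.Geo.specialLinear (Fin n) F) := by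
  classical
  have hTG : TG hf ⊤ ≤ Geo.similarityGroup f ⊓ Geo.specialLinear (Fin n) F := by
    intro g hg
    refine ⟨⟨1, fun x y => ?_⟩, TG_le_special hf ⊤ hg⟩
    rw [(mem_iso g).mp (TG_le_iso hf ⊤ hg) x y, Units.val_one, one_mul]
  refine ⟨lt_of_le_of_ne inf_le_right ?_, fun M hHM hMS => ?_⟩
  · intro heq
    have hne : ∃ x : Fin n → F, x ≠ 0 := ⟨Pi.single ⟨0, by omega⟩ 1, by simp⟩
    obtain ⟨x, hx⟩ := hne
    obtain ⟨⟨a, ha⟩, _⟩ := hf.nondegenerate x hx
    obtain ⟨y, hy1, hy2⟩ : ∃ y, f x y = 0 ∧ y ∉ Submodule.span F {x, a} := by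
      by_contra hcon
      push Not at hcon
      have h1 : LinearMap.ker (CfsgLib.Un29.fd hf x) ≤ Submodule.span F {x, a} := fun y hy => hcon y (CfsgLib.Un29.swap_eq hf hy)
      have h2 := Submodule.finrank_mono h1
      have h3 := CfsgLib.Un29.finrank_pair_le (F := F) x a
      have h4 := LinearMap.finrank_range_add_finrank_ker (CfsgLib.Un29.fd hf x)
      have h5 : Module.finrank F (LinearMap.range (CfsgLib.Un29.fd hf x)) ≤ 1 := by
        refine (Submodule.finrank_le _).trans ?_
        simp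
      rw [Module.finrank_fin_fun] at h4
      omega
    obtain ⟨φ, hφ1, hφ2⟩ := exists_functional _ y hy2
    have hφx : φ x = 0 := hφ2 x (Submodule.subset_span (by simp))
    have hφa : φ a = 0 := hφ2 a (Submodule.subset_span (by simp))
    have h1 : tv a φ hφa ∈ Geo.specialLinear (Fin n) F := tv_mem_special _ _ _
    rw [← heq] at h1
    obtain ⟨c, hc⟩ := h1.1
    have h2 := hc x y
    rw [tv_mulVec, tv_mulVec, hφx, hφ1, zero_smul, add_zero, one_smul, CfsgLib.Un29.add_right hf, hy1, mul_zero, zero_add] at h2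
    exact ha (CfsgLib.Un29.swap_eq hf h2)
  · by_cases hMH : M = Geo.similarityGroup f ⊓ Geo.specialLinear (Fin n) F
    · exact Or.inl hMH
    right
    apply le_antisymm hMS
    obtain ⟨g, hgM, hg⟩ : ∃ g ∈ M, g ∉ Geo.similarityGroup f := by
      by_contra hcon
      push Not at hcon
      exact hMH (le_antisymm (le_inf hcon hMS) hHM)
    exact special_le_of_full (CfsgLib.Un29.full_of_not_sim hf (hTG.trans hHM) (by simp; omega) hgM hg)

end Cfsg.Agent.S5643
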