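import Cfsg.Statements.S5644
import Mathlib
import Cfsg.Agent.LibOM29m
import Cfsg.Agent.LibOM29i

set_option autoImplicit false
open Cfsg

namespace Cfsg.Agent.S5644



/-- For a finite field F of odd order and n ≥ 13, let Q be a non-degenerate quadratic form on F^n (its polar form is non-degenerate). Then the elements of SL_n(F) that are similarities of Q (Q(gv) = c Q(v) for a non-zero scalar c depending on g) form a maximal subgroup of SL_n(F). -/
theorem result {F : Type*} [Field F] [Fintype F] (n : ℕ) (hn : 13 ≤ n) (hodd : Odd (Fintype.card F)) (Q : (Fin n → F) → F) (hQ : Cfsg.Geo.IsNondegenerateQuadraticForm Q) : Cfsg.Geo.IsMaximalIn (Cfsg.Geo.specialLinear (Fin n) F) (Cfsg.Geo.quadSimilarityGroup Q ⊓ Cfsg.Geo.specialLinear (Fin n) F) := by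
  have h2 : (2 : F) ≠ 0 := by
    intro h
    obtain ⟨p, hp⟩ := CharP.exists F
    have h3 := (CharP.cast_eq_zero_iff F p 2).mp (by exact_mod_cast h)
    haveI : Fact p.Prime := ⟨CharP.char_is_prime F p⟩
    have hp2 : p = 2 := (Nat.prime_dvd_prime_iff_eq (Fact.out) Nat.prime_two).mp h3
    obtain ⟨k, _, hk⟩ := FiniteField.card F p
    rw [hk, hp2] at hodd
    exact absurd hodd (by
      rw [Nat.not_odd_iff_even]
      exact (Nat.even_pow.mpr ⟨even_two, k.pos.ne'⟩))
  have hQ' := CfsgLib.OM29.nondeg_toQ Q hQ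
  have hfr : Module.finrank F (Fin n → F) = n := Module.finrank_fin_fun F
  obtain ⟨e, f, e', f', u', hs⟩ := Cfsg.Agent.H22.exists_HS hQ' (by rw [hfr]; omega)
  set q := CfsgLib.OM29.toQ Q hQ with hq
  have hqQ : ∀ x, q x = Q x := fun x => rfl
  have hEM : ∀ v w, q v = 0 → QuadraticMap.polar q v w = 0 → CfsgLib.OM29.EM q v w ∈ Cfsg.Geo.quadSimilarityGroup Q ⊓ Cfsg.Geo.specialLinear (Fin n) F := by
    intro v w hv hw
    refine ⟨⟨1, fun x => ?_⟩, CfsgLib.OM29.omega_le_special (CfsgLib.OM29.EM_omega hQ' hs (by rw [hfr]; omega) hv hw)⟩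
    rw [Units.val_one, one_mul]
    exact (CfsgLib.OM29.mem_isoQ (Q := q) _).mp (CfsgLib.OM29.EM_iso v w) x
  refine ⟨lt_of_le_of_ne inf_le_right ?_, fun M hHM hMS => ?_⟩
  · intro heq
    obtain ⟨v, -, hQv, hv⟩ := CfsgLib.OM29.exists_singular_avoid q ⊤ ⊥ (by rw [finrank_bot, finrank_top, hfr]; omega)
    have hv0 := CfsgLib.OM29.ne_zero_of_notmem hv
    -- a non-singular vector
    obtain ⟨x, -, hx⟩ := CfsgLib.OM29.exists_nonsing hQ' ⊥ (by rw [finrank_bot, hfr]; omega)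
    -- `y0` outside the span of `v`, `x` and not orthogonal to `v`
    obtain ⟨z, -, hz⟩ := CfsgLib.OM29.orth_func hQ' ⊥ v hv
    obtain ⟨y0, hy0, hvy0⟩ : ∃ y0, y0 ∉ Submodule.span F {v, x} ∧ QuadraticMap.polar q v y0 ≠ 0 := by
      by_contra hcon
      push Not at hcon
      obtain ⟨y, -, hy⟩ := CfsgLib.OM29.exists_notmem (U := ⊤) (Z := Submodule.span F {v, x}) (by
        rw [finrank_top, hfr]
        have := CfsgLib.OM29.fr_pair (F := F) v x
        omega)
      by_cases hzs : z ∈ Submodule.span F {v, x}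
      · have h3 := hcon (y + z) (fun h => hy ((Submodule.add_mem_iff_left _ hzs).mp h))
        rw [QuadraticMap.polar_add_right, hcon y hy, zero_add] at h3
        exact hz h3
      · exact hz (hcon z hzs)
    obtain ⟨φ, hφ1, hφ2⟩ := CfsgLib.MaxTv29.exists_functional _ y0 hy0
    have hφv : φ v = 0 := hφ2 v (Submodule.subset_span (by simp))
    have hφx : φ x = 0 := hφ2 x (Submodule.subset_span (by simp))
    have h1 : CfsgLib.MaxTv29.tv v φ hφv ∈ Cfsg.Geo.specialLinear (Fin n) F := CfsgLib.MaxTv29.tv_mem_special _ _ _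
    rw [← heq] at h1
    obtain ⟨c, hc⟩ := h1.1
    have h3 := hc x
    rw [CfsgLib.MaxTv29.tv_mulVec, hφx, zero_smul, add_zero] at h3
    have hc1 : (c : F) = 1 := by
      have h4 : ((c : F) - 1) * q x = 0 := by rw [hqQ]; linear_combination -h3
      exact sub_eq_zero.mp ((mul_eq_zero.mp h4).resolve_right hx)
    have h4 := hc y0
    rw [CfsgLib.MaxTv29.tv_mulVec, hφ1, one_smul, hc1, one_mul, ← hqQ, ← hqQ, Cfsg.Agent.H22.qadd, hQv, CfsgLib.OM29.bsymm y0 v] at h4
    apply hvy0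
    linear_combination h4
  by_cases hMH : M = Cfsg.Geo.quadSimilarityGroup Q ⊓ Cfsg.Geo.specialLinear (Fin n) F
  · exact Or.inl hMH
  right
  apply le_antisymm hMS
  obtain ⟨g, hgM, hg⟩ : ∃ g ∈ M, g ∉ Cfsg.Geo.quadSimilarityGroup Q := by
    by_contra hcon
    push Not at hcon
    exact hMH (le_antisymm (le_inf hcon hMS) hHM)
  -- the transformed form
  let q' : QuadraticForm F (Fin n → F) := q.comp (CfsgLib.MaxTv29.le g).symm.toLinearMap
  have hq' : ∀ x, q' x = q (Matrix.mulVec ((g⁻¹ : Matrix.GeneralLinearGroup (Fin n) F) : Matrix (Fin n) (Fin n) F) x) := fun x => rfl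
  have hB' : ∀ x y, QuadraticMap.polar q' x y = QuadraticMap.polar q (Matrix.mulVec ((g⁻¹ : Matrix.GeneralLinearGroup (Fin n) F) : Matrix (Fin n) (Fin n) F) x)
      (Matrix.mulVec ((g⁻¹ : Matrix.GeneralLinearGroup (Fin n) F) : Matrix (Fin n) (Fin n) F) y) := by
    intro x y
    unfold QuadraticMap.polar
    rw [hq', hq', hq', Matrix.mulVec_add]
  have hnd' : (QuadraticMap.polarBilin q').Nondegenerate := by
    apply Cfsg.Agent.H22.nondeg_of_left
    intro x hx
    by_contra hx0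
    obtain ⟨s, -, hs'⟩ := CfsgLib.OM29.orth_func hQ' ⊥ (Matrix.mulVec ((g⁻¹ : Matrix.GeneralLinearGroup (Fin n) F) : Matrix (Fin n) (Fin n) F) x) (fun h => hx0 (by
      have h3 : Matrix.mulVec ((g⁻¹ : Matrix.GeneralLinearGroup (Fin n) F) : Matrix (Fin n) (Fin n) F) x = 0 := (Submodule.mem_bot F).mp h
      have h4 := CfsgLib.MaxTv29.mulVec_inv_mulVec g x
      rw [h3, Matrix.mulVec_zero] at h4
      exact h4.symm))
    apply hs'
    have h3 := hx (Matrix.mulVec (g : Matrix (Fin n) (Fin n) F) s)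
    rw [hB', CfsgLib.MaxTv29.inv_mulVec_mulVec] at h3
    exact h3
  have hM1 : ∀ v w, q v = 0 → QuadraticMap.polar q v w = 0 → CfsgLib.OM29.EM q v w ∈ M := fun v w hv hw => hHM (hEM v w hv hw)
  have hM2 : ∀ v w, q' v = 0 → QuadraticMap.polar q' v w = 0 → CfsgLib.OM29.EM q' v w ∈ M := by
    intro v w hv hw
    have hv' := hv
    have hw' := hw
    rw [hq'] at hv'
    rw [hB'] at hw'
    have h3 : CfsgLib.OM29.EM q' v w = g * CfsgLib.OM29.EM q (Matrix.mulVec ((g⁻¹ : Matrix.GeneralLinearGroup (Fin n) F) : Matrix (Fin n) (Fin n) F) v)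
        (Matrix.mulVec ((g⁻¹ : Matrix.GeneralLinearGroup (Fin n) F) : Matrix (Fin n) (Fin n) F) w) * g⁻¹ := by
      apply CfsgLib.MaxTv29.gl_ext
      intro x
      rw [CfsgLib.OM29.EM_mulVec hv hw, Units.val_mul, Units.val_mul, ← Matrix.mulVec_mulVec, ← Matrix.mulVec_mulVec, CfsgLib.OM29.EM_mulVec hv' hw']
      simp only [Matrix.mulVec_add, Matrix.mulVec_sub, Matrix.mulVec_smul, CfsgLib.MaxTv29.mulVec_inv_mulVec, hB', hq']
    rw [h3]
    exact M.mul_mem (M.mul_mem hgM (hM1 _ _ hv' hw')) (M.inv_mem hgM)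
  obtain ⟨v, hv0, hQv, ψ, hψ, htv, w, hw, hψw⟩ := CfsgLib.OM29.exists_tv h2 hQ' hnd' (by rw [hfr]; omega) hM1 hM2 (by
    rintro ⟨c, hc⟩
    apply hg
    have hcx : ∀ x, Q x = c * Q (Matrix.mulVec (g : Matrix (Fin n) (Fin n) F) x) := by
      intro x
      have h3 := hc (Matrix.mulVec (g : Matrix (Fin n) (Fin n) F) x)
      rw [hq', CfsgLib.MaxTv29.inv_mulVec_mulVec] at h3
      exact h3
    have hc0 : c ≠ 0 := by
      intro h0
      obtain ⟨x, -, hx⟩ := CfsgLib.OM29.exists_nonsing hQ' ⊥ (by rw [finrank_bot, hfr]; omega)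
      apply hx
      rw [hqQ, hcx, h0, zero_mul]
    refine ⟨(Units.mk0 c hc0)⁻¹, fun x => ?_⟩
    rw [hcx x, Units.val_inv_eq_inv_val, Units.val_mk0, ← mul_assoc, inv_mul_cancel₀ hc0, one_mul])
  exact CfsgLib.MaxTv29.special_le_of_full (CfsgLib.OM29.full_of_tv h2 hQ' (by rw [hfr]; omega) hM1 hv0 hQv ψ hψ htv hw hψw)

end Cfsg.Agent.S5644
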