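import Cfsg.Statements.S5645
import Mathlib
import Cfsg.Agent.LibSympTv29b

set_option autoImplicit false
open Cfsg

namespace Cfsg.Agent.S5645

open CfsgLib.MaxTv29 CfsgLib.SympTv29
open scoped MatrixGroups Matrix

theorem main {ι : Type} [Fintype ι] [DecidableEq ι] {F : Type*} [Field F] {f : (ι → F) → (ι → F) → F}
    (hf : Geo.IsSymplecticForm f) (W : Submodule F (ι → F)) (hW0 : W ≠ ⊥) (hW : Geo.IsTotallySingularFor f W) :
    Geo.IsMaximalIn (iso f) (Geo.subspaceStabilizer W ⊓ iso f) := by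
  obtain ⟨w0, hw0, hw0'⟩ := Submodule.exists_mem_ne_zero_of_ne_bot hW0
  obtain ⟨⟨v0, hv0⟩, _⟩ := hf.nondegenerate w0 hw0'
  have hv0W : v0 ∉ W := fun h => hv0 (hW v0 h w0 hw0)
  refine ⟨lt_of_le_of_ne inf_le_right ?_, fun M hHM hMS => ?_⟩
  · intro heq
    have h1 : st hf v0 1 ∈ iso f := st_mem_iso hf _ _
    rw [← heq] at h1
    exact tv_notMem_stab W v0 _ _ hv0W w0 hw0 (by rw [one_smul, fd_apply]; exact swap_ne hf hv0) h1.1
  by_cases hMH : M = Geo.subspaceStabilizer W ⊓ iso f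
  · exact Or.inl hMH
  right
  apply le_antisymm hMS
  obtain ⟨g, hgM, hg⟩ : ∃ g ∈ M, g ∉ Geo.subspaceStabilizer W := by
    by_contra hcon
    push Not at hcon
    exact hMH (le_antisymm (le_inf hcon hMS) hHM)
  have hgi : g ∈ iso f := hMS hgM
  -- perp of W is full
  have hperp : ∀ v, (∀ w ∈ W, f w v = 0) → SFull hf M v := by
    intro v hv c
    refine hHM ⟨?_, st_mem_iso hf _ _⟩
    exact tv_mem_stab_of_le_ker W v _ _ (fun w hw => by rw [LinearMap.smul_apply, fd_apply, hv w hw, smul_zero])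
  -- an element outside perp
  obtain ⟨v, hvF, w1, hw1, hw1v⟩ : ∃ v, SFull hf M v ∧ ∃ w ∈ W, f w v ≠ 0 := by
    rw [mem_stab] at hg
    push Not at hg
    obtain ⟨w, hw, hgw⟩ := hg
    obtain ⟨z, hz1, hz2⟩ := exists_perp hf W _ hgw
    refine ⟨((g⁻¹ : GL ι F) : Matrix ι ι F) *ᵥ z, (hperp z hz2).mulVec (M.inv_mem hgM) ((iso f).inv_mem hgi), w, hw, ?_⟩
    have h1 := (mem_iso g).mp hgi w (((g⁻¹ : GL ι F) : Matrix ι ι F) *ᵥ z)
    rw [mulVec_inv_mulVec, hz1] at h1
    rw [← h1]; exact one_ne_zero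
  apply iso_le_of_sfull hf
  intro x
  by_cases hx : ∀ w ∈ W, f w x = 0
  · exact hperp x hx
  push Not at hx
  obtain ⟨a, haW, ha1, ha2⟩ := exists_avoid W (fd hf v) (fd hf x) ⟨w1, hw1, hw1v⟩ hx
  rw [fd_apply] at ha1 ha2
  have ha1' := swap_ne hf ha1
  have ha2' := swap_ne hf ha2
  -- scale v
  set c := f x a * (f v a)⁻¹ with hc
  have hc0 : c ≠ 0 := mul_ne_zero ha2' (inv_ne_zero ha1')
  set v' := c • v with hv'
  have hv'a : f v' a = f x a := by
    rw [hv', hf.bilinear.smul_left, hc, inv_mul_cancel_right₀ ha1']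
  have hv'F : SFull hf M v' := hvF.smul c
  set b := (f x a)⁻¹ • (x - v') with hb
  have hab : f a b = 0 := by
    rw [hb, hf.bilinear.smul_right, sub_right hf, hf.skew a x, hf.skew a v', hv'a, sub_self, mul_zero]
  have hsgM : sg hf a b ∈ M := by
    refine hHM ⟨(mem_stab _ _).mpr ?_, sg_mem_iso hf _ _⟩
    intro w hw
    rw [sg_mulVec hf a b hab, hW w hw a haW, zero_smul, add_zero]
    exact W.add_mem hw (W.smul_mem _ haW)
  have h1 := hv'F.mulVec hsgM (sg_mem_iso hf _ _)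
  rw [sg_mulVec hf a b hab, hv'a, hb, smul_smul, mul_inv_cancel₀ ha2', one_smul, add_sub_cancel, ← hb] at h1
  set d := f v' b with hd
  -- x + d • a full
  have h2 : st hf a (-d * (f x a)⁻¹) ∈ M := by
    refine hperp a ?_ _
    intro w hw; exact hW w hw a haW
  have h3 := h1.mulVec h2 (st_mem_iso hf _ _)
  rw [st_mulVec, hf.bilinear.add_left, hf.bilinear.smul_left, hf.alternating, mul_zero, add_zero, inv_mul_cancel_right₀ ha2'] at h3
  have h4 : x + d • a + -d • a = x := by module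
  rw [h4] at h3
  exact h3

/-- For a finite field F and m ≥ 7, in the symplectic group Sp_2m(F) of the standard alternating form on F^(2m) (as a subgroup of GL_2m(F)), the stabiliser of any non-zero subspace on which the form vanishes identically is a maximal subgroup. -/
theorem result {F : Type*} [Field F] [Fintype F] (m : ℕ) (hm : 7 ≤ m) (W : Submodule F (Fin m ⊕ Fin m → F)) (hW0 : W ≠ ⊥) (hW : Cfsg.Geo.IsTotallySingularFor (Cfsg.sympForm m F) W) : Cfsg.Geo.IsMaximalIn (Cfsg.spGL m F) (Cfsg.Geo.subspaceStabilizer W ⊓ Cfsg.spGL m F) := by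
  exact main (sympForm_symplectic m F) W hW0 hW

end Cfsg.Agent.S5645
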