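import Cfsg.Statements.S5646
import Mathlib
import Cfsg.Agent.LibSympTv29c

set_option autoImplicit false
open Cfsg

namespace Cfsg.Agent.S5646

open CfsgLib.MaxTv29 CfsgLib.SympTv29
open scoped MatrixGroups Matrix

theorem main {ι : Type} [Fintype ι] [DecidableEq ι] {F : Type*} [Field F] {f : (ι → F) → (ι → F) → F}
    (hf : Geo.IsSymplecticForm f) (W : Submodule F (ι → F)) (hW0 : W ≠ ⊥) (hW : Geo.IsNondegenerateOn f W)
    (hdim : 2 * Module.finrank F W < Module.finrank F (ι → F)) :
    Geo.IsMaximalIn (iso f) (Geo.subspaceStabilizer W ⊓ iso f) := by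
  obtain ⟨w0, hw0, hw0'⟩ := Submodule.exists_mem_ne_zero_of_ne_bot hW0
  set W' := perp hf W with hW'
  have hW'n := perp_nondeg hf W hW
  have hdims : Module.finrank F W + Module.finrank F W' = Module.finrank F (ι → F) := finrank_perp hf W hW
  have hW'0 : W' ≠ ⊥ := by
    intro h
    rw [h, finrank_bot] at hdims
    omega
  obtain ⟨y0, hy0, hy0'⟩ := Submodule.exists_mem_ne_zero_of_ne_bot hW'0
  have hdisj : ∀ x, x ∈ W → x ∈ W' → x = 0 := by
    intro x h1 h2
    have : x ∈ W ⊓ W' := ⟨h1, h2⟩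
    rw [inf_perp hf W hW] at this
    exact this
  refine ⟨lt_of_le_of_ne inf_le_right ?_, fun M hHM hMS => ?_⟩
  · intro heq
    obtain ⟨⟨x0, hx0W, hx0⟩, _⟩ := hW w0 hw0 hw0'
    have hv : x0 + y0 ∉ W := by
      intro h
      exact hy0' (hdisj y0 ((W.add_mem_iff_right hx0W).mp h) hy0)
    have h1 : st hf (x0 + y0) 1 ∈ iso f := st_mem_iso hf _ _
    rw [← heq] at h1
    refine tv_notMem_stab W (x0 + y0) _ _ hv w0 hw0 ?_ h1.1
    rw [one_smul, fd_apply, hf.bilinear.add_right, hy0 w0 hw0, add_zero]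
    exact swap_ne hf hx0
  by_cases hMH : M = Geo.subspaceStabilizer W ⊓ iso f
  · exact Or.inl hMH
  right
  apply le_antisymm hMS
  obtain ⟨g, hgM, hg⟩ : ∃ g ∈ M, g ∉ Geo.subspaceStabilizer W := by
    by_contra hcon
    push Not at hcon
    exact hMH (le_antisymm (le_inf hcon hMS) hHM)
  have hgi : g ∈ iso f := hMS hgM
  have hTW : ∀ v ∈ W, SFull hf M v := by
    intro v hv c
    exact hHM ⟨tv_mem_stab_of_mem W v _ _ hv, st_mem_iso hf _ _⟩
  have hTW' : ∀ v ∈ W', SFull hf M v := by
    intro v hv c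
    exact hHM ⟨tv_mem_stab_of_le_ker W v _ _ (fun w hw => by rw [LinearMap.smul_apply, fd_apply, hv w hw, smul_zero]), st_mem_iso hf _ _⟩
  -- a full vector outside W ∪ W'
  obtain ⟨t, htF, htW, htW'⟩ : ∃ t, SFull hf M t ∧ t ∉ W ∧ t ∉ W' := by
    by_contra hcon
    push Not at hcon
    have hall : ∀ t, SFull hf M t → t ∈ W ∨ t ∈ W' := by
      intro t ht
      by_cases h : t ∈ W
      · exact Or.inl h
      · exact Or.inr (hcon t ht h)
    have h1 := le_or_le (W'.map (le g).toLinearMap) W W' (by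
      rintro _ ⟨y, hy, rfl⟩
      exact hall _ ((hTW' y hy).mulVec hgM hgi))
    have hfr : Module.finrank F (W'.map (le g).toLinearMap) = Module.finrank F W' := LinearEquiv.finrank_map_eq (le g) W'
    rcases h1 with h1 | h1
    · have := Submodule.finrank_mono h1
      rw [hfr] at this
      omega
    · have h2 : W'.map (le g).toLinearMap = W' := Submodule.eq_of_le_of_finrank_eq h1 hfr
      apply hg
      rw [mem_stab]
      intro w hw
      apply le_of_perp_perp hf W
      intro y hy
      have hy2 : y ∈ W'.map (le g).toLinearMap := by rw [h2]; exact hy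
      obtain ⟨z, hz, rfl⟩ := hy2
      have := (mem_iso g).mp hgi w z
      rw [hz w hw] at this
      exact this
  obtain ⟨a, ha, b, hb, rfl⟩ := exists_decomp hf W hW t
  have ha0 : a ≠ 0 := by
    rintro rfl
    rw [zero_add] at htW'
    exact htW' hb
  have hb0 : b ≠ 0 := by
    rintro rfl
    rw [add_zero] at htW
    exact htW ha
  apply iso_le_of_sfull hf
  intro x
  obtain ⟨c, hc, d, hd, rfl⟩ := exists_decomp hf W hW x
  by_cases hc0 : c = 0
  · subst hc0; rw [zero_add]; exact hTW' d hd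
  by_cases hd0 : d = 0
  · subst hd0; rw [add_zero]; exact hTW c hc
  obtain ⟨h1, h1M, h1i, h1a, h1y⟩ := exists_move_in hf W hW M hTW ha hc ha0 hc0
  obtain ⟨h2, h2M, h2i, h2a, h2y⟩ := exists_move_in hf W' hW'n M hTW' hb hd hb0 hd0
  have h3 := (htF.mulVec h1M h1i).mulVec h2M h2i
  rw [Matrix.mulVec_add, h1a, h1y b hb, Matrix.mulVec_add, h2a, h2y c (fun u hu => swap_eq hf (hu c hc))] at h3
  exact h3

/-- For a finite field F and m ≥ 7, in the symplectic group Sp_2m(F) of the standard alternating form on F^(2m), the stabiliser of any non-zero subspace W on which the form is non-degenerate and with dim W < m is a maximal subgroup. -/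
theorem result {F : Type*} [Field F] [Fintype F] (m : ℕ) (hm : 7 ≤ m) (W : Submodule F (Fin m ⊕ Fin m → F)) (hW0 : W ≠ ⊥) (hW : Cfsg.Geo.IsNondegenerateOn (Cfsg.sympForm m F) W) (hdim : Module.finrank F W < m) : Cfsg.Geo.IsMaximalIn (Cfsg.spGL m F) (Cfsg.Geo.subspaceStabilizer W ⊓ Cfsg.spGL m F) := by
  refine main (sympForm_symplectic m F) W hW0 hW ?_
  rw [Module.finrank_fintype_fun_eq_card]
  simp only [Fintype.card_sum, Fintype.card_fin]
  omega

end Cfsg.Agent.S5646
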