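import Cfsg.Statements.S5648
import Cfsg.Agent.LibH22NM1
import Cfsg.Agent.LibNMax1
import Cfsg.Agent.LibSympTv29b
import Cfsg.Agent.LibAschNumH13

set_option autoImplicit false
open Cfsg

namespace Cfsg.Agent.S5648
open scoped MatrixGroups Matrix
open CfsgLib.H22NM CfsgLib.SympTv29

variable {ι : Type} [Fintype ι] [DecidableEq ι] {F : Type*} [Field F]

theorem sum_left {f : (ι → F) → (ι → F) → F} (hf : Geo.IsSymplecticForm f) {t : ℕ} (c : Fin t → (ι → F)) (x : ι → F) :
    f (∑ i, c i) x = ∑ i, f (c i) x := map_sum (fd hf x) _ _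

theorem sum_right {f : (ι → F) → (ι → F) → F} (hf : Geo.IsSymplecticForm f) {t : ℕ} (c : Fin t → (ι → F)) (x : ι → F) :
    f x (∑ i, c i) = ∑ i, f x (c i) := by
  rw [hf.skew, sum_left hf, ← Finset.sum_neg_distrib]
  exact Finset.sum_congr rfl fun i _ => (hf.skew _ _).symm

open Classical in
/-- number of nonzero components mod 2 -/
noncomputable def qn (f : (ι → F) → (ι → F) → F) {t : ℕ} (D : Fin t → Submodule F (ι → F)) (v : ι → F) : F :=
  ∑ i, (if ∃ x ∈ D i, f v x ≠ 0 then 1 else 0)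

theorem qn_inv {f : (ι → F) → (ι → F) → F} {t : ℕ} {D : Fin t → Submodule F (ι → F)} {g : GL ι F}
    (hg : g ∈ Geo.decompositionStabilizer D) (hi : g ∈ iso f) (v : ι → F) :
    qn f D ((g : Matrix ι ι F) *ᵥ v) = qn f D v := by
  classical
  obtain ⟨σ, hσ⟩ := hg
  unfold qn
  rw [← Equiv.sum_comp σ]
  apply Finset.sum_congr rfl
  intro i _
  have : (∃ x ∈ D (σ i), f ((g : Matrix ι ι F) *ᵥ v) x ≠ 0) ↔ (∃ x ∈ D i, f v x ≠ 0) := by
    constructor
    · rintro ⟨x, hx, hne⟩
      obtain ⟨w, hw, rfl⟩ := map_surj hσ hx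
      exact ⟨w, hw, by rwa [(mem_iso g).mp hi] at hne⟩
    · rintro ⟨x, hx, hne⟩
      exact ⟨_, map_mem hσ hx, by rwa [(mem_iso g).mp hi]⟩
  simp only [this]

theorem ne_iff {f : (ι → F) → (ι → F) → F} (hf : Geo.IsSymplecticForm f) {t : ℕ} {D : Fin t → Submodule F (ι → F)} {m : ℕ}
    (hD : Geo.IsNondegenerateMDecomposition f m D) {c : Fin t → (ι → F)} (hc : ∀ i, c i ∈ D i) (i : Fin t) :
    (∀ x ∈ D i, f (∑ j, c j) x = f (c i) x) ∧ ((∃ x ∈ D i, f (∑ j, c j) x ≠ 0) ↔ c i ≠ 0) := by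
  classical
  have h1 : ∀ x ∈ D i, f (∑ j, c j) x = f (c i) x := by
    intro x hx
    rw [sum_left hf]
    apply Finset.sum_eq_single i
    · intro j _ hji
      exact hD.orthogonal j i hji _ (hc j) x hx
    · intro h; exact absurd (Finset.mem_univ _) h
  refine ⟨h1, ?_⟩
  constructor
  · rintro ⟨x, hx, hne⟩ h0
    rw [h1 x hx, h0, zero_left hf] at hne
    exact hne rfl
  · intro hne
    obtain ⟨_, x, hx, h⟩ := hD.nondegenerate i _ (hc i) hne
    exact ⟨x, hx, by rwa [h1 x hx]⟩

theorem qn_add [Fintype F] (hq : Fintype.card F = 2) {f : (ι → F) → (ι → F) → F} (hf : Geo.IsSymplecticForm f) {t : ℕ} {D : Fin t → Submodule F (ι → F)}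
    (hD : Geo.IsNondegenerateMDecomposition f 2 D) (v u : ι → F) :
    qn f D (v + u) = qn f D v + qn f D u + f v u := by
  classical
  have c2 := CfsgLib.NMax.two_cases hq
  have ch2 := CfsgLib.NMax.two_char hq
  obtain ⟨c, hc, rfl⟩ := exists_dec hD.decomp.iSup_eq_top v
  obtain ⟨d, hd, rfl⟩ := exists_dec hD.decomp.iSup_eq_top u
  have hcd : ∀ i, c i + d i ∈ D i := fun i => (D i).add_mem (hc i) (hd i)
  have hfs : f (∑ i, c i) (∑ i, d i) = ∑ i, f (c i) (d i) := by
    rw [sum_right hf]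
    exact Finset.sum_congr rfl fun i _ => (ne_iff hf hD hc i).1 _ (hd i)
  rw [← Finset.sum_add_distrib]
  unfold qn
  rw [hfs, ← Finset.sum_add_distrib, ← Finset.sum_add_distrib]
  apply Finset.sum_congr rfl
  intro i _
  have e1 := (ne_iff hf hD hcd i).2
  have e2 := (ne_iff hf hD hc i).2
  have e3 := (ne_iff hf hD hd i).2
  simp only [e1, e2, e3]
  by_cases ha : c i = 0
  · by_cases hb : d i = 0
    · rw [ha, hb, zero_left hf]; simp
    · rw [ha, zero_left hf]; simp [hb]
  · by_cases hb : d i = 0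
    · rw [hb, zero_right hf]; simp [ha]
    · by_cases hab : c i = d i
      · rw [hab, hf.alternating]
        have : d i + d i = 0 := by
          have : d i + d i = ((1 : F) + 1) • d i := by rw [add_smul, one_smul]
          rw [this, ch2, zero_smul]
        rw [this]
        simp [hb, ch2]
      · have hne : c i + d i ≠ 0 := by
          intro h
          apply hab
          have : d i + d i = 0 := by
            have : d i + d i = ((1 : F) + 1) • d i := by rw [add_smul, one_smul]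
            rw [this, ch2, zero_smul]
          exact add_right_cancel (h.trans this.symm)
        rw [plane_ne hq hf (hD.nondegenerate i) (hD.decomp.finrank_eq i) (hc i) (hd i) ha hb hab c2 ch2]
        simp only [ne_eq, hne, ha, hb, not_false_eq_true, if_true, ch2, zero_add]

theorem qn_mem [Fintype F] {f : (ι → F) → (ι → F) → F} (hf : Geo.IsSymplecticForm f) {t : ℕ} {D : Fin t → Submodule F (ι → F)}
    (hD : Geo.IsNondegenerateMDecomposition f 2 D) {i : Fin t} {v : ι → F} (hv : v ∈ D i) (hv0 : v ≠ 0) : qn f D v = 1 := by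
  classical
  unfold qn
  rw [Finset.sum_eq_single i]
  · obtain ⟨_, x, hx, h⟩ := hD.nondegenerate i v hv hv0
    rw [if_pos ⟨x, hx, h⟩]
  · intro j _ hji
    rw [if_neg]
    rintro ⟨x, hx, h⟩
    exact h (hD.orthogonal i j (Ne.symm hji) v hv x hx)
  · intro h; exact absurd (Finset.mem_univ _) h

/-- Over the field with 2 elements and for m ≥ 7, let D be a decomposition of F^(2m) into t pairwise orthogonal non-degenerate 2-dimensional subspaces for the standard alternating form (t = m ≥ 2). Then the elements of Sp_2m(2) permuting the members of D form a subgroup that is not maximal: some subgroup lies strictly between it and Sp_2m(2). -/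
theorem result {F : Type*} [Field F] [Fintype F] (m : ℕ) (hm : 7 ≤ m) (hq : Fintype.card F = 2) {t : ℕ} (D : Fin t → Submodule F (Fin m ⊕ Fin m → F)) (hD : Cfsg.Geo.IsNondegenerateMDecomposition (Cfsg.sympForm m F) 2 D) : ∃ K : Subgroup (Matrix.GeneralLinearGroup (Fin m ⊕ Fin m) F), Cfsg.Geo.decompositionStabilizer D ⊓ Cfsg.spGL m F < K ∧ K < Cfsg.spGL m F := by
  classical
  have hf := sympForm_symplectic m F
  set f := sympForm m F with hfd
  have c2 := CfsgLib.NMax.two_cases hq
  have ch2 := CfsgLib.NMax.two_char hq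
  have ht : 3 ≤ t := by
    have h1 := CfsgLib.AschNum.dec_mul hD.decomp
    simp at h1
    omega
  have hex : ∀ i, ∃ v ∈ D i, v ≠ 0 := by
    intro i
    have h1 := hD.decomp.finrank_eq i
    have h2 : D i ≠ ⊥ := by
      intro h; rw [h, finrank_bot] at h1; omega
    obtain ⟨v, hv, hv0⟩ := Submodule.exists_mem_ne_zero_of_ne_bot h2
    exact ⟨v, hv, hv0⟩
  let i0 : Fin t := ⟨0, by omega⟩
  let i1 : Fin t := ⟨1, by omega⟩
  let i2 : Fin t := ⟨2, by omega⟩
  have h01 : i0 ≠ i1 := by simp [i0, i1]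
  have h02 : i0 ≠ i2 := by simp [i0, i2]
  have h12 : i1 ≠ i2 := by simp [i1, i2]
  obtain ⟨u0, hu0, hu00⟩ := hex i0
  obtain ⟨u1, hu1, hu10⟩ := hex i1
  obtain ⟨u2, hu2, hu20⟩ := hex i2
  have q0 := qn_mem hf hD hu0 hu00
  have q1 := qn_mem hf hD hu1 hu10
  have q2 := qn_mem hf hD hu2 hu20
  have o01 : f u0 u1 = 0 := hD.orthogonal _ _ h01 _ hu0 _ hu1
  have o02 : f u0 u2 = 0 := hD.orthogonal _ _ h02 _ hu0 _ hu2
  have o12 : f u1 u2 = 0 := hD.orthogonal _ _ h12 _ hu1 _ hu2
  -- a vector in `D i0` pairing to one with `u0`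
  obtain ⟨x, hx, hxu⟩ : ∃ x ∈ D i0, f x u0 = 1 := by
    obtain ⟨⟨x, hx, h⟩, _⟩ := hD.nondegenerate i0 u0 hu0 hu00
    exact ⟨x, hx, (c2 _).resolve_left h⟩
  have hx0 : x ≠ 0 := by rintro rfl; rw [zero_left hf] at hxu; exact zero_ne_one hxu
  have ox1 : f x u1 = 0 := hD.orthogonal _ _ h01 _ hx _ hu1
  have ox2 : f x u2 = 0 := hD.orthogonal _ _ h02 _ hx _ hu2
  have hst := strict_of (H := Cfsg.Geo.decompositionStabilizer D) (I := Cfsg.spGL m F)
    (K := Cfsg.isometryGroup F (qn f D)) ?_ ?_ ?_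
  · exact ⟨_, hst.1, hst.2⟩
  · rintro g ⟨hg, hgi⟩ v w
    exact qn_inv hg hgi v
  · refine ⟨st hf (u0 + u1 + u2) 1, ?_, st_mem_iso hf _ _, ?_⟩
    · intro v w
      show qn f D ((st hf (u0 + u1 + u2) 1 : GL (Fin m ⊕ Fin m) F).1 *ᵥ v) = qn f D v
      have := st_mulVec hf (u0 + u1 + u2) 1 v
      rw [this, one_mul]
      rcases c2 (f v (u0 + u1 + u2)) with h | h
      · rw [h, zero_smul, add_zero]
      · rw [h, one_smul, qn_add hq hf hD v, h]
        have : qn f D (u0 + u1 + u2) = 1 := by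
          rw [qn_add hq hf hD, qn_add hq hf hD, q0, q1, q2, hf.bilinear.add_left, o01, o02, o12]
          linear_combination ch2
        rw [this]
        linear_combination ch2
    · rintro ⟨σ, hσ⟩
      have h1 := map_mem hσ hx
      rw [st_mulVec, one_mul, hf.bilinear.add_right, hf.bilinear.add_right, hxu, ox1, ox2, add_zero, add_zero, one_smul] at h1
      -- the image has components in `D i0` and `D i1`
      have k1 : ∀ j, σ i0 = j → ∀ l, l ≠ j → ∀ y ∈ D l, f (x + (u0 + u1 + u2)) y = 0 := by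
        intro j hj l hl y hy
        rw [hj] at h1
        exact hD.orthogonal j l (Ne.symm hl) _ h1 y hy
      by_cases hj : σ i0 = i1
      · obtain ⟨_, y, hy, hyn⟩ := hD.nondegenerate i2 u2 hu2 hu20
        have := k1 i1 hj i2 (Ne.symm h12) y hy
        rw [hf.bilinear.add_left, hf.bilinear.add_left, hf.bilinear.add_left, hD.orthogonal _ _ h02 _ hx _ hy, hD.orthogonal _ _ h02 _ hu0 _ hy,
          hD.orthogonal _ _ h12 _ hu1 _ hy, zero_add, zero_add, zero_add] at this
        exact hyn this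
      · obtain ⟨_, y, hy, hyn⟩ := hD.nondegenerate i1 u1 hu1 hu10
        have := k1 (σ i0) rfl i1 (Ne.symm hj) y hy
        rw [hf.bilinear.add_left, hf.bilinear.add_left, hf.bilinear.add_left, hD.orthogonal _ _ h01 _ hx _ hy, hD.orthogonal _ _ h01 _ hu0 _ hy,
          hD.orthogonal _ _ (Ne.symm h12) _ hu2 _ hy, zero_add, zero_add, add_zero] at this
        exact hyn this
  · refine ⟨st hf (u0 + u1) 1, st_mem_iso hf _ _, ?_⟩
    intro hcon
    have h1 : qn f D ((st hf (u0 + u1) 1 : GL (Fin m ⊕ Fin m) F).1 *ᵥ x) = qn f D x := hcon x 0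
    have h2 := st_mulVec hf (u0 + u1) 1 x
    rw [h2, one_mul, hf.bilinear.add_right, hxu, ox1, add_zero, one_smul, qn_add hq hf hD x, qn_add hq hf hD u0, q0, q1, o01, hf.bilinear.add_right, hxu, ox1] at h1
    have h3 : (1 : F) = 0 := by linear_combination h1 - ch2
    exact one_ne_zero h3

end Cfsg.Agent.S5648
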