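import Cfsg.Statements.S5652
import Mathlib
import Cfsg.Agent.LibSympTv29d

set_option autoImplicit false
open Cfsg

namespace Cfsg.Agent.S5652

open CfsgLib.MaxTv29 CfsgLib.SympTv29
open scoped MatrixGroups Matrix

section
variable {ι : Type} [Fintype ι] [DecidableEq ι] {F : Type*} [Field F] {f : (ι → F) → (ι → F) → F}

theorem Q_add {Q : (ι → F) → F} (hpol : ∀ u v, QuadraticMap.polar Q u v = f u v) (x y : ι → F) :
    Q (x + y) = Q x + Q y + f x y := by
  rw [← hpol]; unfold QuadraticMap.polar; ring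

/-- in a small perp there is a vector of non-zero norm -/
theorem exists_norm_ne (hf : Geo.IsSymplecticForm f) {Q : (ι → F) → F}
    (hpol : ∀ u v, QuadraticMap.polar Q u v = f u v) (W : Submodule F (ι → F)) (h : 2 * Module.finrank F W < Module.finrank F (ι → F)) :
    ∃ z, Q z ≠ 0 ∧ ∀ w ∈ W, f w z = 0 := by
  obtain ⟨z1, hz1, hz1'⟩ := exists_perp_notMem hf W h
  obtain ⟨z2, hz2, hz2'⟩ := exists_perp hf W z1 hz1
  by_cases h1 : Q z1 = 0
  · by_cases h2 : Q z2 = 0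
    · refine ⟨z1 + z2, ?_, fun w hw => ?_⟩
      · rw [Q_add hpol, h1, h2, hz2]; simp
      · rw [hf.bilinear.add_right, hz1' w hw, hz2' w hw, add_zero]
    · exact ⟨z2, h2, hz2'⟩
  · exact ⟨z1, h1, hz1'⟩

/-- adjusting the norm of `x` by a vector perpendicular to a list -/
theorem exists_adjust (hf : Geo.IsSymplecticForm f) {Q : (ι → F) → F} (hs : ∀ (c : F) (v : ι → F), Q (c • v) = c ^ 2 * Q v)
    (hpol : ∀ u v, QuadraticMap.polar Q u v = f u v) (hsq : ∀ a : F, ∃ b : F, b ^ 2 = a)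
    (l : List (ι → F)) (hl : 2 * (l.length + 1) < Module.finrank F (ι → F)) (x : ι → F) (s : F) :
    ∃ y, Q y = s ∧ ∀ v ∈ l, f v y = f v x := by
  obtain ⟨z, hz, hz'⟩ := exists_norm_ne hf hpol (Submodule.span F {y | y ∈ x :: l}) (by
    have := finrank_span_list_le (F := F) (x :: l)
    rw [List.length_cons] at this
    omega)
  obtain ⟨b, hb⟩ := hsq ((s - Q x) / Q z)
  refine ⟨x + b • z, ?_, fun v hv => ?_⟩
  · have h1 : f x z = 0 := hz' x (Submodule.subset_span (by simp))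
    rw [Q_add hpol, hs, hb, hf.bilinear.smul_right, h1, div_mul_cancel₀ _ hz]; ring
  · have h1 : f v z = 0 := hz' v (Submodule.subset_span (by simp [hv]))
    rw [hf.bilinear.add_right, hf.bilinear.smul_right, h1]; ring

theorem st_Q (hf : Geo.IsSymplecticForm f) {Q : (ι → F) → F} (hs : ∀ (c : F) (v : ι → F), Q (c • v) = c ^ 2 * Q v)
    (hpol : ∀ u v, QuadraticMap.polar Q u v = f u v) (v : ι → F) (c : F) (x : ι → F) :
    Q (((st hf v c : GL ι F) : Matrix ι ι F) *ᵥ x) = Q x + c * (f x v) ^ 2 * (c * Q v + 1) := by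
  rw [st_mulVec, Q_add hpol, hs, hf.bilinear.smul_right]; ring

/-- transitivity of the orthogonal group on non-zero vectors of equal norm (characteristic two) -/
theorem exists_orth [CharP F 2] (hf : Geo.IsSymplecticForm f) {Q : (ι → F) → F} (hs : ∀ (c : F) (v : ι → F), Q (c • v) = c ^ 2 * Q v)
    (hpol : ∀ u v, QuadraticMap.polar Q u v = f u v) (hsq : ∀ a : F, ∃ b : F, b ^ 2 = a)
    (hdim : 6 < Module.finrank F (ι → F)) {a b : ι → F} (ha : a ≠ 0) (hb : b ≠ 0) (hab : Q a = Q b) :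
    ∃ h ∈ iso f, (∀ x, Q ((h : Matrix ι ι F) *ᵥ x) = Q x) ∧ (h : Matrix ι ι F) *ᵥ a = b := by
  have h2 : ∀ t : F, t + t = 0 := fun t => CharTwo.add_self_eq_zero t
  have hneg : ∀ t : ι → F, -t = t := by
    intro t; funext i; exact CharTwo.neg_eq (t i)
  have hmove : ∀ u v : ι → F, Q u = Q v → f u v ≠ 0 → ∃ h ∈ iso f, (∀ x, Q ((h : Matrix ι ι F) *ᵥ x) = Q x) ∧ (h : Matrix ι ι F) *ᵥ u = v := by
    intro u v huv hfuv
    refine ⟨st hf (v - u) (f u v)⁻¹, st_mem_iso hf _ _, fun x => ?_, st_move hf u v hfuv⟩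
    rw [st_Q hf hs hpol]
    have h3 : Q (v - u) = f u v := by
      rw [sub_eq_add_neg, hneg, Q_add hpol, ← huv, h2, zero_add, hf.skew, CharTwo.neg_eq]
    rw [h3, inv_mul_cancel₀ hfuv, h2, mul_zero, add_zero]
  obtain ⟨w, hw1, hw2⟩ := exists_both hf ha hb
  obtain ⟨y, hy1, hy2⟩ := exists_adjust hf hs hpol hsq [a, b] (by simpa using hdim) w (Q a)
  have h3 : f a y ≠ 0 := by rw [hy2 a (by simp)]; exact hw1
  have h4 : f b y ≠ 0 := by rw [hy2 b (by simp)]; exact hw2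
  obtain ⟨g1, hg1, hg1', hg1''⟩ := hmove a y hy1.symm h3
  obtain ⟨g2, hg2, hg2', hg2''⟩ := hmove y b (hy1.trans hab) (swap_ne hf h4)
  refine ⟨g2 * g1, (iso f).mul_mem hg2 hg1, fun x => ?_, ?_⟩
  · rw [Units.val_mul, ← Matrix.mulVec_mulVec, hg2', hg1']
  · rw [Units.val_mul, ← Matrix.mulVec_mulVec, hg1'', hg2'']

end

/-- For a finite field F of characteristic two and m ≥ 7, let Q be a non-degenerate quadratic form on F^(2m) whose polar form is the standard alternating form. Then the elements of Sp_2m(F) that are similarities of Q (they are exactly the isometries of Q) form a maximal subgroup of Sp_2m(F). -/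
theorem result {F : Type*} [Field F] [Fintype F] (m : ℕ) (hm : 7 ≤ m) (heven : ¬ Odd (Fintype.card F)) (Q : (Fin m ⊕ Fin m → F) → F) (hQ : Cfsg.Geo.IsNondegenerateQuadraticForm Q) (hpol : ∀ u v, QuadraticMap.polar Q u v = Cfsg.sympForm m F u v) : Cfsg.Geo.IsMaximalIn (Cfsg.spGL m F) (Cfsg.Geo.quadSimilarityGroup Q ⊓ Cfsg.spGL m F) := by
  classical
  haveI hchar : CharP F 2 := by
    have h1 : ringChar F = 2 := by
      rw [FiniteField.even_card_iff_char_two]
      exact Nat.not_odd_iff.mp heven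
    exact ringChar.of_eq h1
  have h2 : ∀ t : F, t + t = 0 := fun t => CharTwo.add_self_eq_zero t
  have hsq : ∀ a : F, ∃ b : F, b ^ 2 = a := by
    intro a
    exact ⟨(frobeniusEquiv F 2).symm a, frobeniusEquiv_symm_pow_p F 2 a⟩
  have hf := sympForm_symplectic m F
  set f := sympForm m F with hfdef
  have hs := hQ.smul
  have hdim : Module.finrank F (Fin m ⊕ Fin m → F) = 2 * m := by
    rw [Module.finrank_fintype_fun_eq_card]
    simp only [Fintype.card_sum, Fintype.card_fin]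
    omega
  -- membership in H
  have hH : ∀ g : GL (Fin m ⊕ Fin m) F, g ∈ Geo.quadSimilarityGroup Q ⊓ spGL m F ↔ g ∈ iso f ∧ ∀ x, Q ((g : Matrix (Fin m ⊕ Fin m) (Fin m ⊕ Fin m) F) *ᵥ x) = Q x := by
    intro g
    constructor
    · rintro ⟨⟨c, hc⟩, hg⟩
      refine ⟨hg, fun x => ?_⟩
      have hc1 : (c : F) = 1 := by
        -- find u v with f u v = 1
        have hne : ∃ u : Fin m ⊕ Fin m → F, u ≠ 0 := ⟨Pi.single (Sum.inl ⟨0, by omega⟩) 1, by simp⟩
        obtain ⟨u, hu⟩ := hne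
        obtain ⟨⟨v, hv⟩, _⟩ := hf.nondegenerate u hu
        have e1 : f ((g : Matrix (Fin m ⊕ Fin m) (Fin m ⊕ Fin m) F) *ᵥ v) ((g : Matrix (Fin m ⊕ Fin m) (Fin m ⊕ Fin m) F) *ᵥ u) = c * f v u := by
          rw [← hpol, ← hpol]
          unfold QuadraticMap.polar
          rw [← Matrix.mulVec_add, hc, hc, hc]; ring
        have e2 : f ((g : Matrix (Fin m ⊕ Fin m) (Fin m ⊕ Fin m) F) *ᵥ v) ((g : Matrix (Fin m ⊕ Fin m) (Fin m ⊕ Fin m) F) *ᵥ u) = f v u := hg v u
        rw [e2] at e1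
        have e3 : (c : F) * f v u = 1 * f v u := by rw [← e1, one_mul]
        exact mul_right_cancel₀ hv e3
      rw [hc, hc1, one_mul]
    · rintro ⟨hg, hgQ⟩
      exact ⟨⟨1, fun v => by rw [hgQ, Units.val_one, one_mul]⟩, hg⟩
  have hstH : ∀ v, ∀ c : F, c * Q v = 1 → st hf v c ∈ Geo.quadSimilarityGroup Q ⊓ spGL m F := by
    intro v c hc
    rw [hH]
    refine ⟨st_mem_iso hf _ _, fun x => ?_⟩
    rw [st_Q hf hs hpol, hc, h2, mul_zero, add_zero]
  refine ⟨lt_of_le_of_ne inf_le_right ?_, fun M hHM hMS => ?_⟩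
  · intro heq
    -- singular nonzero vector
    have hne : ∃ u : Fin m ⊕ Fin m → F, u ≠ 0 := ⟨Pi.single (Sum.inl ⟨0, by omega⟩) 1, by simp⟩
    obtain ⟨u, hu⟩ := hne
    obtain ⟨_, ⟨v, hv⟩⟩ := hf.nondegenerate u hu
    obtain ⟨y, hy1, hy2⟩ := exists_adjust hf hs hpol hsq [u] (by rw [hdim]; simp; omega) v 0
    have h1 : st hf y 1 ∈ spGL m F := st_mem_iso hf _ _
    rw [← heq, hH] at h1
    have h3 := h1.2 u
    rw [st_Q hf hs hpol, hy1, hy2 u (by simp)] at h3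
    simp only [mul_zero, zero_add, mul_one, one_mul] at h3
    have h4 : f u v ^ 2 = 0 := by
      have := add_left_cancel (h3.trans (add_zero _).symm)
      exact this
    exact hv (pow_eq_zero_iff (by norm_num) |>.mp h4)
  by_cases hMH : M = Geo.quadSimilarityGroup Q ⊓ spGL m F
  · exact Or.inl hMH
  right
  apply le_antisymm hMS
  obtain ⟨g, hgM, hg⟩ : ∃ g ∈ M, g ∉ Geo.quadSimilarityGroup Q ⊓ spGL m F := by
    by_contra hcon
    push Not at hcon
    exact hMH (le_antisymm hcon hHM)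
  have hgi : g ∈ iso f := hMS hgM
  have hgi' : g⁻¹ ∈ iso f := (iso f).inv_mem hgi
  -- Q (g⁻¹ x) = Q x + (f x a)^2
  obtain ⟨a, ha⟩ : ∃ a, ∀ x, Q (((g⁻¹ : GL (Fin m ⊕ Fin m) F) : Matrix (Fin m ⊕ Fin m) (Fin m ⊕ Fin m) F) *ᵥ x) = Q x + (f x a) ^ 2 := by
    let φ : Module.Dual F (Fin m ⊕ Fin m → F) :=
      { toFun := fun x => (frobeniusEquiv F 2).symm (Q (((g⁻¹ : GL (Fin m ⊕ Fin m) F) : Matrix (Fin m ⊕ Fin m) (Fin m ⊕ Fin m) F) *ᵥ x) + Q x)
        map_add' := by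
          intro x y
          rw [← map_add]
          congr 1
          rw [Matrix.mulVec_add, Q_add hpol, Q_add hpol]
          have e1 : f (((g⁻¹ : GL (Fin m ⊕ Fin m) F) : Matrix (Fin m ⊕ Fin m) (Fin m ⊕ Fin m) F) *ᵥ x) (((g⁻¹ : GL (Fin m ⊕ Fin m) F) : Matrix (Fin m ⊕ Fin m) (Fin m ⊕ Fin m) F) *ᵥ y) = f x y := hgi' x y
          rw [e1]
          have := h2 (f x y)
          linear_combination this
        map_smul' := by
          intro c x
          rw [Matrix.mulVec_smul, hs, hs, ← mul_add, map_mul]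
          congr 1
          rw [RingEquiv.symm_apply_eq]
          rfl }
    obtain ⟨a, ha⟩ := riesz hf φ
    refine ⟨a, fun x => ?_⟩
    rw [← ha]
    change _ = Q x + ((frobeniusEquiv F 2).symm (Q (((g⁻¹ : GL (Fin m ⊕ Fin m) F) : Matrix (Fin m ⊕ Fin m) (Fin m ⊕ Fin m) F) *ᵥ x) + Q x)) ^ 2
    rw [frobeniusEquiv_symm_pow_p]
    have := h2 (Q x)
    linear_combination -this
  have ha0 : a ≠ 0 := by
    rintro rfl
    apply hg
    rw [hH]
    refine ⟨hgi, fun x => ?_⟩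
    have := ha ((g : Matrix (Fin m ⊕ Fin m) (Fin m ⊕ Fin m) F) *ᵥ x)
    rw [inv_mulVec_mulVec, zero_right hf] at this
    rw [this]; ring
  apply iso_le hf
  intro u c
  by_cases hc : c = 0
  · subst hc
    have : st hf u 0 = 1 := by
      apply gl_ext
      intro x
      rw [st_mulVec, zero_mul, zero_smul, add_zero, Units.val_one, Matrix.one_mulVec]
    rw [this]; exact M.one_mem
  by_cases hu : u = 0
  · subst hu; exact sfull_zero hf M c
  obtain ⟨t, ht⟩ := hsq (Q u + c⁻¹)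
  -- find a' with f u a' = t, Q a' = Q a, a' ≠ 0
  obtain ⟨a', ha'1, ha'2, ha'0⟩ : ∃ a', Q a' = Q a ∧ f u a' = t ∧ a' ≠ 0 := by
    obtain ⟨_, ⟨v, hv⟩⟩ := hf.nondegenerate u hu
    by_cases ht0 : t = 0
    · -- need a' ≠ 0 perpendicular to u : start from nonzero x with f x x2 ≠ 0
      obtain ⟨x, hx, hx'⟩ := exists_perp_notMem hf (Submodule.span F {u}) (by
        have := finrank_span_singleton (K := F) hu
        rw [this, hdim]; omega)
      have hx0 : x ≠ 0 := fun h => hx (h ▸ Submodule.zero_mem _)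
      obtain ⟨_, ⟨x2, hx2⟩⟩ := hf.nondegenerate x hx0
      obtain ⟨y, hy1, hy2⟩ := exists_adjust hf hs hpol hsq [u, x2] (by rw [hdim]; simp; omega) x (Q a)
      refine ⟨y, hy1, ?_, ?_⟩
      · rw [hy2 u (by simp), hx' u (Submodule.mem_span_singleton_self u), ht0]
      · rintro rfl
        have := hy2 x2 (by simp)
        rw [zero_right hf] at this
        exact hx2 (swap_eq hf this.symm)
    · obtain ⟨y, hy1, hy2⟩ := exists_adjust hf hs hpol hsq [u] (by rw [hdim]; simp; omega) ((t * (f u v)⁻¹) • v) (Q a)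
      have h5 : f u y = t := by
        rw [hy2 u (by simp), hf.bilinear.smul_right, inv_mul_cancel_right₀ hv]
      refine ⟨y, hy1, h5, ?_⟩
      rintro rfl
      rw [zero_right hf] at h5
      exact ht0 h5.symm
  obtain ⟨h, hhi, hhQ, hha⟩ := exists_orth hf hs hpol hsq (by rw [hdim]; omega) ha0 ha'0 ha'1.symm
  have hhM : h ∈ M := hHM ((hH h).mpr ⟨hhi, hhQ⟩)
  have hhi' : h⁻¹ ∈ iso f := (iso f).inv_mem hhi
  set k := h * g with hk
  have hkM : k ∈ M := M.mul_mem hhM hgM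
  have hki : k ∈ iso f := (iso f).mul_mem hhi hgi
  set v := ((k⁻¹ : GL (Fin m ⊕ Fin m) F) : Matrix (Fin m ⊕ Fin m) (Fin m ⊕ Fin m) F) *ᵥ u with hv
  have hQv : Q v = c⁻¹ := by
    have e0 : v = ((g⁻¹ : GL (Fin m ⊕ Fin m) F) : Matrix (Fin m ⊕ Fin m) (Fin m ⊕ Fin m) F) *ᵥ (((h⁻¹ : GL (Fin m ⊕ Fin m) F) : Matrix (Fin m ⊕ Fin m) (Fin m ⊕ Fin m) F) *ᵥ u) := by
      rw [hv, hk, mul_inv_rev, Units.val_mul, Matrix.mulVec_mulVec]
    have e1 : Q (((h⁻¹ : GL (Fin m ⊕ Fin m) F) : Matrix (Fin m ⊕ Fin m) (Fin m ⊕ Fin m) F) *ᵥ u) = Q u := by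
      rw [← hhQ, mulVec_inv_mulVec]
    have e2 : f (((h⁻¹ : GL (Fin m ⊕ Fin m) F) : Matrix (Fin m ⊕ Fin m) (Fin m ⊕ Fin m) F) *ᵥ u) a = f u a' := by
      have := (mem_iso h).mp hhi (((h⁻¹ : GL (Fin m ⊕ Fin m) F) : Matrix (Fin m ⊕ Fin m) (Fin m ⊕ Fin m) F) *ᵥ u) a
      rw [mulVec_inv_mulVec, hha] at this
      exact this.symm
    rw [e0, ha, e1, e2, ha'2, ht]
    have := h2 (Q u)
    linear_combination this
  have h5 : st hf v c ∈ M := hHM (hstH v c (by rw [hQv, mul_inv_cancel₀ hc]))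
  have h6 := st_conj hf k hki v c
  rw [hv, mulVec_inv_mulVec] at h6
  rw [← h6]
  exact M.mul_mem (M.mul_mem hkM h5) (M.inv_mem hkM)

end Cfsg.Agent.S5652
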