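import Cfsg.Statements.S5656
import Cfsg.Agent.LibH22NM2

set_option autoImplicit false
open Cfsg

namespace Cfsg.Agent.S5656
open scoped MatrixGroups Matrix
open CfsgLib.H22NM CfsgLib.Un29

variable {ι : Type} [Fintype ι] [DecidableEq ι] {F : Type*} [Field F]

/-- arithmetic of the field with four elements -/
theorem four {F : Type*} [Field F] [Fintype F] (hF : Fintype.card F = 4) :
    (1 : F) + 1 = 0 ∧ ∀ x : F, x ^ 2 = x → x ≠ 0 → x = 1 := by
  have h4 : (Fintype.card F : F) = 0 := Nat.cast_card_eq_zero F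
  rw [hF] at h4
  push_cast at h4
  have h2 : (1 : F) + 1 = 0 := by
    have : ((1 : F) + 1) * (1 + 1) = 0 := by linear_combination h4
    rcases mul_eq_zero.mp this with h | h <;> exact h
  refine ⟨h2, fun x hx hx0 => ?_⟩
  have : x * (x - 1) = 0 := by linear_combination hx
  rcases mul_eq_zero.mp this with h | h
  · exact absurd h hx0
  · exact sub_eq_zero.mp h

variable {σ : F ≃+* F} {f : (ι → F) → (ι → F) → F}

/-- in a nondegenerate plane over `F_4`, an anisotropic vector is orthogonal or proportional to a given unit vector. -/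
theorem plane4 (hf : Geo.IsUnitaryForm σ f) (h1 : ∀ x : F, σ x = x → x ≠ 0 → x = 1)
    (hN : ∀ x : F, x ≠ 0 → x * σ x = 1) {W : Submodule F (ι → F)} (hW : Geo.IsNondegenerateOn f W)
    (h2 : Module.finrank F W = 2) {e v : ι → F} (he : e ∈ W) (hee : f e e = 1) (hv : v ∈ W) (hvv : f v v ≠ 0) :
    f v e = 0 ∨ v = f v e • e := by
  by_cases h : f v e = 0
  · exact Or.inl h
  right
  have hvv1 : f v v = 1 := h1 _ (norm_real hf v) hvv
  set w := v - f v e • e with hw
  have hwe : f w e = 0 := by rw [hw, sub_left hf, hf.smul_left, hee, mul_one, sub_self]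
  have hew : f e w = 0 := swap_eq hf hwe
  have hwW : w ∈ W := W.sub_mem hv (W.smul_mem _ he)
  have hvw : v = f v e • e + w := by rw [hw]; abel
  have hww : f w w = 0 := by
    have h3 : f v v = f v e * σ (f v e) + f w w := by
      conv_lhs => rw [hvw]
      rw [hf.add_left, add_right hf, add_right hf, hf.smul_left, hf.smul_left, smul_right hf, smul_right hf, hee, hew, hwe]
      ring
    rw [hvv1, hN _ h] at h3
    linear_combination -h3
  by_cases hw0 : w = 0
  · exact sub_eq_zero.mp hw0
  exfalso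
  have hli : LinearIndependent F ![e, w] := by
    rw [LinearIndependent.pair_iff]
    intro s t hst
    have h3 : s = 0 := by
      have := congrArg (fun x => f x e) hst
      simp only [hf.add_left, hf.smul_left, hee, hwe, mul_one, mul_zero, add_zero, zero_left hf] at this
      exact this
    rw [h3, zero_smul, zero_add] at hst
    exact ⟨h3, (smul_eq_zero.mp hst).resolve_right hw0⟩
  have hsp : Submodule.span F (Set.range ![e, w]) = W := by
    apply Submodule.eq_of_le_of_finrank_eq
    · rw [Submodule.span_le]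
      rintro _ ⟨i, rfl⟩
      fin_cases i
      · exact he
      · exact hwW
    · rw [finrank_span_eq_card hli, h2]; simp
  obtain ⟨⟨x, hx, hxa⟩, _⟩ := hW w hwW hw0
  rw [← hsp] at hx
  simp only [Matrix.range_cons, Matrix.range_empty, Set.union_empty, Set.singleton_union] at hx
  obtain ⟨s, t, rfl⟩ := Submodule.mem_span_pair.mp hx
  apply hxa
  rw [hf.add_left, hf.smul_left, hf.smul_left, hew, hww, mul_zero, mul_zero, add_zero]

/-- Let F be the field with 4 elements (q = 2) and n ≥ 13. Let D be a decomposition of F^n into t pairwise orthogonal 2-dimensional subspaces, each non-degenerate for the standard unitary form Σ u_i v_i². Then the elements of SU_n(2) permuting the members of D form a subgroup that is not maximal: some subgroup lies strictly between it and SU_n(2). -/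
theorem result {F : Type*} [Field F] [Fintype F] (n : ℕ) (hF : Fintype.card F = 4) (hn : 13 ≤ n) {t : ℕ} (D : Fin t → Submodule F (Fin n → F)) (hD : Cfsg.Geo.IsNondegenerateMDecomposition (Cfsg.hermForm n F 2) 2 D) : ∃ K : Subgroup (Matrix.GeneralLinearGroup (Fin n) F), Cfsg.Geo.decompositionStabilizer D ⊓ (Cfsg.GU n F 2 ⊓ Cfsg.Geo.specialLinear (Fin n) F) < K ∧ K < (Cfsg.GU n F 2 ⊓ Cfsg.Geo.specialLinear (Fin n) F) := by
  classical
  obtain ⟨σ, hσ, hf⟩ := hermForm_unitary n (show Fintype.card F = 2 ^ 2 by rw [hF]; norm_num)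
  set f := hermForm n F 2 with hfd
  obtain ⟨ch2, hone⟩ := four hF
  have hr : ∀ x : F, σ x = x → x ≠ 0 → x = 1 := by
    intro x hx hx0
    rw [hσ] at hx
    exact hone x hx hx0
  have hN : ∀ x : F, x ≠ 0 → x * σ x = 1 := by
    intro x hx
    have := FiniteField.pow_card_sub_one_eq_one x hx
    rw [hF] at this
    rw [hσ, ← pow_succ']; exact this
  have htm : t * 2 = n := by
    have h1 := CfsgLib.AschNum.dec_mul hD.decomp
    simpa using h1
  have ht : 4 ≤ t := by omega
  have hex : ∀ i, ∃ v ∈ D i, f v v = 1 := by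
    intro i
    have h1 := hD.decomp.finrank_eq i
    have h2 : D i ≠ ⊥ := by
      intro h; rw [h, finrank_bot] at h1; omega
    obtain ⟨v, hv, hv0⟩ := Submodule.exists_mem_ne_zero_of_ne_bot h2
    obtain ⟨⟨x, hx, hxv⟩, _⟩ := hD.nondegenerate i v hv hv0
    obtain ⟨w, hw, hww⟩ := exists_nonisotropic hf (D i) hx hv hxv
    exact ⟨w, hw, hr _ (norm_real hf w) hww⟩
  let i0 : Fin t := ⟨0, by omega⟩
  let i1 : Fin t := ⟨1, by omega⟩
  let i2 : Fin t := ⟨2, by omega⟩
  let i3 : Fin t := ⟨3, by omega⟩
  have h01 : i0 ≠ i1 := by simp [i0, i1]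
  have h02 : i0 ≠ i2 := by simp [i0, i2]
  have h03 : i0 ≠ i3 := by simp [i0, i3]
  have h12 : i1 ≠ i2 := by simp [i1, i2]
  have h13 : i1 ≠ i3 := by simp [i1, i3]
  have h23 : i2 ≠ i3 := by simp [i2, i3]
  obtain ⟨e0, he0, n0⟩ := hex i0
  obtain ⟨e1, he1, n1⟩ := hex i1
  obtain ⟨e2, he2, n2⟩ := hex i2
  obtain ⟨e3, he3, n3⟩ := hex i3
  have nz : ∀ e : Fin n → F, f e e = 1 → e ≠ 0 := by
    intro e he h0
    rw [h0, zero_left hf] at he
    exact zero_ne_one he
  have hor : ∀ {i j : Fin t} {a b : Fin n → F}, i ≠ j → a ∈ D i → b ∈ D j → f a b = 0 :=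
    fun hij ha hb => hD.orthogonal _ _ hij _ ha _ hb
  -- the first transvection
  have hu : f (e0 + e1) (e0 + e1) = 0 := by
    rw [hf.add_left, add_right hf, add_right hf, n0, n1, hor h01 he0 he1, hor (Ne.symm h01) he1 he0]
    linear_combination ch2
  have hc : σ (1 : F) = -1 := by rw [map_one]; linear_combination ch2
  set g := ut hf (e0 + e1) 1 with hg
  have hgv : ∀ v, (g : Matrix (Fin n) (Fin n) F) *ᵥ v = v + f v (e0 + e1) • (e0 + e1) := by
    intro v; rw [hg, ut_mulVec hf hu, one_mul]
  have neg2 : ∀ x : Fin n → F, x + x = 0 := by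
    intro x
    have : x + x = ((1 : F) + 1) • x := by rw [add_smul, one_smul]
    rw [this, ch2, zero_smul]
  have hu4 : f (e0 + e1 + e2 + e3) (e0 + e1 + e2 + e3) = 0 := by
    simp only [hf.add_left, add_right hf, n0, n1, n2, n3, hor h01 he0 he1, hor (Ne.symm h01) he1 he0, hor h02 he0 he2, hor (Ne.symm h02) he2 he0,
      hor h03 he0 he3, hor (Ne.symm h03) he3 he0, hor h12 he1 he2, hor (Ne.symm h12) he2 he1, hor h13 he1 he3, hor (Ne.symm h13) he3 he1,
      hor h23 he2 he3, hor (Ne.symm h23) he3 he2]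
    linear_combination 2 * ch2
  rw [GU_eq]
  have hst := strict_of (H := Cfsg.Geo.decompositionStabilizer D) (I := iso (hermForm n F 2) ⊓ Cfsg.Geo.specialLinear (Fin n) F)
    (K := stS {v | (∃ i, v ∈ D i) ∧ f v v ≠ 0}) ?_ ?_ ?_
  · exact ⟨_, hst.1, hst.2⟩
  · refine frame_le (P := fun v => f v v ≠ 0) ?_
    intro h hi v
    have h1 : f ((h : Matrix (Fin n) (Fin n) F) *ᵥ v) ((h : Matrix (Fin n) (Fin n) F) *ᵥ v) = f v v := (mem_iso h).mp hi.1 v v
    show f _ _ ≠ 0 ↔ f v v ≠ 0
    rw [h1]
  · refine ⟨g, ?_, ⟨ut_mem_iso hf hu hc, ut_mem_special hf _ _⟩, ?_⟩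
    · apply mem_stS_of_le
      rintro v ⟨⟨j, hj⟩, hvv⟩
      refine ⟨?_, ?_⟩
      swap
      · rwa [(mem_iso g).mp (ut_mem_iso hf hu hc)]
      rw [hgv]
      by_cases hj0 : j = i0
      · rw [hj0] at hj
        rcases plane4 hf hr hN (hD.nondegenerate i0) (hD.decomp.finrank_eq i0) he0 n0 hj hvv with h | h
        · refine ⟨i0, ?_⟩
          rw [add_right hf, h, hor h01 hj he1, add_zero, zero_smul, add_zero]; exact hj
        · refine ⟨i1, ?_⟩
          rw [add_right hf, hor h01 hj he1, add_zero]
          have : v + f v e0 • (e0 + e1) = f v e0 • e1 := by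
            conv_lhs => rw [h]
            rw [hf.smul_left, n0, mul_one, smul_add, ← add_assoc, neg2, zero_add]
          rw [this]
          exact (D i1).smul_mem _ he1
      · by_cases hj1 : j = i1
        · rw [hj1] at hj
          rcases plane4 hf hr hN (hD.nondegenerate i1) (hD.decomp.finrank_eq i1) he1 n1 hj hvv with h | h
          · refine ⟨i1, ?_⟩
            rw [add_right hf, h, hor (Ne.symm h01) hj he0, add_zero, zero_smul, add_zero]; exact hj
          · refine ⟨i0, ?_⟩
            rw [add_right hf, hor (Ne.symm h01) hj he0, zero_add]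
            have : v + f v e1 • (e0 + e1) = f v e1 • e0 := by
              conv_lhs => rw [h]
              rw [hf.smul_left, n1, mul_one, smul_add, add_comm (f v e1 • e0), ← add_assoc, neg2, zero_add]
            rw [this]
            exact (D i0).smul_mem _ he0
        · refine ⟨j, ?_⟩
          rw [add_right hf, hor hj0 hj he0, hor hj1 hj he1, add_zero, zero_smul, add_zero]; exact hj
    · rintro ⟨τ, hτ⟩
      have k1 := map_mem hτ he0
      rw [hgv, add_right hf, n0, hor h01 he0 he1, add_zero, one_smul, ← add_assoc, neg2, zero_add] at k1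
      have hτ0 : τ i0 = i1 := by
        by_contra hne
        exact nz e1 n1 (eq_zero_of_mem hD hne k1 he1)
      -- a vector of `D i0` off the line of `e0`
      obtain ⟨y, hy, hyn⟩ : ∃ y ∈ D i0, y - f y e0 • e0 ≠ 0 := by
        by_contra hcon
        push Not at hcon
        have h1 : D i0 ≤ Submodule.span F {e0} := by
          intro y hy
          rw [Submodule.mem_span_singleton]
          exact ⟨_, (sub_eq_zero.mp (hcon y hy)).symm⟩
        have h2 := Submodule.finrank_mono h1
        rw [finrank_span_singleton (nz e0 n0), hD.decomp.finrank_eq] at h2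
        omega
      have k2 := map_mem hτ hy
      rw [hτ0, hgv, add_right hf, hor h01 hy he1, add_zero] at k2
      have k3 : y - f y e0 • e0 ∈ D i1 := by
        have : y - f y e0 • e0 = (y + f y e0 • (e0 + e1)) - f y e0 • e1 - (f y e0 • e0 + f y e0 • e0) := by
          rw [smul_add]; abel
        rw [this, neg2, sub_zero]
        exact (D i1).sub_mem k2 ((D i1).smul_mem _ he1)
      exact hyn (eq_zero_of_mem hD h01 ((D i0).sub_mem hy ((D i0).smul_mem _ he0)) k3)
  · refine ⟨ut hf (e0 + e1 + e2 + e3) 1, ⟨ut_mem_iso hf hu4 hc, ut_mem_special hf _ _⟩, ?_⟩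
    intro hcon
    rw [mem_stS] at hcon
    obtain ⟨⟨l, hl⟩, _⟩ := (hcon e0).mpr ⟨⟨i0, he0⟩, by rw [n0]; exact one_ne_zero⟩
    rw [ut_mulVec hf hu4, one_mul, add_right hf, add_right hf, add_right hf, n0, hor h01 he0 he1, hor h02 he0 he2, hor h03 he0 he3,
      add_zero, add_zero, add_zero, one_smul] at hl
    have h1 : e0 + (e0 + e1 + e2 + e3) = e1 + e2 + e3 := by
      rw [← add_assoc, ← add_assoc, ← add_assoc, neg2, zero_add]
    rw [h1] at hl
    exact not_mem_D hf.add_left hD h12 he1 he2 (nz _ n1) (nz _ n2) (fun y hy => hor (Ne.symm h13) he3 hy)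
      (fun y hy => hor (Ne.symm h23) he3 hy) l hl

end Cfsg.Agent.S5656
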