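import Cfsg.Statements.S5658
import Mathlib
import Cfsg.Agent.LibUnF29d

set_option autoImplicit false
open Cfsg

namespace Cfsg.Agent.S5658



/-- Let F be the field with q² elements, n ≥ 13, and F₀ a subfield with |F| = |F₀| ^ r for an odd prime r. Let P be an invertible matrix such that the standard unitary form takes values in F₀ on the F₀-span of the columns of P. Then the elements of SU_n(q) lying in the subfield group of P (the conjugate by P of the product of GL_n(F₀) with the scalars) form a maximal subgroup of SU_n(q). -/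
theorem result {F : Type*} [Field F] [Fintype F] (n q : ℕ) (hF : Fintype.card F = q ^ 2) (hn : 13 ≤ n) (F₀ : Subfield F) (r : ℕ) (hr : r.Prime) (hro : Odd r) (hcard : Fintype.card F = Nat.card F₀ ^ r) (P : Matrix.GeneralLinearGroup (Fin n) F) (hP : Cfsg.Geo.IsFormRationalStructure (Cfsg.hermForm n F q) F₀ 1 P) : Cfsg.Geo.IsMaximalIn (Cfsg.GU n F q ⊓ Cfsg.Geo.specialLinear (Fin n) F) (Cfsg.Geo.subfieldSubgroup F₀ P ⊓ (Cfsg.GU n F q ⊓ Cfsg.Geo.specialLinear (Fin n) F)) := by
  obtain ⟨σ, hσ, hf⟩ := CfsgLib.Un29.hermForm_unitary n hF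
  have hr' : (Module.finrank F₀ F).Prime := by
    rw [CfsgLib.Subfield29.finrank_of_card F₀ (by rw [Nat.card_eq_fintype_card]; exact hcard)]; exact hr
  rw [CfsgLib.Un29.GU_eq]
  refine CfsgLib.UnF29.unF_maximal hf (fun l hl => by rw [hσ]; exact F₀.pow_mem hl q) ?_ (by rw [Fintype.card_fin]; omega) hr' P hP
  obtain ⟨l, hl, hne⟩ := CfsgLib.UnF29.exists_not_fixed hF F₀ hro hcard
  exact ⟨l, hl, by rw [hσ]; exact hne⟩

end Cfsg.Agent.S5658
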