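import Cfsg.Statements.S5659
import Mathlib
import Cfsg.Agent.LibUnO29b

set_option autoImplicit false
open Cfsg

namespace Cfsg.Agent.S5659



/-- Let F be the field with q² elements, q odd, n ≥ 13, and F₀ the subfield with q elements. Let P be an invertible matrix such that the standard unitary form takes values in F₀ on the F₀-span of the columns of P (so it restricts to a non-degenerate symmetric bilinear form there). Then the elements of SU_n(q) lying in the subfield group of P form a maximal subgroup of SU_n(q). -/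
theorem result {F : Type*} [Field F] [Fintype F] (n q : ℕ) (hF : Fintype.card F = q ^ 2) (hn : 13 ≤ n) (hodd : Odd q) (F₀ : Subfield F) (hcard : Fintype.card F = Nat.card F₀ ^ 2) (P : Matrix.GeneralLinearGroup (Fin n) F) (hP : Cfsg.Geo.IsFormRationalStructure (Cfsg.hermForm n F q) F₀ 1 P) : Cfsg.Geo.IsMaximalIn (Cfsg.GU n F q ⊓ Cfsg.Geo.specialLinear (Fin n) F) (Cfsg.Geo.subfieldSubgroup F₀ P ⊓ (Cfsg.GU n F q ⊓ Cfsg.Geo.specialLinear (Fin n) F)) := by
  obtain ⟨σ, hσ, hf⟩ := CfsgLib.Un29.hermForm_unitary n hF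
  obtain ⟨h1, h2⟩ := CfsgLib.UnSp29.fixed_field hF F₀ hcard
  have h20 : (2 : F) ≠ 0 := by
    intro h
    obtain ⟨p, hp⟩ := CharP.exists F
    have h3 := (CharP.cast_eq_zero_iff F p 2).mp (by exact_mod_cast h)
    haveI : Fact p.Prime := ⟨CharP.char_is_prime F p⟩
    have hp2 : p = 2 := (Nat.prime_dvd_prime_iff_eq (Fact.out) Nat.prime_two).mp h3
    obtain ⟨k, _, hk⟩ := FiniteField.card F p
    have hodd2 : Odd (q ^ 2) := hodd.pow
    rw [← hF, hk, hp2] at hodd2
    exact absurd hodd2 (by
      rw [Nat.not_odd_iff_even]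
      exact (Nat.even_pow.mpr ⟨even_two, k.pos.ne'⟩))
  rw [CfsgLib.Un29.GU_eq]
  exact CfsgLib.UnO29.uno_maximal hf (fun l => by rw [hσ]; exact h1 l) (fun c hc => h2 c (by rw [← hσ]; exact hc)) h20
    (CfsgLib.Subfield29.finrank_of_card F₀ (by rw [Nat.card_eq_fintype_card]; exact hcard)) (by rw [Fintype.card_fin]; omega) P hP

end Cfsg.Agent.S5659
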