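import Cfsg.Statements.S5665
import Mathlib
import Cfsg.Agent.LibSpU29b

set_option autoImplicit false
open Cfsg

namespace Cfsg.Agent.S5665



/-- For a finite field F of odd order and m ≥ 7, let K be a subfield of the algebra of 2m × 2m matrices over F containing the scalars, of degree 2 over F, that is closed under adjoints for the standard alternating form on F^(2m) but whose elements are not all self-adjoint (so the adjoint map induces the automorphism of order two of K). Then the elements of Sp_2m(F) normalising K form a maximal subgroup of Sp_2m(F). -/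
theorem result {F : Type*} [Field F] [Fintype F] (m : ℕ) (hm : 7 ≤ m) (hodd : Odd (Fintype.card F)) (K : Subalgebra F (Matrix (Fin m ⊕ Fin m) (Fin m ⊕ Fin m) F)) (hK : Cfsg.Geo.IsFieldSubalgebra 2 K) (hac : Cfsg.Geo.IsAdjointClosedFor (Cfsg.sympForm m F) K) (hnsa : ¬ Cfsg.Geo.IsSelfAdjointFor (Cfsg.sympForm m F) K) : Cfsg.Geo.IsMaximalIn (Cfsg.spGL m F) (Cfsg.Geo.subalgebraNormalizer K ⊓ Cfsg.spGL m F) := by
  classical
  have h2 : (2 : F) ≠ 0 := by
    intro h
    obtain ⟨p, hp⟩ := CharP.exists F
    have h3 := (CharP.cast_eq_zero_iff F p 2).mp (by exact_mod_cast h)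
    haveI : Fact p.Prime := ⟨CharP.char_is_prime F p⟩
    have hp2 : p = 2 := (Nat.prime_dvd_prime_iff_eq (Fact.out) Nat.prime_two).mp h3
    obtain ⟨n, _, hn⟩ := FiniteField.card F p
    rw [hn, hp2] at hodd
    exact absurd hodd (by
      rw [Nat.not_odd_iff_even]
      exact (Nat.even_pow.mpr ⟨even_two, n.pos.ne'⟩))
  exact CfsgLib.SpU29.su_maximal (CfsgLib.SympTv29.sympForm_symplectic m F) (by rw [Fintype.card_sum, Fintype.card_fin]; omega) h2 K hK hac hnsa

end Cfsg.Agent.S5665
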