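import Cfsg.Statements.S5667
import Cfsg.Agent.LibH22NM4
import Cfsg.Agent.LibSympTv29b

set_option autoImplicit false
open Cfsg

namespace Cfsg.Agent.S5667
open scoped MatrixGroups Matrix
open Cfsg.Geo CfsgLib.H22NM CfsgLib.SympTv29 CfsgLib.OmH12 CfsgLib.H14SU1 CfsgLib.MaxTv29

theorem sesq_of {ι : Type} [Fintype ι] [DecidableEq ι] {F : Type*} [Field F] {f : (ι → F) → (ι → F) → F}
    (hf : IsBilinearForm f) : Sesq (RingHom.id F) f :=
  ⟨hf.add_left, hf.smul_left, hf.add_right, hf.smul_right⟩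

theorem st_R1 {ι : Type} [Fintype ι] [DecidableEq ι] {F : Type*} [Field F] {f : (ι → F) → (ι → F) → F} (hf : IsSymplecticForm f)
    {v : ι → F} (hv0 : v ≠ 0) {c : F} (hc : c ≠ 0) : R1 (st hf v c : Matrix ι ι F) := by
  refine ⟨v, dv (c • fd hf v), hv0, ?_, rfl⟩
  intro h
  obtain ⟨⟨y, hy⟩, -⟩ := hf.nondegenerate v hv0
  have h1 : dv (c • fd hf v) ⬝ᵥ y = 0 := by rw [h, zero_dotProduct]
  rw [dv_dot, LinearMap.smul_apply, fd_apply, smul_eq_mul] at h1
  exact (mul_ne_zero hc hy) h1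

/-- Over the field with 3 elements and for m ≥ 7, suppose the standard alternating form on F^(2m) is similar, through P and e, to the tensor product of a non-degenerate symplectic form f₁ on F^(n₁) and a non-degenerate symmetric bilinear form f₂ on F^3. Then the elements of Sp_2m(3) in the stabiliser of this tensor decomposition form a subgroup that is not maximal: some subgroup lies strictly between it and Sp_2m(3). -/
theorem result {F : Type*} [Field F] [Fintype F] (m : ℕ) (hm : 7 ≤ m) (hq : Fintype.card F = 3) (n₁ : ℕ) (e : (Fin m ⊕ Fin m) ≃ Fin n₁ × Fin 3) (P : Matrix.GeneralLinearGroup (Fin m ⊕ Fin m) F) (f₁ : (Fin n₁ → F) → (Fin n₁ → F) → F) (f₂ : (Fin 3 → F) → (Fin 3 → F) → F) (hf₁ : Cfsg.Geo.IsSymplecticForm f₁) (hf₂ : Cfsg.Geo.IsSymmetricForm f₂) (hT : Cfsg.Geo.IsTensorFormStructure id (Cfsg.sympForm m F) f₁ f₂ e P) : ∃ K : Subgroup (Matrix.GeneralLinearGroup (Fin m ⊕ Fin m) F), Cfsg.Geo.tensorProductSubgroup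 n₁ 3 e P ⊓ Cfsg.spGL m F < K ∧ K < Cfsg.spGL m F := by
  classical
  have hf := sympForm_symplectic m F
  rw [spGL_eq]
  set f := sympForm m F with hfd
  obtain ⟨h3, h2, hc3⟩ := three_arith hq
  have hcard : n₁ * 3 = 2 * m := by
    have := CfsgLib.AschNum.tp_mul e
    rw [this]; simp; ring
  have hsym : Sym f₂ := ⟨sesq_of hf₂.bilinear, hf₂.symm⟩
  have hnd : IsNondegenerateOn f₂ (⊤ : Submodule F (Fin 3 → F)) := by
    intro w _ hw
    obtain ⟨⟨x, hx⟩, y, hy⟩ := hf₂.nondegenerate w hw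
    exact ⟨⟨x, trivial, hx⟩, y, trivial, hy⟩
  have h3r : Module.finrank F (⊤ : Submodule F (Fin 3 → F)) = 3 := by rw [finrank_top]; simp
  obtain ⟨d, u, v, w, hfr⟩ := exists_frame3 hsym h3 h2 hc3 hnd h3r
  obtain ⟨c, hc, hform⟩ := tv_form (sesq_of hf₁.bilinear) (sesq_of hf₂.bilinear) hT
  have vu : f₂ v u = 0 := by rw [hsym.symm]; exact hfr.uv
  have uw : f₂ u w = 0 := by rw [hsym.symm]; exact hfr.wu
  have vw : f₂ v w = 0 := by rw [hsym.symm]; exact hfr.wv
  obtain ⟨z, hz⟩ : ∃ z : Fin n₁ → F, z ≠ 0 := ⟨Pi.single ⟨0, by omega⟩ 1, by simp⟩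
  obtain ⟨⟨a, haz⟩, _⟩ := hf₁.nondegenerate z hz
  have hne : ∀ {y : Fin n₁ → F} {x : Fin 3 → F}, y ≠ 0 → x ≠ 0 → tv e P y x ≠ 0 := by
    intro y x hy hx h
    exact hx (tv_zero_iff e P h hy)
  have hu0 : u ≠ 0 := by
    intro h0
    have := hfr.uu
    rw [h0, hsym.zero_left] at this
    exact hfr.d0 this.symm
  have hst := strict_of (H := Cfsg.Geo.tensorProductSubgroup n₁ 3 e P) (I := iso f)
    (K := stS {x | ∃ y, x = tv e P y u ∨ x = tv e P y v ∨ x = tv e P y w}) ?_ ?_ ?_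
  · exact ⟨_, hst.1, hst.2⟩
  · rintro g ⟨hg, hgi⟩
    obtain ⟨A, B, l, hAB, hl, hA, hB⟩ := tp_sim hc hform ⟨a, z, haz⟩ ⟨u, u, by rw [hfr.uu]; exact hfr.d0⟩ hg
      (fun x y => (mem_iso g).mp hgi x y)
    have hl1 : l⁻¹ = 1 := by
      have hl' : l⁻¹ ≠ -1 := hfr.sim hsym h2 hc3 h3r (x := (B : Matrix _ _ F) *ᵥ u) (y := (B : Matrix _ _ F) *ᵥ v) (z := (B : Matrix _ _ F) *ᵥ w)
        trivial trivial trivial (by rw [hB, hfr.uu]) (by rw [hB, hfr.vv]) (by rw [hB, hfr.ww]) (by rw [hB, hfr.uv, mul_zero])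
        (by rw [hB, uw, mul_zero]) (by rw [hB, vw, mul_zero])
      rcases hc3 l⁻¹ with h | h | h
      · exact absurd h (inv_ne_zero hl)
      · exact h
      · exact absurd h hl'
    apply mem_stS_of_le
    have hgen : ∀ x, f₂ x x = d → ∀ y, ∃ y', (g : Matrix _ _ F) *ᵥ tv e P y x = tv e P y' u ∨
        (g : Matrix _ _ F) *ᵥ tv e P y x = tv e P y' v ∨ (g : Matrix _ _ F) *ᵥ tv e P y x = tv e P y' w := by
      intro x hx y
      rw [hAB]
      obtain ⟨b, hb | hb | hb⟩ := hfr.all ((B : Matrix _ _ F) *ᵥ x) trivial (by rw [hB, hl1, one_mul, hx])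
      · refine ⟨b • ((A : Matrix _ _ F) *ᵥ y), Or.inl ?_⟩
        rw [hb, CfsgLib.H22NM.tv_smul_left, tv_smul_right]
      · refine ⟨b • ((A : Matrix _ _ F) *ᵥ y), Or.inr (Or.inl ?_)⟩
        rw [hb, CfsgLib.H22NM.tv_smul_left, tv_smul_right]
      · refine ⟨b • ((A : Matrix _ _ F) *ᵥ y), Or.inr (Or.inr ?_)⟩
        rw [hb, CfsgLib.H22NM.tv_smul_left, tv_smul_right]
    rintro x ⟨y, rfl | rfl | rfl⟩
    · exact hgen u hfr.uu y
    · exact hgen v hfr.vv y
    · exact hgen w hfr.ww y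
  · refine ⟨st hf (tv e P z u) 1, ?_, st_mem_iso hf _ _, ?_⟩
    · apply mem_stS_of_le
      rintro x ⟨y, rfl | rfl | rfl⟩
      · refine ⟨y + (c * (f₁ y z * d)) • z, Or.inl ?_⟩
        rw [st_mulVec, hform, hfr.uu, tv_add_left, CfsgLib.H22NM.tv_smul_left, one_mul]
      · refine ⟨y, Or.inr (Or.inl ?_)⟩
        rw [st_mulVec, hform, vu]
        simp
      · refine ⟨y, Or.inr (Or.inr ?_)⟩
        rw [st_mulVec, hform, hfr.wu]
        simp
    · intro hcon
      exact not_R1_tp (by omega) (by omega) hcon (st_R1 hf (hne hz hu0) one_ne_zero)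
  · refine ⟨st hf (tv e P z u + tv e P z v) 1, st_mem_iso hf _ _, ?_⟩
    intro hcon
    have h1 := (mem_stS.mp hcon (tv e P a u)).mpr ⟨_, Or.inl rfl⟩
    rw [st_mulVec, one_mul, hf.bilinear.add_right, hform, hform, hfr.uu, hfr.uv] at h1
    set κ := c * (f₁ a z * d) + c * (f₁ a z * 0) with hκ
    have hκ0 : κ ≠ 0 := by
      rw [hκ, mul_zero, mul_zero, add_zero]
      exact mul_ne_zero hc (mul_ne_zero haz hfr.d0)
    have hza : f₁ z a ≠ 0 := by rw [hf₁.skew]; exact neg_ne_zero.mpr haz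
    obtain ⟨y, h5 | h5 | h5⟩ := h1
    · have h6 := congrArg (fun x => f x (tv e P a v)) h5
      simp only [hf.bilinear.add_left, hf.bilinear.smul_left, hform, hfr.uv, hfr.vv, mul_zero, add_zero, zero_add] at h6
      exact mul_ne_zero hκ0 (mul_ne_zero hc (mul_ne_zero hza hfr.d0)) h6
    · have h6 := congrArg (fun x => f x (tv e P z u)) h5
      simp only [hf.bilinear.add_left, hf.bilinear.smul_left, hform, vu, hfr.uu, mul_zero, add_zero, hf₁.alternating, zero_mul] at h6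
      exact mul_ne_zero hc (mul_ne_zero haz hfr.d0) h6
    · have h6 := congrArg (fun x => f x (tv e P z u)) h5
      simp only [hf.bilinear.add_left, hf.bilinear.smul_left, hform, vu, hfr.uu, hfr.wu, mul_zero, add_zero, hf₁.alternating, zero_mul] at h6
      exact mul_ne_zero hc (mul_ne_zero haz hfr.d0) h6

end Cfsg.Agent.S5667
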