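import Cfsg.Statements.S5671
import Cfsg.Agent.LibH22NM3

set_option autoImplicit false
open Cfsg

namespace Cfsg.Agent.S5671
open scoped MatrixGroups Matrix
open Cfsg.Geo CfsgLib.H22NM CfsgLib.Un29 CfsgLib.OmH12 CfsgLib.H14SU1

theorem sesq_of {ι : Type} [Fintype ι] [DecidableEq ι] {F : Type*} [Field F] {σ : F ≃+* F} {f : (ι → F) → (ι → F) → F}
    (hf : IsUnitaryForm σ f) : Sesq (σ : F →+* F) f :=
  ⟨hf.add_left, hf.smul_left, add_right hf, smul_right hf⟩

/-- the frame of a unitary plane over `F_4` -/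
theorem frame {F : Type*} [Field F] {σ : F ≃+* F} {f : (Fin 2 → F) → (Fin 2 → F) → F} (hf : IsUnitaryForm σ f)
    (h1 : ∀ x : F, σ x = x → x ≠ 0 → x = 1) (hN : ∀ x : F, x ≠ 0 → x * σ x = 1) (ch2 : (1 : F) + 1 = 0) :
    ∃ u v : Fin 2 → F, f u u = 1 ∧ f v v = 1 ∧ f u v = 0 ∧ f v u = 0 ∧
      ∀ x, f x x ≠ 0 → (∃ c : F, x = c • u) ∨ ∃ c : F, x = c • v := by
  have hT : IsNondegenerateOn f ⊤ := by
    intro w _ hw
    obtain ⟨⟨x, hx⟩, y, hy⟩ := hf.nondegenerate w hw
    exact ⟨⟨x, trivial, hx⟩, y, trivial, hy⟩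
  have h2 : Module.finrank F (⊤ : Submodule F (Fin 2 → F)) = 2 := by rw [finrank_top]; simp
  obtain ⟨u, hu⟩ : ∃ u, f u u = 1 := by
    obtain ⟨⟨x, hx⟩, _⟩ := hf.nondegenerate (Pi.single 0 1) (by simp)
    obtain ⟨w, _, hw⟩ := exists_nonisotropic hf ⊤ (Submodule.mem_top) (Submodule.mem_top) hx
    exact ⟨w, h1 _ (norm_real hf w) hw⟩
  have key : ∀ w, w ≠ 0 → f w u = 0 → f w w = 1 := by
    intro w hw hwu
    by_contra hne
    have hww : f w w = 0 := by
      by_contra h
      exact hne (h1 _ (norm_real hf w) h)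
    have e1 : f (u + w) u = 1 := by rw [hf.add_left, hu, hwu, add_zero]
    have e2 : f (u + w) (u + w) = 1 := by
      rw [hf.add_left, add_right hf, add_right hf, hu, hwu, hww, swap_eq hf hwu]; ring
    rcases plane4_dich hf h1 hN hT h2 (e := u) (v := u + w) trivial hu trivial (by rw [e2]; exact one_ne_zero) with h | h
    · rw [e1] at h; exact one_ne_zero h
    · rw [e1, one_smul] at h
      exact hw (by simpa using h)
  obtain ⟨v, hv0, hvu⟩ := exists_ker (le_refl 2) (fd hf u)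
  rw [fd_apply] at hvu
  have hvv := key v hv0 hvu
  refine ⟨u, v, hu, hvv, swap_eq hf hvu, hvu, ?_⟩
  intro x hx
  rcases plane4_dich hf h1 hN hT h2 (e := u) (v := x) trivial hu trivial hx with h | h
  swap
  · exact Or.inl ⟨_, h⟩
  right
  refine ⟨f x v, ?_⟩
  set w := x - f x v • v with hw
  have hwu : f w u = 0 := by rw [hw, sub_left hf, hf.smul_left, h, hvu, mul_zero, sub_zero]
  have hwv : f w v = 0 := by rw [hw, sub_left hf, hf.smul_left, hvv, mul_one, sub_self]
  by_contra hne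
  have hw0 : w ≠ 0 := fun h0 => hne (sub_eq_zero.mp h0)
  have hww := key w hw0 hwu
  have h3 : f (v + w) u = 0 := by rw [hf.add_left, hvu, hwu, add_zero]
  by_cases h4 : v + w = 0
  · have : f (v + w) v = 0 := by rw [h4, zero_left hf]
    rw [hf.add_left, hvv, hwv, add_zero] at this
    exact one_ne_zero this
  · have := key _ h4 h3
    rw [hf.add_left, add_right hf, add_right hf, hvv, hww, hwv, swap_eq hf hwv] at this
    have h5 : (0 : F) = 1 := by linear_combination this - ch2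
    exact zero_ne_one h5

/-- Let F be the field with 4 elements (q = 2) and n = 2 n₂ ≥ 13. Suppose the standard unitary form Σ u_i v_i² on F^n is similar, through P and e, to the tensor product of non-degenerate unitary forms f₁ on F^2 and f₂ on F^(n₂). Then the elements of SU_n(2) in the stabiliser of this tensor decomposition form a subgroup that is not maximal: some subgroup lies strictly between it and SU_n(2). -/
theorem result {F : Type*} [Field F] [Fintype F] (n : ℕ) (hF : Fintype.card F = 4) (hn : 13 ≤ n) (n₂ : ℕ) (e : Fin n ≃ Fin 2 × Fin n₂) (P : Matrix.GeneralLinearGroup (Fin n) F) (f₁ : (Fin 2 → F) → (Fin 2 → F) → F) (f₂ : (Fin n₂ → F) → (Fin n₂ → F) → F) (hf₁ : Cfsg.Geo.IsUnitaryFormPow 2 f₁) (hf₂ : Cfsg.Geo.IsUnitaryFormPow 2 f₂) (hT : Cfsg.Geo.IsTensorFormStructure (fun x : F => x ^ 2) (Cfsg.hermForm n F 2) f₁ f₂ e P) : ∃ K : Subgroup (Matrix.GeneralLinearGroup (Fin n) F), Cfsg.Geo.tensorProductSubgroup 2 n₂ e P ⊓ (Cfsg.GU n F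 2 ⊓ Cfsg.Geo.specialLinear (Fin n) F) < K ∧ K < (Cfsg.GU n F 2 ⊓ Cfsg.Geo.specialLinear (Fin n) F) := by
  classical
  obtain ⟨σ, hσ, hf⟩ := hermForm_unitary n (show Fintype.card F = 2 ^ 2 by rw [hF]; norm_num)
  rw [GU_eq]
  set f := hermForm n F 2 with hfd
  obtain ⟨ch2, hone⟩ := four_arith hF
  have hr : ∀ x : F, σ x = x → x ≠ 0 → x = 1 := by
    intro x hx hx0
    rw [hσ] at hx
    exact hone x hx hx0
  have hN : ∀ x : F, x ≠ 0 → x * σ x = 1 := by
    intro x hx
    have := FiniteField.pow_card_sub_one_eq_one x hx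
    rw [hF] at this
    rw [hσ, ← pow_succ']; exact this
  have hcard : 2 * n₂ = n := by
    have := CfsgLib.AschNum.tp_mul e
    simpa using this
  have hf₁' : IsUnitaryForm σ f₁ := ⟨hf.ne_refl, hf.involutive, hf₁.add_left, hf₁.smul_left, fun v w => by rw [hσ]; exact hf₁.herm v w, hf₁.nondegenerate⟩
  have hf₂' : IsUnitaryForm σ f₂ := ⟨hf.ne_refl, hf.involutive, hf₂.add_left, hf₂.smul_left, fun v w => by rw [hσ]; exact hf₂.herm v w, hf₂.nondegenerate⟩
  have hT' : IsTensorFormStructure (fun x => (σ : F →+* F) x) f f₁ f₂ e P := by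
    have : (fun x : F => x ^ 2) = (fun x => (σ : F →+* F) x) := by
      funext x; exact (hσ x).symm
    rw [← this]; exact hT
  obtain ⟨c, hc, hform⟩ := tv_form (sesq_of hf₁') (sesq_of hf₂') hT'
  obtain ⟨u, v, huu, hvv, huv, hvu, hdich⟩ := frame hf₁' hr hN ch2
  have hn2 : 7 ≤ n₂ := by omega
  obtain ⟨w1, hw1⟩ : ∃ w, f₂ w w = 1 := by
    obtain ⟨⟨x, hx⟩, _⟩ := hf₂'.nondegenerate (Pi.single ⟨0, by omega⟩ 1) (by simp)
    obtain ⟨w, _, hw⟩ := exists_nonisotropic hf₂' ⊤ (Submodule.mem_top) (Submodule.mem_top) hx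
    exact ⟨w, hr _ (norm_real hf₂' w) hw⟩
  have hc1 : c = 1 := by
    have h1 := hform u w1 u w1
    rw [huu, hw1, mul_one, mul_one] at h1
    have h2 := norm_real hf (tv e P u w1)
    rw [h1] at h2
    exact hr c h2 hc
  subst hc1
  obtain ⟨z, hz0, hzz⟩ := exists_iso hf₂' (by rw [Fintype.card_fin]; omega)
  have hsc : σ (1 : F) = -1 := by rw [map_one]; linear_combination ch2
  have hu1 : f (tv e P u z) (tv e P u z) = 0 := by rw [hform, hz0]; ring
  have hu1ne : tv e P u z ≠ 0 := by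
    intro h
    apply hzz
    apply tv_zero_iff e P h
    rintro rfl
    rw [zero_left hf₁'] at huu
    exact zero_ne_one huu
  have hu2 : f (tv e P u w1 + tv e P v w1) (tv e P u w1 + tv e P v w1) = 0 := by
    rw [hf.add_left, add_right hf, add_right hf, hform, hform, hform, hform, huu, hvv, huv, hvu, hw1]
    linear_combination ch2
  have hst := strict_of (H := Cfsg.Geo.tensorProductSubgroup 2 n₂ e P) (I := iso f ⊓ Cfsg.Geo.specialLinear (Fin n) F)
    (K := stS {x | ∃ y, x = tv e P u y ∨ x = tv e P v y}) ?_ ?_ ?_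
  · exact ⟨_, hst.1, hst.2⟩
  · rintro g ⟨hg, hgi⟩
    obtain ⟨A, B, l, hAB, hl, hA, hB⟩ := tp_sim one_ne_zero hform ⟨u, u, by rw [huu]; exact one_ne_zero⟩ ⟨w1, w1, by rw [hw1]; exact one_ne_zero⟩ hg
      (fun x y => (mem_iso g).mp hgi.1 x y)
    have hl1 : l = 1 := by
      have h1 := hA u u
      rw [huu, mul_one] at h1
      have h2 := norm_real hf₁' ((A : Matrix _ _ F) *ᵥ u)
      rw [h1] at h2
      exact hr l h2 hl
    subst hl1
    apply mem_stS_of_le
    have hgen : ∀ x, f₁ x x = 1 → ∀ y, ∃ y', (g : Matrix (Fin n) (Fin n) F) *ᵥ tv e P x y = tv e P u y' ∨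
        (g : Matrix (Fin n) (Fin n) F) *ᵥ tv e P x y = tv e P v y' := by
      intro x hx y
      rw [hAB]
      rcases hdich ((A : Matrix _ _ F) *ᵥ x) (by rw [hA, hx, mul_one]; exact one_ne_zero) with ⟨d, hd⟩ | ⟨d, hd⟩
      · refine ⟨d • ((B : Matrix _ _ F) *ᵥ y), Or.inl ?_⟩
        rw [hd, tv_smul_left, tv_smul_right]
      · refine ⟨d • ((B : Matrix _ _ F) *ᵥ y), Or.inr ?_⟩
        rw [hd, tv_smul_left, tv_smul_right]
    rintro x ⟨y, rfl | rfl⟩
    · exact hgen u huu y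
    · exact hgen v hvv y
  · refine ⟨ut hf (tv e P u z) 1, ?_, ⟨ut_mem_iso hf hu1 hsc, ut_mem_special hf _ _⟩, ?_⟩
    · apply mem_stS_of_le
      rintro x ⟨y, rfl | rfl⟩
      · refine ⟨y + f₂ y z • z, Or.inl ?_⟩
        rw [ut_mulVec hf hu1, hform, huu, tv_add_right, tv_smul_right]
        simp
      · refine ⟨y, Or.inr ?_⟩
        rw [ut_mulVec hf hu1, hform, hvu]
        simp
    · intro hcon
      exact not_R1_tp (le_refl 2) (by omega) hcon (ut_R1 hf hu1 hu1ne one_ne_zero)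
  · refine ⟨ut hf (tv e P u w1 + tv e P v w1) 1, ⟨ut_mem_iso hf hu2 hsc, ut_mem_special hf _ _⟩, ?_⟩
    intro hcon
    obtain ⟨y, hy0, hy⟩ := exists_ker (show 2 ≤ n₂ by omega) (fd hf₂' w1)
    rw [fd_apply] at hy
    have h1 := (mem_stS.mp hcon (tv e P u (w1 + y))).mpr ⟨_, Or.inl rfl⟩
    rw [ut_mulVec hf hu2, one_mul, add_right hf, hform, hform, huu, huv, hf₂'.add_left, hw1, hy] at h1
    have h2 : tv e P u (w1 + y) + (1 * (1 * (1 + 0)) + 1 * (0 * (1 + 0)) : F) • (tv e P u w1 + tv e P v w1) =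
        tv e P u y + tv e P v w1 := by
      have h3 : tv e P u w1 + tv e P u w1 = 0 := by
        have : tv e P u w1 + tv e P u w1 = ((1 : F) + 1) • tv e P u w1 := by rw [add_smul, one_smul]
        rw [this, ch2, zero_smul]
      have h4 : (1 * (1 * (1 + 0)) + 1 * (0 * (1 + 0)) : F) = 1 := by ring
      rw [h4, one_smul, tv_add_right]
      calc tv e P u w1 + tv e P u y + (tv e P u w1 + tv e P v w1)
          = (tv e P u w1 + tv e P u w1) + (tv e P u y + tv e P v w1) := by abel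
        _ = _ := by rw [h3, zero_add]
    rw [h2] at h1
    obtain ⟨d, h5 | h5⟩ := h1
    · have h6 := congrArg (fun x => f x (tv e P v w1)) h5
      simp only [hf.add_left, hform, huv, hvv, hw1] at h6
      simp at h6
    · obtain ⟨⟨x, hx⟩, y', hy'⟩ := hf₂'.nondegenerate y hy0
      have h6 := congrArg (fun x => f x (tv e P u y')) h5
      simp only [hf.add_left, hform, huu, hvu] at h6
      simp at h6
      exact hy' h6

end Cfsg.Agent.S5671
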