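import Cfsg.Statements.S5674
import Mathlib
import Cfsg.Agent.LibOM29c

set_option autoImplicit false
open Cfsg

namespace Cfsg.Agent.S5674



/-- Let F be a finite field of odd order, m ≥ 6, Q the standard quadratic form x₀² + Σ x_i y_i on F^(2m+1) and Ω the commutator subgroup of its isometry group inside GL_(2m+1)(F). The elements of Ω stabilising a non-zero subspace on which Q vanishes form a maximal subgroup of Ω. -/
theorem result {F : Type*} [Field F] [Fintype F] (hodd : Odd (Fintype.card F)) (m : ℕ) (hm : 6 ≤ m) (W : Submodule F (Unit ⊕ (Fin m ⊕ Fin m) → F)) (hW0 : W ≠ ⊥) (hW : Cfsg.Geo.IsTotallySingularQuad (Cfsg.quadFormOdd m F) W) : Cfsg.Geo.IsMaximalIn (Cfsg.Geo.omegaGL (Cfsg.quadFormOdd m F)) (Cfsg.Geo.subspaceStabilizer W ⊓ Cfsg.Geo.omegaGL (Cfsg.quadFormOdd m F)) := by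
  have h2 : (2 : F) ≠ 0 := by
    intro h
    obtain ⟨p, hp⟩ := CharP.exists F
    have h3 := (CharP.cast_eq_zero_iff F p 2).mp (by exact_mod_cast h)
    haveI : Fact p.Prime := ⟨CharP.char_is_prime F p⟩
    have hp2 : p = 2 := (Nat.prime_dvd_prime_iff_eq (Fact.out) Nat.prime_two).mp h3
    obtain ⟨n, _, hn⟩ := FiniteField.card F p
    rw [hn, hp2] at hodd
    exact absurd hodd (by
      rw [Nat.not_odd_iff_even]
      exact (Nat.even_pow.mpr ⟨even_two, n.pos.ne'⟩))
  rw [← Cfsg.Agent.H22.coe_qOdd] at hW ⊢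
  have hfr : Module.finrank F (Unit ⊕ (Fin m ⊕ Fin m) → F) = 2 * m + 1 := by
    rw [Module.finrank_fintype_fun_eq_card, Fintype.card_sum, Fintype.card_sum, Fintype.card_fin, Fintype.card_unit]; ring
  exact CfsgLib.OM29.singular_maximal (Cfsg.Agent.H22.nondeg_qOdd m h2) (by rw [hfr]; omega) W hW0 hW (fun u _ _ _ => by rw [hfr]; omega)

end Cfsg.Agent.S5674
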