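import Cfsg.Statements.S5675
import Mathlib
import Cfsg.Agent.LibOM29g

set_option autoImplicit false
open Cfsg

namespace Cfsg.Agent.S5675



/-- Let F be a finite field of odd order q, m ≥ 6, Q the standard quadratic form on F^(2m+1) and Ω the commutator subgroup of its isometry group. Let W be a non-zero subspace of even dimension on which the polar form of Q is non-degenerate; exclude the case q = 3, dim W = 2 with Q vanishing on some line of W (a plus-type plane). Then the elements of Ω stabilising W (equivalently, stabilising its orthogonal complement, of odd dimension) form a maximal subgroup of Ω. -/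
theorem result {F : Type*} [Field F] [Fintype F] (hodd : Odd (Fintype.card F)) (m : ℕ) (hm : 6 ≤ m) (W : Submodule F (Unit ⊕ (Fin m ⊕ Fin m) → F)) (hW0 : W ≠ ⊥) (hev : Even (Module.finrank F W)) (hW : Cfsg.Geo.IsNondegenerateOn (QuadraticMap.polar (Cfsg.quadFormOdd m F)) W) (hex : ¬ (Fintype.card F = 3 ∧ Module.finrank F W = 2 ∧ Cfsg.Geo.IsPlusTypeOn (Cfsg.quadFormOdd m F) W)) : Cfsg.Geo.IsMaximalIn (Cfsg.Geo.omegaGL (Cfsg.quadFormOdd m F)) (Cfsg.Geo.subspaceStabilizer W ⊓ Cfsg.Geo.omegaGL (Cfsg.quadFormOdd m F)) := by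
  have h2 : (2 : F) ≠ 0 := by
    intro h
    obtain ⟨p, hp⟩ := CharP.exists F
    have h3 := (CharP.cast_eq_zero_iff F p 2).mp (by exact_mod_cast h)
    haveI : Fact p.Prime := ⟨CharP.char_is_prime F p⟩
    have hp2 : p = 2 := (Nat.prime_dvd_prime_iff_eq (Fact.out) Nat.prime_two).mp h3
    obtain ⟨n, _, hn⟩ := FiniteField.card F p
    rw [hn, hp2] at hodd
    exact absurd hodd (by
      rw [Nat.not_odd_iff_even]
      exact (Nat.even_pow.mpr ⟨even_two, n.pos.ne'⟩))
  rw [← Cfsg.Agent.H22.coe_qOdd] at hW hex ⊢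
  have hfr : Module.finrank F (Unit ⊕ (Fin m ⊕ Fin m) → F) = 2 * m + 1 := by
    rw [Module.finrank_fintype_fun_eq_card, Fintype.card_sum, Fintype.card_sum, Fintype.card_fin, Fintype.card_unit]; ring
  have hQ := Cfsg.Agent.H22.nondeg_qOdd (F := F) m h2
  have hd := Cfsg.Agent.H22.finrank_orth hQ W
  obtain ⟨j, hj⟩ := hev
  have h1 : 1 < Fintype.card F := Fintype.one_lt_card
  refine CfsgLib.OM29.nd_final hQ (by rw [hfr]; omega) W hW0 ?_ (CfsgLib.OM29.nd_of_geo hW) ?_ ?_ ?_
  · intro h
    rw [h, finrank_top, hfr] at hj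
    omega
  · rintro ⟨h3, h4, h5⟩
    rw [Nat.card_eq_fintype_card] at h3
    obtain ⟨i, hi⟩ := hodd
    exact hex ⟨by omega, h4, h5⟩
  · rintro ⟨_, h4, _⟩
    rw [hfr] at hd
    omega
  · intro h
    rw [hfr] at h
    omega

end Cfsg.Agent.S5675
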