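import Cfsg.Statements.S5676
import Mathlib
import Cfsg.Agent.LibOM29g
import Cfsg.Agent.LibOM29h

set_option autoImplicit false
open Cfsg

namespace Cfsg.Agent.S5676



/-- Let F be the field with 3 elements, m ≥ 6, Q the standard quadratic form on F^(2m+1) and Ω the commutator subgroup of its isometry group. Let W be a 2-dimensional subspace on which the polar form is non-degenerate and which contains a line on which Q vanishes. Then the elements of Ω stabilising W form a subgroup that is not maximal: some subgroup lies strictly between it and Ω. -/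
theorem result {F : Type*} [Field F] [Fintype F] (hq : Fintype.card F = 3) (m : ℕ) (hm : 6 ≤ m) (W : Submodule F (Unit ⊕ (Fin m ⊕ Fin m) → F)) (hdim : Module.finrank F W = 2) (hW : Cfsg.Geo.IsNondegenerateOn (QuadraticMap.polar (Cfsg.quadFormOdd m F)) W) (hplus : Cfsg.Geo.IsPlusTypeOn (Cfsg.quadFormOdd m F) W) : ∃ K : Subgroup (Matrix.GeneralLinearGroup (Unit ⊕ (Fin m ⊕ Fin m)) F), Cfsg.Geo.subspaceStabilizer W ⊓ Cfsg.Geo.omegaGL (Cfsg.quadFormOdd m F) < K ∧ K < Cfsg.Geo.omegaGL (Cfsg.quadFormOdd m F) := by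
  have h2 : (2 : F) ≠ 0 := by
    intro h
    obtain ⟨p, hp⟩ := CharP.exists F
    have h3 := (CharP.cast_eq_zero_iff F p 2).mp (by exact_mod_cast h)
    haveI : Fact p.Prime := ⟨CharP.char_is_prime F p⟩
    have hp2 : p = 2 := (Nat.prime_dvd_prime_iff_eq (Fact.out) Nat.prime_two).mp h3
    obtain ⟨n, _, hn⟩ := FiniteField.card F p
    rw [hn, hp2] at hq
    have h4 : 2 ∣ 2 ^ (n : ℕ) := dvd_pow_self 2 n.pos.ne'
    omega
  rw [← Cfsg.Agent.H22.coe_qOdd] at hW hplus ⊢
  have hfr : Module.finrank F (Unit ⊕ (Fin m ⊕ Fin m) → F) = 2 * m + 1 := by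
    rw [Module.finrank_fintype_fun_eq_card, Fintype.card_sum, Fintype.card_sum, Fintype.card_fin, Fintype.card_unit]; ring
  have hQ := Cfsg.Agent.H22.nondeg_qOdd (F := F) m h2
  exact CfsgLib.OM29.plane_not_maximal hQ (by rw [Nat.card_eq_fintype_card, hq]) (by rw [hfr]; omega) W hdim (CfsgLib.OM29.nd_of_geo hW) hplus

end Cfsg.Agent.S5676
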