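import Cfsg.Statements.S5677
import Mathlib
import Cfsg.Agent.LibOI29d

set_option autoImplicit false
open Cfsg

namespace Cfsg.Agent.S5677

theorem dec_mul {ι : Type} [Fintype ι] [DecidableEq ι] {F : Type*} [Field F] {t m : ℕ} {D : Fin t → Submodule F (ι → F)} (hD : Geo.IsMDecomposition m D) :
    t * m = Fintype.card ι := by
  have hI := DirectSum.isInternal_submodule_of_iSupIndep_of_iSup_eq_top hD.indep hD.iSup_eq_top
  let E := LinearEquiv.ofBijective (DirectSum.coeLinearMap D) hI
  have h1 := E.finrank_eq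
  rw [Module.finrank_fintype_fun_eq_card, Module.finrank_directSum] at h1
  rw [← h1]
  simp [hD.finrank_eq]

/-- Let F be a finite field of odd order q, m ≥ 6, Q the standard quadratic form on F^(2m+1) and Ω the commutator subgroup of its isometry group. Let D be a decomposition of F^(2m+1) into t ≥ 2 pairwise orthogonal, pairwise Q-isometric subspaces of equal dimension k > 1 on which the polar form is non-degenerate. Unless q = 3 and k = 3, the elements of Ω permuting the members of D form a maximal subgroup of Ω. -/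
theorem result {F : Type*} [Field F] [Fintype F] (hodd : Odd (Fintype.card F)) (m : ℕ) (hm : 6 ≤ m) {t : ℕ} (k : ℕ) (hk : 1 < k) (D : Fin t → Submodule F (Unit ⊕ (Fin m ⊕ Fin m) → F)) (hD : Cfsg.Geo.IsOrthogonalMDecomposition (Cfsg.quadFormOdd m F) k D) (hex : ¬ (Fintype.card F = 3 ∧ k = 3)) : Cfsg.Geo.IsMaximalIn (Cfsg.Geo.omegaGL (Cfsg.quadFormOdd m F)) (Cfsg.Geo.decompositionStabilizer D ⊓ Cfsg.Geo.omegaGL (Cfsg.quadFormOdd m F)) := by
  have h2 : (2 : F) ≠ 0 := by
    intro h
    obtain ⟨p, hp⟩ := CharP.exists F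
    have h3 := (CharP.cast_eq_zero_iff F p 2).mp (by exact_mod_cast h)
    haveI : Fact p.Prime := ⟨CharP.char_is_prime F p⟩
    have hp2 : p = 2 := (Nat.prime_dvd_prime_iff_eq (Fact.out) Nat.prime_two).mp h3
    obtain ⟨n, _, hn⟩ := FiniteField.card F p
    rw [hn, hp2] at hodd
    exact absurd hodd (by
      rw [Nat.not_odd_iff_even]
      exact (Nat.even_pow.mpr ⟨even_two, n.pos.ne'⟩))
  have hmul := dec_mul hD.decomp.decomp
  rw [Fintype.card_sum, Fintype.card_sum, Fintype.card_fin, Fintype.card_unit] at hmul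
  have hoddn : Odd (t * k) := ⟨m, by omega⟩
  obtain ⟨hto, hko⟩ := Nat.odd_mul.mp hoddn
  have ht2 := hD.decomp.decomp.two_le
  have ht : 3 ≤ t := by rcases hto with ⟨a, ha⟩; omega
  rw [← Cfsg.Agent.H22.coe_qOdd] at hD ⊢
  have hfr : Module.finrank F (Unit ⊕ (Fin m ⊕ Fin m) → F) = 2 * m + 1 := by
    rw [Module.finrank_fintype_fun_eq_card, Fintype.card_sum, Fintype.card_sum, Fintype.card_fin, Fintype.card_unit]; ring
  refine CfsgLib.OI29.oi_maximal (Cfsg.Agent.H22.nondeg_qOdd m h2) h2 (by rw [hfr]; omega) ht hD ?_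
  by_cases hk3 : k = 3
  · right
    refine ⟨hk3, ?_⟩
    by_contra hcon
    push Not at hcon
    classical
    have hF3 : Fintype.card F ≠ 3 := fun h => hex ⟨h, hk3⟩
    have h3 : (Finset.univ : Finset F) ⊆ {0, 1, -1} := by
      intro x _
      rw [Finset.mem_insert, Finset.mem_insert, Finset.mem_singleton]
      by_cases h0 : x = 0
      · exact Or.inl h0
      · right
        have := hcon x h0
        have h4 : (x - 1) * (x + 1) = 0 := by linear_combination this
        rcases mul_eq_zero.mp h4 with h | h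
        · exact Or.inl (sub_eq_zero.mp h)
        · exact Or.inr (eq_neg_of_add_eq_zero_left h)
    have h4 : Fintype.card F ≤ 3 := by
      rw [← Finset.card_univ]
      exact (Finset.card_le_card h3).trans Finset.card_le_three
    have h5 : 1 < Fintype.card F := Fintype.one_lt_card
    rcases hodd with ⟨a, ha⟩
    omega
  · left
    rcases hko with ⟨a, ha⟩
    omega

end Cfsg.Agent.S5677
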