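import Cfsg.Statements.S5688
import Mathlib
import Cfsg.Agent.LibOM29g

set_option autoImplicit false
open Cfsg

namespace Cfsg.Agent.S5688



/-- Let F be a finite field with q elements, n ≥ 13 even, Q a non-degenerate quadratic form on F^n of plus type (some subspace of dimension n/2 is totally singular), and Ω the commutator subgroup of the isometry group of Q, viewed inside GL_n(F). Let W be a non-zero proper subspace with dim W ≠ n/2 on which the polar form of Q is non-degenerate. Exclude the case q ≤ 3 in which W, or its orthogonal complement, is a plane containing a line on which Q vanishes. Then the elements of Ω stabilising W form a maximal subgroup of Ω. -/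
theorem result {F : Type*} [Field F] [Fintype F] {n : ℕ} (hn : 13 ≤ n) (heven : Even n) (Q : (Fin n → F) → F) (hQ : Cfsg.Geo.IsNondegenerateQuadraticForm Q) (hplus : Cfsg.Geo.IsPlusTypeOn Q ⊤) (W : Submodule F (Fin n → F)) (hW0 : W ≠ ⊥) (hW1 : W ≠ ⊤) (hdim : 2 * Module.finrank F W ≠ n) (hW : Cfsg.Geo.IsNondegenerateOn (QuadraticMap.polar Q) W) (hex : ¬ (Fintype.card F ≤ 3 ∧ (∃ U : Submodule F (Fin n → F), Module.finrank F U = 2 ∧ Cfsg.Geo.IsNondegenerateOn (QuadraticMap.polar Q) U ∧ Cfsg.Geo.IsPlusTypeOn Q U ∧ (U = W ∨ (Cfsg.Geo.AreOrthogonalFor (QuadraticMap.polar Q) U W ∧ Module.finrank F U + Module.finrank F W = n))))) : Cfsg.Geo.IsMaximalIn (Cfsg.Geo.omegaGL Q) (Cfsg.Geo.subspaceStabilizer W ⊓ Cfsg.Geo.omegaGL Q) := by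
  have hQ' := CfsgLib.OM29.nondeg_toQ Q hQ
  have hfr : Module.finrank F (Fin n → F) = n := Module.finrank_fin_fun F
  have hd := Cfsg.Agent.H22.finrank_orth hQ' W
  rw [hfr] at hd
  have hnd : CfsgLib.OM29.ND (CfsgLib.OM29.toQ Q hQ) W := CfsgLib.OM29.nd_of_geo hW
  have := CfsgLib.OM29.nd_final hQ' (by rw [hfr]; omega) W hW0 hW1 hnd ?_ ?_ ?_
  · exact this
  · rintro ⟨h3, h4, h5⟩
    rw [Nat.card_eq_fintype_card] at h3
    exact hex ⟨h3, W, h4, hW, h5, Or.inl rfl⟩
  · rintro ⟨h3, h4, h5⟩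
    rw [Nat.card_eq_fintype_card] at h3
    refine hex ⟨h3, _, h4, CfsgLib.OM29.geo_of_nd (hnd.orth_nd hQ'), h5, Or.inr ⟨fun u hu v hv => ?_, by omega⟩⟩
    have := Cfsg.Agent.H22.mem_orth.mp hu v hv
    rw [CfsgLib.OM29.bsymm] at this
    exact this
  · intro h
    rw [hfr] at h
    exact absurd h hdim

end Cfsg.Agent.S5688
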