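import Cfsg.Statements.S5690
import Mathlib
import Cfsg.Agent.LibOM29g
import Cfsg.Agent.LibOM29h

set_option autoImplicit false
open Cfsg

namespace Cfsg.Agent.S5690



/-- Let F be a finite field with q elements, n ≥ 13 even, Q a non-degenerate quadratic form on F^n (of either type), and Ω the commutator subgroup of the isometry group of Q, viewed inside GL_n(F). Suppose q ≤ 3 and W is a plane on which the polar form is non-degenerate and which contains a line on which Q vanishes. Then the elements of Ω stabilising W form a subgroup that is not maximal: some subgroup lies strictly between it and Ω. -/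
theorem result {F : Type*} [Field F] [Fintype F] {n : ℕ} (hn : 13 ≤ n) (heven : Even n) (Q : (Fin n → F) → F) (hQ : Cfsg.Geo.IsNondegenerateQuadraticForm Q) (hq : Fintype.card F ≤ 3) (W : Submodule F (Fin n → F)) (hdim : Module.finrank F W = 2) (hW : Cfsg.Geo.IsNondegenerateOn (QuadraticMap.polar Q) W) (hWp : Cfsg.Geo.IsPlusTypeOn Q W) : ∃ K : Subgroup (Matrix.GeneralLinearGroup (Fin n) F), Cfsg.Geo.subspaceStabilizer W ⊓ Cfsg.Geo.omegaGL Q < K ∧ K < Cfsg.Geo.omegaGL Q := by
  have hQ' := CfsgLib.OM29.nondeg_toQ Q hQ
  have hfr : Module.finrank F (Fin n → F) = n := Module.finrank_fin_fun F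
  have hnd : CfsgLib.OM29.ND (CfsgLib.OM29.toQ Q hQ) W := CfsgLib.OM29.nd_of_geo hW
  have := CfsgLib.OM29.plane_not_maximal hQ' (by rw [Nat.card_eq_fintype_card]; exact hq) (by rw [hfr]; omega) W hdim hnd hWp
  exact this

end Cfsg.Agent.S5690
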