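import Cfsg.Statements.S5691
import Mathlib
import Cfsg.Agent.LibOM29g
import Cfsg.Agent.LibOM29h

set_option autoImplicit false
open Cfsg

namespace Cfsg.Agent.S5691



/-- Let F be a finite field with q elements, n ≥ 13 even, Q a non-degenerate quadratic form on F^n (of either type), and Ω the commutator subgroup of the isometry group of Q, viewed inside GL_n(F). Suppose q is even and v is a vector with Q(v) ≠ 0. Then the elements of Ω stabilising the line spanned by v form a maximal subgroup of Ω. -/
theorem result {F : Type*} [Field F] [Fintype F] {n : ℕ} (hn : 13 ≤ n) (heven : Even n) (Q : (Fin n → F) → F) (hQ : Cfsg.Geo.IsNondegenerateQuadraticForm Q) (hchar : ¬ Odd (Fintype.card F)) (v : (Fin n → F)) (hv : Q v ≠ 0) : Cfsg.Geo.IsMaximalIn (Cfsg.Geo.omegaGL Q) (Cfsg.Geo.subspaceStabilizer (Submodule.span F {v}) ⊓ Cfsg.Geo.omegaGL Q) := by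
  have h2 : (2 : F) = 0 := by
    obtain ⟨p, hp⟩ := CharP.exists F
    haveI : Fact p.Prime := ⟨CharP.char_is_prime F p⟩
    obtain ⟨n, hp', hn⟩ := FiniteField.card F p
    have hp2 : p = 2 := by
      by_contra hne
      apply hchar
      rw [hn]
      exact (hp'.odd_of_ne_two hne).pow
    subst hp2
    exact_mod_cast CharP.cast_eq_zero F 2
  have hQ' := CfsgLib.OM29.nondeg_toQ Q hQ
  have hfr : Module.finrank F (Fin n → F) = n := Module.finrank_fin_fun F
  have := CfsgLib.OM29.nonsing_maximal hQ' h2 (by rw [hfr]; omega) v hv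
  exact this

end Cfsg.Agent.S5691
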