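import Cfsg.Statements.S5697
import Mathlib
import Cfsg.Agent.LibOM29k

set_option autoImplicit false
open Cfsg

namespace Cfsg.Agent.S5697



/-- Let F be a finite field with q elements, n ≥ 13 even, Q a non-degenerate quadratic form on F^n of plus type (some subspace of dimension n/2 is totally singular), and Ω the commutator subgroup of the isometry group of Q, viewed inside GL_n(F). Suppose n/2 is even and let D be a decomposition of F^n into two complementary subspaces of dimension n/2 on each of which Q vanishes. Then the elements of Ω preserving or interchanging the two subspaces form a maximal subgroup of Ω. -/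
theorem result {F : Type*} [Field F] [Fintype F] {n : ℕ} (hn : 13 ≤ n) (heven : Even n) (Q : (Fin n → F) → F) (hQ : Cfsg.Geo.IsNondegenerateQuadraticForm Q) (hplus : Cfsg.Geo.IsPlusTypeOn Q ⊤) (k : ℕ) (hk : 2 * k = n) (hke : Even k) (D : Fin 2 → Submodule F (Fin n → F)) (hD : Cfsg.Geo.IsMDecomposition k D) (hts : ∀ i, Cfsg.Geo.IsTotallySingularQuad Q (D i)) : Cfsg.Geo.IsMaximalIn (Cfsg.Geo.omegaGL Q) (Cfsg.Geo.decompositionStabilizer D ⊓ Cfsg.Geo.omegaGL Q) := by
  have hQ' := CfsgLib.OM29.nondeg_toQ Q hQ
  have h0 : Module.finrank F (D 0) = k := hD.finrank_eq 0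
  have h1 : Module.finrank F (D 1) = k := hD.finrank_eq 1
  have hle : ∀ (g : Matrix.GeneralLinearGroup (Fin n) F) (U : Submodule F (Fin n → F)), U.map (Matrix.toLin' (g : Matrix (Fin n) (Fin n) F)) = U.map (CfsgLib.MaxTv29.le g).toLinearMap := by
    intro g U
    rfl
  have hdis : D 0 ⊓ D 1 = ⊥ := disjoint_iff.mp (hD.indep.pairwiseDisjoint (by decide : (0 : Fin 2) ≠ 1))
  have hsup : D 0 ⊔ D 1 = ⊤ := by
    rw [eq_top_iff, ← hD.iSup_eq_top]
    apply iSup_le
    intro i
    fin_cases i
    · exact le_sup_left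
    · exact le_sup_right
  have P : CfsgLib.OM29.Prd (CfsgLib.OM29.toQ Q hQ) (D 0) (D 1) :=
    ⟨hQ', hts 0, hts 1, hdis, hsup, by rw [h0, h1], by rw [h0]; omega⟩
  have hfin : ∀ i : Fin 2, i = 0 ∨ i = 1 := by decide
  have hmap : ∀ (g : Matrix.GeneralLinearGroup (Fin n) F) (i j : Fin 2), (D i).map (Matrix.toLin' (g : Matrix (Fin n) (Fin n) F)) = D j ↔
      ∀ x ∈ D i, Matrix.mulVec (g : Matrix (Fin n) (Fin n) F) x ∈ D j := by
    intro g i j
    constructor
    · intro h x hx
      rw [← h]
      exact ⟨x, hx, rfl⟩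
    · intro h
      apply Submodule.eq_of_le_of_finrank_eq
      · rintro _ ⟨x, hx, rfl⟩
        exact h x hx
      · rw [hle]
        rw [hD.finrank_eq j, ← hD.finrank_eq i]
        exact LinearEquiv.finrank_map_eq (CfsgLib.MaxTv29.le g) (D i)
  have := P.maximal (by rw [h0]; exact hke) (Cfsg.Geo.decompositionStabilizer D ⊓ Cfsg.Geo.omegaGL Q) ?_
  · exact this
  · intro g
    constructor
    · rintro ⟨⟨σ, hσ⟩, hg⟩
      refine ⟨hg, ?_⟩
      rcases hfin (σ 0) with h2 | h2
      · have h3 : σ 1 = 1 := by
          rcases hfin (σ 1) with h3 | h3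
          · exact absurd (σ.injective (h2.trans h3.symm)) (by decide)
          · exact h3
        left
        have hσ0 := hσ 0
        have hσ1 := hσ 1
        rw [h2, hmap] at hσ0
        rw [h3, hmap] at hσ1
        exact ⟨hσ0, hσ1⟩
      · have h3 : σ 1 = 0 := by
          rcases hfin (σ 1) with h3 | h3
          · exact h3
          · exact absurd (σ.injective (h2.trans h3.symm)) (by decide)
        right
        have hσ0 := hσ 0
        have hσ1 := hσ 1
        rw [h2, hmap] at hσ0
        rw [h3, hmap] at hσ1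
        exact ⟨hσ0, hσ1⟩
    · rintro ⟨hg, h | h⟩
      · refine ⟨⟨1, fun i => ?_⟩, hg⟩
        rw [Equiv.Perm.one_apply, hmap]
        rcases hfin i with rfl | rfl
        · exact h.1
        · exact h.2
      · refine ⟨⟨Equiv.swap 0 1, fun i => ?_⟩, hg⟩
        rcases hfin i with rfl | rfl
        · rw [Equiv.swap_apply_left, hmap]; exact h.1
        · rw [Equiv.swap_apply_right, hmap]; exact h.2

end Cfsg.Agent.S5697
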