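import Cfsg.Statements.S5698
import Mathlib
import Cfsg.Agent.LibOM29g

set_option autoImplicit false
open Cfsg

namespace Cfsg.Agent.S5698



/-- Let F be a finite field with q elements, n ≥ 13 even, Q a non-degenerate quadratic form on F^n of plus type (some subspace of dimension n/2 is totally singular), and Ω the commutator subgroup of the isometry group of Q, viewed inside GL_n(F). Suppose n/2 is odd and let D be a decomposition of F^n into two complementary subspaces of dimension n/2 on each of which Q vanishes. Then the elements of Ω preserving or interchanging the two subspaces form a subgroup that is not maximal: some subgroup lies strictly between it and Ω. -/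
theorem result {F : Type*} [Field F] [Fintype F] {n : ℕ} (hn : 13 ≤ n) (heven : Even n) (Q : (Fin n → F) → F) (hQ : Cfsg.Geo.IsNondegenerateQuadraticForm Q) (hplus : Cfsg.Geo.IsPlusTypeOn Q ⊤) (k : ℕ) (hk : 2 * k = n) (hko : Odd k) (D : Fin 2 → Submodule F (Fin n → F)) (hD : Cfsg.Geo.IsMDecomposition k D) (hts : ∀ i, Cfsg.Geo.IsTotallySingularQuad Q (D i)) : ∃ K : Subgroup (Matrix.GeneralLinearGroup (Fin n) F), Cfsg.Geo.decompositionStabilizer D ⊓ Cfsg.Geo.omegaGL Q < K ∧ K < Cfsg.Geo.omegaGL Q := by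
  have hQ' := CfsgLib.OM29.nondeg_toQ Q hQ
  have hfr : Module.finrank F (Fin n → F) = n := Module.finrank_fin_fun F
  have h0 : Module.finrank F (D 0) = k := hD.finrank_eq 0
  have h1 : Module.finrank F (D 1) = k := hD.finrank_eq 1
  have hle : ∀ (g : Matrix.GeneralLinearGroup (Fin n) F) (U : Submodule F (Fin n → F)), U.map (Matrix.toLin' (g : Matrix (Fin n) (Fin n) F)) = U.map (CfsgLib.MaxTv29.le g).toLinearMap := by
    intro g U
    rfl
  have hdis : D 0 ⊓ D 1 = ⊥ := disjoint_iff.mp (hD.indep.pairwiseDisjoint (by decide : (0 : Fin 2) ≠ 1))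
  have hsup : D 0 ⊔ D 1 = ⊤ := by
    rw [eq_top_iff, ← hD.iSup_eq_top]
    apply iSup_le
    intro i
    fin_cases i
    · exact le_sup_left
    · exact le_sup_right
  have hTS : Cfsg.Agent.H22.TS (CfsgLib.OM29.toQ Q hQ) k (D 0) := ⟨h0, hts 0⟩
  have hV : Module.finrank F (Fin n → F) = 2 * k := by rw [hfr, hk]
  have hfin : ∀ i : Fin 2, i = 0 ∨ i = 1 := by decide
  have hpar : ∀ g ∈ Cfsg.Geo.omegaGL Q, (D 0).map (CfsgLib.MaxTv29.le g).toLinearMap ≠ D 1 := by
    intro g hg h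
    have h2 := CfsgLib.OM29.dp_omega hQ' hV hTS (g := g) hg
    rw [h] at h2
    unfold CfsgLib.OM29.dp at h2
    rw [hdis, finrank_bot, Nat.sub_zero, ZMod.natCast_eq_zero_iff_even] at h2
    exact (Nat.not_even_iff_odd.mpr hko) h2
  have hD0 : D 0 ≠ ⊥ := by
    intro h
    rw [h, finrank_bot] at h0
    omega
  refine ⟨Cfsg.Geo.subspaceStabilizer (D 0) ⊓ Cfsg.Geo.omegaGL Q, lt_of_le_of_ne ?_ ?_, ?_⟩
  · rintro g ⟨⟨σ, hσ⟩, hg⟩
    refine ⟨?_, hg⟩
    have hσ0 := hσ 0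
    rcases hfin (σ 0) with h2 | h2
    · rw [h2] at hσ0
      refine (CfsgLib.MaxTv29.mem_stab _ _).mpr fun w hw => ?_
      have : Matrix.toLin' (g : Matrix (Fin n) (Fin n) F) w ∈ (D 0).map (Matrix.toLin' (g : Matrix (Fin n) (Fin n) F)) := ⟨w, hw, rfl⟩
      rw [hσ0] at this
      exact this
    · rw [h2, hle] at hσ0
      exact absurd hσ0 (hpar g hg)
  · intro heq
    obtain ⟨w, hw, hw0⟩ := Submodule.exists_mem_ne_zero_of_ne_bot hD0
    obtain ⟨v, hv, hvw⟩ : ∃ v ∈ D 0, v ∉ Submodule.span F {w} := by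
      by_contra hcon
      push Not at hcon
      have := Submodule.finrank_mono (show D 0 ≤ Submodule.span F {w} from hcon)
      rw [h0, finrank_span_singleton hw0] at this
      omega
    have hp : ∀ a ∈ D 0, ∀ b ∈ D 0, QuadraticMap.polar (CfsgLib.OM29.toQ Q hQ) a b = 0 := fun a ha b hb => Cfsg.Agent.H22.polar_ts (Q := CfsgLib.OM29.toQ Q hQ) (hts 0) ha hb
    obtain ⟨x, hx, hwx⟩ : ∃ x ∈ D 1, QuadraticMap.polar (CfsgLib.OM29.toQ Q hQ) w x ≠ 0 := by
      by_contra hcon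
      push Not at hcon
      obtain ⟨s, -, hs⟩ := CfsgLib.OM29.orth_func hQ' ⊥ w (fun h => hw0 ((Submodule.mem_bot F).mp h))
      apply hs
      have : s ∈ D 0 ⊔ D 1 := by rw [hsup]; exact Submodule.mem_top
      obtain ⟨a, ha, b, hb, rfl⟩ := Submodule.mem_sup.mp this
      rw [QuadraticMap.polar_add_right, hp w hw a ha, hcon b hb, add_zero]
    obtain ⟨e, f, e', f', u', hs⟩ := Cfsg.Agent.H22.exists_HS hQ' (by rw [hfr]; omega)
    have hQv : CfsgLib.OM29.toQ Q hQ v = 0 := hts 0 v hv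
    have h3 : CfsgLib.OM29.EM (CfsgLib.OM29.toQ Q hQ) v w ∈ Cfsg.Geo.subspaceStabilizer (D 0) ⊓ Cfsg.Geo.omegaGL Q := by
      refine ⟨(CfsgLib.MaxTv29.mem_stab _ _).mpr fun y hy => ?_, CfsgLib.OM29.EM_omega hQ' hs (by rw [hfr]; omega) hQv (hp v hv w hw)⟩
      rw [CfsgLib.OM29.EM_mulVec hQv (hp v hv w hw)]
      exact (D 0).sub_mem ((D 0).sub_mem ((D 0).add_mem hy ((D 0).smul_mem _ hw)) ((D 0).smul_mem _ hv)) ((D 0).smul_mem _ hv)
    rw [← heq] at h3
    obtain ⟨⟨σ, hσ⟩, hg⟩ := h3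
    have hσ0 := hσ 0
    have hσ1 := hσ 1
    rcases hfin (σ 0) with h4 | h4
    · have h5 : σ 1 = 1 := by
        rcases hfin (σ 1) with h5 | h5
        · exact absurd (σ.injective (h4.trans h5.symm)) (by decide)
        · exact h5
      rw [h5] at hσ1
      have h6 : Matrix.toLin' ((CfsgLib.OM29.EM (CfsgLib.OM29.toQ Q hQ) v w : Matrix.GeneralLinearGroup (Fin n) F) : Matrix (Fin n) (Fin n) F) x ∈
          (D 1).map (Matrix.toLin' ((CfsgLib.OM29.EM (CfsgLib.OM29.toQ Q hQ) v w : Matrix.GeneralLinearGroup (Fin n) F) : Matrix (Fin n) (Fin n) F)) := ⟨x, hx, rfl⟩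
      rw [hσ1, Matrix.toLin'_apply, CfsgLib.OM29.EM_mulVec hQv (hp v hv w hw)] at h6
      have hQw : CfsgLib.OM29.toQ Q hQ w = 0 := hts 0 w hw
      rw [hQw, zero_mul, zero_smul, sub_zero] at h6
      have h7 := (D 1).sub_mem h6 hx
      have h8 : x + QuadraticMap.polar (⇑(CfsgLib.OM29.toQ Q hQ)) v x • w - QuadraticMap.polar (⇑(CfsgLib.OM29.toQ Q hQ)) w x • v - x =
        QuadraticMap.polar (⇑(CfsgLib.OM29.toQ Q hQ)) v x • w - QuadraticMap.polar (⇑(CfsgLib.OM29.toQ Q hQ)) w x • v := by abel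
      rw [h8] at h7
      have h9 : QuadraticMap.polar (⇑(CfsgLib.OM29.toQ Q hQ)) v x • w - QuadraticMap.polar (⇑(CfsgLib.OM29.toQ Q hQ)) w x • v ∈ D 0 ⊓ D 1 :=
        ⟨(D 0).sub_mem ((D 0).smul_mem _ hw) ((D 0).smul_mem _ hv), h7⟩
      rw [hdis, Submodule.mem_bot, sub_eq_zero] at h9
      apply hvw
      refine Submodule.mem_span_singleton.mpr ⟨(QuadraticMap.polar (⇑(CfsgLib.OM29.toQ Q hQ)) w x)⁻¹ * QuadraticMap.polar (⇑(CfsgLib.OM29.toQ Q hQ)) v x, ?_⟩
      rw [mul_smul, h9, smul_smul, inv_mul_cancel₀ hwx, one_smul]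
    · rw [h4, hle] at hσ0
      exact hpar _ hg hσ0
  · have := CfsgLib.OM29.stab_ne_omega hQ' (by rw [hfr]; omega) (D 0) hD0 (hts 0)
    exact this

end Cfsg.Agent.S5698
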