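import Cfsg.Statements.S5699
import Mathlib
import Cfsg.Agent.LibOM29g

set_option autoImplicit false
open Cfsg

namespace Cfsg.Agent.S5699

open scoped Matrix in
theorem iso_of_map {F : Type*} [Field F] {n : ℕ} {Q : (Fin n → F) → F} {g : Matrix.GeneralLinearGroup (Fin n) F} (hg : ∀ x, Q ((g : Matrix (Fin n) (Fin n) F) *ᵥ x) = Q x)
    {U W : Submodule F (Fin n → F)} (h : U.map (CfsgLib.MaxTv29.le g).toLinearMap = W) : Geo.AreIsometricFor Q U W := by
  subst h
  exact ⟨(CfsgLib.MaxTv29.le g).submoduleMap U, fun w => hg w⟩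

open scoped Matrix in
theorem iso_symm {F : Type*} [Field F] {n : ℕ} {Q : (Fin n → F) → F} {U W : Submodule F (Fin n → F)} (h : Geo.AreIsometricFor Q U W) : Geo.AreIsometricFor Q W U := by
  obtain ⟨e, he⟩ := h
  refine ⟨e.symm, fun w => ?_⟩
  rw [← he, e.apply_symm_apply]

/-- Let F be a finite field with q elements, n ≥ 13 even, Q a non-degenerate quadratic form on F^n (of either type), and Ω the commutator subgroup of the isometry group of Q, viewed inside GL_n(F). Let D be a decomposition of F^n into two orthogonal subspaces of odd dimension n/2 on which the polar form is non-degenerate and which are not Q-isometric to each other. Then the elements of Ω permuting (necessarily fixing) the two subspaces form a maximal subgroup of Ω. -/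
theorem result {F : Type*} [Field F] [Fintype F] {n : ℕ} (hn : 13 ≤ n) (heven : Even n) (Q : (Fin n → F) → F) (hQ : Cfsg.Geo.IsNondegenerateQuadraticForm Q) (k : ℕ) (hk : 2 * k = n) (hko : Odd k) (D : Fin 2 → Submodule F (Fin n → F)) (hD : Cfsg.Geo.IsNondegenerateMDecomposition (QuadraticMap.polar Q) k D) (hni : ¬ Cfsg.Geo.AreIsometricFor Q (D 0) (D 1)) : Cfsg.Geo.IsMaximalIn (Cfsg.Geo.omegaGL Q) (Cfsg.Geo.decompositionStabilizer D ⊓ Cfsg.Geo.omegaGL Q) := by
  have hQ' := CfsgLib.OM29.nondeg_toQ Q hQ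
  have hfr : Module.finrank F (Fin n → F) = n := Module.finrank_fin_fun F
  have hd := Cfsg.Agent.H22.finrank_orth hQ' (D 0)
  rw [hfr] at hd
  have h0 : Module.finrank F (D 0) = k := hD.decomp.finrank_eq 0
  have h1 : Module.finrank F (D 1) = k := hD.decomp.finrank_eq 1
  have ho : Cfsg.Agent.H22.orth (CfsgLib.OM29.toQ Q hQ) (D 0) = D 1 := by
    symm
    apply Submodule.eq_of_le_of_finrank_eq
    · intro x hx
      rw [Cfsg.Agent.H22.mem_orth]
      intro w hw
      exact hD.orthogonal 0 1 (by decide) w hw x hx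
    · omega
  have hnd : CfsgLib.OM29.ND (CfsgLib.OM29.toQ Q hQ) (D 0) := CfsgLib.OM29.nd_of_geo (hD.nondegenerate 0)
  have hle : ∀ (g : Matrix.GeneralLinearGroup (Fin n) F) (U : Submodule F (Fin n → F)), U.map (Matrix.toLin' (g : Matrix (Fin n) (Fin n) F)) = U.map (CfsgLib.MaxTv29.le g).toLinearMap := by
    intro g U
    rfl
  have hst : Cfsg.Geo.decompositionStabilizer D ⊓ Cfsg.Geo.omegaGL Q = Cfsg.Geo.subspaceStabilizer (D 0) ⊓ Cfsg.Geo.omegaGL Q := by
    apply le_antisymm
    · rintro g ⟨⟨σ, hσ⟩, hg⟩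
      refine ⟨?_, hg⟩
      have hg' := (CfsgLib.OM29.mem_isoQ (Q := CfsgLib.OM29.toQ Q hQ) g).mp (CfsgLib.OM29.omegaGL_le_iso hg)
      have hσ0 := hσ 0
      have h2 : σ 0 = 0 ∨ σ 0 = 1 := by
        generalize σ 0 = i
        fin_cases i
        · exact Or.inl rfl
        · exact Or.inr rfl
      rcases h2 with h2 | h2
      · rw [h2] at hσ0
        refine (CfsgLib.MaxTv29.mem_stab _ _).mpr fun w hw => ?_
        have : Matrix.toLin' (g : Matrix (Fin n) (Fin n) F) w ∈ (D 0).map (Matrix.toLin' (g : Matrix (Fin n) (Fin n) F)) := ⟨w, hw, rfl⟩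
        rw [hσ0] at this
        exact this
      · rw [h2, hle] at hσ0
        exact absurd (iso_of_map (Q := Q) hg' hσ0) hni
    · rintro g ⟨hg1, hg2⟩
      refine ⟨⟨1, fun i => ?_⟩, hg2⟩
      have hg3 := (CfsgLib.OM29.stab_orth_le (Q := CfsgLib.OM29.toQ Q hQ) (D 0) ⟨hg1, hg2⟩).1
      rw [ho] at hg3
      rw [hle]
      have key : ∀ U : Submodule F (Fin n → F), g ∈ Cfsg.Geo.subspaceStabilizer U → U.map (CfsgLib.MaxTv29.le g).toLinearMap = U := by
        intro U hU
        apply Submodule.eq_of_le_of_finrank_eq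
        · rintro _ ⟨x, hx, rfl⟩
          exact (CfsgLib.MaxTv29.mem_stab _ _).mp hU x hx
        · exact LinearEquiv.finrank_map_eq (CfsgLib.MaxTv29.le g) U
      fin_cases i
      · exact key _ hg1
      · exact key _ hg3
  rw [hst]
  have := CfsgLib.OM29.nd_maximal hQ' (D 0) ?_ hnd ?_ ?_ ?_
  · exact this
  · intro h
    rw [h, finrank_bot] at h0
    omega
  · rw [ho, h1]; omega
  · rintro ⟨_, h2, _⟩
    omega
  · intro g hg hgW
    rw [ho] at hgW
    apply hni
    apply iso_symm
    apply iso_of_map (g := g) ((CfsgLib.OM29.mem_isoQ (Q := CfsgLib.OM29.toQ Q hQ) g).mp hg)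
    apply Submodule.eq_of_le_of_finrank_eq
    · rintro _ ⟨x, hx, rfl⟩
      exact hgW x hx
    · rw [h0, ← h1]
      exact LinearEquiv.finrank_map_eq (CfsgLib.MaxTv29.le g) (D 1)

end Cfsg.Agent.S5699
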