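import Cfsg.Statements.S5702
import Mathlib
import Cfsg.Agent.LibOS29e

set_option autoImplicit false
open Cfsg

namespace Cfsg.Agent.S5702



/-- Let F be a finite field with q elements, n ≥ 13 even, Q a non-degenerate quadratic form on F^n (of either type), and Ω the commutator subgroup of the isometry group of Q, viewed inside GL_n(F). Let F₀ be a subfield with |F| = |F₀| ^ r for a prime r, ζ a non-zero scalar and P an invertible matrix such that ζ·Q takes values in F₀ on the F₀-span of the columns of P. Then the elements of Ω lying in the subfield group of P (the conjugate by P of the product of GL_n(F₀) with the scalars) form a maximal subgroup of Ω. -/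
theorem result {F : Type*} [Field F] [Fintype F] {n : ℕ} (hn : 13 ≤ n) (heven : Even n) (Q : (Fin n → F) → F) (hQ : Cfsg.Geo.IsNondegenerateQuadraticForm Q) (F₀ : Subfield F) (r : ℕ) (hr : r.Prime) (hcard : Fintype.card F = Nat.card F₀ ^ r) (P : Matrix.GeneralLinearGroup (Fin n) F) (ζ : F) (hζ : ζ ≠ 0) (hP : Cfsg.Geo.IsQuadFormRationalStructure (fun v : Fin n → F => ζ * Q v) F₀ P) : Cfsg.Geo.IsMaximalIn (Cfsg.Geo.omegaGL Q) (Cfsg.Geo.subfieldSubgroup F₀ P ⊓ Cfsg.Geo.omegaGL Q) := by
  have hr' : (Module.finrank F₀ F).Prime := by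
    rw [CfsgLib.Subfield29.finrank_of_card F₀ (by rw [Nat.card_eq_fintype_card]; exact hcard)]; exact hr
  exact CfsgLib.OS29.o_maximal (CfsgLib.OM29.nondeg_toQ Q hQ) (by rw [Fintype.card_fin]; omega) hr' P hζ (fun u hu => hP u hu)

end Cfsg.Agent.S5702
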