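import Cfsg.Statements.S5705
import Cfsg.Agent.LibH22NM12

set_option autoImplicit false
open Cfsg

namespace Cfsg.Agent.S5705


/-- Let F be the field with 2 elements, n = 2 n₂ ≥ 13 even, Q a non-degenerate quadratic form on F^n of plus type and Ω the commutator subgroup of its isometry group. Suppose that, through P and e, the polar form of Q is similar to the tensor product of non-degenerate symplectic forms f₁ on F^2 and f₂ on F^(n₂), and Q vanishes on the images of all pure tensors. Then the elements of Ω in the stabiliser of this tensor decomposition form a subgroup that is not maximal: some subgroup lies strictly between it and Ω. -/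
theorem result {F : Type*} [Field F] [Fintype F] {n : ℕ} (hn : 13 ≤ n) (heven : Even n) (Q : (Fin n → F) → F) (hQ : Cfsg.Geo.IsNondegenerateQuadraticForm Q) (hplus : Cfsg.Geo.IsPlusTypeOn Q ⊤) (hq : Fintype.card F = 2) (n₂ : ℕ) (h2 : 2 < n₂) (e : (Fin n) ≃ Fin 2 × Fin n₂) (P : Matrix.GeneralLinearGroup (Fin n) F) (f₁ : (Fin 2 → F) → (Fin 2 → F) → F) (f₂ : (Fin n₂ → F) → (Fin n₂ → F) → F) (hf₁ : Cfsg.Geo.IsSymplecticForm f₁) (hf₂ : Cfsg.Geo.IsSymplecticForm f₂) (hT : Cfsg.Geo.IsTensorFormStructure id (QuadraticMap.polar Q) f₁ f₂ e P) (hpure : (∀ (x₁ : Fin 2 → F) (x₂ : Fin n₂ → F), Q (Matrix.mulVec (P : Matrix (Fin n) (Fin n) F) ((fun a : Fin 2 × Fin n₂ => x₁ a.1 * x₂ a.2) ∘ e)) = 0)) : ∃ K : Subgroup (Matrix.GeneralLinearGroup (Fin n) F), Cfsg.Geo.tensorProductSubgroup 2 n₂ e P ⊓ Cfsg.Geo.omegaGL Q < K ∧ K < Cfsg.Geo.omegaGL Q := by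
  have hnd := CfsgLib.OM29.nondeg_toQ Q hQ
  have hfr : 5 ≤ Module.finrank F (Fin n → F) := by simp; omega
  have hcoe : Q = ⇑(CfsgLib.OM29.toQ Q hQ) := rfl
  obtain ⟨Q', hQ', hnd'⟩ : ∃ Q' : QuadraticForm F (Fin n → F), Q = ⇑Q' ∧ (QuadraticMap.polarBilin Q').Nondegenerate := ⟨_, hcoe, hnd⟩
  clear hcoe hnd
  subst hQ'
  exact CfsgLib.H22NM.tensor2 hq hnd' hfr (by omega) e P f₁ f₂ hf₁ hf₂ hT hpure

end Cfsg.Agent.S5705
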