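import Cfsg.Statements.S5787
import Cfsg.Agent.LibSpMaxO19

set_option autoImplicit false
open Cfsg

namespace Cfsg.Agent.S5787


/-- Every maximal subgroup of Sp_4(q), q odd, is of one of the listed geometric types or lies in the residual class. Let F be a finite field of odd order q, f the standard alternating form on F^4 (coordinates Fin 2 ⊕ Fin 2), and H a maximal subgroup of the isometry group Sp_4(F) (inside GL_4(F)). Then H is the intersection with Sp_4(F) of one of: the stabiliser of a non-zero totally isotropic subspace; the stabiliser of a decomposition into two orthogonal non-degenerate 2-spaces; for q ≥ 5, of a decomposition into two totally isotropic 2-spaces; the normaliser of a degree-2 subfield K of the matrix algebra, self-adjoint with f(k v, v) = 0; for q ≥ 5, the normaliser of a degree-2 subfield closed under adjoints but not self-adjoint; a subfield group whose F₀-structure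 carries a non-zero multiple of f, |F| = |F₀|^r with r prime; for q = p prime, the normaliser of an absolutely irreducible symplectic-type 2-group of exponent 4, order 32, centre of order 2 and minus type inside the similarity group of f — or else H lies in the residual class of the symplectic case. -/
theorem result {F : Type*} [Field F] [Fintype F] (hodd : Odd (Fintype.card F)) (H : Subgroup (Matrix.GeneralLinearGroup (Fin 2 ⊕ Fin 2) F)) (hH : Cfsg.Geo.IsMaximalIn (Cfsg.spGL 2 F) H) :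
    (∃ W : Submodule F (Fin 2 ⊕ Fin 2 → F), W ≠ ⊥ ∧ Cfsg.Geo.IsTotallySingularFor (Cfsg.sympForm 2 F) W ∧ H = Cfsg.Geo.subspaceStabilizer W ⊓ Cfsg.spGL 2 F) ∨
    (∃ D : Fin 2 → Submodule F (Fin 2 ⊕ Fin 2 → F), Cfsg.Geo.IsNondegenerateMDecomposition (Cfsg.sympForm 2 F) 2 D ∧ H = Cfsg.Geo.decompositionStabilizer D ⊓ Cfsg.spGL 2 F) ∨
    (5 ≤ Fintype.card F ∧ ∃ D : Fin 2 → Submodule F (Fin 2 ⊕ Fin 2 → F), Cfsg.Geo.IsMDecomposition 2 D ∧ (∀ i, Cfsg.Geo.IsTotallySingularFor (Cfsg.sympForm 2 F) (D i)) ∧ H = Cfsg.Geo.decompositionStabilizer D ⊓ Cfsg.spGL 2 F) ∨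
    (∃ K : Subalgebra F (Matrix (Fin 2 ⊕ Fin 2) (Fin 2 ⊕ Fin 2) F), Cfsg.Geo.IsFieldSubalgebra 2 K ∧ Cfsg.Geo.IsSelfAdjointFor (Cfsg.sympForm 2 F) K ∧ (∀ k ∈ K, ∀ v : (Fin 2 ⊕ Fin 2 → F), (Cfsg.sympForm 2 F) (Matrix.mulVec k v) v = 0) ∧ H = Cfsg.Geo.subalgebraNormalizer K ⊓ Cfsg.spGL 2 F) ∨
    (5 ≤ Fintype.card F ∧ ∃ K : Subalgebra F (Matrix (Fin 2 ⊕ Fin 2) (Fin 2 ⊕ Fin 2) F), Cfsg.Geo.IsFieldSubalgebra 2 K ∧ Cfsg.Geo.IsAdjointClosedFor (Cfsg.sympForm 2 F) K ∧ ¬ Cfsg.Geo.IsSelfAdjointFor (Cfsg.sympForm 2 F) K ∧ H = Cfsg.Geo.subalgebraNormalizer K ⊓ Cfsg.spGL 2 F) ∨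
    (∃ (F₀ : Subfield F) (r : ℕ) (P : Matrix.GeneralLinearGroup (Fin 2 ⊕ Fin 2) F) (ζ : F), r.Prime ∧ Fintype.card F = Nat.card F₀ ^ r ∧ ζ ≠ 0 ∧ Cfsg.Geo.IsFormRationalStructure (Cfsg.sympForm 2 F) F₀ ζ P ∧ H = Cfsg.Geo.subfieldSubgroup F₀ P ⊓ Cfsg.spGL 2 F) ∨
    (∃ (p : ℕ) (R : Subgroup (Matrix.GeneralLinearGroup (Fin 2 ⊕ Fin 2) F)), p.Prime ∧ Fintype.card F = p ∧ Cfsg.Geo.IsSymplecticTypeGroup 2 R ∧ Cfsg.Geo.ActsAbsolutelyIrreducibly (Cfsg.Geo.matrixSet R) ∧ R ≤ Cfsg.Geo.similarityGroup (Cfsg.sympForm 2 F) ∧ Nat.card R = 32 ∧ Nat.card (Subgroup.center R) = 2 ∧ Cfsg.Geo.IsOfMinusType 2 R ∧ H = Cfsg.Geo.subgroupNormalizer R ⊓ Cfsg.spGL 2 F) ∨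
    Cfsg.Geo.InSymplecticResidualClass H := by
  have ho3 : Fintype.card F = 3 ∨ 5 ≤ Fintype.card F := by
    obtain ⟨j, hj⟩ := hodd
    have := Fintype.one_lt_card (α := F)
    omega
  rcases CfsgLib.SpMax19.sp_alt (by norm_num : 2 ≤ 2) H hH with
    ⟨W, h0, hs, h⟩ | ⟨W, h0, hs, hd, he, h⟩ | ⟨t, k, D, hD, he, ht, h⟩ | ⟨D, h2, ho, hD, hs, h⟩ | ⟨r, K, hr, hK, hs, hz, hd, h⟩ |
    ⟨K, h2, ho, hK, ha, hs, h⟩ | ⟨n₁, n₂, b, e, P, f₁, f₂, h2, ho, he, h1, hn₂, hc, hf₁, hf₂, hF₁, hF₂, hform, hirr, hkr, hst, h⟩ |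
    ⟨F₀, r, P, ζ, hr, hc, hζ, hS, h⟩ | ⟨p, k, R, hs, ha, hsim, hp, hpo, hcard, hR, hz, hm, hdeg, h⟩ |
    ⟨k, t, e, P, f₁, ho, hto, ht, hex, hk, hc, hf₁, hst, h⟩ | ⟨Q, ho, hQ, hp, h⟩ | h
  · exact Or.inl ⟨W, h0, hs, h⟩
  · exfalso
    obtain ⟨j, hj⟩ := he
    have : Module.finrank F W = 0 := by omega
    exact h0 (Submodule.finrank_eq_zero.1 this)
  · have hk : k = 2 := by
      have := hD.decomp.two_le
      have := hD.decomp.pos
      obtain ⟨j, hj⟩ := he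
      rcases (by omega : k = 2 ∨ 4 ≤ k) with h | h
      · exact h
      · nlinarith
    subst hk
    have ht2 : t = 2 := by omega
    subst ht2
    exact Or.inr (Or.inl ⟨D, hD, h⟩)
  · rcases ho3 with hq3 | hq5
    · obtain ⟨E, hE, hHE⟩ := CfsgLib.SpMax19.pair_dec3 (CfsgLib.SympTv29.sympForm_symplectic 2 F) (by simp) hq3 hD hs (H := H)
        (fun g hg u v => hH.1.le hg u v) (h.le.trans inf_le_left)
      exact Or.inr (Or.inl ⟨E, hE, CfsgLib.SpMax19.eq_inf hH hHE (CfsgLib.SpMax19.not_dec _ hE.decomp)⟩)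
    · exact Or.inr (Or.inr (Or.inl ⟨hq5, D, hD, hs, h⟩))
  · have hr5 : r = 2 := (Nat.prime_dvd_prime_iff_eq hr Nat.prime_two).1 hd
    subst hr5
    exact Or.inr (Or.inr (Or.inr (Or.inl ⟨K, hK, hs, hz, h⟩)))
  · rcases ho3 with hq3 | hq5
    · obtain ⟨R, hI, hal, hc, hHR⟩ := CfsgLib.SpMax19.unit_R (CfsgLib.SympTv29.sympForm_symplectic 2 F) (by simp) hq3 hK ha hs (H := H)
        (fun g hg u v => hH.1.le hg u v) (h.le.trans inf_le_left)
      obtain ⟨a1, a2, a3, a4, a5, a6, a7⟩ := CfsgLib.SpMax19.st_pack (k := 2) (by norm_num) (by norm_num) h2 hH hI hal hc hHR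
      exact Or.inr (Or.inr (Or.inr (Or.inr (Or.inr (Or.inr (Or.inl ⟨3, R, Nat.prime_three, hq3, a1, a2, a3, by rw [a4]; norm_num, a5, a6, a7⟩))))))
    · exact Or.inr (Or.inr (Or.inr (Or.inr (Or.inl ⟨hq5, K, hK, ha, hs, h⟩))))
  · exfalso
    nlinarith
  · exact Or.inr (Or.inr (Or.inr (Or.inr (Or.inr (Or.inl ⟨F₀, r, P, ζ, hr, hc, hζ, hS, h⟩)))))
  · have hk2 : k = 2 := by
      have hk4 : k < 3 := by
        by_contra hk4
        have := Nat.pow_le_pow_right (by norm_num : 0 < 2) (not_lt.1 hk4)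
        omega
      interval_cases k <;> omega
    subst hk2
    exact Or.inr (Or.inr (Or.inr (Or.inr (Or.inr (Or.inr (Or.inl ⟨p, R, hp, hcard, hs, ha, hsim, by rw [hR]; norm_num, hz, hm, h⟩))))))
  · exfalso
    have h3 : k ^ 3 ≤ 4 := by
      have := Nat.pow_le_pow_right (by omega : 0 < k) ht
      omega
    have := Nat.pow_le_pow_left hk 3
    omega
  · exact absurd hodd ho
  · exact Or.inr (Or.inr (Or.inr (Or.inr (Or.inr (Or.inr (Or.inr (h)))))))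

end Cfsg.Agent.S5787
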