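import Cfsg.Statements.S5790
import Cfsg.Agent.LibSpMaxE19

set_option autoImplicit false
open Cfsg

namespace Cfsg.Agent.S5790


/-- Every maximal subgroup of Sp_4(q), q ≥ 4 even, is of one of the listed geometric types or lies in the residual class. Let F be a finite field of even order q ≥ 4, f the standard alternating form on F^4 (coordinates Fin 2 ⊕ Fin 2), and H a maximal subgroup of Sp_4(F) (inside GL_4(F)). Then H is the intersection with Sp_4(F) of one of: the stabiliser of a non-zero totally isotropic subspace; the stabiliser of a decomposition into two orthogonal non-degenerate 2-spaces; the normaliser of a degree-2 subfield K of the matrix algebra, self-adjoint with f(k v, v) = 0; a subfield group whose F₀-structure carries a non-zero multiple of f, |F| = |F₀|^r with r prime; the similarity group of a non-degenerate quadratic form whose polar form is f — or else H lies in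 the residual class of the symplectic case. -/
theorem result {F : Type*} [Field F] [Fintype F] (heven : ¬ Odd (Fintype.card F)) (h4 : 4 ≤ Fintype.card F) (H : Subgroup (Matrix.GeneralLinearGroup (Fin 2 ⊕ Fin 2) F)) (hH : Cfsg.Geo.IsMaximalIn (Cfsg.spGL 2 F) H) :
    (∃ W : Submodule F (Fin 2 ⊕ Fin 2 → F), W ≠ ⊥ ∧ Cfsg.Geo.IsTotallySingularFor (Cfsg.sympForm 2 F) W ∧ H = Cfsg.Geo.subspaceStabilizer W ⊓ Cfsg.spGL 2 F) ∨
    (∃ D : Fin 2 → Submodule F (Fin 2 ⊕ Fin 2 → F), Cfsg.Geo.IsNondegenerateMDecomposition (Cfsg.sympForm 2 F) 2 D ∧ H = Cfsg.Geo.decompositionStabilizer D ⊓ Cfsg.spGL 2 F) ∨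
    (∃ K : Subalgebra F (Matrix (Fin 2 ⊕ Fin 2) (Fin 2 ⊕ Fin 2) F), Cfsg.Geo.IsFieldSubalgebra 2 K ∧ Cfsg.Geo.IsSelfAdjointFor (Cfsg.sympForm 2 F) K ∧ (∀ k ∈ K, ∀ v : (Fin 2 ⊕ Fin 2 → F), (Cfsg.sympForm 2 F) (Matrix.mulVec k v) v = 0) ∧ H = Cfsg.Geo.subalgebraNormalizer K ⊓ Cfsg.spGL 2 F) ∨
    (∃ (F₀ : Subfield F) (r : ℕ) (P : Matrix.GeneralLinearGroup (Fin 2 ⊕ Fin 2) F) (ζ : F), r.Prime ∧ Fintype.card F = Nat.card F₀ ^ r ∧ ζ ≠ 0 ∧ Cfsg.Geo.IsFormRationalStructure (Cfsg.sympForm 2 F) F₀ ζ P ∧ H = Cfsg.Geo.subfieldSubgroup F₀ P ⊓ Cfsg.spGL 2 F) ∨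
    (∃ Q : (Fin 2 ⊕ Fin 2 → F) → F, Cfsg.Geo.IsNondegenerateQuadraticForm Q ∧ (∀ u v : (Fin 2 ⊕ Fin 2 → F), QuadraticMap.polar Q u v = (Cfsg.sympForm 2 F) u v) ∧ H = Cfsg.Geo.quadSimilarityGroup Q ⊓ Cfsg.spGL 2 F) ∨
    Cfsg.Geo.InSymplecticResidualClass H := by
  have hm2 : (2 : ℕ) ≤ 2 := le_refl 2
  rcases CfsgLib.SpMax19.sp_alt hm2 H hH with
    ⟨W, h0, hs, h⟩ | ⟨W, h0, hs, hd, he, h⟩ | ⟨t, k, D, hD, he, ht, h⟩ | ⟨D, h2, ho, hD, hs, h⟩ | ⟨r, K, hr, hK, hs, hz, hd, h⟩ |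
    ⟨K, h2, ho, hK, ha, hs, h⟩ | ⟨n₁, n₂, b, e, P, f₁, f₂, h2, ho, he, h1, hn₂, hc, hf₁, hf₂, hF₁, hF₂, hform, hirr, hkr, hst, h⟩ |
    ⟨F₀, r, P, ζ, hr, hc, hζ, hS, h⟩ | ⟨p, k, R, hs, ha, hsim, hp, hpo, hcard, hR, hz, hm, hdeg, h⟩ |
    ⟨k, t, e, P, f₁, ho, hto, ht, hex, hk, hc, hf₁, hst, h⟩ | ⟨Q, ho, hQ, hp, h⟩ | h
  · exact Or.inl ⟨W, h0, hs, h⟩
  · exfalso
    obtain ⟨j, hj⟩ := he
    have : Module.finrank F W = 0 := by omega
    exact h0 (Submodule.finrank_eq_zero.1 this)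
  · have hk : k = 2 := by
      have := hD.decomp.two_le
      have := hD.decomp.pos
      obtain ⟨j, hj⟩ := he
      rcases (by omega : k = 2 ∨ 4 ≤ k) with h | h
      · exact h
      · nlinarith
    subst hk
    have ht2 : t = 2 := by omega
    subst ht2
    exact Or.inr (Or.inl ⟨D, hD, h⟩)
  · exact absurd ho heven
  · have hr2 : r = 2 := (Nat.prime_dvd_prime_iff_eq hr Nat.prime_two).1 hd
    subst hr2
    exact Or.inr (Or.inr (Or.inl ⟨K, hK, hs, hz, h⟩))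
  · exact absurd ho heven
  · exact absurd ho heven
  · exact Or.inr (Or.inr (Or.inr (Or.inl ⟨F₀, r, P, ζ, hr, hc, hζ, hS, h⟩)))
  · exact absurd (hcard ▸ hpo) heven
  · exact absurd ho heven
  · exact Or.inr (Or.inr (Or.inr (Or.inr (Or.inl ⟨Q, hQ, hp, h⟩))))
  · exact Or.inr (Or.inr (Or.inr (Or.inr (Or.inr h))))

end Cfsg.Agent.S5790
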