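import Cfsg.Statements.S5805
import Cfsg.Agent.LibSpMaxE19

set_option autoImplicit false
open Cfsg

namespace Cfsg.Agent.S5805


/-- Every maximal subgroup of Sp_6(q) is of one of the listed geometric types or lies in the residual class. Let F be a finite field with q elements, f the standard alternating form on F^6 (coordinates Fin 3 ⊕ Fin 3), and H a maximal subgroup of Sp_6(F) (inside GL_6(F)). Then H is the intersection with Sp_6(F) of one of: the stabiliser of a non-zero totally isotropic subspace; the stabiliser of a non-degenerate 2-space; for q ≥ 3, the stabiliser of a decomposition into three mutually orthogonal non-degenerate 2-spaces; for q odd, of a decomposition into two totally isotropic 3-spaces; the normaliser of a degree-3 subfield K of the matrix algebra, self-adjoint with f(k v, v) = 0; for q odd, the normaliser of a degree-2 subfield closed under adjoints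 but not self-adjoint; for q odd, q ≥ 5, the stabiliser of a tensor decomposition of f into an alternating form on F^2 and a symmetric form on F^3; a subfield group (|F| = |F₀|^r, r prime) whose F₀-structure carries a non-zero multiple of f; for q even, the similarity group of a non-degenerate quadratic form polarising to f — or else H lies in the residual class of the symplectic case. -/
theorem result {F : Type*} [Field F] [Fintype F] (H : Subgroup (Matrix.GeneralLinearGroup (Fin 3 ⊕ Fin 3) F)) (hH : Cfsg.Geo.IsMaximalIn (Cfsg.spGL 3 F) H) :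
    (∃ W : Submodule F (Fin 3 ⊕ Fin 3 → F), W ≠ ⊥ ∧ Cfsg.Geo.IsTotallySingularFor (Cfsg.sympForm 3 F) W ∧ H = Cfsg.Geo.subspaceStabilizer W ⊓ Cfsg.spGL 3 F) ∨
    (∃ W : Submodule F (Fin 3 ⊕ Fin 3 → F), W ≠ ⊥ ∧ Cfsg.Geo.IsNondegenerateOn (Cfsg.sympForm 3 F) W ∧ Module.finrank F W < 3 ∧ H = Cfsg.Geo.subspaceStabilizer W ⊓ Cfsg.spGL 3 F) ∨
    (3 ≤ Fintype.card F ∧ ∃ D : Fin 3 → Submodule F (Fin 3 ⊕ Fin 3 → F), Cfsg.Geo.IsNondegenerateMDecomposition (Cfsg.sympForm 3 F) 2 D ∧ H = Cfsg.Geo.decompositionStabilizer D ⊓ Cfsg.spGL 3 F) ∨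
    (Odd (Fintype.card F) ∧ ∃ D : Fin 2 → Submodule F (Fin 3 ⊕ Fin 3 → F), Cfsg.Geo.IsMDecomposition 3 D ∧ (∀ i, Cfsg.Geo.IsTotallySingularFor (Cfsg.sympForm 3 F) (D i)) ∧ H = Cfsg.Geo.decompositionStabilizer D ⊓ Cfsg.spGL 3 F) ∨
    (∃ K : Subalgebra F (Matrix (Fin 3 ⊕ Fin 3) (Fin 3 ⊕ Fin 3) F), Cfsg.Geo.IsFieldSubalgebra 3 K ∧ Cfsg.Geo.IsSelfAdjointFor (Cfsg.sympForm 3 F) K ∧ (∀ k ∈ K, ∀ v : (Fin 3 ⊕ Fin 3 → F), (Cfsg.sympForm 3 F) (Matrix.mulVec k v) v = 0) ∧ H = Cfsg.Geo.subalgebraNormalizer K ⊓ Cfsg.spGL 3 F) ∨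
    (Odd (Fintype.card F) ∧ ∃ K : Subalgebra F (Matrix (Fin 3 ⊕ Fin 3) (Fin 3 ⊕ Fin 3) F), Cfsg.Geo.IsFieldSubalgebra 2 K ∧ Cfsg.Geo.IsAdjointClosedFor (Cfsg.sympForm 3 F) K ∧ ¬ Cfsg.Geo.IsSelfAdjointFor (Cfsg.sympForm 3 F) K ∧ H = Cfsg.Geo.subalgebraNormalizer K ⊓ Cfsg.spGL 3 F) ∨
    (Odd (Fintype.card F) ∧ 5 ≤ Fintype.card F ∧ ∃ (e : (Fin 3 ⊕ Fin 3) ≃ Fin 2 × Fin 3) (P : Matrix.GeneralLinearGroup (Fin 3 ⊕ Fin 3) F) (f₁ : (Fin 2 → F) → (Fin 2 → F) → F) (f₂ : (Fin 3 → F) → (Fin 3 → F) → F), Cfsg.Geo.IsSymplecticForm f₁ ∧ Cfsg.Geo.IsSymmetricForm f₂ ∧ Cfsg.Geo.IsTensorFormStructure id (Cfsg.sympForm 3 F) f₁ f₂ e P ∧ H = Cfsg.Geo.tensorProductSubgroup 2 3 e P ⊓ Cfsg.spGL 3 F) ∨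
    (∃ (F₀ : Subfield F) (r : ℕ) (P : Matrix.GeneralLinearGroup (Fin 3 ⊕ Fin 3) F) (ζ : F), r.Prime ∧ Fintype.card F = Nat.card F₀ ^ r ∧ ζ ≠ 0 ∧ Cfsg.Geo.IsFormRationalStructure (Cfsg.sympForm 3 F) F₀ ζ P ∧ H = Cfsg.Geo.subfieldSubgroup F₀ P ⊓ Cfsg.spGL 3 F) ∨
    (¬ Odd (Fintype.card F) ∧ ∃ Q : (Fin 3 ⊕ Fin 3 → F) → F, Cfsg.Geo.IsNondegenerateQuadraticForm Q ∧ (∀ u v : (Fin 3 ⊕ Fin 3 → F), QuadraticMap.polar Q u v = (Cfsg.sympForm 3 F) u v) ∧ H = Cfsg.Geo.quadSimilarityGroup Q ⊓ Cfsg.spGL 3 F) ∨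
    Cfsg.Geo.InSymplecticResidualClass H := by
  rcases CfsgLib.SpMax19.sp_alt (by norm_num : 2 ≤ 3) H hH with
    ⟨W, h0, hs, h⟩ | ⟨W, h0, hs, hd, he, h⟩ | ⟨t, k, D, hD, he, ht, h⟩ | ⟨D, h2, ho, hD, hs, h⟩ | ⟨r, K, hr, hK, hs, hz, hd, h⟩ |
    ⟨K, h2, ho, hK, ha, hs, h⟩ | ⟨n₁, n₂, b, e, P, f₁, f₂, h2, ho, he, h1, hn₂, hc, hf₁, hf₂, hF₁, hF₂, hform, hirr, hkr, hst, h⟩ |
    ⟨F₀, r, P, ζ, hr, hc, hζ, hS, h⟩ | ⟨p, k, R, hs, ha, hsim, hp, hpo, hcard, hR, hz, hm, hdeg, h⟩ |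
    ⟨k, t, e, P, f₁, ho, hto, ht, hex, hk, hc, hf₁, hst, h⟩ | ⟨Q, ho, hQ, hp, h⟩ | h
  · exact Or.inl ⟨W, h0, hs, h⟩
  · exact Or.inr (Or.inl ⟨W, h0, hs, hd, h⟩)
  · have hk : k = 2 := by
      have h2t := hD.decomp.two_le
      have hpos := hD.decomp.pos
      obtain ⟨j, hj⟩ := he
      have hk10 : k ≤ 3 := by nlinarith
      interval_cases k <;> omega
    subst hk
    have ht5 : t = 3 := by omega
    subst ht5
    have hq : 2 ≤ Fintype.card F := Fintype.one_lt_card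
    rcases (by omega : Fintype.card F = 2 ∨ 3 ≤ Fintype.card F) with hq2 | hq3
    · obtain ⟨Q, hQ, hQi⟩ := CfsgLib.SpMax19.dec_quad (CfsgLib.SympTv29.sympForm_symplectic 3 F) hq2 hD (H := H)
        (fun g hg u v => hH.1.le hg u v) (h.le.trans inf_le_left)
      have h2 := CfsgLib.SpMax19.card_two_two hq2
      exact Or.inr (Or.inr (Or.inr (Or.inr (Or.inr (Or.inr (Or.inr (Or.inr (Or.inl ⟨CfsgLib.AschF.not_odd_of_two h2, Q,
        hQ.nondegQ (CfsgLib.AschF.fd_of_symp (CfsgLib.SympTv29.sympForm_symplectic 3 F)), hQ.polar,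
        CfsgLib.SpMax19.eq_inf hH (CfsgLib.AschF.qsim_of hQi) (CfsgLib.SpMax19.not_quad _ (by simp) hQ h2)⟩))))))))
    · exact Or.inr (Or.inr (Or.inl ⟨hq3, D, hD, h⟩))
  · exact Or.inr (Or.inr (Or.inr (Or.inl ⟨ho, D, hD, hs, h⟩)))
  · have hr5 : r = 3 := (Nat.prime_dvd_prime_iff_eq hr Nat.prime_three).1 hd
    subst hr5
    exact Or.inr (Or.inr (Or.inr (Or.inr (Or.inl ⟨K, hK, hs, hz, h⟩))))
  · exact Or.inr (Or.inr (Or.inr (Or.inr (Or.inr (Or.inl ⟨ho, K, hK, ha, hs, h⟩)))))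
  · have hn : n₁ = 2 ∧ n₂ = 3 := by
      obtain ⟨j, hj⟩ := he
      have hle : n₁ ≤ 2 := by nlinarith
      have : n₁ = 2 := by omega
      subst this
      omega
    obtain ⟨hn1, hn2⟩ := hn
    subst hn1
    subst hn2
    rcases (by obtain ⟨j, hj⟩ := ho; have := Fintype.one_lt_card (α := F); omega : Fintype.card F = 3 ∨ 5 ≤ Fintype.card F) with hq3 | hq5
    · obtain ⟨D, hD, hHD⟩ := CfsgLib.SpMax19.tp_dec (CfsgLib.SympTv29.sympForm_symplectic 3 F) hq3 (by norm_num) b (H := H)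
        (fun g hg u v => hH.1.le hg u v) hF₁ hF₂ hform hkr
      exact Or.inr (Or.inr (Or.inl ⟨by omega, D, hD, CfsgLib.SpMax19.eq_inf hH hHD (CfsgLib.SpMax19.not_dec _ hD.decomp)⟩))
    · exact Or.inr (Or.inr (Or.inr (Or.inr (Or.inr (Or.inr (Or.inl ⟨ho, hq5, e, P, f₁, f₂, hf₁, hf₂, hst, h⟩))))))
  · exact Or.inr (Or.inr (Or.inr (Or.inr (Or.inr (Or.inr (Or.inr (Or.inl ⟨F₀, r, P, ζ, hr, hc, hζ, hS, h⟩)))))))
  · exfalso
    have hk4 : k < 3 := by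
      by_contra hk4
      have := Nat.pow_le_pow_right (by norm_num : 0 < 2) (not_lt.1 hk4)
      omega
    interval_cases k <;> omega
  · exfalso
    have h3 : k ^ 3 ≤ 6 := by
      have := Nat.pow_le_pow_right (by omega : 0 < k) ht
      omega
    have := Nat.pow_le_pow_left hk 3
    omega
  · exact Or.inr (Or.inr (Or.inr (Or.inr (Or.inr (Or.inr (Or.inr (Or.inr (Or.inl ⟨ho, Q, hQ, hp, h⟩))))))))
  · exact Or.inr (Or.inr (Or.inr (Or.inr (Or.inr (Or.inr (Or.inr (Or.inr (Or.inr (h)))))))))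

end Cfsg.Agent.S5805
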