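import Cfsg.Statements.S5814
import Mathlib
import Cfsg.Agent.LibOmOddH12
import Cfsg.Agent.LibAschNumH13

set_option autoImplicit false
open Cfsg

namespace Cfsg.Agent.S5814

open Module Cfsg Cfsg.Geo CfsgLib.OmH12 CfsgLib.AschF


/-- Every maximal subgroup of Ω_7(q), q odd, is of one of the listed geometric types or lies in the residual class. Let F be a finite field of odd order q, Q the standard quadratic form x₀² + Σ x_i y_i on F^7 (coordinates Unit ⊕ (Fin 3 ⊕ Fin 3)), Ω the commutator subgroup of its isometry group, and H a maximal subgroup of Ω (inside GL_7(F)). Then H is the intersection with Ω of one of: the stabiliser of a non-zero totally singular subspace; the stabiliser of a non-zero non-degenerate subspace of even dimension (not a plus-type plane when q = 3); for q prime, the stabiliser of a decomposition into seven pairwise orthogonal, pairwise isometric non-degenerate 1-spaces; a subfield group (|F|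 = |F₀|^r, r prime) whose F₀-structure carries Q — or else H lies in the residual class of the orthogonal case (modulo scalars H is almost simple, with absolutely irreducible perfect socle preimage realisable over no proper subfield and fixing no non-degenerate unitary form). -/
theorem result {F : Type*} [Field F] [Fintype F] (hodd : Odd (Fintype.card F)) (H : Subgroup (Matrix.GeneralLinearGroup (Unit ⊕ (Fin 3 ⊕ Fin 3)) F)) (hH : Cfsg.Geo.IsMaximalIn (Cfsg.Geo.omegaGL (Cfsg.quadFormOdd 3 F)) H) :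
    (∃ W : Submodule F (Unit ⊕ (Fin 3 ⊕ Fin 3) → F), W ≠ ⊥ ∧ Cfsg.Geo.IsTotallySingularQuad (Cfsg.quadFormOdd 3 F) W ∧ H = Cfsg.Geo.subspaceStabilizer W ⊓ Cfsg.Geo.omegaGL (Cfsg.quadFormOdd 3 F)) ∨
    (∃ W : Submodule F (Unit ⊕ (Fin 3 ⊕ Fin 3) → F), W ≠ ⊥ ∧ Even (Module.finrank F W) ∧ Cfsg.Geo.IsNondegenerateOn (QuadraticMap.polar (Cfsg.quadFormOdd 3 F)) W ∧ ¬ (Fintype.card F = 3 ∧ Module.finrank F W = 2 ∧ Cfsg.Geo.IsPlusTypeOn (Cfsg.quadFormOdd 3 F) W) ∧ H = Cfsg.Geo.subspaceStabilizer W ⊓ Cfsg.Geo.omegaGL (Cfsg.quadFormOdd 3 F)) ∨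
    ((Fintype.card F).Prime ∧ ∃ D : Fin 7 → Submodule F (Unit ⊕ (Fin 3 ⊕ Fin 3) → F), Cfsg.Geo.IsOrthogonalMDecomposition (Cfsg.quadFormOdd 3 F) 1 D ∧ H = Cfsg.Geo.decompositionStabilizer D ⊓ Cfsg.Geo.omegaGL (Cfsg.quadFormOdd 3 F)) ∨
    (∃ (F₀ : Subfield F) (r : ℕ) (P : Matrix.GeneralLinearGroup (Unit ⊕ (Fin 3 ⊕ Fin 3)) F), r.Prime ∧ Fintype.card F = Nat.card F₀ ^ r ∧ Cfsg.Geo.IsQuadFormRationalStructure (Cfsg.quadFormOdd 3 F) F₀ P ∧ H = Cfsg.Geo.subfieldSubgroup F₀ P ⊓ Cfsg.Geo.omegaGL (Cfsg.quadFormOdd 3 F)) ∨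
    Cfsg.Geo.InOrthogonalResidualClass H := by
  have hcard : Fintype.card (Unit ⊕ (Fin 3 ⊕ Fin 3)) = 7 := by simp
  have hn : 5 ≤ Fintype.card (Unit ⊕ (Fin 3 ⊕ Fin 3)) := by rw [hcard]; norm_num
  have hno : Odd (Fintype.card (Unit ⊕ (Fin 3 ⊕ Fin 3))) := by rw [hcard]; decide
  have hne : Nonempty (Unit ⊕ (Fin 3 ⊕ Fin 3)) := ⟨Sum.inl ()⟩
  have hQ := quadOdd_nondeg hodd 3
  have hHI := hH.1.le.trans (omega_le_isometry (quadFormOdd 3 F))
  rcases orth hodd 3 (by norm_num) H hHI with ⟨M, hM, hHM⟩ | h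
  swap
  · exact Or.inr (Or.inr (Or.inr (Or.inr h)))
  rcases hM with ⟨W, h0, hs, rfl⟩ | ⟨W, h0, h1, hs, rfl⟩ | ⟨t, k, D, hk, hD, rfl⟩ | ⟨t, D, hp, hD, rfl⟩ |
    ⟨r, K, hr, hrn, hK, hsa, rfl⟩ | ⟨n₁, n₂, e, P, f₁, f₂, h1, h2, _, _, _, rfl⟩ | ⟨F₀, r, P, hr, hc, hS, rfl⟩ |
    ⟨k, t, e, P, f₁, hk, ht, _, _, _, rfl⟩
  · exact Or.inl ⟨W, h0, hs, eq_of_max hH (hHM.trans inf_le_left) (omega_not_stab hQ hn h0 (ts_ne_top hQ (by omega) hs))⟩
  · obtain ⟨W', a, b, c, d, e⟩ := nond_case hQ hodd hn hno hH h0 h1 hs (hHM.trans inf_le_left)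
    exact Or.inr (Or.inl ⟨W', a, b, c, d, e⟩)
  · exfalso
    have h1 := (CfsgLib.AschNum.dec_mul hD.decomp.decomp).symm
    rw [hcard] at h1
    have ht := hD.decomp.decomp.two_le
    have h2 : t ∣ 7 := ⟨k, h1⟩
    rcases (Nat.dvd_prime (by norm_num : Nat.Prime 7)).1 h2 with h | h
    · omega
    · subst h; omega
  · have h1 := (CfsgLib.AschNum.dec_mul hD.decomp.decomp).symm
    rw [hcard, mul_one] at h1
    subst h1
    exact Or.inr (Or.inr (Or.inl ⟨hp, D, hD, eq_of_max hH (hHM.trans inf_le_left)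
      (omega_not_dec hQ hn hD.decomp (by rw [hcard]; norm_num))⟩))
  · exfalso
    have h1 := fld_dvd hK
    rw [hcard] at h1
    rcases (Nat.dvd_prime (by norm_num : Nat.Prime 7)).1 h1 with h | h
    · exact hr.one_lt.ne' h
    · exact hrn h.symm
  · exfalso
    have h3 : Fintype.card (Unit ⊕ (Fin 3 ⊕ Fin 3)) = n₁ * n₂ := by
      rw [Fintype.card_congr e, Fintype.card_prod, Fintype.card_fin, Fintype.card_fin]
    rw [hcard] at h3
    have h4 : n₁ ∣ 7 := ⟨n₂, h3⟩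
    rcases (Nat.dvd_prime (by norm_num : Nat.Prime 7)).1 h4 with h | h
    · omega
    · subst h; omega
  · exact Or.inr (Or.inr (Or.inr (Or.inl ⟨F₀, r, P, hr, hc, hS, eq_of_max hH (hHM.trans inf_le_left) (omega_not_sub' hQ hn hr hc)⟩)))
  · exfalso
    have h3 : Fintype.card (Unit ⊕ (Fin 3 ⊕ Fin 3)) = k ^ t := by
      rw [Fintype.card_congr e, Fintype.card_fun, Fintype.card_fin, Fintype.card_fin]
    rw [hcard] at h3
    have h5 : k ^ 2 ≤ k ^ t := Nat.pow_le_pow_right (by omega) ht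
    nlinarith

end Cfsg.Agent.S5814
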