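import Cfsg.Statements.S5820
import Cfsg.Agent.LibH14SU9


set_option autoImplicit false
open Cfsg

namespace Cfsg.Agent.S5820

/-- Every maximal subgroup of SU_8(q) is of one of the listed geometric types or lies in the residual class. Let F be the field with q² elements, f the standard unitary form Σ u_i v_i^q on F^8, and H a maximal subgroup of SU_8(q) (inside GL_8(F)). Then H is the intersection with SU_8(q) of one of: the stabiliser of a non-zero totally isotropic subspace; the stabiliser of a non-degenerate 1-, 2- or 3-space; the stabiliser of a decomposition into eight mutually orthogonal non-degenerate 1-spaces; for q ≥ 3, of a decomposition into four mutually orthogonal non-degenerate 2-spaces; of a decomposition into two orthogonal non-degenerate 4-spaces; of a decomposition into two totally isotropic 4-spaces; for q ≥ 3, the stabiliser of a tensor decomposition of f into unitary forms on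 F^2 and F^4; a subfield group of odd prime index whose F₀-structure carries f; a subfield group of index 2 and symplectic type; for q odd, a subfield group of index 2 and orthogonal type; for q = p ≡ 3 mod 4 prime, the normaliser of an absolutely irreducible symplectic-type 2-group of order 2^8 with centre of order 4 inside the similarity group of f — or else H lies in the residual class of the unitary case. -/
theorem result {F : Type*} [Field F] [Fintype F] (q : ℕ) (hF : Fintype.card F = q ^ 2) (H : Subgroup (Matrix.GeneralLinearGroup (Fin 8) F)) (hH : Cfsg.Geo.IsMaximalIn (Cfsg.GU 8 F q ⊓ Cfsg.Geo.specialLinear (Fin 8) F) H) :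
    (∃ W : Submodule F (Fin 8 → F), W ≠ ⊥ ∧ Cfsg.Geo.IsTotallySingularFor (Cfsg.hermForm 8 F q) W ∧ H = Cfsg.Geo.subspaceStabilizer W ⊓ (Cfsg.GU 8 F q ⊓ Cfsg.Geo.specialLinear (Fin 8) F)) ∨
    (∃ W : Submodule F (Fin 8 → F), W ≠ ⊥ ∧ Cfsg.Geo.IsNondegenerateOn (Cfsg.hermForm 8 F q) W ∧ 2 * Module.finrank F W < 8 ∧ H = Cfsg.Geo.subspaceStabilizer W ⊓ (Cfsg.GU 8 F q ⊓ Cfsg.Geo.specialLinear (Fin 8) F)) ∨
    (∃ D : Fin 8 → Submodule F (Fin 8 → F), Cfsg.Geo.IsNondegenerateMDecomposition (Cfsg.hermForm 8 F q) 1 D ∧ H = Cfsg.Geo.decompositionStabilizer D ⊓ (Cfsg.GU 8 F q ⊓ Cfsg.Geo.specialLinear (Fin 8) F)) ∨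
    (3 ≤ q ∧ ∃ D : Fin 4 → Submodule F (Fin 8 → F), Cfsg.Geo.IsNondegenerateMDecomposition (Cfsg.hermForm 8 F q) 2 D ∧ H = Cfsg.Geo.decompositionStabilizer D ⊓ (Cfsg.GU 8 F q ⊓ Cfsg.Geo.specialLinear (Fin 8) F)) ∨
    (∃ D : Fin 2 → Submodule F (Fin 8 → F), Cfsg.Geo.IsNondegenerateMDecomposition (Cfsg.hermForm 8 F q) 4 D ∧ H = Cfsg.Geo.decompositionStabilizer D ⊓ (Cfsg.GU 8 F q ⊓ Cfsg.Geo.specialLinear (Fin 8) F)) ∨
    (∃ D : Fin 2 → Submodule F (Fin 8 → F), Cfsg.Geo.IsMDecomposition 4 D ∧ (∀ i, Cfsg.Geo.IsTotallySingularFor (Cfsg.hermForm 8 F q) (D i)) ∧ H = Cfsg.Geo.decompositionStabilizer D ⊓ (Cfsg.GU 8 F q ⊓ Cfsg.Geo.specialLinear (Fin 8) F)) ∨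
    (3 ≤ q ∧ ∃ (e : Fin 8 ≃ Fin 2 × Fin 4) (P : Matrix.GeneralLinearGroup (Fin 8) F) (f₁ : (Fin 2 → F) → (Fin 2 → F) → F) (f₂ : (Fin 4 → F) → (Fin 4 → F) → F), Cfsg.Geo.IsUnitaryFormPow q f₁ ∧ Cfsg.Geo.IsUnitaryFormPow q f₂ ∧ Cfsg.Geo.IsTensorFormStructure (fun x : F => x ^ q) (Cfsg.hermForm 8 F q) f₁ f₂ e P ∧ H = Cfsg.Geo.tensorProductSubgroup 2 4 e P ⊓ (Cfsg.GU 8 F q ⊓ Cfsg.Geo.specialLinear (Fin 8) F)) ∨
    (∃ (F₀ : Subfield F) (r : ℕ) (P : Matrix.GeneralLinearGroup (Fin 8) F), r.Prime ∧ Odd r ∧ Fintype.card F = Nat.card F₀ ^ r ∧ Cfsg.Geo.IsFormRationalStructure (Cfsg.hermForm 8 F q) F₀ 1 P ∧ H = Cfsg.Geo.subfieldSubgroup F₀ P ⊓ (Cfsg.GU 8 F q ⊓ Cfsg.Geo.specialLinear (Fin 8) F)) ∨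
    (∃ (F₀ : Subfield F) (P : Matrix.GeneralLinearGroup (Fin 8) F) (ζ : F), Fintype.card F = Nat.card F₀ ^ 2 ∧ ζ ≠ 0 ∧ ζ + ζ ^ q = 0 ∧ Cfsg.Geo.IsFormRationalStructure (Cfsg.hermForm 8 F q) F₀ ζ P ∧ (∀ u : Fin 8 → F, (∀ i, u i ∈ F₀) → (Cfsg.hermForm 8 F q) (Matrix.mulVec (P : Matrix (Fin 8) (Fin 8) F) u) (Matrix.mulVec (P : Matrix (Fin 8) (Fin 8) F) u) = 0) ∧ H = Cfsg.Geo.subfieldSubgroup F₀ P ⊓ (Cfsg.GU 8 F q ⊓ Cfsg.Geo.specialLinear (Fin 8) F)) ∨
    (Odd q ∧ ∃ (F₀ : Subfield F) (P : Matrix.GeneralLinearGroup (Fin 8) F), Fintype.card F = Nat.card F₀ ^ 2 ∧ Cfsg.Geo.IsFormRationalStructure (Cfsg.hermForm 8 F q) F₀ 1 P ∧ H = Cfsg.Geo.subfieldSubgroup F₀ P ⊓ (Cfsg.GU 8 F q ⊓ Cfsg.Geo.specialLinear (Fin 8) F)) ∨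
    (∃ (p : ℕ) (R : Subgroup (Matrix.GeneralLinearGroup (Fin 8) F)), p.Prime ∧ q = p ∧ p % 4 = 3 ∧ Cfsg.Geo.IsSymplecticTypeGroup 2 R ∧ Cfsg.Geo.ActsAbsolutelyIrreducibly (Cfsg.Geo.matrixSet R) ∧ R ≤ Cfsg.Geo.similarityGroup (Cfsg.hermForm 8 F q) ∧ Nat.card R = 256 ∧ Nat.card (Subgroup.center R) = 4 ∧ H = Cfsg.Geo.subgroupNormalizer R ⊓ (Cfsg.GU 8 F q ⊓ Cfsg.Geo.specialLinear (Fin 8) F)) ∨
    Cfsg.Geo.InUnitaryResidualClass H := by
  have hcn : Fintype.card (Fin 8) = 8 := Fintype.card_fin _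
  rcases CfsgLib.H14SU.max5 hF (by norm_num) hH with ⟨M, hM, hHM⟩ | h
  · cases hM with
    | sing W h0 hs h => subst h; exact (Or.inl ⟨W, h0, hs, hHM⟩)
    | nond W h0 hs hd h => subst h; exact (Or.inr (Or.inl ⟨W, h0, hs, hd, hHM⟩))
    | dec t k D hD h =>
      subst h
      have h1 := CfsgLib.AschNum.dec_mul hD.decomp
      rw [hcn] at h1
      have ht := hD.decomp.two_le
      have h2 : (t = 8 ∧ k = 1) ∨ (t = 4 ∧ k = 2) ∨ (t = 2 ∧ k = 4) := by
        obtain ⟨h3, h4⟩ := CfsgLib.H14SU.mul_cases (by norm_num) h1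
        have h5 : t = 1 ∨ t = 2 ∨ t = 4 ∨ t = 8 := by
          have : (8 : ℕ).divisors = {1, 2, 4, 8} := by decide
          rw [this] at h3; simpa using h3
        have h6 := h1
        rcases h5 with h5 | h5 | h5 | h5 <;> rw [h5] at h6 <;> omega
      rcases h2 with ⟨rfl, rfl⟩ | ⟨rfl, rfl⟩ | ⟨rfl, rfl⟩
      · exact (Or.inr (Or.inr (Or.inl ⟨D, hD, hHM⟩)))
      · rcases CfsgLib.H14SU.planes_max hF (by norm_num) hH hD hHM with h3 | ⟨-, D', hD', h3⟩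
        · exact (Or.inr (Or.inr (Or.inr (Or.inl ⟨h3, D, hD, hHM⟩))))
        · exact (Or.inr (Or.inr (Or.inl ⟨D', hD', h3⟩)))
      · exact (Or.inr (Or.inr (Or.inr (Or.inr (Or.inl ⟨D, hD, hHM⟩)))))
    | pair k D hk hD hs h =>
      subst h
      have h1 : k = 4 := by omega
      subst h1
      exact (Or.inr (Or.inr (Or.inr (Or.inr (Or.inr (Or.inl ⟨D, hD, hs, hHM⟩))))))
    | fld r K hr ho hK ha h =>
      subst h
      have h1 := CfsgLib.AschNum.fld_dvd hK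
      rw [hcn] at h1
      have h2 : r ∈ (8 : ℕ).divisors := Nat.mem_divisors.2 ⟨h1, by norm_num⟩
      have h5 : r = 1 ∨ r = 2 ∨ r = 4 ∨ r = 8 := by
        have : (8 : ℕ).divisors = {1, 2, 4, 8} := by decide
        rw [this] at h2; simpa using h2
      rcases h5 with rfl | rfl | rfl | rfl
      · first | (exfalso; revert ho; decide) | (exfalso; revert hr; norm_num)
      · first | (exfalso; revert ho; decide) | (exfalso; revert hr; norm_num)
      · first | (exfalso; revert ho; decide) | (exfalso; revert hr; norm_num)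
      · first | (exfalso; revert ho; decide) | (exfalso; revert hr; norm_num)
    | tp n₁ n₂ e P f₁ f₂ h1 h2 hf₁ hf₂ hS h =>
      subst h
      have h3 := CfsgLib.AschNum.tp_mul e
      rw [hcn] at h3
      obtain ⟨h4, h5⟩ := CfsgLib.H14SU.mul_cases (by norm_num) h3
      have h6 : n₁ = 1 ∨ n₁ = 2 ∨ n₁ = 4 ∨ n₁ = 8 := by
        have : (8 : ℕ).divisors = {1, 2, 4, 8} := by decide
        rw [this] at h4; simpa using h4
      have h8 := h3
      have h7 : (n₁ = 2 ∧ n₂ = 4) := by rcases h6 with h6 | h6 | h6 | h6 <;> rw [h6] at h8 <;> omega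
      rcases h7 with ⟨rfl, rfl⟩
      · rcases CfsgLib.H14SU.tensor_max hF (by norm_num) hH (by norm_num) hf₁ hf₂ hS hHM with h7 | h7
        · exact (Or.inr (Or.inr (Or.inr (Or.inr (Or.inr (Or.inr (Or.inl ⟨h7, e, P, f₁, f₂, hf₁, hf₂, hS, hHM⟩)))))))
        · exact (Or.inr (Or.inr (Or.inr (Or.inr (Or.inl h7)))))
    | subo F₀ r P hr ho hc hS h => subst h; exact (Or.inr (Or.inr (Or.inr (Or.inr (Or.inr (Or.inr (Or.inr (Or.inl ⟨F₀, r, P, hr, ho, hc, hS, hHM⟩))))))))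
    | sub2 F₀ P hq hc hS h => subst h; exact (Or.inr (Or.inr (Or.inr (Or.inr (Or.inr (Or.inr (Or.inr (Or.inr (Or.inr (Or.inl ⟨hq, F₀, P, hc, hS, hHM⟩))))))))))
    | subs F₀ P ζ hev hc h0 h1 hS ha h => subst h; exact (Or.inr (Or.inr (Or.inr (Or.inr (Or.inr (Or.inr (Or.inr (Or.inr (Or.inl ⟨F₀, P, ζ, hc, h0, h1, hS, ha, hHM⟩)))))))))
    | st r k R p e hst hal hsim hrp hm hz hdeg hGU h =>
      subst h
      obtain ⟨rfl, rfl⟩ := CfsgLib.H14SU.pow_eq_eight hst.prime hdeg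
      rcases hz with ⟨ho, -⟩ | ⟨-, rfl, hz1, hz2⟩
      · exfalso; revert ho; decide
      · rw [hz1] at hm
        obtain ⟨h1, h2, h3⟩ := CfsgLib.H14SU.st_num2 hF hrp hm
        exact (Or.inr (Or.inr (Or.inr (Or.inr (Or.inr (Or.inr (Or.inr (Or.inr (Or.inr (Or.inr (Or.inl ⟨p, R, h1, h2, h3, hst, hal, hsim, by rw [hz2]; norm_num, hz1, hHM⟩)))))))))))
    | tw k t e P f₁ hk ht hex hf₁ hS h =>
      exfalso
      have h3 := CfsgLib.AschNum.tw_pow e
      rw [hcn] at h3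
      have h4 : k ^ 2 ≤ 8 := by rw [← h3]; exact Nat.pow_le_pow_right (by omega) ht
      have h5 : k ≤ 3 := by nlinarith
      have h6 : k = 3 := by omega
      subst h6
      have h7 : (3 : ℕ) ∣ 8 := by rw [← h3]; exact dvd_pow_self 3 (by omega)
      revert h7; norm_num
  · exact (Or.inr (Or.inr (Or.inr (Or.inr (Or.inr (Or.inr (Or.inr (Or.inr (Or.inr (Or.inr (Or.inr h)))))))))))

end Cfsg.Agent.S5820
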