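import Cfsg.Agent.EqBase
import Cfsg.Agent.LibOmE17

set_option autoImplicit false
open Cfsg

namespace Cfsg.Agent.S5826

open Module Cfsg.Geo CfsgLib.OmE CfsgLib.AschF CfsgLib.OmH12


/-- Every maximal subgroup of Ω_8^-(q) is of one of the listed geometric types or lies in the residual class. Let F be a finite field with q elements, Q a non-degenerate quadratic form on F^8 of minus type (no totally singular 4-space), Ω the commutator subgroup of its isometry group, and H a maximal subgroup of Ω (inside GL_8(F)). Then H is the intersection with Ω of one of: the stabiliser of a non-zero totally singular subspace; for q odd, the stabiliser of a non-degenerate subspace of odd dimension; the stabiliser of a non-degenerate 2-space of minus type; for q ≥ 4, the stabiliser of a non-degenerate 2-space of plus type; the stabiliser of a non-degenerate 4-space; for q even, the stabiliser of the span of a non-singular vector; the normaliser of a degree-2 subfield of the matrix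 algebra; a subfield group of odd prime index whose F₀-structure carries a non-zero multiple of Q — or else H lies in the residual class of the orthogonal case (modulo scalars H is almost simple, with absolutely irreducible perfect socle preimage realisable over no proper subfield and fixing no non-degenerate unitary form). -/
theorem result {F : Type*} [Field F] [Fintype F] (Q : (Fin 8 → F) → F) (hQ : Cfsg.Geo.IsNondegenerateQuadraticForm Q) (hminus : ¬ Cfsg.Geo.IsPlusTypeOn Q ⊤) (H : Subgroup (Matrix.GeneralLinearGroup (Fin 8) F)) (hH : Cfsg.Geo.IsMaximalIn (Cfsg.Geo.omegaGL Q) H) :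
    (∃ W : Submodule F (Fin 8 → F), W ≠ ⊥ ∧ Cfsg.Geo.IsTotallySingularQuad Q W ∧ H = Cfsg.Geo.subspaceStabilizer W ⊓ Cfsg.Geo.omegaGL Q) ∨
    (Odd (Fintype.card F) ∧ ∃ W : Submodule F (Fin 8 → F), W ≠ ⊥ ∧ W ≠ ⊤ ∧ Odd (Module.finrank F W) ∧ Cfsg.Geo.IsNondegenerateOn (QuadraticMap.polar Q) W ∧ H = Cfsg.Geo.subspaceStabilizer W ⊓ Cfsg.Geo.omegaGL Q) ∨
    (∃ W : Submodule F (Fin 8 → F), Module.finrank F W = 2 ∧ Cfsg.Geo.IsNondegenerateOn (QuadraticMap.polar Q) W ∧ ¬ Cfsg.Geo.IsPlusTypeOn Q W ∧ H = Cfsg.Geo.subspaceStabilizer W ⊓ Cfsg.Geo.omegaGL Q) ∨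
    (4 ≤ Fintype.card F ∧ ∃ W : Submodule F (Fin 8 → F), Module.finrank F W = 2 ∧ Cfsg.Geo.IsNondegenerateOn (QuadraticMap.polar Q) W ∧ Cfsg.Geo.IsPlusTypeOn Q W ∧ H = Cfsg.Geo.subspaceStabilizer W ⊓ Cfsg.Geo.omegaGL Q) ∨
    (∃ W : Submodule F (Fin 8 → F), Module.finrank F W = 4 ∧ Cfsg.Geo.IsNondegenerateOn (QuadraticMap.polar Q) W ∧ H = Cfsg.Geo.subspaceStabilizer W ⊓ Cfsg.Geo.omegaGL Q) ∨
    (¬ Odd (Fintype.card F) ∧ ∃ v : (Fin 8 → F), Q v ≠ 0 ∧ H = Cfsg.Geo.subspaceStabilizer (Submodule.span F {v}) ⊓ Cfsg.Geo.omegaGL Q) ∨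
    (∃ K : Subalgebra F (Matrix (Fin 8) (Fin 8) F), Cfsg.Geo.IsFieldSubalgebra 2 K ∧ H = Cfsg.Geo.subalgebraNormalizer K ⊓ Cfsg.Geo.omegaGL Q) ∨
    (∃ (F₀ : Subfield F) (r : ℕ) (P : Matrix.GeneralLinearGroup (Fin 8) F) (ζ : F), r.Prime ∧ Odd r ∧ Fintype.card F = Nat.card F₀ ^ r ∧ ζ ≠ 0 ∧ Cfsg.Geo.IsQuadFormRationalStructure (fun v : Fin 8 → F => ζ * Q v) F₀ P ∧ H = Cfsg.Geo.subfieldSubgroup F₀ P ⊓ Cfsg.Geo.omegaGL Q) ∨
    Cfsg.Geo.InOrthogonalResidualClass H := by
  classical
  have hn : 5 ≤ Fintype.card (Fin 8) := by rw [Fintype.card_fin]; norm_num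
  have hP := omega_pres hH.1.le
  have hc8 : Fintype.card (Fin 8) = 8 := Fintype.card_fin 8
  by_contra hgoal
  rcases aschQ (by omega) hQ H hP with hcls | hres
  swap
  · exact hgoal (Or.inr (Or.inr (Or.inr (Or.inr (Or.inr (Or.inr (Or.inr (Or.inr (hres)))))))))
  cases hcls with
  | sing W h0 hs h =>
    exact hgoal (Or.inl ⟨W, h0, hs, sing_out hQ hn hH h0 hs h⟩)
  | vec v h2 hv h =>
    exact hgoal (Or.inr (Or.inr (Or.inr (Or.inr (Or.inr (Or.inl ⟨not_odd_of_two h2, v, hv, vec_out hQ hn hH hv h⟩))))))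
  | nond W h0 hs hd h =>
    rcases nond_out hQ hn hH h0 hs hd h with ⟨ho, W, a, b, c, d, e, f⟩ | ⟨W, a, b, c, d⟩ | ⟨hq, W, a, b, c, d⟩ | ⟨W, a, b, c, d, e⟩ | ⟨ho, v, a, b⟩
    · exact hgoal (Or.inr (Or.inl ⟨ho, W, a, b, c, e, f⟩))
    · exact hgoal (Or.inr (Or.inr (Or.inl ⟨W, a, b, c, d⟩)))
    · exact hgoal (Or.inr (Or.inr (Or.inr (Or.inl ⟨hq, W, a, b, c, d⟩))))
    · omega
    · exact hgoal (Or.inr (Or.inr (Or.inr (Or.inr (Or.inr (Or.inl ⟨ho, v, a, b⟩))))))
  | half k D hD h =>
    have ht := CfsgLib.AschNum.dec_mul hD.decomp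
    obtain rfl : k = 4 := by omega
    by_cases hi : AreIsometricFor Q (D 0) (D 1)
    · have hall : IsOrthogonalMDecomposition Q (2 * 2) D := by
        refine ⟨hD, fun i j => ?_⟩
        fin_cases i <;> fin_cases j
        · exact ⟨LinearEquiv.refl F _, fun _ => rfl⟩
        · exact hi
        · exact isometric_symm hi
        · exact ⟨LinearEquiv.refl F _, fun _ => rfl⟩
      exact hminus (pairs_plus hQ (t := 1) rfl hall)
    · have hst := half_stab hP hD.decomp hi h
      have hfr := hD.decomp.finrank_eq 0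
      have hb : D 0 ≠ ⊥ := by
        intro hb
        rw [hb, finrank_bot] at hfr
        omega
      exact hgoal (Or.inr (Or.inr (Or.inr (Or.inr (Or.inl ⟨D 0, hfr, hD.nondegenerate 0, stab_out hQ hn hH hb (ne_top_of hQ hn hH (by omega)) hst⟩)))))
  | dec t k D hD hirr h =>
    have ht := CfsgLib.AschNum.dec_mul hD.decomp.decomp
    rw [hc8] at ht
    have h2t := hD.decomp.decomp.two_le
    have htd : t ∣ 8 := ⟨k, ht.symm⟩
    have htm : t ∈ Nat.divisors 8 := Nat.mem_divisors.2 ⟨htd, by norm_num⟩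
    have htc : t = 1 ∨ t = 2 ∨ t = 4 ∨ t = 8 := by
      have : Nat.divisors 8 = {1, 2, 4, 8} := by decide
      rw [this] at htm
      simpa using htm
    rcases htc with rfl | rfl | rfl | rfl
    · omega
    · obtain rfl : k = 2 * 2 := by omega
      exact hminus (pairs_plus hQ (t := 1) rfl hD)
    · obtain rfl : k = 2 * 1 := by omega
      exact hminus (pairs_plus hQ (t := 2) rfl hD)
    · exact hminus (four_plus hQ (t := 2) rfl hD)
  | pair k D hD hs hirr h =>
    have hk := mdec_card hD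
    exact hminus (plus_of_half (hs 0) (by rw [hD.finrank_eq]; exact hk))
  | fld r K hr hK h ha hc hirr =>
    have hdvd := CfsgLib.AschNum.fld_dvd hK
    rw [hc8] at hdvd
    have h1 : r ∣ 2 ^ 3 := hdvd
    obtain rfl := (Nat.prime_dvd_prime_iff_eq hr Nat.prime_two).1 (hr.dvd_of_dvd_pow h1)
    exact hgoal (Or.inr (Or.inr (Or.inr (Or.inr (Or.inr (Or.inr (Or.inl ⟨K, hK, fld_out hQ hn hH hr hK h⟩)))))))
  | tpA n₁ n₂ b f₁ f₂ h1 h2 hf₁ hf₂ hform hQt hirr hkr =>
    have hb := Module.finrank_eq_card_basis b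
    rw [Module.finrank_fintype_fun_eq_card, hc8] at hb
    simp only [Fintype.card_prod, Fintype.card_fin] at hb
    obtain ⟨a, ha⟩ := symp_even hf₁
    obtain ⟨c, hc⟩ := symp_even hf₂
    have hac : a * c = 2 := by
      have : 8 = 4 * (a * c) := by rw [hb, ha, hc]; ring
      omega
    have ha2 : a = 1 ∨ a = 2 := by
      have : a ∣ 2 := ⟨c, hac.symm⟩
      exact (Nat.dvd_prime Nat.prime_two).1 this
    rcases ha2 with rfl | rfl
    · subst ha
      exact hminus (tpA_plus b hQt)
    · obtain rfl : c = 1 := by omega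
      subst hc
      exact hminus (tpA_plus' b hQt)
  | tpS n₁ n₂ b f₁ f₂ h20 h1 h2 hf₁ hf₂ hform hirr hkr =>
    have hb := Module.finrank_eq_card_basis b
    rw [Module.finrank_fintype_fun_eq_card, hc8] at hb
    simp only [Fintype.card_prod, Fintype.card_fin] at hb
    have : 3 * 3 ≤ n₁ * n₂ := Nat.mul_le_mul h1 h2
    omega
  | sub F₀ r P ζ hr hc hζ hS hirr h =>
    rcases hr.eq_two_or_odd' with h6 | h6
    · subst h6
      exact hminus (sub_two_plus hQ (by rw [hc8]; decide) (by rw [Nat.card_eq_fintype_card]; exact hc) hζ hS)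
    · exact hgoal (Or.inr (Or.inr (Or.inr (Or.inr (Or.inr (Or.inr (Or.inr (Or.inl ⟨F₀, r, P, ζ, hr, h6, hc, hζ, hS, sub_out hQ hn hH hr hc h⟩))))))))
  | st k R h20 hk hcard hal hc hRH hR h =>
    rw [hc8] at hcard
    have hk3 : k = 3 := by
      have : 2 ^ 3 = 2 ^ k := by rw [← hcard]; norm_num
      exact (Nat.pow_right_injective le_rfl this).symm
    subst hk3
    exact hminus (st_plus hQ h20 (hP.mono hRH) hal hc (by rw [hR]; norm_num) (m := 2) (by norm_num) (by omega))
  | tw m t b ε₁ f₁ hf₁ hε hm ht c hc hform h20 hTW hirr =>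
    have hb := Module.finrank_eq_card_basis b
    rw [Module.finrank_fintype_fun_eq_card, hc8] at hb
    simp only [Fintype.card_pi, Fintype.card_fin, Finset.prod_const, Finset.card_univ] at hb
    have hm2 : m = 2 := by
      have h1 : m ∣ 8 := by rw [hb]; exact dvd_pow_self m (by omega)
      have h3 : m ∈ Nat.divisors 8 := Nat.mem_divisors.2 ⟨h1, by norm_num⟩
      have h4 : m = 1 ∨ m = 2 ∨ m = 4 ∨ m = 8 := by
        have : Nat.divisors 8 = {1, 2, 4, 8} := by decide
        rw [this] at h3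
        simpa using h3
      rcases h4 with h4 | h4 | h4 | h4
      · omega
      · exact h4
      · exfalso
        have h5 : 4 ^ 2 ≤ m ^ t := by
          rw [h4]; exact Nat.pow_le_pow_right (by norm_num) ht
        omega
      · exfalso
        have h5 : 8 ^ 2 ≤ m ^ t := by
          rw [h4]; exact Nat.pow_le_pow_right (by norm_num) ht
        omega
    subst hm2
    have ht3 : t = 3 := by
      have : 2 ^ 3 = 2 ^ t := by rw [← hb]; norm_num
      exact (Nat.pow_right_injective le_rfl this).symm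
    subst ht3
    exact hminus (tw_cube_plus hQ b hf₁ hε hform h20)

end Cfsg.Agent.S5826
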