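import Cfsg.Statements.S5829
import Cfsg.Agent.LibAschOddH13

set_option autoImplicit false
open Cfsg

namespace Cfsg.Agent.S5829

open CfsgLib.AschSL1 CfsgLib.AschNum CfsgLib.AschOdd

/-- Every maximal subgroup of SL_9(q) is of one of the listed geometric types or lies in the residual class. Let F be a finite field with q elements (p its characteristic) and H a maximal subgroup of SL_9(F) (inside GL_9(F)). Then H is the intersection with SL_9(F) of one of: the stabiliser of a proper non-zero subspace; for q ≥ 5, the stabiliser of a decomposition into 9 independent 1-spaces; the stabiliser of a decomposition into 3 independent 3-spaces; the normaliser of a degree-3 subfield of the matrix algebra; a subfield group for a subfield F₀ with |F| = |F₀|^r, r prime; for q = p prime with p ≡ 1 mod 3, the normaliser of an absolutely irreducible 3-subgroup R of exponent 3 and order 3^(1+2m) with centre of order 3, all of whose characteristic abelian subgroups are cyclic, F being the smallest field of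 characteristic p containing the cube roots of unity (here R is extraspecial of order 3^5); the stabiliser of a tensor decomposition into 2 factors of dimension 3; for q odd, the similarity group of a non-degenerate quadratic form; the similarity group of a non-degenerate unitary form — or else H lies in the residual class of the linear case (modulo scalars H is almost simple, with absolutely irreducible perfect socle preimage realisable over no proper subfield and fixing no non-degenerate quadratic, symplectic or unitary form). -/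
theorem result {F : Type*} [Field F] [Fintype F] (H : Subgroup (Matrix.GeneralLinearGroup (Fin 9) F)) (hH : Cfsg.Geo.IsMaximalIn (Cfsg.Geo.specialLinear (Fin 9) F) H) :
    (∃ W : Submodule F (Fin 9 → F), W ≠ ⊥ ∧ W ≠ ⊤ ∧ H = Cfsg.Geo.subspaceStabilizer W ⊓ Cfsg.Geo.specialLinear (Fin 9) F) ∨
    (5 ≤ Fintype.card F ∧ ∃ D : Fin 9 → Submodule F (Fin 9 → F), Cfsg.Geo.IsMDecomposition 1 D ∧ H = Cfsg.Geo.decompositionStabilizer D ⊓ Cfsg.Geo.specialLinear (Fin 9) F) ∨
    (∃ D : Fin 3 → Submodule F (Fin 9 → F), Cfsg.Geo.IsMDecomposition 3 D ∧ H = Cfsg.Geo.decompositionStabilizer D ⊓ Cfsg.Geo.specialLinear (Fin 9) F) ∨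
    (∃ K : Subalgebra F (Matrix (Fin 9) (Fin 9) F), Cfsg.Geo.IsFieldSubalgebra 3 K ∧ H = Cfsg.Geo.subalgebraNormalizer K ⊓ Cfsg.Geo.specialLinear (Fin 9) F) ∨
    (∃ (F₀ : Subfield F) (r : ℕ) (P : Matrix.GeneralLinearGroup (Fin 9) F), r.Prime ∧ Fintype.card F = Nat.card F₀ ^ r ∧ H = Cfsg.Geo.subfieldSubgroup F₀ P ⊓ Cfsg.Geo.specialLinear (Fin 9) F) ∨
    ((∃ p : ℕ, p.Prime ∧ Fintype.card F = p ∧ (p % 3 = 1)) ∧ ∃ R : Subgroup (Matrix.GeneralLinearGroup (Fin 9) F), Cfsg.Geo.IsLinearSymplecticTypeData 3 R ∧ H = Cfsg.Geo.subgroupNormalizer R ⊓ Cfsg.Geo.specialLinear (Fin 9) F) ∨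
    (∃ (e : Fin 9 ≃ (Fin 2 → Fin 3)) (P : Matrix.GeneralLinearGroup (Fin 9) F), H = Cfsg.Geo.tensorWreathSubgroup 3 2 e P ⊓ Cfsg.Geo.specialLinear (Fin 9) F) ∨
    (Odd (Fintype.card F) ∧ ∃ Q : (Fin 9 → F) → F, Cfsg.Geo.IsNondegenerateQuadraticForm Q ∧ H = Cfsg.Geo.quadSimilarityGroup Q ⊓ Cfsg.Geo.specialLinear (Fin 9) F) ∨
    (∃ (σ : F ≃+* F) (f : (Fin 9 → F) → (Fin 9 → F) → F), Cfsg.Geo.IsUnitaryForm σ f ∧ H = Cfsg.Geo.similarityGroup f ⊓ Cfsg.Geo.specialLinear (Fin 9) F) ∨
    Cfsg.Geo.InLinearResidualClass H := by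
  haveI : Nonempty (Fin 9) := ⟨0⟩
  have hcn : Fintype.card (Fin 9) = 9 := Fintype.card_fin 9
  have hn' : 3 ≤ Fintype.card (Fin 9) := by rw [hcn]; norm_num
  rcases clsMax_of_isMaximalIn hn' hH with h | h
  · cases h with
    | red W h0 h1 h => exact Or.inl ⟨W, h0, h1, h⟩
    | dec t m D hD h =>
      have h1 := dec_mul hD
      rw [hcn] at h1
      have ht := hD.two_le
      have hm := hD.pos
      have h2 : t ∣ 9 := ⟨m, h1.symm⟩
      have h3 : t ≤ 9 := Nat.le_of_dvd (by norm_num) h2
      have h4 : (t = 9 ∧ m = 1) ∨ (t = 3 ∧ m = 3) := by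
        interval_cases t <;> omega
      rcases h4 with ⟨rfl, rfl⟩ | ⟨rfl, rfl⟩
      · by_cases hq : 5 ≤ Fintype.card F
        · exact Or.inr (Or.inl ⟨hq, D, hD, h⟩)
        · rcases lines_small hn' hH (by omega) hD (h.le.trans inf_le_left) with h5 | h5 | h5
          · exact Or.inl h5
          · exact Or.inr (Or.inr (Or.inr (Or.inr (Or.inr (Or.inr (Or.inr (Or.inl h5)))))))
          · exact Or.inr (Or.inr (Or.inr (Or.inr (Or.inr (Or.inr (Or.inr (Or.inr (Or.inl h5))))))))
      · exact Or.inr (Or.inr (Or.inl ⟨D, hD, h⟩))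
    | fld r K hr hK h =>
      have h1 := fld_dvd hK
      rw [hcn] at h1
      have h2 : r ∣ 3 := hr.dvd_of_dvd_pow (show r ∣ 3 ^ 2 from h1)
      have h3 : r = 3 := (Nat.prime_dvd_prime_iff_eq hr Nat.prime_three).1 h2
      subst h3
      exact Or.inr (Or.inr (Or.inr (Or.inl ⟨K, hK, h⟩)))
    | tp n₁ n₂ e P h1 h2 h =>
      exfalso
      have h3 := tp_mul e
      rw [hcn] at h3
      have h4 : n₁ ≤ 9 := Nat.le_of_dvd (by norm_num) ⟨n₂, h3.symm⟩
      interval_cases n₁ <;> omega
    | sub F₀ r P hr hc h => exact Or.inr (Or.inr (Or.inr (Or.inr (Or.inl ⟨F₀, r, P, hr, hc, h⟩))))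
    | st r k R hR hk hal hc h =>
      rw [hcn] at hk
      have hr := hR.symplecticType.prime
      have hk0 : k ≠ 0 := by
        rintro rfl
        rw [pow_zero] at hk
        omega
      have h2 : r ∣ 3 ^ 2 := by
        have : r ∣ 9 := by rw [hk]; exact dvd_pow_self r hk0
        exact this
      have h3 : r = 3 := (Nat.prime_dvd_prime_iff_eq hr Nat.prime_three).1 (hr.dvd_of_dvd_pow h2)
      subst h3
      refine Or.inr (Or.inr (Or.inr (Or.inr (Or.inr (Or.inl ⟨?_, R, hR, h⟩)))))
      obtain ⟨p, e, hp, hchar, hrp, hcard, ho, hdvd, hmod, hmin⟩ := st_odd hR (by decide) (by decide)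
      have h1 : e ≤ 2 := Nat.le_of_dvd (by norm_num) hdvd
      have h2 : e = 1 := by
        interval_cases e <;> revert ho <;> decide
      subst h2
      rw [pow_one] at hcard hmod
      exact ⟨p, hp, hcard, hmod⟩
    | tw m t e P hm ht h =>
      have h3 := tw_pow e
      rw [hcn] at h3
      have h4 : t ≤ 3 := by
        by_contra hcon
        have h5 : 3 ^ 4 ≤ m ^ t := (Nat.pow_le_pow_left hm 4).trans (Nat.pow_le_pow_right (by omega) (by omega))
        omega
      have h6 : t = 2 := by
        interval_cases t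
        · rfl
        · exfalso
          have h5 : 3 ^ 3 ≤ m ^ 3 := Nat.pow_le_pow_left hm 3
          omega
      subst h6
      have h7 : m = 3 := by
        have h8 : m ^ 2 = 3 ^ 2 := h3
        exact Nat.pow_left_injective (n := 2) (by norm_num) h8
      subst h7
      exact Or.inr (Or.inr (Or.inr (Or.inr (Or.inr (Or.inr (Or.inl ⟨e, P, h⟩))))))
    | sym f hf h =>
      exfalso
      have h3 := CfsgLib.Asch13.symplectic_even hf
      rw [hcn] at h3
      exact absurd h3 (by decide)
    | uni σ f hf h =>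
      exact Or.inr (Or.inr (Or.inr (Or.inr (Or.inr (Or.inr (Or.inr (Or.inr (Or.inl ⟨σ, f, hf, h⟩))))))))
    | orth Q hQ ho h =>
      exact Or.inr (Or.inr (Or.inr (Or.inr (Or.inr (Or.inr (Or.inr (Or.inl ⟨ho, Q, hQ, h⟩)))))))
  · exact Or.inr (Or.inr (Or.inr (Or.inr (Or.inr (Or.inr (Or.inr (Or.inr (Or.inr h))))))))

end Cfsg.Agent.S5829
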