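import Cfsg.Statements.S5832
import Cfsg.Agent.LibH14SU9


set_option autoImplicit false
open Cfsg

namespace Cfsg.Agent.S5832

/-- Every maximal subgroup of SU_9(q) is of one of the listed geometric types or lies in the residual class. Let F be the field with q² elements, f the standard unitary form Σ u_i v_i^q on F^9, and H a maximal subgroup of SU_9(q) (inside GL_9(F)). Then H is the intersection with SU_9(q) of one of: the stabiliser of a non-zero totally isotropic subspace; the stabiliser of a non-degenerate 1-, 2-, 3- or 4-space; the stabiliser of a decomposition into nine mutually orthogonal non-degenerate 1-spaces; of a decomposition into three mutually orthogonal non-degenerate 3-spaces; the normaliser of an adjoint-closed degree-3 subfield of the matrix algebra; a subfield group of odd prime index whose F₀-structure carries f; for q odd, a subfield group of index 2 whose F₀-structure carries f; for q = p ≡ 2 mod 3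 prime, the normaliser of an absolutely irreducible extraspecial group 3_+^(1+4) of exponent 3 inside the similarity group of f; for q ≥ 3, the stabiliser of a tensor decomposition of f as a tensor square of a unitary form on F^3 — or else H lies in the residual class of the unitary case. -/
theorem result {F : Type*} [Field F] [Fintype F] (q : ℕ) (hF : Fintype.card F = q ^ 2) (H : Subgroup (Matrix.GeneralLinearGroup (Fin 9) F)) (hH : Cfsg.Geo.IsMaximalIn (Cfsg.GU 9 F q ⊓ Cfsg.Geo.specialLinear (Fin 9) F) H) :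
    (∃ W : Submodule F (Fin 9 → F), W ≠ ⊥ ∧ Cfsg.Geo.IsTotallySingularFor (Cfsg.hermForm 9 F q) W ∧ H = Cfsg.Geo.subspaceStabilizer W ⊓ (Cfsg.GU 9 F q ⊓ Cfsg.Geo.specialLinear (Fin 9) F)) ∨
    (∃ W : Submodule F (Fin 9 → F), W ≠ ⊥ ∧ Cfsg.Geo.IsNondegenerateOn (Cfsg.hermForm 9 F q) W ∧ 2 * Module.finrank F W < 9 ∧ H = Cfsg.Geo.subspaceStabilizer W ⊓ (Cfsg.GU 9 F q ⊓ Cfsg.Geo.specialLinear (Fin 9) F)) ∨
    (∃ D : Fin 9 → Submodule F (Fin 9 → F), Cfsg.Geo.IsNondegenerateMDecomposition (Cfsg.hermForm 9 F q) 1 D ∧ H = Cfsg.Geo.decompositionStabilizer D ⊓ (Cfsg.GU 9 F q ⊓ Cfsg.Geo.specialLinear (Fin 9) F)) ∨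
    (∃ D : Fin 3 → Submodule F (Fin 9 → F), Cfsg.Geo.IsNondegenerateMDecomposition (Cfsg.hermForm 9 F q) 3 D ∧ H = Cfsg.Geo.decompositionStabilizer D ⊓ (Cfsg.GU 9 F q ⊓ Cfsg.Geo.specialLinear (Fin 9) F)) ∨
    (∃ K : Subalgebra F (Matrix (Fin 9) (Fin 9) F), Cfsg.Geo.IsFieldSubalgebra 3 K ∧ Cfsg.Geo.IsAdjointClosedFor (Cfsg.hermForm 9 F q) K ∧ H = Cfsg.Geo.subalgebraNormalizer K ⊓ (Cfsg.GU 9 F q ⊓ Cfsg.Geo.specialLinear (Fin 9) F)) ∨
    (∃ (F₀ : Subfield F) (r : ℕ) (P : Matrix.GeneralLinearGroup (Fin 9) F), r.Prime ∧ Odd r ∧ Fintype.card F = Nat.card F₀ ^ r ∧ Cfsg.Geo.IsFormRationalStructure (Cfsg.hermForm 9 F q) F₀ 1 P ∧ H = Cfsg.Geo.subfieldSubgroup F₀ P ⊓ (Cfsg.GU 9 F q ⊓ Cfsg.Geo.specialLinear (Fin 9) F)) ∨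
    (Odd q ∧ ∃ (F₀ : Subfield F) (P : Matrix.GeneralLinearGroup (Fin 9) F), Fintype.card F = Nat.card F₀ ^ 2 ∧ Cfsg.Geo.IsFormRationalStructure (Cfsg.hermForm 9 F q) F₀ 1 P ∧ H = Cfsg.Geo.subfieldSubgroup F₀ P ⊓ (Cfsg.GU 9 F q ⊓ Cfsg.Geo.specialLinear (Fin 9) F)) ∨
    (∃ (p : ℕ) (R : Subgroup (Matrix.GeneralLinearGroup (Fin 9) F)), p.Prime ∧ q = p ∧ p % 3 = 2 ∧ Cfsg.Geo.IsSymplecticTypeGroup 3 R ∧ Cfsg.Geo.ActsAbsolutelyIrreducibly (Cfsg.Geo.matrixSet R) ∧ R ≤ Cfsg.Geo.similarityGroup (Cfsg.hermForm 9 F q) ∧ Nat.card R = 243 ∧ Nat.card (Subgroup.center R) = 3 ∧ H = Cfsg.Geo.subgroupNormalizer R ⊓ (Cfsg.GU 9 F q ⊓ Cfsg.Geo.specialLinear (Fin 9) F)) ∨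
    (3 ≤ q ∧ ∃ (e : Fin 9 ≃ (Fin 2 → Fin 3)) (P : Matrix.GeneralLinearGroup (Fin 9) F) (f₁ : (Fin 3 → F) → (Fin 3 → F) → F), Cfsg.Geo.IsUnitaryFormPow q f₁ ∧ Cfsg.Geo.IsTensorPowerFormStructure (fun x : F => x ^ q) (Cfsg.hermForm 9 F q) f₁ e P ∧ H = Cfsg.Geo.tensorWreathSubgroup 3 2 e P ⊓ (Cfsg.GU 9 F q ⊓ Cfsg.Geo.specialLinear (Fin 9) F)) ∨
    Cfsg.Geo.InUnitaryResidualClass H := by
  have hcn : Fintype.card (Fin 9) = 9 := Fintype.card_fin _
  rcases CfsgLib.H14SU.max5 hF (by norm_num) hH with ⟨M, hM, hHM⟩ | h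
  · cases hM with
    | sing W h0 hs h => subst h; exact (Or.inl ⟨W, h0, hs, hHM⟩)
    | nond W h0 hs hd h => subst h; exact (Or.inr (Or.inl ⟨W, h0, hs, hd, hHM⟩))
    | dec t k D hD h =>
      subst h
      have h1 := CfsgLib.AschNum.dec_mul hD.decomp
      rw [hcn] at h1
      have ht := hD.decomp.two_le
      have h2 : (t = 9 ∧ k = 1) ∨ (t = 3 ∧ k = 3) := by
        obtain ⟨h3, h4⟩ := CfsgLib.H14SU.mul_cases (by norm_num) h1
        have h5 : t = 1 ∨ t = 3 ∨ t = 9 := by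
          have : (9 : ℕ).divisors = {1, 3, 9} := by decide
          rw [this] at h3; simpa using h3
        have h6 := h1
        rcases h5 with h5 | h5 | h5 <;> rw [h5] at h6 <;> omega
      rcases h2 with ⟨rfl, rfl⟩ | ⟨rfl, rfl⟩
      · exact (Or.inr (Or.inr (Or.inl ⟨D, hD, hHM⟩)))
      · exact (Or.inr (Or.inr (Or.inr (Or.inl ⟨D, hD, hHM⟩))))
    | pair k D hk hD hs h =>
      exfalso; omega
    | fld r K hr ho hK ha h =>
      subst h
      have h1 := CfsgLib.AschNum.fld_dvd hK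
      rw [hcn] at h1
      have h2 : r ∈ (9 : ℕ).divisors := Nat.mem_divisors.2 ⟨h1, by norm_num⟩
      have h5 : r = 1 ∨ r = 3 ∨ r = 9 := by
        have : (9 : ℕ).divisors = {1, 3, 9} := by decide
        rw [this] at h2; simpa using h2
      rcases h5 with rfl | rfl | rfl
      · first | (exfalso; revert ho; decide) | (exfalso; revert hr; norm_num)
      · exact (Or.inr (Or.inr (Or.inr (Or.inr (Or.inl ⟨K, hK, ha, hHM⟩)))))
      · first | (exfalso; revert ho; decide) | (exfalso; revert hr; norm_num)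
    | tp n₁ n₂ e P f₁ f₂ h1 h2 hf₁ hf₂ hS h =>
      subst h
      have h3 := CfsgLib.AschNum.tp_mul e
      rw [hcn] at h3
      obtain ⟨h4, h5⟩ := CfsgLib.H14SU.mul_cases (by norm_num) h3
      have h6 : n₁ = 1 ∨ n₁ = 3 ∨ n₁ = 9 := by
        have : (9 : ℕ).divisors = {1, 3, 9} := by decide
        rw [this] at h4; simpa using h4
      have h8 := h3
      exfalso; rcases h6 with h6 | h6 | h6 <;> rw [h6] at h8 <;> omega
    | subo F₀ r P hr ho hc hS h => subst h; exact (Or.inr (Or.inr (Or.inr (Or.inr (Or.inr (Or.inl ⟨F₀, r, P, hr, ho, hc, hS, hHM⟩))))))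
    | sub2 F₀ P hq hc hS h => subst h; exact (Or.inr (Or.inr (Or.inr (Or.inr (Or.inr (Or.inr (Or.inl ⟨hq, F₀, P, hc, hS, hHM⟩)))))))
    | subs F₀ P ζ hev hc h0 h1 hS ha h => exfalso; revert hev; decide
    | st r k R p e hst hal hsim hrp hm hz hdeg hGU h =>
      subst h
      obtain ⟨rfl, rfl⟩ := CfsgLib.H14SU.pow_eq_nine hst.prime hdeg
      rcases hz with ⟨ho, hz1, -, hz2⟩ | ⟨h2, -⟩
      · rw [hz1] at hm
        obtain ⟨a, ha, ha0, hdvd, hmod, hmin⟩ := CfsgLib.H14SU.st_num hF (by norm_num) hrp hm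
        have h1 : 2 * a ≤ 2 := Nat.le_of_dvd (by norm_num) hdvd
        have h2 : a = 1 := by omega
        subst h2
        rw [pow_one] at ha
        have h3 := hmin 1 (by norm_num) (by norm_num)
        have h4 : p % 3 = 2 := by
          rw [Nat.pow_mod] at hmod h3
          have h4 : p % 3 < 3 := Nat.mod_lt _ (by norm_num)
          interval_cases p % 3 <;> simp_all
        exact (Or.inr (Or.inr (Or.inr (Or.inr (Or.inr (Or.inr (Or.inr (Or.inl ⟨p, R, hm.1, ha, h4, hst, hal, hsim, by rw [hz2]; norm_num, hz1, hHM⟩))))))))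
      · exact absurd h2 (by norm_num)
    | tw k t e P f₁ hk ht hex hf₁ hS h =>
      subst h
      have h3 := CfsgLib.AschNum.tw_pow e
      rw [hcn] at h3
      have hkt : k = 3 ∧ t = 2 := by
        have h4 : k ^ 2 ≤ 9 := by rw [← h3]; exact Nat.pow_le_pow_right (by omega) ht
        have h5 : k ≤ 3 := by nlinarith
        have h6 : k = 3 := by omega
        subst h6
        have h7 : 3 ^ t = 3 ^ 2 := by rw [h3]; norm_num
        exact ⟨rfl, Nat.pow_right_injective (by norm_num : 2 ≤ 3) h7⟩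
      obtain ⟨rfl, rfl⟩ := hkt
      have hq := CfsgLib.H14SU.two_le_q hF
      have hq3 : 3 ≤ q := by
        by_contra hcon
        exact hex ⟨by omega, rfl⟩
      exact (Or.inr (Or.inr (Or.inr (Or.inr (Or.inr (Or.inr (Or.inr (Or.inr (Or.inl ⟨hq3, e, P, f₁, hf₁, hS, hHM⟩)))))))))
  · exact (Or.inr (Or.inr (Or.inr (Or.inr (Or.inr (Or.inr (Or.inr (Or.inr (Or.inr h)))))))))

end Cfsg.Agent.S5832
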