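import Cfsg.Statements.S5835
import Mathlib
import Cfsg.Agent.LibOmOdd2H12
import Cfsg.Agent.LibAschNumH13

set_option autoImplicit false
open Cfsg

namespace Cfsg.Agent.S5835

open Module Cfsg Cfsg.Geo CfsgLib.OmH12 CfsgLib.AschF


/-- Every maximal subgroup of Ω_9(q), q odd, is of one of the listed geometric types or lies in the residual class. Let F be a finite field of odd order q, Q the standard quadratic form x₀² + Σ x_i y_i on F^9 (coordinates Unit ⊕ (Fin 4 ⊕ Fin 4)), Ω the commutator subgroup of its isometry group, and H a maximal subgroup of Ω (inside GL_9(F)). Then H is the intersection with Ω of one of: the stabiliser of a non-zero totally singular subspace; the stabiliser of a non-zero non-degenerate subspace of even dimension (not a plus-type plane when q = 3); for q prime, the stabiliser of a decomposition into nine pairwise orthogonal, pairwise isometric non-degenerate 1-spaces; for q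 ≥ 5, the stabiliser of a decomposition into three pairwise orthogonal, pairwise isometric non-degenerate 3-spaces; the normaliser of a degree-3 subfield of the matrix algebra, self-adjoint for the polar form; a subfield group (|F| = |F₀|^r, r prime) whose F₀-structure carries Q; for q ≥ 5, the stabiliser of a tensor decomposition of the polar form as a tensor square of a symmetric form on F^3 — or else H lies in the residual class of the orthogonal case (modulo scalars H is almost simple, with absolutely irreducible perfect socle preimage realisable over no proper subfield and fixing no non-degenerate unitary form). -/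
theorem result {F : Type*} [Field F] [Fintype F] (hodd : Odd (Fintype.card F)) (H : Subgroup (Matrix.GeneralLinearGroup (Unit ⊕ (Fin 4 ⊕ Fin 4)) F)) (hH : Cfsg.Geo.IsMaximalIn (Cfsg.Geo.omegaGL (Cfsg.quadFormOdd 4 F)) H) :
    (∃ W : Submodule F (Unit ⊕ (Fin 4 ⊕ Fin 4) → F), W ≠ ⊥ ∧ Cfsg.Geo.IsTotallySingularQuad (Cfsg.quadFormOdd 4 F) W ∧ H = Cfsg.Geo.subspaceStabilizer W ⊓ Cfsg.Geo.omegaGL (Cfsg.quadFormOdd 4 F)) ∨
    (∃ W : Submodule F (Unit ⊕ (Fin 4 ⊕ Fin 4) → F), W ≠ ⊥ ∧ Even (Module.finrank F W) ∧ Cfsg.Geo.IsNondegenerateOn (QuadraticMap.polar (Cfsg.quadFormOdd 4 F)) W ∧ ¬ (Fintype.card F = 3 ∧ Module.finrank F W = 2 ∧ Cfsg.Geo.IsPlusTypeOn (Cfsg.quadFormOdd 4 F) W) ∧ H = Cfsg.Geo.subspaceStabilizer W ⊓ Cfsg.Geo.omegaGL (Cfsg.quadFormOdd 4 F)) ∨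
    ((Fintype.card F).Prime ∧ ∃ D : Fin 9 → Submodule F (Unit ⊕ (Fin 4 ⊕ Fin 4) → F), Cfsg.Geo.IsOrthogonalMDecomposition (Cfsg.quadFormOdd 4 F) 1 D ∧ H = Cfsg.Geo.decompositionStabilizer D ⊓ Cfsg.Geo.omegaGL (Cfsg.quadFormOdd 4 F)) ∨
    (5 ≤ Fintype.card F ∧ ∃ D : Fin 3 → Submodule F (Unit ⊕ (Fin 4 ⊕ Fin 4) → F), Cfsg.Geo.IsOrthogonalMDecomposition (Cfsg.quadFormOdd 4 F) 3 D ∧ H = Cfsg.Geo.decompositionStabilizer D ⊓ Cfsg.Geo.omegaGL (Cfsg.quadFormOdd 4 F)) ∨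
    (∃ K : Subalgebra F (Matrix (Unit ⊕ (Fin 4 ⊕ Fin 4)) (Unit ⊕ (Fin 4 ⊕ Fin 4)) F), Cfsg.Geo.IsFieldSubalgebra 3 K ∧ Cfsg.Geo.IsSelfAdjointFor (QuadraticMap.polar (Cfsg.quadFormOdd 4 F)) K ∧ H = Cfsg.Geo.subalgebraNormalizer K ⊓ Cfsg.Geo.omegaGL (Cfsg.quadFormOdd 4 F)) ∨
    (∃ (F₀ : Subfield F) (r : ℕ) (P : Matrix.GeneralLinearGroup (Unit ⊕ (Fin 4 ⊕ Fin 4)) F), r.Prime ∧ Fintype.card F = Nat.card F₀ ^ r ∧ Cfsg.Geo.IsQuadFormRationalStructure (Cfsg.quadFormOdd 4 F) F₀ P ∧ H = Cfsg.Geo.subfieldSubgroup F₀ P ⊓ Cfsg.Geo.omegaGL (Cfsg.quadFormOdd 4 F)) ∨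
    (5 ≤ Fintype.card F ∧ ∃ (e : (Unit ⊕ (Fin 4 ⊕ Fin 4)) ≃ (Fin 2 → Fin 3)) (P : Matrix.GeneralLinearGroup (Unit ⊕ (Fin 4 ⊕ Fin 4)) F) (f₁ : (Fin 3 → F) → (Fin 3 → F) → F), Cfsg.Geo.IsSymmetricForm f₁ ∧ Cfsg.Geo.IsTensorPowerFormStructure id (QuadraticMap.polar (Cfsg.quadFormOdd 4 F)) f₁ e P ∧ H = Cfsg.Geo.tensorWreathSubgroup 3 2 e P ⊓ Cfsg.Geo.omegaGL (Cfsg.quadFormOdd 4 F)) ∨
    Cfsg.Geo.InOrthogonalResidualClass H := by
  have hcard : Fintype.card (Unit ⊕ (Fin 4 ⊕ Fin 4)) = 9 := by simp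
  have hn : 5 ≤ Fintype.card (Unit ⊕ (Fin 4 ⊕ Fin 4)) := by rw [hcard]; norm_num
  have hno : Odd (Fintype.card (Unit ⊕ (Fin 4 ⊕ Fin 4))) := by rw [hcard]; decide
  have hne : Nonempty (Unit ⊕ (Fin 4 ⊕ Fin 4)) := ⟨Sum.inl ()⟩
  have hQ := quadOdd_nondeg hodd 4
  have hHI := hH.1.le.trans (omega_le_isometry (quadFormOdd 4 F))
  have h20 := two_ne_of_odd hodd
  have hq5 : Fintype.card F ≠ 3 → 5 ≤ Fintype.card F := by
    intro h
    obtain ⟨j, hj⟩ := hodd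
    have := Fintype.one_lt_card (α := F)
    omega
  have hlines : ∀ (t : ℕ) (D : Fin t → Submodule F (Unit ⊕ (Fin 4 ⊕ Fin 4) → F)), (Fintype.card F).Prime →
      IsOrthogonalMDecomposition (quadFormOdd 4 F) 1 D → H ≤ decompositionStabilizer D →
      ((Fintype.card F).Prime ∧ ∃ D : Fin 9 → Submodule F (Unit ⊕ (Fin 4 ⊕ Fin 4) → F), IsOrthogonalMDecomposition (quadFormOdd 4 F) 1 D ∧
        H = decompositionStabilizer D ⊓ omegaGL (quadFormOdd 4 F)) := by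
    intro t D hp hD hle
    have h1 := (CfsgLib.AschNum.dec_mul hD.decomp.decomp).symm
    rw [hcard, mul_one] at h1
    subst h1
    exact ⟨hp, D, hD, eq_of_max hH hle (omega_not_dec hQ hn hD.decomp (by rw [hcard]; norm_num))⟩
  rcases orth hodd 4 (by norm_num) H hHI with ⟨M, hM, hHM⟩ | h
  swap
  · exact Or.inr (Or.inr (Or.inr (Or.inr (Or.inr (Or.inr (Or.inr h))))))
  rcases hM with ⟨W, h0, hs, rfl⟩ | ⟨W, h0, h1, hs, rfl⟩ | ⟨t, k, D, hk, hD, rfl⟩ | ⟨t, D, hp, hD, rfl⟩ |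
    ⟨r, K, hr, hrn, hK, hsa, rfl⟩ | ⟨n₁, n₂, e, P, f₁, f₂, h1, h2, _, _, _, rfl⟩ | ⟨F₀, r, P, hr, hc, hS, rfl⟩ |
    ⟨k, t, e, P, f₁, hk, ht, hq, hf₁, hfs, rfl⟩
  · exact Or.inl ⟨W, h0, hs, eq_of_max hH (hHM.trans inf_le_left) (omega_not_stab hQ hn h0 (ts_ne_top hQ (by omega) hs))⟩
  · obtain ⟨W', a, b, c, d, e⟩ := nond_case hQ hodd hn hno hH h0 h1 hs (hHM.trans inf_le_left)
    exact Or.inr (Or.inl ⟨W', a, b, c, d, e⟩)
  · have h1 := (CfsgLib.AschNum.dec_mul hD.decomp.decomp).symm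
    rw [hcard] at h1
    have ht := hD.decomp.decomp.two_le
    have h2 : t ≤ 9 := Nat.le_of_dvd (by norm_num) ⟨k, h1⟩
    have h3 : t = 3 ∧ k = 3 := by
      interval_cases t <;> omega
    obtain ⟨rfl, rfl⟩ := h3
    by_cases hq : Fintype.card F = 3
    · obtain ⟨D', hD', hle'⟩ := space_three hQ hq hD hHI (hHM.trans inf_le_left)
      exact Or.inr (Or.inr (Or.inl (hlines _ D' (by rw [hq]; norm_num) hD' hle')))
    · exact Or.inr (Or.inr (Or.inr (Or.inl ⟨hq5 hq, D, hD, eq_of_max hH (hHM.trans inf_le_left)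
        (omega_not_dec hQ hn hD.decomp (by rw [hcard]; norm_num))⟩)))
  · exact Or.inr (Or.inr (Or.inl (hlines t D hp hD (hHM.trans inf_le_left))))
  · have h1 := fld_dvd hK
    rw [hcard] at h1
    have h3 : r = 3 := (Nat.prime_dvd_prime_iff_eq hr Nat.prime_three).1 (hr.dvd_of_dvd_pow (show r ∣ 3 ^ 2 from h1))
    subst h3
    exact Or.inr (Or.inr (Or.inr (Or.inr (Or.inl ⟨K, hK, hsa, eq_of_max hH (hHM.trans inf_le_left)
      (omega_not_fld hQ hn (by norm_num) hK)⟩))))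
  · exfalso
    have h3 : Fintype.card (Unit ⊕ (Fin 4 ⊕ Fin 4)) = n₁ * n₂ := by
      rw [Fintype.card_congr e, Fintype.card_prod, Fintype.card_fin, Fintype.card_fin]
    rw [hcard] at h3
    have h4 : n₁ ≤ 9 := Nat.le_of_dvd (by norm_num) ⟨n₂, h3⟩
    interval_cases n₁ <;> omega
  · exact Or.inr (Or.inr (Or.inr (Or.inr (Or.inr (Or.inl ⟨F₀, r, P, hr, hc, hS, eq_of_max hH (hHM.trans inf_le_left)
      (omega_not_sub' hQ hn hr hc)⟩)))))
  · have h3 : Fintype.card (Unit ⊕ (Fin 4 ⊕ Fin 4)) = k ^ t := by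
      rw [Fintype.card_congr e, Fintype.card_fun, Fintype.card_fin, Fintype.card_fin]
    rw [hcard] at h3
    have h5 : k ^ 2 ≤ k ^ t := Nat.pow_le_pow_right (by omega) ht
    have h6 : k = 3 := by nlinarith
    subst h6
    have h7 : t = 2 := by
      by_contra hne
      have : 3 ^ 3 ≤ 3 ^ t := Nat.pow_le_pow_right (by omega) (by omega)
      omega
    subst h7
    have hq3 : Fintype.card F ≠ 3 := fun h => hq ⟨h, rfl⟩
    exact Or.inr (Or.inr (Or.inr (Or.inr (Or.inr (Or.inr (Or.inl ⟨hq5 hq3, e, P, f₁, hf₁, hfs, eq_of_max hH (hHM.trans inf_le_left)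
      (omega_not_tw2 hQ hn h20 (by norm_num))⟩))))))

end Cfsg.Agent.S5835
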