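import Cfsg.Agent.EqBase
import Cfsg.Agent.LibAschEv26

set_option autoImplicit false
open Cfsg

namespace Cfsg.Agent.S5838


open Module Cfsg.Geo CfsgLib.AschSL1 CfsgLib.AschNum CfsgLib.AschEv26

private theorem no_tw {m t n : ℕ} (hm : 3 ≤ m) (ht : 2 ≤ t) (h : m ^ t = n) (hn : n ≤ 12) (h9 : n ≠ 9) : False := by
  have h1 : m ^ 2 ≤ n := by rw [← h]; exact Nat.pow_le_pow_right (by omega) ht
  have h2 : m ≤ 3 := by
    by_contra hcon
    push Not at hcon
    nlinarith
  have h3 : m = 3 := by omega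
  subst h3
  have h4 : t ≤ 2 := by
    by_contra hcon
    push Not at hcon
    have : 3 ^ 3 ≤ 3 ^ t := Nat.pow_le_pow_right (by norm_num) hcon
    omega
  have h5 : t = 2 := by omega
  subst h5
  omega

private theorem no_st {r k n p : ℕ} (hr : r.Prime) (h : n = r ^ k) (h2 : 2 ∣ n) (hp : p.Prime) (hp2 : p ≠ 2) (hpn : p ∣ n) : False := by
  rw [h] at h2 hpn
  have e1 := (Nat.prime_dvd_prime_iff_eq Nat.prime_two hr).mp (Nat.prime_two.dvd_of_dvd_pow h2)
  have e2 := (Nat.prime_dvd_prime_iff_eq hp hr).mp (hp.dvd_of_dvd_pow hpn)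
  exact hp2 (e2.trans e1.symm)


/-- Every maximal subgroup of SL_10(q) is of one of the listed geometric types or lies in the residual class. Let F be a finite field with q elements (p its characteristic) and H a maximal subgroup of SL_10(F) (inside GL_10(F)). Then H is the intersection with SL_10(F) of one of: the stabiliser of a proper non-zero subspace; for q ≥ 5, the stabiliser of a decomposition into 10 independent 1-spaces; for q ≥ 3, the stabiliser of a decomposition into 5 independent 2-spaces; the stabiliser of a decomposition into 2 independent 5-spaces; the normaliser of a degree-5 subfield of the matrix algebra; the normaliser of a degree-2 subfield of the matrix algebra; for q ≥ 3, the stabiliser of a tensor decomposition F^2 ⊗ F^5; a subfield group for a subfield F₀ with |F| = |F₀|^r, r prime; for q odd, the similarity group of a non-degenerate quadratic form; the similarity group of a non-degenerate symplectic form; the similarity group of a non-degenerate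 unitary form — or else H lies in the residual class of the linear case (modulo scalars H is almost simple, with absolutely irreducible perfect socle preimage realisable over no proper subfield and fixing no non-degenerate quadratic, symplectic or unitary form). -/
theorem result {F : Type*} [Field F] [Fintype F] (H : Subgroup (Matrix.GeneralLinearGroup (Fin 10) F)) (hH : Cfsg.Geo.IsMaximalIn (Cfsg.Geo.specialLinear (Fin 10) F) H) :
    (∃ W : Submodule F (Fin 10 → F), W ≠ ⊥ ∧ W ≠ ⊤ ∧ H = Cfsg.Geo.subspaceStabilizer W ⊓ Cfsg.Geo.specialLinear (Fin 10) F) ∨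
    (5 ≤ Fintype.card F ∧ ∃ D : Fin 10 → Submodule F (Fin 10 → F), Cfsg.Geo.IsMDecomposition 1 D ∧ H = Cfsg.Geo.decompositionStabilizer D ⊓ Cfsg.Geo.specialLinear (Fin 10) F) ∨
    (3 ≤ Fintype.card F ∧ ∃ D : Fin 5 → Submodule F (Fin 10 → F), Cfsg.Geo.IsMDecomposition 2 D ∧ H = Cfsg.Geo.decompositionStabilizer D ⊓ Cfsg.Geo.specialLinear (Fin 10) F) ∨
    (∃ D : Fin 2 → Submodule F (Fin 10 → F), Cfsg.Geo.IsMDecomposition 5 D ∧ H = Cfsg.Geo.decompositionStabilizer D ⊓ Cfsg.Geo.specialLinear (Fin 10) F) ∨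
    (∃ K : Subalgebra F (Matrix (Fin 10) (Fin 10) F), Cfsg.Geo.IsFieldSubalgebra 5 K ∧ H = Cfsg.Geo.subalgebraNormalizer K ⊓ Cfsg.Geo.specialLinear (Fin 10) F) ∨
    (∃ K : Subalgebra F (Matrix (Fin 10) (Fin 10) F), Cfsg.Geo.IsFieldSubalgebra 2 K ∧ H = Cfsg.Geo.subalgebraNormalizer K ⊓ Cfsg.Geo.specialLinear (Fin 10) F) ∨
    (3 ≤ Fintype.card F ∧ ∃ (e : Fin 10 ≃ Fin 2 × Fin 5) (P : Matrix.GeneralLinearGroup (Fin 10) F), H = Cfsg.Geo.tensorProductSubgroup 2 5 e P ⊓ Cfsg.Geo.specialLinear (Fin 10) F) ∨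
    (∃ (F₀ : Subfield F) (r : ℕ) (P : Matrix.GeneralLinearGroup (Fin 10) F), r.Prime ∧ Fintype.card F = Nat.card F₀ ^ r ∧ H = Cfsg.Geo.subfieldSubgroup F₀ P ⊓ Cfsg.Geo.specialLinear (Fin 10) F) ∨
    (Odd (Fintype.card F) ∧ ∃ Q : (Fin 10 → F) → F, Cfsg.Geo.IsNondegenerateQuadraticForm Q ∧ H = Cfsg.Geo.quadSimilarityGroup Q ⊓ Cfsg.Geo.specialLinear (Fin 10) F) ∨
    (∃ f : (Fin 10 → F) → (Fin 10 → F) → F, Cfsg.Geo.IsSymplecticForm f ∧ H = Cfsg.Geo.similarityGroup f ⊓ Cfsg.Geo.specialLinear (Fin 10) F) ∨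
    (∃ (σ : F ≃+* F) (f : (Fin 10 → F) → (Fin 10 → F) → F), Cfsg.Geo.IsUnitaryForm σ f ∧ H = Cfsg.Geo.similarityGroup f ⊓ Cfsg.Geo.specialLinear (Fin 10) F) ∨
    Cfsg.Geo.InLinearResidualClass H := by

  have hcn : Fintype.card (Fin 10) = 10 := Fintype.card_fin 10
  cases ev (by rw [hcn]; norm_num) hH with
  | red W h0 h1 h => exact Or.inl (⟨W, h0, h1, h⟩)
  | dec t m D hD htm h5 h3 h =>
    rw [hcn] at htm
    have ht := hD.two_le
    have hm := hD.pos
    have hmle : m ≤ 5 := by
      by_contra hcon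
      push Not at hcon
      nlinarith
    interval_cases m
    · obtain rfl : t = 10 := by omega
      exact Or.inr (Or.inl (⟨h5 rfl, D, hD, h⟩))
    · obtain rfl : t = 5 := by omega
      exact Or.inr (Or.inr (Or.inl (⟨h3 rfl, D, hD, h⟩)))
    · exfalso; omega
    · exfalso; omega
    · obtain rfl : t = 2 := by omega
      exact Or.inr (Or.inr (Or.inr (Or.inl (⟨D, hD, h⟩))))
  | fld r K hr hK hd h =>
    rw [hcn] at hd
    have hle := Nat.le_of_dvd (by norm_num) hd
    have h2 := hr.two_le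
    interval_cases r
    · exact Or.inr (Or.inr (Or.inr (Or.inr (Or.inr (Or.inl (⟨K, hK, h⟩))))))
    · exfalso; revert hd; norm_num
    · exfalso; revert hd; norm_num
    · exact Or.inr (Or.inr (Or.inr (Or.inr (Or.inl (⟨K, hK, h⟩)))))
    · exfalso; revert hd; norm_num
    · exfalso; revert hd; norm_num
    · exfalso; revert hd; norm_num
    · exfalso; revert hd; norm_num
    · exfalso; revert hr; norm_num
  | tp n₁ n₂ e P h1 h2 hm h3 h =>
    rw [hcn] at hm
    have h12 : n₁ ≤ 3 := by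
      by_contra hcon
      push Not at hcon
      nlinarith
    interval_cases n₁
    · obtain rfl : n₂ = 5 := by omega
      exact Or.inr (Or.inr (Or.inr (Or.inr (Or.inr (Or.inr (Or.inl (⟨h3 rfl, e, P, h⟩)))))))
    · exfalso; omega
  | sub F₀ r P hr hc h => exact Or.inr (Or.inr (Or.inr (Or.inr (Or.inr (Or.inr (Or.inr (Or.inl (⟨F₀, r, P, hr, hc, h⟩))))))))
  | st r k R hR hr hk h =>
    rw [hcn] at hk
    exact (no_st hr hk (by norm_num) (p := 5) (by norm_num) (by norm_num) (by norm_num)).elim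
  | tw m t e P hm ht hmt h =>
    rw [hcn] at hmt
    exact (no_tw hm ht hmt (by norm_num) (by norm_num)).elim
  | sym f hf h => exact Or.inr (Or.inr (Or.inr (Or.inr (Or.inr (Or.inr (Or.inr (Or.inr (Or.inr (Or.inl (⟨f, hf, h⟩))))))))))
  | uni σ f hf h => exact Or.inr (Or.inr (Or.inr (Or.inr (Or.inr (Or.inr (Or.inr (Or.inr (Or.inr (Or.inr (Or.inl (⟨σ, f, hf, h⟩)))))))))))
  | orth Q hQ ho h => exact Or.inr (Or.inr (Or.inr (Or.inr (Or.inr (Or.inr (Or.inr (Or.inr (Or.inl (⟨ho, Q, hQ, h⟩)))))))))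
  | res h => exact Or.inr (Or.inr (Or.inr (Or.inr (Or.inr (Or.inr (Or.inr (Or.inr (Or.inr (Or.inr (Or.inr (h)))))))))))

end Cfsg.Agent.S5838
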