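import Cfsg.Statements.S5841
import Cfsg.Agent.LibH14SU9


set_option autoImplicit false
open Cfsg

namespace Cfsg.Agent.S5841

/-- Every maximal subgroup of SU_10(q) is of one of the listed geometric types or lies in the residual class. Let F be the field with q² elements (characteristic p), f the standard unitary form Σ u_i v_i^q on F^10, and H a maximal subgroup of SU_10(q) (inside GL_10(F)). Then H is the intersection with SU_10(q) of one of: the stabiliser of a non-zero totally isotropic subspace; the stabiliser of a non-zero non-degenerate subspace W with 2 dim W < 10; the stabiliser of a decomposition into 10 mutually orthogonal non-degenerate 1-spaces; for q ≥ 3, the stabiliser of a decomposition into 5 mutually orthogonal non-degenerate 2-spaces; the stabiliser of a decomposition into 2 mutually orthogonal non-degenerate 5-spaces; of a decomposition into two totally isotropic 5-spaces; the normaliser of an adjoint-closed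 degree-5 subfield of the matrix algebra; for q ≥ 3, the stabiliser of a tensor decomposition of f into unitary forms on F^2 and F^5; a subfield group of odd prime index whose F₀-structure carries f; a subfield group of index 2 and symplectic type; for q odd, a subfield group of index 2 whose F₀-structure carries f — or else H lies in the residual class of the unitary case (modulo scalars H is almost simple, with absolutely irreducible perfect socle preimage realisable over no proper subfield and fixing no non-degenerate quadratic or symplectic form). -/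
theorem result {F : Type*} [Field F] [Fintype F] (q : ℕ) (hF : Fintype.card F = q ^ 2) (H : Subgroup (Matrix.GeneralLinearGroup (Fin 10) F)) (hH : Cfsg.Geo.IsMaximalIn (Cfsg.GU 10 F q ⊓ Cfsg.Geo.specialLinear (Fin 10) F) H) :
    (∃ W : Submodule F (Fin 10 → F), W ≠ ⊥ ∧ Cfsg.Geo.IsTotallySingularFor (Cfsg.hermForm 10 F q) W ∧ H = Cfsg.Geo.subspaceStabilizer W ⊓ (Cfsg.GU 10 F q ⊓ Cfsg.Geo.specialLinear (Fin 10) F)) ∨
    (∃ W : Submodule F (Fin 10 → F), W ≠ ⊥ ∧ Cfsg.Geo.IsNondegenerateOn (Cfsg.hermForm 10 F q) W ∧ 2 * Module.finrank F W < 10 ∧ H = Cfsg.Geo.subspaceStabilizer W ⊓ (Cfsg.GU 10 F q ⊓ Cfsg.Geo.specialLinear (Fin 10) F)) ∨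
    (∃ D : Fin 10 → Submodule F (Fin 10 → F), Cfsg.Geo.IsNondegenerateMDecomposition (Cfsg.hermForm 10 F q) 1 D ∧ H = Cfsg.Geo.decompositionStabilizer D ⊓ (Cfsg.GU 10 F q ⊓ Cfsg.Geo.specialLinear (Fin 10) F)) ∨
    (3 ≤ q ∧ ∃ D : Fin 5 → Submodule F (Fin 10 → F), Cfsg.Geo.IsNondegenerateMDecomposition (Cfsg.hermForm 10 F q) 2 D ∧ H = Cfsg.Geo.decompositionStabilizer D ⊓ (Cfsg.GU 10 F q ⊓ Cfsg.Geo.specialLinear (Fin 10) F)) ∨
    (∃ D : Fin 2 → Submodule F (Fin 10 → F), Cfsg.Geo.IsNondegenerateMDecomposition (Cfsg.hermForm 10 F q) 5 D ∧ H = Cfsg.Geo.decompositionStabilizer D ⊓ (Cfsg.GU 10 F q ⊓ Cfsg.Geo.specialLinear (Fin 10) F)) ∨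
    (∃ D : Fin 2 → Submodule F (Fin 10 → F), Cfsg.Geo.IsMDecomposition 5 D ∧ (∀ i, Cfsg.Geo.IsTotallySingularFor (Cfsg.hermForm 10 F q) (D i)) ∧ H = Cfsg.Geo.decompositionStabilizer D ⊓ (Cfsg.GU 10 F q ⊓ Cfsg.Geo.specialLinear (Fin 10) F)) ∨
    (∃ K : Subalgebra F (Matrix (Fin 10) (Fin 10) F), Cfsg.Geo.IsFieldSubalgebra 5 K ∧ Cfsg.Geo.IsAdjointClosedFor (Cfsg.hermForm 10 F q) K ∧ H = Cfsg.Geo.subalgebraNormalizer K ⊓ (Cfsg.GU 10 F q ⊓ Cfsg.Geo.specialLinear (Fin 10) F)) ∨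
    (3 ≤ q ∧ ∃ (e : Fin 10 ≃ Fin 2 × Fin 5) (P : Matrix.GeneralLinearGroup (Fin 10) F) (f₁ : (Fin 2 → F) → (Fin 2 → F) → F) (f₂ : (Fin 5 → F) → (Fin 5 → F) → F), Cfsg.Geo.IsUnitaryFormPow q f₁ ∧ Cfsg.Geo.IsUnitaryFormPow q f₂ ∧ Cfsg.Geo.IsTensorFormStructure (fun x : F => x ^ q) (Cfsg.hermForm 10 F q) f₁ f₂ e P ∧ H = Cfsg.Geo.tensorProductSubgroup 2 5 e P ⊓ (Cfsg.GU 10 F q ⊓ Cfsg.Geo.specialLinear (Fin 10) F)) ∨
    (∃ (F₀ : Subfield F) (r : ℕ) (P : Matrix.GeneralLinearGroup (Fin 10) F), r.Prime ∧ Odd r ∧ Fintype.card F = Nat.card F₀ ^ r ∧ Cfsg.Geo.IsFormRationalStructure (Cfsg.hermForm 10 F q) F₀ 1 P ∧ H = Cfsg.Geo.subfieldSubgroup F₀ P ⊓ (Cfsg.GU 10 F q ⊓ Cfsg.Geo.specialLinear (Fin 10) F)) ∨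
    (∃ (F₀ : Subfield F) (P : Matrix.GeneralLinearGroup (Fin 10) F) (ζ : F), Fintype.card F = Nat.card F₀ ^ 2 ∧ ζ ≠ 0 ∧ ζ + ζ ^ q = 0 ∧ Cfsg.Geo.IsFormRationalStructure (Cfsg.hermForm 10 F q) F₀ ζ P ∧ (∀ u : Fin 10 → F, (∀ i, u i ∈ F₀) → (Cfsg.hermForm 10 F q) (Matrix.mulVec (P : Matrix (Fin 10) (Fin 10) F) u) (Matrix.mulVec (P : Matrix (Fin 10) (Fin 10) F) u) = 0) ∧ H = Cfsg.Geo.subfieldSubgroup F₀ P ⊓ (Cfsg.GU 10 F q ⊓ Cfsg.Geo.specialLinear (Fin 10) F)) ∨
    (Odd q ∧ ∃ (F₀ : Subfield F) (P : Matrix.GeneralLinearGroup (Fin 10) F), Fintype.card F = Nat.card F₀ ^ 2 ∧ Cfsg.Geo.IsFormRationalStructure (Cfsg.hermForm 10 F q) F₀ 1 P ∧ H = Cfsg.Geo.subfieldSubgroup F₀ P ⊓ (Cfsg.GU 10 F q ⊓ Cfsg.Geo.specialLinear (Fin 10) F)) ∨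
    Cfsg.Geo.InUnitaryResidualClass H := by
  have hcn : Fintype.card (Fin 10) = 10 := Fintype.card_fin _
  rcases CfsgLib.H14SU.max5 hF (by norm_num) hH with ⟨M, hM, hHM⟩ | h
  · cases hM with
    | sing W h0 hs h => subst h; exact (Or.inl ⟨W, h0, hs, hHM⟩)
    | nond W h0 hs hd h => subst h; exact (Or.inr (Or.inl ⟨W, h0, hs, hd, hHM⟩))
    | dec t k D hD h =>
      subst h
      have h1 := CfsgLib.AschNum.dec_mul hD.decomp
      rw [hcn] at h1
      have ht := hD.decomp.two_le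
      have h2 : (t = 10 ∧ k = 1) ∨ (t = 5 ∧ k = 2) ∨ (t = 2 ∧ k = 5) := by
        obtain ⟨h3, h4⟩ := CfsgLib.H14SU.mul_cases (by norm_num) h1
        have h5 : t = 1 ∨ t = 2 ∨ t = 5 ∨ t = 10 := by
          have : (10 : ℕ).divisors = {1, 2, 5, 10} := by decide
          rw [this] at h3; simpa using h3
        have h6 := h1
        rcases h5 with h5 | h5 | h5 | h5 <;> rw [h5] at h6 <;> omega
      rcases h2 with ⟨rfl, rfl⟩ | ⟨rfl, rfl⟩ | ⟨rfl, rfl⟩
      · exact (Or.inr (Or.inr (Or.inl ⟨D, hD, hHM⟩)))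
      · rcases CfsgLib.H14SU.planes_max hF (by norm_num) hH hD hHM with h3 | ⟨-, D', hD', h3⟩
        · exact (Or.inr (Or.inr (Or.inr (Or.inl ⟨h3, D, hD, hHM⟩))))
        · exact (Or.inr (Or.inr (Or.inl ⟨D', hD', h3⟩)))
      · exact (Or.inr (Or.inr (Or.inr (Or.inr (Or.inl ⟨D, hD, hHM⟩)))))
    | pair k D hk hD hs h =>
      subst h
      have h1 : k = 5 := by omega
      subst h1
      exact (Or.inr (Or.inr (Or.inr (Or.inr (Or.inr (Or.inl ⟨D, hD, hs, hHM⟩))))))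
    | fld r K hr ho hK ha h =>
      subst h
      have h1 := CfsgLib.AschNum.fld_dvd hK
      rw [hcn] at h1
      have h2 : r ∈ (10 : ℕ).divisors := Nat.mem_divisors.2 ⟨h1, by norm_num⟩
      have h5 : r = 1 ∨ r = 2 ∨ r = 5 ∨ r = 10 := by
        have : (10 : ℕ).divisors = {1, 2, 5, 10} := by decide
        rw [this] at h2; simpa using h2
      rcases h5 with rfl | rfl | rfl | rfl
      · first | (exfalso; revert ho; decide) | (exfalso; revert hr; norm_num)
      · first | (exfalso; revert ho; decide) | (exfalso; revert hr; norm_num)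
      · exact (Or.inr (Or.inr (Or.inr (Or.inr (Or.inr (Or.inr (Or.inl ⟨K, hK, ha, hHM⟩)))))))
      · first | (exfalso; revert ho; decide) | (exfalso; revert hr; norm_num)
    | tp n₁ n₂ e P f₁ f₂ h1 h2 hf₁ hf₂ hS h =>
      subst h
      have h3 := CfsgLib.AschNum.tp_mul e
      rw [hcn] at h3
      obtain ⟨h4, h5⟩ := CfsgLib.H14SU.mul_cases (by norm_num) h3
      have h6 : n₁ = 1 ∨ n₁ = 2 ∨ n₁ = 5 ∨ n₁ = 10 := by
        have : (10 : ℕ).divisors = {1, 2, 5, 10} := by decide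
        rw [this] at h4; simpa using h4
      have h8 := h3
      have h7 : (n₁ = 2 ∧ n₂ = 5) := by rcases h6 with h6 | h6 | h6 | h6 <;> rw [h6] at h8 <;> omega
      rcases h7 with ⟨rfl, rfl⟩
      · rcases CfsgLib.H14SU.tensor_max hF (by norm_num) hH (by norm_num) hf₁ hf₂ hS hHM with h7 | h7
        · exact (Or.inr (Or.inr (Or.inr (Or.inr (Or.inr (Or.inr (Or.inr (Or.inl ⟨h7, e, P, f₁, f₂, hf₁, hf₂, hS, hHM⟩))))))))
        · exact (Or.inr (Or.inr (Or.inr (Or.inr (Or.inl h7)))))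
    | subo F₀ r P hr ho hc hS h => subst h; exact (Or.inr (Or.inr (Or.inr (Or.inr (Or.inr (Or.inr (Or.inr (Or.inr (Or.inl ⟨F₀, r, P, hr, ho, hc, hS, hHM⟩)))))))))
    | sub2 F₀ P hq hc hS h => subst h; exact (Or.inr (Or.inr (Or.inr (Or.inr (Or.inr (Or.inr (Or.inr (Or.inr (Or.inr (Or.inr (Or.inl ⟨hq, F₀, P, hc, hS, hHM⟩)))))))))))
    | subs F₀ P ζ hev hc h0 h1 hS ha h => subst h; exact (Or.inr (Or.inr (Or.inr (Or.inr (Or.inr (Or.inr (Or.inr (Or.inr (Or.inr (Or.inl ⟨F₀, P, ζ, hc, h0, h1, hS, ha, hHM⟩))))))))))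
    | st r k R p e hst hal hsim hrp hm hz hdeg hGU h =>
      exact (CfsgLib.H14SU.not_pow_of_two_primes (a := 2) (b := 5) (by norm_num) (by norm_num) (by norm_num) (by norm_num) (by norm_num) hst.prime hdeg).elim
    | tw k t e P f₁ hk ht hex hf₁ hS h =>
      exfalso
      have h3 := CfsgLib.AschNum.tw_pow e
      rw [hcn] at h3
      have h4 : k ^ 2 ≤ 10 := by rw [← h3]; exact Nat.pow_le_pow_right (by omega) ht
      have h5 : k ≤ 3 := by nlinarith
      have h6 : k = 3 := by omega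
      subst h6
      have h7 : (3 : ℕ) ∣ 10 := by rw [← h3]; exact dvd_pow_self 3 (by omega)
      revert h7; norm_num
  · exact (Or.inr (Or.inr (Or.inr (Or.inr (Or.inr (Or.inr (Or.inr (Or.inr (Or.inr (Or.inr (Or.inr h)))))))))))

end Cfsg.Agent.S5841
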