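import Cfsg.Statements.S5876
import Mathlib
import Cfsg.Agent.LibAsch6
open scoped Matrix MatrixGroups

set_option autoImplicit false
open Cfsg

namespace Cfsg.Agent.S5876

open CfsgLib.Asch1 CfsgLib.Asch2 CfsgLib.Asch6 Cfsg.Geo in
/-- elements of abelian normal subgroups of primitive linear groups are fixed-point-free -/
theorem fpf {F : Type*} [Field F] {n : ℕ} (G : Subgroup (GL (Fin n) F)) [Nontrivial (Fin n → F)]
    (hirr : ActsIrreducibly (matrixSet G)) (hprim : ¬ ∃ (t m : ℕ) (D : Fin t → Submodule F (Fin n → F)), IsMDecomposition m D ∧ G ≤ decompositionStabilizer D)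
    (N : Set (GL (Fin n) F)) (hNn : ∀ g ∈ G, ∀ a ∈ N, g * a * g⁻¹ ∈ N)
    (hNc : ∀ a ∈ N, ∀ b ∈ N, a * b = b * a) (a : GL (Fin n) F) (ha : a ∈ N) (ha1 : a ≠ 1)
    (v : Fin n → F) (hv : (a : Matrix (Fin n) (Fin n) F) *ᵥ v = v) : v = 0 := by
  classical
  set S : Set (Matrix (Fin n) (Fin n) F) := (fun g : GL (Fin n) F => (g : Matrix (Fin n) (Fin n) F)) '' N with hS
  set A : Subalgebra F (Matrix (Fin n) (Fin n) F) := Algebra.adjoin F S with hA
  have hcj : ∀ h ∈ G, ∀ x ∈ A, (h : Matrix (Fin n) (Fin n) F) * x * ((h⁻¹ : GL (Fin n) F) : Matrix (Fin n) (Fin n) F) ∈ A := by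
    intro h hh x hx
    have h1 : A.map (cj h).toAlgHom ≤ A := by
      rw [hA, AlgHom.map_adjoin]
      apply Algebra.adjoin_mono
      rintro _ ⟨_, ⟨b, hb, rfl⟩, rfl⟩
      exact ⟨h * b * h⁻¹, hNn h hh b hb, by simp [cj]⟩
    have h2 : cj h x ∈ A := h1 (Subalgebra.mem_map.mpr ⟨x, hx, rfl⟩)
    rw [cj_apply] at h2
    exact h2
  have hnorm : NormAlg (G : Set (GL (Fin n) F)) A := by
    intro h hh
    refine ⟨hcj h hh, ?_⟩
    intro x hx
    have := hcj h⁻¹ (G.inv_mem hh) x hx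
    rwa [inv_inv] at this
  have hcl := clifford (A := endA A) (le '' (G : Set (GL (Fin n) F))) (irr_le hirr) (by
    rintro _ ⟨h, hh, rfl⟩
    exact nrm_of_normAlg hnorm h hh) (fun h => hprim (dec_le h))
  have hss := hcl.1
  have hsimple := (simple_of_isotypic (endA A) hcl.2).1
  have hcomm : ∀ x ∈ A, ∀ y ∈ A, x * y = y * x := by
    intro x hx y hy
    have e1 : A ≤ Subalgebra.centralizer F S := by
      apply Algebra.adjoin_le
      rintro _ ⟨b, hb, rfl⟩
      rw [SetLike.mem_coe, Subalgebra.mem_centralizer_iff]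
      rintro _ ⟨c, hc, rfl⟩
      have := congrArg (fun g : GL (Fin n) F => (g : Matrix (Fin n) (Fin n) F)) (hNc c hc b hb)
      simpa only [Units.val_mul] using this
    have e2 : A ≤ Subalgebra.centralizer F (A : Set (Matrix (Fin n) (Fin n) F)) := by
      apply Algebra.adjoin_le
      intro b hb
      rw [SetLike.mem_coe, Subalgebra.mem_centralizer_iff]
      intro c hc
      have h5 := e1 hc
      rw [Subalgebra.mem_centralizer_iff] at h5
      exact (h5 b hb).symm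
    have h6 := e2 hy
    rw [Subalgebra.mem_centralizer_iff] at h6
    exact h6 x hx
  have haA : (a : Matrix (Fin n) (Fin n) F) - 1 ∈ A := A.sub_mem (Algebra.subset_adjoin ⟨a, ha, rfl⟩) A.one_mem
  have hane : (a : Matrix (Fin n) (Fin n) F) - 1 ≠ 0 := by
    intro h
    apply ha1
    apply Units.ext
    rw [sub_eq_zero] at h
    simpa using h
  obtain ⟨y, hy, hxy⟩ := cen_inv (endA A) (Matrix.toLin' ((a : Matrix (Fin n) (Fin n) F) - 1)) (by
    rw [mem_cen]
    refine ⟨(mem_endA A _).mpr haA, ?_⟩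
    intro b hb
    obtain ⟨M, hM, rfl⟩ := exists_of_mem_endA A b hb
    change Matrix.toLin' M ∘ₗ Matrix.toLin' _ = Matrix.toLin' _ ∘ₗ Matrix.toLin' M
    rw [← Matrix.toLin'_mul, ← Matrix.toLin'_mul, hcomm M hM _ haA]) (by
      intro h; exact hane ((Matrix.toLin' : Matrix (Fin n) (Fin n) F ≃ₗ[F] _).map_eq_zero_iff.mp h))
  -- y * x = 1 too
  have hyx : y * Matrix.toLin' ((a : Matrix (Fin n) (Fin n) F) - 1) = 1 := by
    have h1 := (mem_cen _ _).mp hy
    rw [← h1.2 _ ((mem_endA A _).mpr haA), hxy]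
  have h2 := congrArg (fun f : Module.End F (Fin n → F) => f v) hyx
  simp only [Module.End.mul_apply, Matrix.toLin'_apply, Matrix.sub_mulVec, hv, Matrix.one_mulVec, sub_self, map_zero, Module.End.one_apply] at h2
  exact h2.symm

/-- group theory -/
theorem critical {Γ : Type*} [Group Γ] [Finite Γ] [Group.IsSolvable Γ] :
    ∃ A B : Subgroup Γ, A.Normal ∧ B.Normal ∧ (∀ a ∈ A, ∀ b ∈ A, a * b = b * a) ∧ (∀ b ∈ B, ∀ c ∈ B, b * c * b⁻¹ * c⁻¹ ∈ A) ∧
      (∀ b ∈ B, (∀ c ∈ B, b * c = c * b) → b ∈ A) ∧ (∀ g : Γ, (∀ b ∈ B, g * b = b * g) → g ∈ A) := by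
  obtain ⟨A, ⟨hAn, hAc⟩, hAm⟩ := (Set.toFinite {A : Subgroup Γ | A.Normal ∧ ∀ a ∈ A, ∀ b ∈ A, a * b = b * a}).exists_maximal
    ⟨⊥, inferInstance, by intro a ha b hb; rw [Subgroup.mem_bot] at ha hb; rw [ha, hb]⟩
  obtain ⟨B, ⟨hBn, hAB, hBA, hBB⟩, hBm⟩ := (Set.toFinite {B : Subgroup Γ | B.Normal ∧ A ≤ B ∧ (∀ b ∈ B, ∀ a ∈ A, b * a = a * b) ∧ ∀ b ∈ B, ∀ c ∈ B, b * c * b⁻¹ * c⁻¹ ∈ A}).exists_maximal
    ⟨A, hAn, le_rfl, hAc, by intro b hb c hc; rw [hAc b hb c hc]; simp⟩
  have hZ : ∀ b ∈ B, (∀ c ∈ B, b * c = c * b) → b ∈ A := by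
    intro b hb hbc
    let Z : Subgroup Γ := B ⊓ Subgroup.centralizer (B : Set Γ)
    have hZn : Z.Normal := inferInstance
    have hAZ : A ≤ Z := by
      intro a ha
      refine ⟨hAB ha, ?_⟩
      show a ∈ Subgroup.centralizer (B : Set Γ)
      rw [Subgroup.mem_centralizer_iff]
      intro h hh
      exact hBA h hh a ha
    have hZc : ∀ a ∈ Z, ∀ b ∈ Z, a * b = b * a := by
      intro a ha b hb
      exact (Subgroup.mem_centralizer_iff.mp hb.2 a ha.1)
    have h1 : Z ≤ A := hAm ⟨hZn, hZc⟩ hAZ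
    refine h1 ⟨hb, ?_⟩
    show b ∈ Subgroup.centralizer (B : Set Γ)
    rw [Subgroup.mem_centralizer_iff]
    intro h hh
    exact (hbc h hh).symm
  refine ⟨A, B, hAn, hBn, hAc, hBB, hZ, ?_⟩
  let D : Subgroup Γ := Subgroup.centralizer (B : Set Γ)
  have hDn : D.Normal := inferInstance
  suffices hDA : D ≤ A by
    intro g hg
    apply hDA
    show g ∈ Subgroup.centralizer (B : Set Γ)
    rw [Subgroup.mem_centralizer_iff]
    intro h hh
    exact (hg h hh).symm
  by_contra hDA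
  -- last term of the derived series of D not in A
  have hDs : ∃ k, ((derivedSeries D k).map D.subtype) ≤ A := by
    obtain ⟨k, hk⟩ := (Group.isSolvable_def D).mp inferInstance
    exact ⟨k, by rw [hk]; simp⟩
  classical
  have hk := Nat.find_spec hDs
  set k := Nat.find hDs with hkdef
  have hk0 : k ≠ 0 := by
    intro h0
    rw [h0, derivedSeries_zero] at hk
    apply hDA
    intro x hx
    exact hk ⟨⟨x, hx⟩, trivial, rfl⟩
  obtain ⟨j, hj⟩ := Nat.exists_eq_succ_of_ne_zero hk0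
  have hjn : ¬ ((derivedSeries D j).map D.subtype) ≤ A := by
    apply Nat.find_min hDs
    rw [← hkdef, hj]; exact Nat.lt_succ_self j
  set E : Subgroup Γ := (derivedSeries D j).map D.subtype with hE
  have hEn : E.Normal := by
    rw [hE]
    haveI : (derivedSeries D j).Characteristic := inferInstance
    infer_instance
  have hED : E ≤ D := Subgroup.map_subtype_le _
  have hEE : ∀ e ∈ E, ∀ f ∈ E, e * f * e⁻¹ * f⁻¹ ∈ A := by
    rintro _ ⟨e, he, rfl⟩ _ ⟨f, hf, rfl⟩
    apply hk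
    rw [hj, derivedSeries_succ]
    exact ⟨_, Subgroup.commutator_mem_commutator he hf, rfl⟩
  have hBE : (B ⊔ E) ∈ {B : Subgroup Γ | B.Normal ∧ A ≤ B ∧ (∀ b ∈ B, ∀ a ∈ A, b * a = a * b) ∧ ∀ b ∈ B, ∀ c ∈ B, b * c * b⁻¹ * c⁻¹ ∈ A} := by
    have hmem : ∀ x ∈ B ⊔ E, ∃ b ∈ B, ∃ e ∈ E, b * e = x := by
      intro x hx
      have : x ∈ ((B ⊔ E : Subgroup Γ) : Set Γ) := hx
      rw [Subgroup.normal_mul, Set.mem_mul] at this
      obtain ⟨b, hb, e, he, h⟩ := this
      exact ⟨b, hb, e, he, h⟩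
    have hcom : ∀ b ∈ B, ∀ e ∈ E, b * e = e * b := by
      intro b hb e he
      exact Subgroup.mem_centralizer_iff.mp (hED he) b hb
    refine ⟨inferInstance, hAB.trans le_sup_left, ?_, ?_⟩
    · intro x hx a ha
      obtain ⟨b, hb, e, he, rfl⟩ := hmem x hx
      rw [mul_assoc, ← hcom a (hAB ha) e he, ← mul_assoc, hBA b hb a ha, mul_assoc]
    · intro x hx y hy
      obtain ⟨b, hb, e, he, rfl⟩ := hmem x hx
      obtain ⟨c, hc, f, hf, rfl⟩ := hmem y hy
      have h1 : b * e * (c * f) * (b * e)⁻¹ * (c * f)⁻¹ = (b * c * b⁻¹ * c⁻¹) * (e * f * e⁻¹ * f⁻¹) := by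
        have e1 := hcom c hc e he
        have e2 := hcom b hb f hf
        have e3 := hcom b hb e he
        have e4 := hcom c hc f hf
        have g1 : b * e * (c * f) = b * c * (e * f) := by
          rw [mul_assoc, ← mul_assoc e c f, ← e1]; simp only [mul_assoc]
        have g2 : (b * e)⁻¹ * (c * f)⁻¹ = b⁻¹ * c⁻¹ * (e⁻¹ * f⁻¹) := by
          rw [← mul_inv_rev, ← mul_inv_rev, ← mul_inv_rev, ← mul_inv_rev]
          congr 1
          rw [mul_assoc, ← mul_assoc f b e, ← e2, mul_assoc b f e, ← mul_assoc c b]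
          have : f * e * (c * b) = c * b * (f * e) := by
            rw [hcom (c * b) (B.mul_mem hc hb) (f * e) (E.mul_mem hf he)]
          rw [this]
        have g3 : e * f * (b⁻¹ * c⁻¹) = b⁻¹ * c⁻¹ * (e * f) :=
          (hcom (b⁻¹ * c⁻¹) (B.mul_mem (B.inv_mem hb) (B.inv_mem hc)) (e * f) (E.mul_mem he hf)).symm
        calc b * e * (c * f) * (b * e)⁻¹ * (c * f)⁻¹ = (b * e * (c * f)) * ((b * e)⁻¹ * (c * f)⁻¹) := by rw [mul_assoc]
          _ = b * c * (e * f * (b⁻¹ * c⁻¹)) * (e⁻¹ * f⁻¹) := by rw [g1, g2]; simp only [mul_assoc]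
          _ = _ := by rw [g3]; simp only [mul_assoc]
      rw [h1]
      exact A.mul_mem (hBB b hb c hc) (hEE e he f hf)
  have h2 := hBm hBE le_sup_left
  apply hjn
  intro e he
  have heB : e ∈ B := h2 ((le_sup_right : E ≤ B ⊔ E) he)
  exact hZ e heB (fun c hc => (Subgroup.mem_centralizer_iff.mp (hED he) c hc).symm)

/-- fixed space -/
def fx {F : Type*} [Field F] {n : ℕ} (g : GL (Fin n) F) : Submodule F (Fin n → F) :=
  Module.End.eigenspace (Matrix.toLin' (g : Matrix (Fin n) (Fin n) F)) 1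

theorem mem_fx {F : Type*} [Field F] {n : ℕ} (g : GL (Fin n) F) (v : Fin n → F) : v ∈ fx g ↔ (g : Matrix (Fin n) (Fin n) F) *ᵥ v = v := by
  rw [fx, Module.End.mem_eigenspace_iff, Matrix.toLin'_apply, one_smul]

theorem fx_inv {F : Type*} [Field F] {n : ℕ} (g : GL (Fin n) F) : fx g⁻¹ = fx g := by
  ext v
  rw [mem_fx, mem_fx]
  constructor
  · intro h
    have := congrArg (fun w => (g : Matrix (Fin n) (Fin n) F) *ᵥ w) h
    simp only [Matrix.mulVec_mulVec, ← Units.val_mul, mul_inv_cancel, Units.val_one, Matrix.one_mulVec] at this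
    exact this.symm
  · intro h
    have := congrArg (fun w => ((g⁻¹ : GL (Fin n) F) : Matrix (Fin n) (Fin n) F) *ᵥ w) h
    simp only [Matrix.mulVec_mulVec, ← Units.val_mul, inv_mul_cancel, Units.val_one, Matrix.one_mulVec] at this
    exact this.symm

theorem fx_conj {F : Type*} [Field F] {n : ℕ} (g h : GL (Fin n) F) : Module.finrank F (fx (h * g * h⁻¹)) = Module.finrank F (fx g) := by
  have : fx (h * g * h⁻¹) = (fx g).map (CfsgLib.Asch6.le h : (Fin n → F) →ₗ[F] (Fin n → F)) := by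
    ext v
    rw [mem_fx, Submodule.mem_map]
    constructor
    · intro hv
      refine ⟨((h⁻¹ : GL (Fin n) F) : Matrix (Fin n) (Fin n) F) *ᵥ v, ?_, ?_⟩
      · rw [mem_fx]
        have := congrArg (fun w => ((h⁻¹ : GL (Fin n) F) : Matrix (Fin n) (Fin n) F) *ᵥ w) hv
        simp only [Matrix.mulVec_mulVec, ← Units.val_mul] at this
        rw [Matrix.mulVec_mulVec, ← Units.val_mul]
        have e1 : g * h⁻¹ = h⁻¹ * (h * g * h⁻¹) := by group
        rw [e1]
        exact this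
      · show (h : Matrix (Fin n) (Fin n) F) *ᵥ _ = _
        rw [Matrix.mulVec_mulVec, ← Units.val_mul, mul_inv_cancel, Units.val_one, Matrix.one_mulVec]
    · rintro ⟨w, hw, rfl⟩
      rw [mem_fx] at hw
      show _ *ᵥ ((h : Matrix (Fin n) (Fin n) F) *ᵥ w) = (h : Matrix (Fin n) (Fin n) F) *ᵥ w
      rw [Matrix.mulVec_mulVec, ← Units.val_mul, inv_mul_cancel_right, Units.val_mul, ← Matrix.mulVec_mulVec, hw]
  rw [this]
  exact LinearEquiv.finrank_map_eq (CfsgLib.Asch6.le h) (fx g)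

theorem fx_comm {F : Type*} [Field F] {n : ℕ} (g h : GL (Fin n) F) : 2 * Module.finrank F (fx g) ≤ n + Module.finrank F (fx (g * h * g⁻¹ * h⁻¹)) := by
  have h1 : fx g ⊓ fx (h * g⁻¹ * h⁻¹) ≤ fx (g * h * g⁻¹ * h⁻¹) := by
    intro v hv
    have h2 := (mem_fx _ _).mp hv.1
    have h3 := (mem_fx _ _).mp hv.2
    rw [mem_fx]
    have h4 : g * h * g⁻¹ * h⁻¹ = g * (h * g⁻¹ * h⁻¹) := by group
    rw [h4, Units.val_mul, ← Matrix.mulVec_mulVec, h3, h2]
  have h2 := Submodule.finrank_sup_add_finrank_inf_eq (fx g) (fx (h * g⁻¹ * h⁻¹))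
  have h3 := Submodule.finrank_le (fx g ⊔ fx (h * g⁻¹ * h⁻¹))
  rw [Module.finrank_fin_fun] at h3
  have h4 := Submodule.finrank_mono h1
  rw [fx_conj, fx_inv] at h2
  omega

/-- Fixed-point spaces in primitive soluble linear groups. Let F be a finite field and G a soluble subgroup of GL_n(F) that acts irreducibly on F^n and primitively (G preserves no decomposition of F^n into two or more independent subspaces of equal dimension). Then every non-identity element g of G has fixed-point space {v : g v = v} of dimension at most 3n/4. -/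
theorem result {F : Type*} [Field F] [Fintype F] {n : ℕ} (G : Subgroup (Matrix.GeneralLinearGroup (Fin n) F)) (hsol : IsSolvable G) (hirr : Cfsg.Geo.ActsIrreducibly (Cfsg.Geo.matrixSet G)) (hprim : ∀ (m t : ℕ) (D : Fin t → Submodule F (Fin n → F)), 2 ≤ t → Cfsg.Geo.IsMDecomposition m D → ¬ G ≤ Cfsg.Geo.decompositionStabilizer D) (g : Matrix.GeneralLinearGroup (Fin n) F) (hg : g ∈ G) (hg1 : g ≠ 1) :
    4 * Module.finrank F (Module.End.eigenspace (Matrix.toLin' (g : Matrix (Fin n) (Fin n) F)) 1) ≤ 3 * n := by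
  classical
  by_contra hcon
  push Not at hcon
  have hfx : 3 * n < 4 * Module.finrank F (fx g) := hcon
  have hnt : Nontrivial (Fin n → F) := by
    by_contra hcon
    rw [not_nontrivial_iff_subsingleton] at hcon
    have h1 := Submodule.finrank_le (fx g)
    have h2 : Module.finrank F (Fin n → F) = 0 := Module.finrank_zero_of_subsingleton
    rw [Module.finrank_fin_fun] at h1 h2
    omega
  haveI : Group.IsSolvable G := hsol
  have hprim' : ¬ ∃ (t m : ℕ) (D : Fin t → Submodule F (Fin n → F)), Geo.IsMDecomposition m D ∧ G ≤ Geo.decompositionStabilizer D := by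
    rintro ⟨t, m, D, h1, h2⟩
    exact hprim m t D h1.two_le h1 h2
  obtain ⟨A, B, hA, hB, hAc, hBB, hZ, hC⟩ := critical (Γ := G)
  have hfpf : ∀ a : G, a ∈ A → a ≠ 1 → Module.finrank F (fx (a : GL (Fin n) F)) = 0 := by
    intro a ha ha1
    rw [Submodule.finrank_eq_zero, eq_bot_iff]
    intro v hv
    rw [mem_fx] at hv
    rw [Submodule.mem_bot]
    refine fpf G hirr hprim' ((fun x : G => (x : GL (Fin n) F)) '' (A : Set G)) ?_ ?_ (a : GL (Fin n) F) ⟨a, ha, rfl⟩ (by
      intro h; exact ha1 (Subtype.ext h)) v hv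
    · rintro g hg _ ⟨b, hb, rfl⟩
      obtain ⟨g', hg'⟩ : ∃ g' : G, (g' : GL (Fin n) F) = g := ⟨⟨g, hg⟩, rfl⟩
      have h1 := hA.conj_mem b hb g'
      refine ⟨_, h1, ?_⟩
      rw [← hg']
      simp only [Subgroup.coe_mul, InvMemClass.coe_inv]
    · rintro _ ⟨b, hb, rfl⟩ _ ⟨c, hc, rfl⟩
      have := congrArg Subtype.val (hAc b hb c hc)
      rw [Subgroup.coe_mul, Subgroup.coe_mul] at this
      exact this
  set g' : G := ⟨g, hg⟩ with hg'
  have hg'1 : g' ≠ 1 := fun h => hg1 (congrArg Subtype.val h)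
  have hg'A : g' ∉ A := by
    intro h
    have := hfpf g' h hg'1
    change Module.finrank F (fx g) = 0 at this
    omega
  have h1 : ∃ b ∈ B, g' * b ≠ b * g' := by
    by_contra hcon
    push Not at hcon
    exact hg'A (hC g' hcon)
  obtain ⟨b, hb, hgb⟩ := h1
  set u : G := g' * b * g'⁻¹ * b⁻¹ with hu
  have huB : u ∈ B := B.mul_mem (hB.conj_mem b hb g') (B.inv_mem hb)
  have hu1 : u ≠ 1 := by
    intro h
    apply hgb
    rw [hu, mul_inv_eq_one, mul_inv_eq_iff_eq_mul] at h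
    exact h
  have hufx : n < 2 * Module.finrank F (fx (u : GL (Fin n) F)) := by
    have h2 := fx_comm (g' : GL (Fin n) F) (b : GL (Fin n) F)
    have h3 : ((u : G) : GL (Fin n) F) = (g' : GL (Fin n) F) * b * (g' : GL (Fin n) F)⁻¹ * (b : GL (Fin n) F)⁻¹ := rfl
    rw [h3]
    change 2 * Module.finrank F (fx g) ≤ _ at h2
    omega
  have huA : u ∉ A := by
    intro h
    have := hfpf u h hu1
    omega
  have h2 : ∃ c ∈ B, u * c ≠ c * u := by
    by_contra hcon
    push Not at hcon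
    exact huA (hZ u huB hcon)
  obtain ⟨c, hc, huc⟩ := h2
  have hzA : u * c * u⁻¹ * c⁻¹ ∈ A := hBB u huB c hc
  have hz1 : u * c * u⁻¹ * c⁻¹ ≠ 1 := by
    intro h
    apply huc
    rw [mul_inv_eq_one, mul_inv_eq_iff_eq_mul] at h
    exact h
  have h3 := hfpf _ hzA hz1
  have h4 := fx_comm (u : GL (Fin n) F) (c : GL (Fin n) F)
  have h5 : ((u * c * u⁻¹ * c⁻¹ : G) : GL (Fin n) F) = (u : GL (Fin n) F) * c * (u : GL (Fin n) F)⁻¹ * (c : GL (Fin n) F)⁻¹ := rfl
  rw [h5] at h3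
  omega

end Cfsg.Agent.S5876
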