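import Cfsg.Statements.S5944
import Mathlib


set_option autoImplicit false
open Cfsg

namespace Cfsg.Agent.S5944



/-- For n ≠ 4, every proper subgroup of the symmetric group S_n other than the alternating group A_n has index at least n. -/
theorem result (n : ℕ) (hn : n ≠ 4) (H : Subgroup (Equiv.Perm (Fin n))) (hH : H ≠ ⊤) (hA : H ≠ alternatingGroup (Fin n)) : n ≤ H.index := by
  classical
  by_contra hlt
  push Not at hlt
  have hk0 : H.index ≠ 0 := Subgroup.index_ne_zero_of_finite
  have hk1 : H.index ≠ 1 := fun h => hH (Subgroup.index_eq_one.mp h)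
  have hn3 : 3 ≤ n := by omega
  haveI : Nontrivial (Fin n) := Fin.nontrivial_iff_two_le.mpr (by omega)
  have hk2 : H.index ≠ 2 := fun h => hA (Equiv.Perm.eq_alternatingGroup_of_index_eq_two h)
  have hn5 : 5 ≤ n := by omega
  haveI : IsSimpleGroup (alternatingGroup (Fin n)) := alternatingGroup.isSimpleGroup (by rw [Nat.card_eq_fintype_card, Fintype.card_fin]; exact hn5)
  have hN : ((H.normalCore).subgroupOf (alternatingGroup (Fin n))).Normal := inferInstance
  rcases hN.eq_bot_or_eq_top with h | h
  · -- A_n embeds in Sym(G/H)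
    let φ : alternatingGroup (Fin n) →* Equiv.Perm (Equiv.Perm (Fin n) ⧸ H) :=
      (MulAction.toPermHom (Equiv.Perm (Fin n)) (Equiv.Perm (Fin n) ⧸ H)).comp (alternatingGroup (Fin n)).subtype
    have hφ : Function.Injective φ := by
      rw [← MonoidHom.ker_eq_bot_iff, eq_bot_iff, ← h]
      intro x hx
      have h1 : (x : Equiv.Perm (Fin n)) ∈ (MulAction.toPermHom (Equiv.Perm (Fin n)) (Equiv.Perm (Fin n) ⧸ H)).ker := hx
      rw [← Subgroup.normalCore_eq_ker] at h1
      exact h1
    have h1 := Nat.card_le_card_of_injective φ hφ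
    rw [Nat.card_perm] at h1
    have h2 : Nat.card (Equiv.Perm (Fin n) ⧸ H) = H.index := rfl
    rw [h2] at h1
    have h3 : 2 * Nat.card (alternatingGroup (Fin n)) = n.factorial := by
      rw [two_mul_nat_card_alternatingGroup, Nat.card_perm, Nat.card_eq_fintype_card, Fintype.card_fin]
    have h4 : H.index.factorial ≤ (n - 1).factorial := Nat.factorial_le (by omega)
    have h5 : n.factorial = n * (n - 1).factorial := (Nat.mul_factorial_pred (by omega)).symm
    have h6 : 0 < (n-1).factorial := Nat.factorial_pos _
    nlinarith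
  · have h1 : alternatingGroup (Fin n) ≤ H := (Subgroup.subgroupOf_eq_top.mp h).trans H.normalCore_le
    have h2 := Subgroup.index_dvd_of_le h1
    rw [alternatingGroup.index_eq_two] at h2
    have := Nat.le_of_dvd (by norm_num) h2
    omega

end Cfsg.Agent.S5944
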