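import Cfsg.Statements.S5949
import Mathlib
import Cfsg.Agent.LibSemi29f

set_option autoImplicit false
open scoped MatrixGroups
open Cfsg

namespace Cfsg.Agent.S5949



/-- Elements of prime order of PSL_n(q) with no fixed `m`-space. Here `T = PSL_n(F)` for a field `F` with `q = p^f` elements (`n ≥ 2`, `(n, q) ≠ (2, 2), (2, 3)`); an element of `T` of prime order `r` is represented by a matrix `x` of determinant 1 with `x^r` scalar and `x` not scalar; `i` denotes the multiplicative order of `q` modulo `r` (when `r ≠ p`), and `(a)_r` the `r`-part of `a`. Let `1 ≤ m ≤ n/2` and let `r` be a prime dividing the number of `m`-dimensional subspaces of `F^n`. Then every element of `T` of order `r` fixes some `m`-dimensional subspace (the action on `m`-spaces is `r`-elusive) if and only if `r ≠ p` and either (i) `i = 1` and (`r ∣ m`, or `(q−1)_r ≥ (n)_r` where in addition `q ≡ 1 (mod 4)` is required when `r = 2` and `n` is even), or (ii) `2 ≤ i ≤ m` and `n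 mod i ≥ m mod i`. -/
theorem result {F : Type*} [Field F] [Fintype F] {p : ℕ} [Fact p.Prime] [CharP F p] {q : ℕ} (hq : Fintype.card F = q)
    (n m : ℕ) (hn : 2 ≤ n) (hT : (n, q) ≠ (2, 2) ∧ (n, q) ≠ (2, 3)) (hm : 1 ≤ m) (hmn : 2 * m ≤ n)
    (r : ℕ) [Fact r.Prime] (hrΩ : r ∣ Nat.card {W : Submodule F (Fin n → F) // Module.finrank F ↥W = m}) :
    (∀ x : Matrix.SpecialLinearGroup (Fin n) F,
      (∃ c : F, ((x ^ r : Matrix.SpecialLinearGroup (Fin n) F) : Matrix (Fin n) (Fin n) F) = c • (1 : Matrix (Fin n) (Fin n) F)) →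
      (∀ c : F, (x : Matrix (Fin n) (Fin n) F) ≠ c • (1 : Matrix (Fin n) (Fin n) F)) →
      ∃ W : Submodule F (Fin n → F), Module.finrank F ↥W = m ∧ W.map (Matrix.toLin' (x : Matrix (Fin n) (Fin n) F)) ≤ W) ↔
    (r ≠ p ∧
      ((orderOf (q : ZMod r) = 1 ∧ (r ∣ m ∨ (padicValNat r n ≤ padicValNat r (q - 1) ∧ (r = 2 → Even n → q % 4 = 1)))) ∨
       (2 ≤ orderOf (q : ZMod r) ∧ orderOf (q : ZMod r) ≤ m ∧ m % orderOf (q : ZMod r) ≤ n % orderOf (q : ZMod r)))) := by
  classical
  subst hq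
  have hr : r.Prime := Fact.out
  have hfin : Module.finrank F (Fin n → F) = n := Module.finrank_fin_fun F
  obtain ⟨j, hj, hj2⟩ := CfsgLib.Semi29.dvd_count hr (by rw [hfin]; omega) hrΩ
  rw [hfin] at hj2
  have hrp : r ≠ p := by
    rintro rfl
    exact CfsgLib.Semi29.not_dvd_char (F := F) (by omega) hj2
  constructor
  · intro hL
    have hL' : ∀ x : Matrix.SpecialLinearGroup (Fin n) F,
        (∃ c : F, ((x ^ r : Matrix.SpecialLinearGroup (Fin n) F) : Matrix (Fin n) (Fin n) F) = c • (1 : Matrix (Fin n) (Fin n) F)) →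
        (∀ c : F, (x : Matrix (Fin n) (Fin n) F) ≠ c • (1 : Matrix (Fin n) (Fin n) F)) →
        ∃ W : Submodule F (Fin n → F), Module.finrank F ↥W = m ∧ CfsgLib.Semi29.Inv (Matrix.toLin' (x : Matrix (Fin n) (Fin n) F)) W := by
      intro x h1 h2
      obtain ⟨W, h3, h4⟩ := hL x h1 h2
      exact ⟨W, h3, (CfsgLib.Semi29.map_le_iff _ W).1 h4⟩
    refine ⟨hrp, ?_⟩
    have hpos : 0 < orderOf ((Fintype.card F : ℕ) : ZMod r) := by
      have h1 := (CfsgLib.Semi29.dvd_of_order hr Fintype.card_pos (n - j)).1 hj2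
      rcases Nat.eq_zero_or_pos (orderOf ((Fintype.card F : ℕ) : ZMod r)) with h2 | h2
      · rw [h2, zero_dvd_iff] at h1
        omega
      · exact h2
    rcases Nat.lt_or_ge (orderOf ((Fintype.card F : ℕ) : ZMod r)) 2 with h1 | h1
    · left
      have h2 : orderOf ((Fintype.card F : ℕ) : ZMod r) = 1 := by omega
      exact ⟨h2, CfsgLib.Semi29.onlyif_one hrp (by omega) m h2 hL'⟩
    · right
      exact ⟨h1, CfsgLib.Semi29.onlyif_two hrp m hm h1 hmn ⟨j, hj, hj2⟩ hL'⟩
  · rintro ⟨_, hcond⟩ x ⟨c, hc⟩ _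
    obtain ⟨U1, U2, h1, _, _, h4, _⟩ := CfsgLib.Semi29.forward hrp (by omega : 0 < n) m 0 (Or.inl rfl) (by omega) (by
      rcases hcond with h | ⟨h, h', h''⟩
      · exact Or.inl h
      · exact Or.inr ⟨h, h', by rw [Nat.zero_mod, add_zero]; exact h''⟩) x hc
    exact ⟨U1, h4, (CfsgLib.Semi29.map_le_iff _ U1).2 h1⟩

end Cfsg.Agent.S5949
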