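import Cfsg.Statements.S5950
import Mathlib
import Cfsg.Agent.LibSemi29g

set_option autoImplicit false
open scoped MatrixGroups
open Cfsg

namespace Cfsg.Agent.S5950



/-- Elements of prime order of PSL_n(q) fixing no decomposition `F^n = U ⊕ W` with `dim U = m`. Here `T = PSL_n(F)` for a field `F` with `q = p^f` elements (`n ≥ 2`, `(n, q) ≠ (2, 2), (2, 3)`); an element of `T` of prime order `r` is represented by a matrix `x` of determinant 1 with `x^r` scalar and `x` not scalar; `i` denotes the multiplicative order of `q` modulo `r` (when `r ≠ p`), and `(a)_r` the `r`-part of `a`. Let `n ≥ 3`, `1 ≤ m < n/2`, and let `r` be a prime dividing the number of such decompositions (unordered pairs `{U, W}` of complementary subspaces with `dim U = m`; since `m ≠ n − m` these are the ordered pairs with `dim U = m`). Then every element of `T` of order `r` fixes such a pair (fixes both `U` and `W` for some complementary `U, W` with `dim U = m`) if and only if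 one of: (i) `r = p > 2` and every partition of `n` into parts of size at most `p` contains, as a sub-multiset, a partition of `m`; (ii) `r = p = 2` and `n` is odd or `m` is even; (iii) `r ≠ p`, `i = 1`, and `r ∣ m` or `(q−1)_r ≥ (n)_r` (with `q ≡ 1 (mod 4)` required when `r = 2` and `n` is even); (iv) `r ≠ p`, `2 ≤ i ≤ m` and `n mod i ≥ m mod i`. -/
theorem result {F : Type*} [Field F] [Fintype F] {p : ℕ} [Fact p.Prime] [CharP F p] {q : ℕ} (hq : Fintype.card F = q)
    (n m : ℕ) (hn : 3 ≤ n) (hm : 1 ≤ m) (hmn : 2 * m < n)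
    (r : ℕ) [Fact r.Prime]
    (hrΩ : r ∣ Nat.card {P : Submodule F (Fin n → F) × Submodule F (Fin n → F) // IsCompl P.1 P.2 ∧ Module.finrank F ↥P.1 = m}) :
    (∀ x : Matrix.SpecialLinearGroup (Fin n) F,
      (∃ c : F, ((x ^ r : Matrix.SpecialLinearGroup (Fin n) F) : Matrix (Fin n) (Fin n) F) = c • (1 : Matrix (Fin n) (Fin n) F)) →
      (∀ c : F, (x : Matrix (Fin n) (Fin n) F) ≠ c • (1 : Matrix (Fin n) (Fin n) F)) →
      ∃ U W : Submodule F (Fin n → F), IsCompl U W ∧ Module.finrank F ↥U = m ∧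
        U.map (Matrix.toLin' (x : Matrix (Fin n) (Fin n) F)) ≤ U ∧ W.map (Matrix.toLin' (x : Matrix (Fin n) (Fin n) F)) ≤ W) ↔
    ((r = p ∧ 2 < p ∧ (∀ μ : Multiset ℕ, (∀ a ∈ μ, 0 < a ∧ a ≤ p) → μ.sum = n → ∃ ν : Multiset ℕ, ν ≤ μ ∧ ν.sum = m)) ∨
     (r = p ∧ p = 2 ∧ (Odd n ∨ Even m)) ∨
     (r ≠ p ∧
      ((orderOf (q : ZMod r) = 1 ∧ (r ∣ m ∨ (padicValNat r n ≤ padicValNat r (q - 1) ∧ (r = 2 → Even n → q % 4 = 1)))) ∨
       (2 ≤ orderOf (q : ZMod r) ∧ orderOf (q : ZMod r) ≤ m ∧ m % orderOf (q : ZMod r) ≤ n % orderOf (q : ZMod r))))) := by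
  classical
  subst hq
  have hr : r.Prime := Fact.out
  have hfin : Module.finrank F (Fin n → F) = n := Module.finrank_fin_fun F
  have hiff : (∀ x : Matrix.SpecialLinearGroup (Fin n) F,
      (∃ c : F, ((x ^ r : Matrix.SpecialLinearGroup (Fin n) F) : Matrix (Fin n) (Fin n) F) = c • (1 : Matrix (Fin n) (Fin n) F)) →
      (∀ c : F, (x : Matrix (Fin n) (Fin n) F) ≠ c • (1 : Matrix (Fin n) (Fin n) F)) →
      ∃ U W : Submodule F (Fin n → F), IsCompl U W ∧ Module.finrank F ↥U = m ∧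
        U.map (Matrix.toLin' (x : Matrix (Fin n) (Fin n) F)) ≤ U ∧ W.map (Matrix.toLin' (x : Matrix (Fin n) (Fin n) F)) ≤ W) ↔
      (∀ x : Matrix.SpecialLinearGroup (Fin n) F,
      (∃ c : F, ((x ^ r : Matrix.SpecialLinearGroup (Fin n) F) : Matrix (Fin n) (Fin n) F) = c • (1 : Matrix (Fin n) (Fin n) F)) →
      (∀ c : F, (x : Matrix (Fin n) (Fin n) F) ≠ c • (1 : Matrix (Fin n) (Fin n) F)) →
      ∃ U W : Submodule F (Fin n → F), IsCompl U W ∧ Module.finrank F ↥U = m ∧
        CfsgLib.Semi29.Inv (Matrix.toLin' (x : Matrix (Fin n) (Fin n) F)) U ∧ CfsgLib.Semi29.Inv (Matrix.toLin' (x : Matrix (Fin n) (Fin n) F)) W) := by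
    simp only [CfsgLib.Semi29.map_le_iff]
  rw [hiff]
  by_cases hrp : r = p
  · subst hrp
    rw [CfsgLib.Semi29.pairs_char (F := F) n m (by omega) (by omega)]
    rcases Nat.lt_or_ge 2 r with h2 | h2
    · constructor
      · intro h; exact Or.inl ⟨rfl, h2, h⟩
      · rintro (⟨_, _, h⟩ | ⟨_, h3, _⟩ | ⟨h3, _⟩)
        · exact h
        · omega
        · exact absurd rfl h3
    · have h3 : r = 2 := le_antisymm h2 hr.two_le
      have h4 := CfsgLib.Semi29.part_two (n := n) (m := m) hmn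
      subst h3
      rw [h4]
      constructor
      · intro h; exact Or.inr (Or.inl ⟨rfl, rfl, h⟩)
      · rintro (⟨_, h5, _⟩ | ⟨_, _, h⟩ | ⟨h5, _⟩)
        · omega
        · exact h
        · exact absurd rfl h5
  obtain ⟨j, hj, hj2⟩ := CfsgLib.Semi29.dvd_count_pairs (F := F) (V := Fin n → F) (p := p) (m := m) hr hrp (by rw [hfin]; omega) hrΩ
  rw [hfin] at hj2
  constructor
  · intro hL
    refine Or.inr (Or.inr ⟨hrp, ?_⟩)
    have hL' : ∀ x : Matrix.SpecialLinearGroup (Fin n) F,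
        (∃ c : F, ((x ^ r : Matrix.SpecialLinearGroup (Fin n) F) : Matrix (Fin n) (Fin n) F) = c • (1 : Matrix (Fin n) (Fin n) F)) →
        (∀ c : F, (x : Matrix (Fin n) (Fin n) F) ≠ c • (1 : Matrix (Fin n) (Fin n) F)) →
        ∃ W : Submodule F (Fin n → F), Module.finrank F ↥W = m ∧ CfsgLib.Semi29.Inv (Matrix.toLin' (x : Matrix (Fin n) (Fin n) F)) W := by
      intro x h1 h2
      obtain ⟨U, W, h3, h4, h5, h6⟩ := hL x h1 h2
      exact ⟨U, h4, h5⟩
    have hpos : 0 < orderOf ((Fintype.card F : ℕ) : ZMod r) := by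
      have h1 := (CfsgLib.Semi29.dvd_of_order hr Fintype.card_pos (n - j)).1 hj2
      rcases Nat.eq_zero_or_pos (orderOf ((Fintype.card F : ℕ) : ZMod r)) with h2 | h2
      · rw [h2, zero_dvd_iff] at h1
        omega
      · exact h2
    rcases Nat.lt_or_ge (orderOf ((Fintype.card F : ℕ) : ZMod r)) 2 with h1 | h1
    · left
      have h2 : orderOf ((Fintype.card F : ℕ) : ZMod r) = 1 := by omega
      exact ⟨h2, CfsgLib.Semi29.onlyif_one hrp (by omega) m h2 hL'⟩
    · right
      exact ⟨h1, CfsgLib.Semi29.onlyif_two hrp m hm h1 hmn.le ⟨j, hj, hj2⟩ hL'⟩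
  · rintro (⟨h1, _⟩ | ⟨h1, _⟩ | ⟨_, hcond⟩) x ⟨c, hc⟩ _
    · exact absurd h1 hrp
    · exact absurd h1 hrp
    · obtain ⟨U1, U2, h1, _, _, h4, _⟩ := CfsgLib.Semi29.forward hrp (by omega : 0 < n) m 0 (Or.inl rfl) (by omega) (by
        rcases hcond with h | ⟨h, h', h''⟩
        · exact Or.inl h
        · exact Or.inr ⟨h, h', by rw [Nat.zero_mod, add_zero]; exact h''⟩) x hc
      have hT := CfsgLib.Semi29.toLin_pow x hc
      have hc0 : c ≠ 0 := by
        rintro rfl
        rw [zero_smul] at hc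
        have h6 := congrArg Matrix.det hc
        haveI : Nonempty (Fin n) := Fin.pos_iff_nonempty.1 (by omega)
        rw [(x ^ r).2, Matrix.det_zero] at h6
        exact one_ne_zero h6
      have hS := CfsgLib.Semi29.semi_of_pow hr hrp hc0 _ hT
      obtain ⟨C, hC1, hC2⟩ := hS U1 h1
      exact ⟨U1, C, hC2, h4, h1, hC1⟩

end Cfsg.Agent.S5950
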