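import Cfsg.Statements.S5951
import Mathlib
import Cfsg.Agent.LibSemi29f

set_option autoImplicit false
open scoped MatrixGroups
open Cfsg

namespace Cfsg.Agent.S5951



/-- Elements of prime order of PSL_n(q) fixing no pair of subspaces `U < W` with `dim U = m`, `dim W = n − m`. Here `T = PSL_n(F)` for a field `F` with `q = p^f` elements (`n ≥ 2`, `(n, q) ≠ (2, 2), (2, 3)`); an element of `T` of prime order `r` is represented by a matrix `x` of determinant 1 with `x^r` scalar and `x` not scalar; `i` denotes the multiplicative order of `q` modulo `r` (when `r ≠ p`), and `(a)_r` the `r`-part of `a`. Let `1 ≤ m < n/2` and let `r` be a prime dividing the number of such pairs. Then every element of `T` of order `r` fixes such a pair (both `U` and `W`) if and only if `r ≠ p` and either (i) `i = 1` and (`r ∣ m`, or `(q−1)_r ≥ (n)_r` with `q ≡ 1 (mod 4)` required when `r = 2` and `n` is even), or (ii) `2 ≤ i ≤ m` and `n mod i ≥ 2 (m mod i)`.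 -/
theorem result {F : Type*} [Field F] [Fintype F] {p : ℕ} [Fact p.Prime] [CharP F p] {q : ℕ} (hq : Fintype.card F = q)
    (n m : ℕ) (hn : 2 ≤ n) (hT : (n, q) ≠ (2, 2) ∧ (n, q) ≠ (2, 3)) (hm : 1 ≤ m) (hmn : 2 * m < n)
    (r : ℕ) [Fact r.Prime]
    (hrΩ : r ∣ Nat.card {P : Submodule F (Fin n → F) × Submodule F (Fin n → F) //
        P.1 ≤ P.2 ∧ Module.finrank F ↥P.1 = m ∧ Module.finrank F ↥P.2 = n - m}) :
    (∀ x : Matrix.SpecialLinearGroup (Fin n) F,
      (∃ c : F, ((x ^ r : Matrix.SpecialLinearGroup (Fin n) F) : Matrix (Fin n) (Fin n) F) = c • (1 : Matrix (Fin n) (Fin n) F)) →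
      (∀ c : F, (x : Matrix (Fin n) (Fin n) F) ≠ c • (1 : Matrix (Fin n) (Fin n) F)) →
      ∃ U W : Submodule F (Fin n → F), U ≤ W ∧ Module.finrank F ↥U = m ∧ Module.finrank F ↥W = n - m ∧
        U.map (Matrix.toLin' (x : Matrix (Fin n) (Fin n) F)) ≤ U ∧ W.map (Matrix.toLin' (x : Matrix (Fin n) (Fin n) F)) ≤ W) ↔
    (r ≠ p ∧
      ((orderOf (q : ZMod r) = 1 ∧ (r ∣ m ∨ (padicValNat r n ≤ padicValNat r (q - 1) ∧ (r = 2 → Even n → q % 4 = 1)))) ∨
       (2 ≤ orderOf (q : ZMod r) ∧ orderOf (q : ZMod r) ≤ m ∧ 2 * (m % orderOf (q : ZMod r)) ≤ n % orderOf (q : ZMod r)))) := by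
  classical
  subst hq
  have hr : r.Prime := Fact.out
  have hfin : Module.finrank F (Fin n → F) = n := Module.finrank_fin_fun F
  obtain ⟨j, hj, hj2⟩ := CfsgLib.Semi29.dvd_count_flags (F := F) (V := Fin n → F) (m := m) hr (by rw [hfin]; omega) (by rw [hfin]; exact hrΩ)
  rw [hfin] at hj2
  have hrp : r ≠ p := by
    rintro rfl
    exact CfsgLib.Semi29.not_dvd_char (F := F) (by omega) hj2
  constructor
  · intro hL
    have hL' : ∀ x : Matrix.SpecialLinearGroup (Fin n) F,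
        (∃ c : F, ((x ^ r : Matrix.SpecialLinearGroup (Fin n) F) : Matrix (Fin n) (Fin n) F) = c • (1 : Matrix (Fin n) (Fin n) F)) →
        (∀ c : F, (x : Matrix (Fin n) (Fin n) F) ≠ c • (1 : Matrix (Fin n) (Fin n) F)) →
        ∃ U W : Submodule F (Fin n → F), U ≤ W ∧ Module.finrank F ↥U = m ∧ Module.finrank F ↥W = n - m ∧
          CfsgLib.Semi29.Inv (Matrix.toLin' (x : Matrix (Fin n) (Fin n) F)) U ∧ CfsgLib.Semi29.Inv (Matrix.toLin' (x : Matrix (Fin n) (Fin n) F)) W := by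
      intro x h1 h2
      obtain ⟨U, W, h3, h4, h5, h6, h7⟩ := hL x h1 h2
      exact ⟨U, W, h3, h4, h5, (CfsgLib.Semi29.map_le_iff _ U).1 h6, (CfsgLib.Semi29.map_le_iff _ W).1 h7⟩
    refine ⟨hrp, ?_⟩
    have hpos : 0 < orderOf ((Fintype.card F : ℕ) : ZMod r) := by
      have h1 := (CfsgLib.Semi29.dvd_of_order hr Fintype.card_pos (n - j)).1 hj2
      rcases Nat.eq_zero_or_pos (orderOf ((Fintype.card F : ℕ) : ZMod r)) with h2 | h2
      · rw [h2, zero_dvd_iff] at h1
        omega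
      · exact h2
    rcases Nat.lt_or_ge (orderOf ((Fintype.card F : ℕ) : ZMod r)) 2 with h1 | h1
    · left
      have h2 : orderOf ((Fintype.card F : ℕ) : ZMod r) = 1 := by omega
      refine ⟨h2, CfsgLib.Semi29.onlyif_one hrp (by omega) m h2 ?_⟩
      intro x h3 h4
      obtain ⟨U, W, h5, h6, h7, h8, h9⟩ := hL' x h3 h4
      exact ⟨U, h6, h8⟩
    · right
      exact ⟨h1, CfsgLib.Semi29.onlyif_flag hrp m hm h1 hmn.le ⟨j, hj, hj2⟩ hL'⟩
  · rintro ⟨_, hcond⟩ x ⟨c, hc⟩ _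
    obtain ⟨U1, U2, h1, h2, h3, h4, h5⟩ := CfsgLib.Semi29.forward hrp (by omega : 0 < n) m m (Or.inr rfl) (by omega) (by
      rcases hcond with h | ⟨h, h', h''⟩
      · exact Or.inl h
      · exact Or.inr ⟨h, h', by rw [← two_mul]; exact h''⟩) x hc
    have hT := CfsgLib.Semi29.toLin_pow x hc
    have hc0 : c ≠ 0 := by
      rintro rfl
      rw [zero_smul] at hc
      have h6 := congrArg Matrix.det hc
      haveI : Nonempty (Fin n) := Fin.pos_iff_nonempty.1 (by omega)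
      rw [(x ^ r).2, Matrix.det_zero] at h6
      exact one_ne_zero h6
    have hS := CfsgLib.Semi29.semi_of_pow hr hrp hc0 _ hT
    obtain ⟨C, hC1, hC2⟩ := hS (U1 ⊔ U2) (h1.sup h2)
    have h6 : U1 ⊓ C = ⊥ := by
      rw [eq_bot_iff, ← hC2.inf_eq_bot]
      exact inf_le_inf_right _ le_sup_left
    have h7 := CfsgLib.Semi29.finrank_add h6 rfl
    have h8 := CfsgLib.Semi29.finrank_add h3 rfl
    have h9 := Submodule.finrank_add_eq_of_isCompl hC2
    rw [hfin] at h9
    refine ⟨U1, U1 ⊔ C, le_sup_left, h4, by omega, (CfsgLib.Semi29.map_le_iff _ U1).2 h1, (CfsgLib.Semi29.map_le_iff _ _).2 (h1.sup hC1)⟩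

end Cfsg.Agent.S5951
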