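import Cfsg.Statements.S5952
import Mathlib


set_option autoImplicit false
open Cfsg

namespace Cfsg.Agent.S5952

open Module in
theorem step {F V : Type*} [Field F] [AddCommGroup V] [Module F V] [FiniteDimensional F V]
    (s : ℕ) (U : Fin (s+1) → Submodule F V) (hind : iSupIndep U) :
    (⨆ j, U j = (⨆ j : Fin s, U j.castSucc) ⊔ U (Fin.last s)) ∧ Disjoint (⨆ j : Fin s, U j.castSucc) (U (Fin.last s)) := by
  constructor
  · apply le_antisymm
    · apply iSup_le
      intro j
      refine Fin.lastCases ?_ (fun i => ?_) j
      · exact le_sup_right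
      · exact (le_iSup (fun j : Fin s => U j.castSucc) i).trans le_sup_left
    · apply sup_le
      · exact iSup_le fun i => le_iSup U i.castSucc
      · exact le_iSup U _
  · have h1 := hind (Fin.last s)
    refine (h1.mono_right ?_).symm
    apply iSup_le
    intro i
    exact le_iSup₂_of_le i.castSucc (Fin.castSucc_lt_last i).ne le_rfl

open Module in
theorem finrank_iSup_eq {F V : Type*} [Field F] [AddCommGroup V] [Module F V] [FiniteDimensional F V]
    {a : ℕ} (s : ℕ) (U : Fin s → Submodule F V)
    (hUdim : ∀ j, Module.finrank F ↥(U j) = a) (hind : iSupIndep U) :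
    finrank F (⨆ j, U j : Submodule F V) = s * a := by
  induction s with
  | zero => simp
  | succ s ih =>
    obtain ⟨h1, h2⟩ := step s U hind
    have h3 := Submodule.finrank_sup_add_finrank_inf_eq (⨆ j : Fin s, U j.castSucc) (U (Fin.last s))
    rw [h2.eq_bot, finrank_bot, add_zero, ih (fun j => U j.castSucc) (fun j => hUdim _) (hind.comp (Fin.castSucc_injective s)), hUdim] at h3
    rw [h1, h3]; ring

open Module in
/-- an invariant subspace of a sum of irreducible subspaces of dimension `a` has dimension divisible by `a` -/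
theorem dvd_finrank {F V : Type*} [Field F] [AddCommGroup V] [Module F V] [FiniteDimensional F V]
    (f : V →ₗ[F] V) {a : ℕ} (s : ℕ) (U : Fin s → Submodule F V)
    (hUinv : ∀ j, (U j).map f ≤ U j) (hUdim : ∀ j, Module.finrank F ↥(U j) = a)
    (hUirr : ∀ j, ∀ W : Submodule F V, W ≤ U j → W.map f ≤ W → W = ⊥ ∨ W = U j)
    (hind : iSupIndep U) (X : Submodule F V) (hX : X ≤ ⨆ j, U j) (hXinv : X.map f ≤ X) :
    ∃ k ≤ s, finrank F X = k * a := by
  induction s generalizing X with
  | zero =>
    refine ⟨0, le_refl _, ?_⟩
    have : X = ⊥ := by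
      rw [eq_bot_iff]; refine hX.trans ?_
      simp
    rw [this]; simp
  | succ s ih =>
    obtain ⟨hsup, hdisj⟩ := step s U hind
    set U' : Submodule F V := ⨆ j : Fin s, U j.castSucc with hU'
    have hU'inv : U'.map f ≤ U' := by
      rw [hU', Submodule.map_iSup]
      exact iSup_mono fun j => hUinv _
    obtain ⟨k, hk, hk2⟩ := ih (fun j => U j.castSucc) (fun j => hUinv _) (fun j => hUdim _) (fun j => hUirr _)
      (hind.comp (Fin.castSucc_injective s)) (X ⊓ U') inf_le_right (by
        refine le_inf ?_ ?_
        · exact (Submodule.map_mono inf_le_left).trans hXinv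
        · exact (Submodule.map_mono inf_le_right).trans hU'inv)
    set Y := U (Fin.last s) ⊓ (X ⊔ U') with hY
    have hYinv : Y.map f ≤ Y := by
      refine le_inf ?_ ?_
      · exact (Submodule.map_mono inf_le_left).trans (hUinv _)
      · refine (Submodule.map_mono inf_le_right).trans ?_
        rw [Submodule.map_sup]
        exact sup_le_sup hXinv hU'inv
    have hXY : X ⊔ U' = U' ⊔ Y := by
      have h1 : (U' ⊔ U (Fin.last s)) ⊓ (X ⊔ U') = U' ⊔ U (Fin.last s) ⊓ (X ⊔ U') :=
        sup_inf_assoc_of_le _ le_sup_right
      rw [← hY] at h1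
      rw [← h1]
      refine (inf_eq_right.mpr ?_).symm
      exact sup_le (hX.trans hsup.le) le_sup_left
    have h3 := Submodule.finrank_sup_add_finrank_inf_eq X U'
    have h4 := Submodule.finrank_sup_add_finrank_inf_eq U' Y
    have h5 : U' ⊓ Y = ⊥ := by
      rw [eq_bot_iff]
      exact (inf_le_inf_left _ inf_le_left).trans hdisj.le_bot
    rw [h5, finrank_bot, add_zero] at h4
    rw [hXY, h4, hk2] at h3
    rcases hUirr (Fin.last s) Y inf_le_left hYinv with h6 | h6
    · rw [h6, finrank_bot] at h3
      exact ⟨k, by omega, by omega⟩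
    · rw [h6, hUdim] at h3
      refine ⟨k + 1, by omega, ?_⟩
      rw [add_mul, one_mul]; omega

theorem exists_sub {F V : Type*} [Field F] [AddCommGroup V] [Module F V] [FiniteDimensional F V]
    (C : Submodule F V) (m : ℕ) (hm : m ≤ Module.finrank F C) : ∃ W ≤ C, Module.finrank F W = m := by
  obtain ⟨b, hb⟩ : ∃ b : Fin (Module.finrank F C) → C, LinearIndependent F b :=
    ⟨Module.finBasis F C, (Module.finBasis F C).linearIndependent⟩
  let v : Fin m → V := fun i => (b (Fin.castLE hm i) : V)
  have hv : LinearIndependent F v := by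
    have h1 : LinearIndependent F (fun i => ((b i : C) : V)) := hb.map' C.subtype (Submodule.ker_subtype _)
    exact h1.comp _ (Fin.castLE_injective hm)
  refine ⟨Submodule.span F (Set.range v), ?_, ?_⟩
  · rw [Submodule.span_le]
    rintro _ ⟨i, rfl⟩
    exact (b _).2
  · rw [finrank_span_eq_card hv, Fintype.card_fin]

/-- Which dimensions of invariant subspaces a semisimple linear map has. Let `V` be a finite-dimensional vector space over a field `F` and `f` an invertible semisimple linear map of `V`. Suppose `V` is the internal direct sum of the fixed space `C_V(f)` (the eigenspace for 1) and subspaces `U_1, …, U_s`, each `f`-invariant of dimension `a ≥ 1` on which `f` acts irreducibly (no `f`-invariant subspaces other than 0 and `U_j`). Let `0 < m < dim V` and `ℓ = m mod a`. Then `f` leaves some `m`-dimensional subspace invariant if and only if `dim C_V(f) ≥ m`, or `a ≤ m` and `dim C_V(f) ≥ ℓ`. -/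
theorem result {F V : Type*} [Field F] [AddCommGroup V] [Module F V]
    [FiniteDimensional F V] (f : V →ₗ[F] V) (hf : Function.Bijective f) (hss : Module.End.IsSemisimple f)
    {s a : ℕ} (ha : 1 ≤ a) (U : Fin s → Submodule F V)
    (hUinv : ∀ j, (U j).map f ≤ U j) (hUdim : ∀ j, Module.finrank F ↥(U j) = a)
    (hUirr : ∀ j, ∀ W : Submodule F V, W ≤ U j → W.map f ≤ W → W = ⊥ ∨ W = U j)
    (hdec : DirectSum.IsInternal (fun o : Option (Fin s) => o.elim (Module.End.eigenspace f 1) U))
    (m : ℕ) (hm : 0 < m) (hmV : m < Module.finrank F V) :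
    (∃ W : Submodule F V, Module.finrank F ↥W = m ∧ W.map f ≤ W) ↔
    (m ≤ Module.finrank F ↥(Module.End.eigenspace f 1) ∨
      (a ≤ m ∧ m % a ≤ Module.finrank F ↥(Module.End.eigenspace f 1))) := by
  classical
  set C := Module.End.eigenspace f 1 with hC
  obtain ⟨hind, htop⟩ := (DirectSum.isInternal_submodule_iff_iSupIndep_and_iSup_eq_top _).mp hdec
  rw [iSup_option_elim] at htop
  have hindU : iSupIndep U := by
    have := hind.comp (Option.some_injective (Fin s))
    exact this
  have hdisj : Disjoint C (⨆ j, U j) := by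
    have h1 := hind none
    refine h1.mono_right ?_
    apply iSup_le
    intro j
    exact le_iSup₂_of_le (f := fun (o : Option (Fin s)) (_ : o ≠ none) => o.elim C U) (some j) (Option.some_ne_none j) le_rfl
  have hCf : ∀ v ∈ C, f v = v := by
    intro v hv
    rw [hC, Module.End.mem_eigenspace_iff, one_smul] at hv
    exact hv
  have hdimV : Module.finrank F V = Module.finrank F C + s * a := by
    have h1 := Submodule.finrank_sup_add_finrank_inf_eq C (⨆ j, U j)
    rw [htop, hdisj.eq_bot, finrank_bot, finrank_top, add_zero, finrank_iSup_eq s U hUdim hindU] at h1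
    exact h1
  constructor
  · rintro ⟨W, hWm, hWinv⟩
    set X := W.map (f - LinearMap.id) with hX
    have hXinv : X.map f ≤ X := by
      rintro _ ⟨_, ⟨w, hw, rfl⟩, rfl⟩
      refine ⟨f w, hWinv ⟨w, hw, rfl⟩, ?_⟩
      simp
    have hXU : X ≤ ⨆ j, U j := by
      have h1 : X ≤ (⊤ : Submodule F V).map (f - LinearMap.id) := Submodule.map_mono le_top
      refine h1.trans ?_
      rw [← htop, Submodule.map_sup, Submodule.map_iSup]
      apply sup_le
      · rintro _ ⟨c, hc, rfl⟩
        have : (f - LinearMap.id : V →ₗ[F] V) c = 0 := by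
          rw [LinearMap.sub_apply, hCf c hc, LinearMap.id_apply, sub_self]
        rw [this]; exact Submodule.zero_mem _
      · apply iSup_mono
        intro j
        rintro _ ⟨u, hu, rfl⟩
        rw [LinearMap.sub_apply]
        exact Submodule.sub_mem _ (hUinv j ⟨u, hu, rfl⟩) hu
    obtain ⟨k, hk, hk2⟩ := dvd_finrank f s U hUinv hUdim hUirr hindU X hXU hXinv
    have hrn : Module.finrank F W = Module.finrank F (W ⊓ C : Submodule F V) + Module.finrank F X := by
      have h1 := LinearMap.finrank_range_add_finrank_ker ((f - LinearMap.id : V →ₗ[F] V).domRestrict W)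
      have h2 : LinearMap.range ((f - LinearMap.id : V →ₗ[F] V).domRestrict W) = X := by
        rw [LinearMap.range_domRestrict]
      have h3 : Module.finrank F (LinearMap.ker ((f - LinearMap.id : V →ₗ[F] V).domRestrict W)) = Module.finrank F (W ⊓ C : Submodule F V) := by
        have h4 : LinearMap.ker ((f - LinearMap.id : V →ₗ[F] V).domRestrict W) = (W ⊓ C).comap W.subtype := by
          ext w
          simp only [LinearMap.mem_ker, LinearMap.domRestrict_apply, LinearMap.sub_apply, LinearMap.id_apply, Submodule.mem_comap,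
            Submodule.subtype_apply, Submodule.mem_inf, Submodule.coe_mem, true_and, hC, Module.End.mem_eigenspace_iff, one_smul]
          exact sub_eq_zero
        rw [h4]
        exact (Submodule.comapSubtypeEquivOfLe (inf_le_left : W ⊓ C ≤ W)).finrank_eq
      rw [h2, h3] at h1
      omega
    have hle : Module.finrank F (W ⊓ C : Submodule F V) ≤ Module.finrank F C := Submodule.finrank_mono inf_le_right
    rw [hWm, hk2] at hrn
    by_cases hcase : m ≤ Module.finrank F C
    · exact Or.inl hcase
    · right
      have hk1 : 1 ≤ k := by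
        rcases Nat.eq_zero_or_pos k with rfl | h
        · omega
        · exact h
      refine ⟨?_, ?_⟩
      · have : a ≤ k * a := Nat.le_mul_of_pos_left a hk1
        omega
      · rw [hrn, Nat.add_mul_mod_self_right]
        exact (Nat.mod_le _ _).trans hle
  · intro h
    by_cases hcase : m ≤ Module.finrank F C
    · obtain ⟨W, hWC, hW⟩ := exists_sub C m hcase
      refine ⟨W, hW, ?_⟩
      rintro _ ⟨w, hw, rfl⟩
      rw [hCf w (hWC hw)]; exact hw
    · obtain ⟨ham, hmod⟩ := h.resolve_left hcase
      obtain ⟨k, c, hks, hcC, hkc⟩ : ∃ k c, k ≤ s ∧ c ≤ Module.finrank F C ∧ m = c + k * a := by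
        by_cases h1 : m / a ≤ s
        · exact ⟨m / a, m % a, h1, hmod, by rw [mul_comm]; exact (Nat.mod_add_div m a).symm⟩
        · have h2 : s * a ≤ m := by
            push Not at h1
            calc s * a ≤ (m / a) * a := Nat.mul_le_mul_right a h1.le
              _ ≤ m := Nat.div_mul_le_self m a
          exact ⟨s, m - s * a, le_rfl, by omega, by omega⟩
      obtain ⟨W, hWC, hW⟩ := exists_sub C c hcC
      set U1 : Submodule F V := ⨆ j : Fin k, U (Fin.castLE hks j) with hU1
      have hU1U : U1 ≤ ⨆ j, U j := iSup_le fun j => le_iSup U _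
      have hU1inv : U1.map f ≤ U1 := by
        rw [hU1, Submodule.map_iSup]
        exact iSup_mono fun j => hUinv _
      have hU1dim : Module.finrank F U1 = k * a :=
        finrank_iSup_eq k (fun j => U (Fin.castLE hks j)) (fun j => hUdim _) (hindU.comp (Fin.castLE_injective hks))
      refine ⟨W ⊔ U1, ?_, ?_⟩
      · have h1 := Submodule.finrank_sup_add_finrank_inf_eq W U1
        have h2 : W ⊓ U1 = ⊥ := by
          rw [eq_bot_iff]
          exact (inf_le_inf hWC hU1U).trans hdisj.le_bot
        rw [h2, finrank_bot, add_zero, hW, hU1dim] at h1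
        omega
      · rw [Submodule.map_sup]
        refine sup_le_sup ?_ hU1inv
        rintro _ ⟨w, hw, rfl⟩
        rw [hCf w (hWC hw)]; exact hw

end Cfsg.Agent.S5952
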