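import Cfsg.Statements.S5959
import Mathlib
import Cfsg.Agent.LibNil29e

set_option autoImplicit false
open scoped MatrixGroups
open Cfsg

namespace Cfsg.Agent.S5959



/-- Elements of order `p` of PSL_n(q) and imprimitive subgroups: a necessary condition. Here `T = PSL_n(F)` for a field `F` with `q = p^f` elements (`n ≥ 2`, `(n, q) ≠ (2, 2), (2, 3)`), `n = a·t` with `t ≥ 2`, and Ω is the set of direct-sum decompositions of `F^n` into `t` subspaces of dimension `a` (unordered; their number is the number of ordered ones divided by `t!`), whose stabilizers are the imprimitive subgroups of type GL_a(q) ≀ S_t (maximal except in some small cases; maximality is not assumed); an element of `T` of prime order `r` (a matrix `x` of determinant 1 with `x^r` scalar, `x` not scalar) fixes a point of Ω when it permutes the summands of some such decomposition. Suppose `p > 2` divides the number of such decompositions. If every element of `T` of order `p` stabilizes such a decomposition, then every partition of `n` into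 parts of size at most `p` in which the part `p` occurs fewer than `a` times contains (as a sub-multiset) a partition of `a`. -/
theorem result {F : Type*} [Field F] [Fintype F] {p : ℕ} [Fact p.Prime] [CharP F p] {q : ℕ} (hq : Fintype.card F = q)
    (n a t : ℕ) (hn : 2 ≤ n) (hT : (n, q) ≠ (2, 2) ∧ (n, q) ≠ (2, 3)) (hat : n = a * t) (ha : 1 ≤ a) (ht : 2 ≤ t)
    (hp : 2 < p) (hΩ : p ∣ Nat.card {D : Fin t → Submodule F (Fin n → F) // Cfsg.Geo.IsMDecomposition a D} / Nat.factorial t)
    (h : ∀ x : Matrix.SpecialLinearGroup (Fin n) F,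
      (∃ z : F, ((x ^ p : Matrix.SpecialLinearGroup (Fin n) F) : Matrix (Fin n) (Fin n) F) = z • (1 : Matrix (Fin n) (Fin n) F)) →
      (∀ z : F, (x : Matrix (Fin n) (Fin n) F) ≠ z • (1 : Matrix (Fin n) (Fin n) F)) →
      ∃ D : Fin t → Submodule F (Fin n → F), Cfsg.Geo.IsMDecomposition a D ∧
        ∃ σ : Equiv.Perm (Fin t), ∀ j, (D j).map (Matrix.toLin' (x : Matrix (Fin n) (Fin n) F)) = D (σ j)) :
    (∀ μ : Multiset ℕ, (∀ b ∈ μ, 0 < b ∧ b ≤ p) → μ.sum = n → μ.count p < a → ∃ ν : Multiset ℕ, ν ≤ μ ∧ ν.sum = a) := by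
  classical
  intro μ hμ hsum hcount
  subst hq
  by_cases hone : ∀ b ∈ μ, b = 1
  · have h1 : μ = Multiset.replicate n 1 := by
      have h2 := Multiset.eq_replicate_card.2 hone
      have h3 : μ.card = n := by
        rw [h2, Multiset.sum_replicate] at hsum
        simpa using hsum
      rw [h2, h3]
    refine ⟨Multiset.replicate a 1, ?_, by simp⟩
    rw [h1]
    exact (Multiset.replicate_le_replicate 1).2 (by rw [hat]; exact Nat.le_mul_of_pos_right _ (by omega))
  obtain ⟨x, hx, hxp⟩ := CfsgLib.Nil29.exists_unipotent (F := F) p n μ hμ hsum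
  set X := Matrix.toLin' (x : Matrix (Fin n) (Fin n) F) with hX
  set N := X - LinearMap.id with hN
  have hxp' : ((x ^ p : Matrix.SpecialLinearGroup (Fin n) F) : Matrix (Fin n) (Fin n) F) = (1 : F) • (1 : Matrix (Fin n) (Fin n) F) := by
    rw [hxp, one_smul]; rfl
  have hXp : X ^ p = 1 := by
    rw [hX, ← Matrix.toLin'_pow, ← Matrix.SpecialLinearGroup.coe_pow, hxp]
    exact Matrix.toLin'_one
  have hxns : ∀ z : F, (x : Matrix (Fin n) (Fin n) F) ≠ z • (1 : Matrix (Fin n) (Fin n) F) := by
    intro z hz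
    have h1 : X = z • LinearMap.id := by
      rw [hX, hz, map_smul, Matrix.toLin'_one]
    haveI : Nonempty (Fin n) := ⟨⟨0, by omega⟩⟩
    have hzp : z = 1 := by
      have h2 : z ^ p = 1 := by
        have h3 := LinearMap.congr_fun hXp (Pi.single ⟨0, by omega⟩ 1)
        rw [h1] at h3
        have h4 : (z • LinearMap.id : (Fin n → F) →ₗ[F] (Fin n → F)) ^ p = z ^ p • LinearMap.id := by
          rw [smul_pow]
          congr 1
          exact one_pow p
        rw [h4] at h3
        have h5 := congrFun h3 ⟨0, by omega⟩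
        simpa using h5
      have h3 : frobenius F p z = frobenius F p 1 := by
        rw [map_one]; exact h2
      exact frobenius_inj F p h3
    have hN0 : N = 0 := by
      rw [hN, h1, hzp, one_smul, sub_self]
    have h2 := hx.finrank_map 1
    rw [hN0, pow_one, Submodule.map_zero, finrank_bot] at h2
    apply hone
    intro b hb
    have h3 : b - 1 ∈ μ.map (fun s => s - 1) := Multiset.mem_map_of_mem _ hb
    have h4 : b - 1 ≤ CfsgLib.Nil29.tsum μ 1 := Multiset.single_le_sum (fun _ _ => Nat.zero_le _) _ h3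
    have h5 := (hμ b hb).1
    omega
  obtain ⟨D, hD, σ, hσ⟩ := h x ⟨1, hxp'⟩ hxns
  have hσ' : ∀ j, (D j).map X = D (σ j) := hσ
  have hmem : ∀ j, ∀ u ∈ D j, X u ∈ D (σ j) := fun j u hu => by
    rw [← hσ' j]; exact ⟨u, hu, rfl⟩
  by_cases hall : ∀ j, σ j = j
  · -- invariant summands
    let j0 : Fin t := ⟨0, by omega⟩
    let C : Submodule F (Fin n → F) := ⨆ j, ⨆ (_ : j ≠ j0), D j
    have hdis : Disjoint (D j0) C := hD.indep j0
    have hsup : D j0 ⊔ C = ⊤ := by
      rw [eq_top_iff, ← hD.iSup_eq_top]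
      refine iSup_le fun j => ?_
      by_cases hj : j = j0
      · rw [hj]; exact le_sup_left
      · exact le_trans (le_iSup₂_of_le j hj le_rfl) le_sup_right
    have hinv : ∀ j, ∀ u ∈ D j, N u ∈ D j := by
      intro j u hu
      have h1 := hmem j u hu
      rw [hall j] at h1
      exact (D j).sub_mem h1 hu
    have hinvC : ∀ u ∈ C, N u ∈ C := by
      intro u hu
      have h1 : C ≤ C.comap N := by
        refine iSup₂_le fun j hj => ?_
        intro v hv
        exact (le_iSup₂_of_le (f := fun j (_ : j ≠ j0) => D j) j hj le_rfl) (hinv j v hv)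
      exact h1 hu
    have hNp : ∀ v, (N ^ p) v = 0 := by
      have h1 := hx.finrank_map p
      rw [CfsgLib.Nil29.tsum_eq_zero μ p (fun b hb => (hμ b hb).2)] at h1
      have h2 : (⊤ : Submodule F (Fin n → F)).map (N ^ p) = ⊥ := Submodule.finrank_eq_zero.1 h1
      intro v
      have : (N ^ p) v ∈ (⊤ : Submodule F (Fin n → F)).map (N ^ p) := ⟨v, trivial, rfl⟩
      rw [h2] at this
      exact this
    obtain ⟨ν, hν⟩ := CfsgLib.Nil29.exists_JT (CfsgLib.Nil29.strN N _ (D j0) rfl (hinv j0) ⟨p, fun w _ => hNp w⟩)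
    obtain ⟨κ, hκ⟩ := CfsgLib.Nil29.exists_JT (CfsgLib.Nil29.strN N _ C rfl hinvC ⟨p, fun w _ => hNp w⟩)
    have h1 := hν.sup hκ hdis
    rw [hsup] at h1
    have h2 := hx.unique h1
    refine ⟨ν, ?_, ?_⟩
    · rw [h2]; exact Multiset.le_add_right ν κ
    · rw [hν.sum, hD.finrank_eq]
  · exfalso
    push Not at hall
    obtain ⟨j0, hj0⟩ := hall
    have hpow : ∀ i : ℕ, ∀ j, ∀ u ∈ D j, (X ^ i) u ∈ D ((σ ^ i) j) := by
      intro i
      induction i with
      | zero => intro j u hu; simpa using hu
      | succ i ih =>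
        intro j u hu
        rw [pow_succ', pow_succ']
        exact hmem _ _ (ih j u hu)
    have hDne : ∀ j, D j ≠ ⊥ := by
      intro j hj
      have h1 := hD.finrank_eq j
      rw [hj, finrank_bot] at h1
      omega
    have hDinj : ∀ i j, i ≠ j → Disjoint (D i) (D j) := fun i j hij => hD.indep.pairwiseDisjoint hij
    have hσp : ∀ j, (σ ^ p) j = j := by
      intro j
      by_contra hne
      obtain ⟨u, hu, hu0⟩ := (Submodule.ne_bot_iff _).1 (hDne j)
      have h1 := hpow p j u hu
      rw [hXp] at h1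
      exact hu0 ((Submodule.disjoint_def.1 (hDinj _ _ (Ne.symm hne))) u hu h1)
    have horb : ∀ i, 0 < i → i < p → (σ ^ i) j0 ≠ j0 := by
      intro i hi0 hip hfix
      have h1 : Function.IsPeriodicPt σ i j0 := by
        show σ^[i] j0 = j0
        rw [Equiv.Perm.iterate_eq_pow]; exact hfix
      have h2 : Function.IsPeriodicPt σ p j0 := by
        show σ^[p] j0 = j0
        rw [Equiv.Perm.iterate_eq_pow]; exact hσp j0
      have h3 := h1.gcd h2
      have h4 : Nat.gcd i p = 1 := by
        have := (Nat.Prime.coprime_iff_not_dvd (Fact.out : p.Prime)).2 (fun hd => absurd (Nat.le_of_dvd hi0 hd) (by omega) : ¬ p ∣ i)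
        rw [Nat.gcd_comm]; exact this
      rw [h4] at h3
      exact hj0 h3
    have hsub := CfsgLib.Nil29.sub_one_pow p X
    have hinj : ∀ u ∈ D j0, (N ^ (p - 1)) u = 0 → u = 0 := by
      intro u hu h0
      rw [hN, hsub, LinearMap.sum_apply] at h0
      have hp1 : p = (p - 1) + 1 := by omega
      rw [hp1, Finset.sum_range_succ'] at h0
      have h1 : ((X ^ 0) u) = u := by rw [pow_zero]; rfl
      rw [h1] at h0
      have h2 : ∑ i ∈ Finset.range (p - 1), (X ^ (i + 1)) u ∈ ⨆ j, ⨆ (_ : j ≠ j0), D j := by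
        refine Submodule.sum_mem _ fun i hi => ?_
        rw [Finset.mem_range] at hi
        exact (le_iSup₂_of_le (f := fun j (_ : j ≠ j0) => D j) ((σ ^ (i + 1)) j0) (horb (i + 1) (by omega) (by omega)) le_rfl)
          (hpow (i + 1) j0 u hu)
      have h3 : u ∈ ⨆ j, ⨆ (_ : j ≠ j0), D j := by
        have : u = -∑ i ∈ Finset.range (p - 1), (X ^ (i + 1)) u := by
          rw [eq_neg_iff_add_eq_zero, add_comm]; exact h0
        rw [this]
        exact Submodule.neg_mem _ h2
      exact (Submodule.disjoint_def.1 (hD.indep j0)) u hu h3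
    have hfr : Module.finrank F ((D j0).map (N ^ (p - 1))) = a := by
      rw [← LinearMap.range_domRestrict, LinearMap.finrank_range_of_inj, hD.finrank_eq]
      intro u v huv
      have h1 : (N ^ (p - 1)) ((u : Fin n → F) - v) = 0 := by
        rw [map_sub, sub_eq_zero]; exact huv
      exact Subtype.ext (sub_eq_zero.1 (hinj _ ((D j0).sub_mem u.2 v.2) h1))
    have hle : Module.finrank F ((D j0).map (N ^ (p - 1))) ≤ Module.finrank F ((⊤ : Submodule F (Fin n → F)).map (N ^ (p - 1))) :=
      Submodule.finrank_mono (Submodule.map_mono le_top)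
    have hp1 : p = (p - 1) + 1 := by omega
    rw [hfr, hx.finrank_map (p - 1), CfsgLib.Nil29.tsum_sub, CfsgLib.Nil29.card_filter_sub, ← hp1,
      CfsgLib.Nil29.tsum_eq_zero μ p (fun b hb => (hμ b hb).2), CfsgLib.Nil29.fl_eq_zero μ p (fun b hb => (hμ b hb).2)] at hle
    omega

end Cfsg.Agent.S5959
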