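import Cfsg.Statements.S5960
import Mathlib
import Cfsg.Agent.LibInvo29d

set_option autoImplicit false
open scoped MatrixGroups
open Cfsg

namespace Cfsg.Agent.S5960



/-- Involutions of PSp_n(q) and imprimitive subgroups. Here `T = PSp_n(q)`, `n = 2d ≥ 4`, `(n, q) ≠ (4, 2)`, realised through the symplectic matrices over the field `F` with `q` elements and the standard alternating form; `n = a·t` with `a` even and `t ≥ 2`, and Ω is the (nonempty) set of orthogonal decompositions of `F^n` into `t` nondegenerate subspaces of dimension `a` (unordered; counted as ordered ones divided by `t!`), whose stabilizers are the imprimitive subgroups of type Sp_a(q) ≀ S_t (maximality is not assumed); an element of `T` of prime order `r` (a symplectic matrix `x` with `x^r` scalar, `x` not scalar) fixes a point of Ω when it permutes the summands of some such decomposition. If the number of such decompositions is even, then every involution of `T` stabilizes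 one of them (the action is 2-elusive). -/
theorem result {F : Type*} [Field F] [Fintype F] {p : ℕ} [Fact p.Prime] [CharP F p] {q : ℕ} (hq : Fintype.card F = q)
    (d : ℕ) (hd : 2 ≤ d) (hT : (d, q) ≠ (2, 2))
    (a t : ℕ) (hat : 2 * d = a * t) (ha : 2 ≤ a) (hae : Even a) (ht : 2 ≤ t) (hΩ : 2 ∣ Nat.card {D : Fin t → Submodule F (Fin d ⊕ Fin d → F) // (Cfsg.Geo.IsMDecomposition a D ∧ (∀ j, ∀ u ∈ D j, u ≠ 0 → ∃ v ∈ D j, Cfsg.sympForm d F u v ≠ 0) ∧
          (∀ j j', j ≠ j' → ∀ u ∈ D j, ∀ v ∈ D j', Cfsg.sympForm d F u v = 0))} / Nat.factorial t)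
    (x : ↥(Matrix.symplecticGroup (Fin d) F))
    (hx1 : ∃ z : F, ((x ^ 2 : ↥(Matrix.symplecticGroup (Fin d) F)) : Matrix (Fin d ⊕ Fin d) (Fin d ⊕ Fin d) F) = z • (1 : Matrix (Fin d ⊕ Fin d) (Fin d ⊕ Fin d) F))
    (hx2 : ∀ z : F, (x : Matrix (Fin d ⊕ Fin d) (Fin d ⊕ Fin d) F) ≠ z • (1 : Matrix (Fin d ⊕ Fin d) (Fin d ⊕ Fin d) F)) :
    ∃ D : Fin t → Submodule F (Fin d ⊕ Fin d → F), (Cfsg.Geo.IsMDecomposition a D ∧ (∀ j, ∀ u ∈ D j, u ≠ 0 → ∃ v ∈ D j, Cfsg.sympForm d F u v ≠ 0) ∧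
          (∀ j j', j ≠ j' → ∀ u ∈ D j, ∀ v ∈ D j', Cfsg.sympForm d F u v = 0)) ∧
        ∃ σ : Equiv.Perm (Fin t), ∀ j, (D j).map (Matrix.toLin' (x : Matrix (Fin d ⊕ Fin d) (Fin d ⊕ Fin d) F)) = D (σ j) := by
  obtain ⟨z, hz1, hxx, hinj, hiso⟩ := CfsgLib.Invo29.symp_data (by omega) x hx1
  have hz : z ≠ 0 := by
    rintro rfl
    simp at hz1
  obtain ⟨a', rfl⟩ := hae
  have hND : CfsgLib.Invo29.NDon (Cfsg.Agent.H22.spB d F : (Fin d ⊕ Fin d → F) →ₗ[F] (Fin d ⊕ Fin d → F) →ₗ[F] F) ⊤ := by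
    intro u _ hu
    exact Cfsg.Agent.H22.spB_nondeg.1 u (fun v => hu v Submodule.mem_top)
  have hstr := CfsgLib.Invo29.str_symp (Cfsg.Agent.H22.spB d F) (fun v => Cfsg.Agent.H22.spB_isAlt v)
    (Matrix.toLin' (x : Matrix (Fin d ⊕ Fin d) (Fin d ⊕ Fin d) F)) z 1 hz one_ne_zero hxx
    (fun u v => by rw [hiso, one_mul]) ⊤ (fun _ _ => Submodule.mem_top) hND
  obtain ⟨D, σ, h1, h2, h3, h4, h5⟩ := hstr.boxes hinj a' t two_pos (by
    simp only [Module.finrank_pi, Fintype.card_sum, Fintype.card_fin]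
    linarith)
  refine ⟨D, ⟨⟨ht, by omega, fun i => by rw [h1, mul_two], h2, h3⟩, ?_, ?_⟩, σ, h4⟩
  · intro j u hu hu0
    by_contra hcon
    push Not at hcon
    apply hu0
    refine hND u Submodule.mem_top fun v _ => ?_
    have h6 : iSup D ≤ LinearMap.ker ((Cfsg.Agent.H22.spB d F : (Fin d ⊕ Fin d → F) →ₗ[F] (Fin d ⊕ Fin d → F) →ₗ[F] F) u) := by
      refine iSup_le fun k => ?_
      intro w hw
      by_cases hjk : j = k
      · subst hjk
        show Cfsg.Agent.H22.spB d F u w = 0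
        rw [Cfsg.Agent.H22.spB_apply]
        exact hcon w hw
      · exact h5 j k hjk u hu w hw
    rw [h3] at h6
    exact h6 Submodule.mem_top
  · intro j j' hjj u hu v hv
    rw [← Cfsg.Agent.H22.spB_apply]
    exact h5 j j' hjj u hu v hv

end Cfsg.Agent.S5960
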