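import Cfsg.Statements.S5962
import Mathlib
import Cfsg.Agent.LibInvo29d

set_option autoImplicit false
open scoped MatrixGroups
open Cfsg

namespace Cfsg.Agent.S5962



/-- Involutions of PSp_n(q), q odd, and the subgroups GL_{n/2}(q).2. Here `T = PSp_n(q)`, `n = 2d ≥ 4`, `q` odd, realised through the symplectic matrices over the field `F` with `q` elements; Ω is the set of unordered pairs `{U, W}` of complementary totally isotropic `d`-spaces (`F^n = U ⊕ W`), whose stabilizers are the subgroups of type GL_d(q).2 (maximal except in some small cases; maximality is not assumed); an element of `T` of prime order `r` (a symplectic matrix `x` with `x^r` scalar, `x` not scalar) fixes such a pair when it fixes or interchanges `U` and `W`. If the number of such pairs is even, every involution of `T` fixes one of them (the action is 2-elusive). -/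
theorem result {F : Type*} [Field F] [Fintype F] {p : ℕ} [Fact p.Prime] [CharP F p] {q : ℕ} (hq : Fintype.card F = q)
    (d : ℕ) (hd : 2 ≤ d) (hT : (d, q) ≠ (2, 2)) (hodd : Odd q)
    (hΩ : 2 ∣ Nat.card {P : Submodule F (Fin d ⊕ Fin d → F) × Submodule F (Fin d ⊕ Fin d → F) // IsCompl P.1 P.2 ∧ (∀ u ∈ P.1, ∀ v ∈ P.1, Cfsg.sympForm d F u v = 0) ∧ (∀ u ∈ P.2, ∀ v ∈ P.2, Cfsg.sympForm d F u v = 0)} / 2)
    (x : ↥(Matrix.symplecticGroup (Fin d) F))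
    (hx1 : ∃ z : F, ((x ^ 2 : ↥(Matrix.symplecticGroup (Fin d) F)) : Matrix (Fin d ⊕ Fin d) (Fin d ⊕ Fin d) F) = z • (1 : Matrix (Fin d ⊕ Fin d) (Fin d ⊕ Fin d) F))
    (hx2 : ∀ z : F, (x : Matrix (Fin d ⊕ Fin d) (Fin d ⊕ Fin d) F) ≠ z • (1 : Matrix (Fin d ⊕ Fin d) (Fin d ⊕ Fin d) F)) :
    ∃ U W : Submodule F (Fin d ⊕ Fin d → F), IsCompl U W ∧ (∀ u ∈ U, ∀ v ∈ U, Cfsg.sympForm d F u v = 0) ∧ (∀ u ∈ W, ∀ v ∈ W, Cfsg.sympForm d F u v = 0) ∧
        ((U.map (Matrix.toLin' (x : Matrix (Fin d ⊕ Fin d) (Fin d ⊕ Fin d) F)) = U ∧ W.map (Matrix.toLin' (x : Matrix (Fin d ⊕ Fin d) (Fin d ⊕ Fin d) F)) = W) ∨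
         (U.map (Matrix.toLin' (x : Matrix (Fin d ⊕ Fin d) (Fin d ⊕ Fin d) F)) = W ∧ W.map (Matrix.toLin' (x : Matrix (Fin d ⊕ Fin d) (Fin d ⊕ Fin d) F)) = U)) := by
  obtain ⟨z, hz1, hxx, hinj, hiso⟩ := CfsgLib.Invo29.symp_data (by omega) x hx1
  have hz : z ≠ 0 := by
    rintro rfl
    simp at hz1
  have h2 : (2 : F) ≠ 0 := by
    intro h2
    have hp2 : p ∣ 2 := by
      rw [← CharP.cast_eq_zero_iff F p 2]; exact_mod_cast h2
    have hpp : p = 2 := (Nat.prime_dvd_prime_iff_eq Fact.out Nat.prime_two).1 hp2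
    have hdv : p ∣ q := by
      rw [← hq]
      rw [← CharP.cast_eq_zero_iff F p]
      exact Nat.cast_card_eq_zero F
    rw [hpp] at hdv
    exact (Nat.not_even_iff_odd.2 hodd) (even_iff_two_dvd.2 hdv)
  have hND : CfsgLib.Invo29.NDon (Cfsg.Agent.H22.spB d F : (Fin d ⊕ Fin d → F) →ₗ[F] (Fin d ⊕ Fin d → F) →ₗ[F] F) ⊤ := by
    intro u _ hu
    exact Cfsg.Agent.H22.spB_nondeg.1 u (fun v => hu v Submodule.mem_top)
  have hmap : ∀ A B : Submodule F (Fin d ⊕ Fin d → F),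
      (∀ u ∈ A, Matrix.toLin' (x : Matrix (Fin d ⊕ Fin d) (Fin d ⊕ Fin d) F) u ∈ B) →
      (∀ u ∈ B, Matrix.toLin' (x : Matrix (Fin d ⊕ Fin d) (Fin d ⊕ Fin d) F) u ∈ A) →
      A.map (Matrix.toLin' (x : Matrix (Fin d ⊕ Fin d) (Fin d ⊕ Fin d) F)) = B := by
    intro A B h3 h4
    apply le_antisymm
    · rintro _ ⟨u, hu, rfl⟩
      exact h3 u hu
    · intro u hu
      refine ⟨z⁻¹ • Matrix.toLin' (x : Matrix (Fin d ⊕ Fin d) (Fin d ⊕ Fin d) F) u, A.smul_mem _ (h4 u hu), ?_⟩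
      rw [map_smul, hxx, smul_smul, inv_mul_cancel₀ hz, one_smul]
  have hfin : ∀ s, CfsgLib.Invo29.Pol (Cfsg.Agent.H22.spB d F : (Fin d ⊕ Fin d → F) →ₗ[F] (Fin d ⊕ Fin d → F) →ₗ[F] F)
      (Matrix.toLin' (x : Matrix (Fin d ⊕ Fin d) (Fin d ⊕ Fin d) F)) s ⊤ → ∃ U W : Submodule F (Fin d ⊕ Fin d → F), IsCompl U W ∧ (∀ u ∈ U, ∀ v ∈ U, Cfsg.sympForm d F u v = 0) ∧ (∀ u ∈ W, ∀ v ∈ W, Cfsg.sympForm d F u v = 0) ∧
        ((U.map (Matrix.toLin' (x : Matrix (Fin d ⊕ Fin d) (Fin d ⊕ Fin d) F)) = U ∧ W.map (Matrix.toLin' (x : Matrix (Fin d ⊕ Fin d) (Fin d ⊕ Fin d) F)) = W) ∨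
         (U.map (Matrix.toLin' (x : Matrix (Fin d ⊕ Fin d) (Fin d ⊕ Fin d) F)) = W ∧ W.map (Matrix.toLin' (x : Matrix (Fin d ⊕ Fin d) (Fin d ⊕ Fin d) F)) = U)) := by
    rintro s ⟨U, W, h3, h4, h5, h6, h7, h8⟩
    refine ⟨U, W, ⟨h3, codisjoint_iff.2 h4⟩, fun u hu v hv => by rw [← Cfsg.Agent.H22.spB_apply]; exact h5 u hu v hv,
      fun u hu v hv => by rw [← Cfsg.Agent.H22.spB_apply]; exact h6 u hu v hv, ?_⟩
    cases s
    · right
      exact ⟨hmap U W (h8 rfl).1 (h8 rfl).2, hmap W U (h8 rfl).2 (h8 rfl).1⟩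
    · left
      exact ⟨hmap U U (h7 rfl).1 (h7 rfl).1, hmap W W (h7 rfl).2 (h7 rfl).2⟩
  rcases mul_self_eq_one_iff.1 hz1 with h3 | h3
  · exact hfin true (CfsgLib.Invo29.pol_true h2 _ (fun v => Cfsg.Agent.H22.spB_isAlt v) _ (fun v => by rw [hxx, h3, one_smul])
      hiso ⊤ (fun _ _ => Submodule.mem_top) hND)
  · exact hfin false (CfsgLib.Invo29.pol_false h2 _ (fun v => Cfsg.Agent.H22.spB_isAlt v) _ (fun v => by rw [hxx, h3, neg_one_smul])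
      hiso ⊤ (fun _ _ => Submodule.mem_top) hND)

end Cfsg.Agent.S5962
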