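import Cfsg.Statements.S5963
import Cfsg.Agent.LibPolH13
import Cfsg.Agent.LibSpBlkH13

set_option autoImplicit false
open scoped MatrixGroups
open Cfsg

namespace Cfsg.Agent.S5963

open Module

theorem odd_lemma {r q k j : ℕ} [Fact r.Prime] (hr2 : r ≠ 2) (hk : k = orderOf ((q : ℕ) : ZMod r)) (hk0 : 0 < k) (hj : r ∣ q ^ j + 1) : ∃ c u, k = 2 * c ∧ Odd u ∧ j = c * u := by
  have h1 : ((q : ℕ) : ZMod r) ^ j = -1 := by
    have h2 : ((q ^ j + 1 : ℕ) : ZMod r) = 0 := (ZMod.natCast_eq_zero_iff _ _).mpr hj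
    push_cast at h2
    exact eq_neg_of_add_eq_zero_left h2
  have hne : ¬ k ∣ j := by
    rw [hk, orderOf_dvd_iff_pow_eq_one, h1]
    intro h3
    have h4 : ((2 : ℕ) : ZMod r) = 0 := by
      have h5 : (1 : ZMod r) + 1 = 0 := by nth_rewrite 1 [← h3]; ring
      push_cast
      rw [← one_add_one_eq_two]
      exact h5
    rw [ZMod.natCast_eq_zero_iff] at h4
    exact hr2 ((Nat.prime_dvd_prime_iff_eq Fact.out Nat.prime_two).mp h4)
  have h2 : k ∣ 2 * j := by
    rw [hk, orderOf_dvd_iff_pow_eq_one, mul_comm, pow_mul, h1]; ring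
  rcases Nat.even_or_odd k with heven | hodd
  · obtain ⟨c, hc⟩ := heven
    obtain ⟨u, hu⟩ := h2
    have h3 : j = c * u := by
      have : 2 * j = 2 * (c * u) := by rw [hu, hc]; ring
      omega
    refine ⟨c, u, by omega, ?_, h3⟩
    by_contra hcon
    rw [Nat.not_odd_iff_even] at hcon
    obtain ⟨v, hv⟩ := hcon
    apply hne
    refine ⟨v, ?_⟩
    rw [h3, hv, hc]; ring
  · exact absurd (Nat.Coprime.dvd_of_dvd_mul_left (Nat.coprime_two_right.mpr hodd) h2) hne

theorem center_pow {G : Type*} [Group G] [Finite G] (x : G) (hx : x ∈ Subgroup.center G) : x ^ Nat.card (Subgroup.center G) = 1 := by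
  have h := pow_card_eq_one' (x := (⟨x, hx⟩ : Subgroup.center G))
  exact congrArg Subtype.val h

theorem rank_blk {F : Type*} [Field F] (a b : ℕ) (A : Matrix.symplecticGroup (Fin a) F) :
    finrank F (LinearMap.range ((Matrix.toLinAlgEquiv' : Matrix _ _ F ≃ₐ[F] _) (CfsgLib.SpBlk.blk a b (A, 1)).1 - 1)) ≤ 2 * a := by
  classical
  have h1 : (CfsgLib.SpBlk.blk a b (A, 1)).1 - 1 = Matrix.reindexAlgEquiv F F (CfsgLib.SpBlk.eb a b) (Matrix.fromBlocks (A.1 - 1) 0 0 0) := by
    have e1 : (CfsgLib.SpBlk.blk a b (A, 1)).1 = Matrix.reindexAlgEquiv F F (CfsgLib.SpBlk.eb a b) (Matrix.fromBlocks A.1 0 0 1) := rfl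
    have e2 : (Matrix.fromBlocks A.1 0 0 1 : Matrix ((Fin a ⊕ Fin a) ⊕ (Fin b ⊕ Fin b)) ((Fin a ⊕ Fin a) ⊕ (Fin b ⊕ Fin b)) F) - 1 = Matrix.fromBlocks (A.1 - 1) 0 0 0 := by
      ext i j
      rcases i with i | i <;> rcases j with j | j
      · simp [Matrix.one_apply, Sum.inl.injEq]
      · simp [Matrix.one_apply]
      · simp [Matrix.one_apply]
      · simp [Matrix.one_apply, Sum.inr.injEq]
    rw [e1, ← map_one (Matrix.reindexAlgEquiv F F (CfsgLib.SpBlk.eb a b)), ← map_sub, e2]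
  have h2 : (Matrix.toLinAlgEquiv' : Matrix _ _ F ≃ₐ[F] _) (CfsgLib.SpBlk.blk a b (A, 1)).1 - 1 =
      (Matrix.toLinAlgEquiv' : Matrix _ _ F ≃ₐ[F] _) ((CfsgLib.SpBlk.blk a b (A, 1)).1 - 1) := by
    rw [map_sub, map_one]
  rw [h2, h1]
  show Matrix.rank (Matrix.reindexAlgEquiv F F (CfsgLib.SpBlk.eb a b) (Matrix.fromBlocks (A.1 - 1) 0 0 0)) ≤ 2 * a
  rw [Matrix.reindexAlgEquiv_apply, Matrix.rank_reindex]
  have h3 : (Matrix.fromBlocks (A.1 - 1) 0 0 0 : Matrix ((Fin a ⊕ Fin a) ⊕ (Fin b ⊕ Fin b)) ((Fin a ⊕ Fin a) ⊕ (Fin b ⊕ Fin b)) F) =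
      Matrix.fromRows (A.1 - 1) (0 : Matrix (Fin b ⊕ Fin b) (Fin a ⊕ Fin a) F) * Matrix.fromCols (1 : Matrix (Fin a ⊕ Fin a) (Fin a ⊕ Fin a) F) (0 : Matrix (Fin a ⊕ Fin a) (Fin b ⊕ Fin b) F) := by
    rw [Matrix.fromRows_mul_fromCols]
    simp
  rw [h3]
  refine (Matrix.rank_mul_le_left _ _).trans ((Matrix.rank_le_card_width _).trans ?_)
  rw [Fintype.card_sum, Fintype.card_fin]; omega

/-- Derangements of odd prime order of PSp_n(q), q odd, on pairs of complementary totally isotropic subspaces. Here `T = PSp_n(q)`, `n = 2d ≥ 4`, `q` odd, realised through the symplectic matrices over the field `F` with `q` elements; Ω is the set of unordered pairs `{U, W}` of complementary totally isotropic `d`-spaces (`F^n = U ⊕ W`), whose stabilizers are the subgroups of type GL_d(q).2 (maximal except in some small cases; maximality is not assumed); an element of `T` of prime order `r` (a symplectic matrix `x` with `x^r` scalar, `x` not scalar) fixes such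 a pair when it fixes or interchanges `U` and `W`. For every odd prime `r ≠ p` dividing the number of such pairs, some element of `T` of order `r` fixes no such pair (the action is never `r`-elusive for odd `r ≠ p`). -/
theorem result {F : Type*} [Field F] [Fintype F] {p : ℕ} [Fact p.Prime] [CharP F p] {q : ℕ} (hq : Fintype.card F = q)
    (d : ℕ) (hd : 2 ≤ d) (hT : (d, q) ≠ (2, 2)) (hodd : Odd q)
    (r : ℕ) [Fact r.Prime] (hr2 : r ≠ 2) (hrp : r ≠ p) (hΩ : r ∣ Nat.card {P : Submodule F (Fin d ⊕ Fin d → F) × Submodule F (Fin d ⊕ Fin d → F) // IsCompl P.1 P.2 ∧ (∀ u ∈ P.1, ∀ v ∈ P.1, Cfsg.sympForm d F u v = 0) ∧ (∀ u ∈ P.2, ∀ v ∈ P.2, Cfsg.sympForm d F u v = 0)} / 2) :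
    ∃ x : ↥(Matrix.symplecticGroup (Fin d) F),
      (∃ z : F, ((x ^ r : ↥(Matrix.symplecticGroup (Fin d) F)) : Matrix (Fin d ⊕ Fin d) (Fin d ⊕ Fin d) F) = z • (1 : Matrix (Fin d ⊕ Fin d) (Fin d ⊕ Fin d) F)) ∧
      (∀ z : F, (x : Matrix (Fin d ⊕ Fin d) (Fin d ⊕ Fin d) F) ≠ z • (1 : Matrix (Fin d ⊕ Fin d) (Fin d ⊕ Fin d) F)) ∧
      ¬ (∃ U W : Submodule F (Fin d ⊕ Fin d → F), IsCompl U W ∧ (∀ u ∈ U, ∀ v ∈ U, Cfsg.sympForm d F u v = 0) ∧ (∀ u ∈ W, ∀ v ∈ W, Cfsg.sympForm d F u v = 0) ∧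
        ((U.map (Matrix.toLin' (x : Matrix (Fin d ⊕ Fin d) (Fin d ⊕ Fin d) F)) = U ∧ W.map (Matrix.toLin' (x : Matrix (Fin d ⊕ Fin d) (Fin d ⊕ Fin d) F)) = W) ∨
         (U.map (Matrix.toLin' (x : Matrix (Fin d ⊕ Fin d) (Fin d ⊕ Fin d) F)) = W ∧ W.map (Matrix.toLin' (x : Matrix (Fin d ⊕ Fin d) (Fin d ⊕ Fin d) F)) = U))) := by
  classical
  have hr : r.Prime := Fact.out
  have hq1 : 1 < Fintype.card F := Fintype.one_lt_card
  rw [hq] at hq1
  have hrq : ¬ r ∣ q := by
    rw [← hq]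
    obtain ⟨k, _, hk⟩ := FiniteField.card F p
    rw [hk]
    intro h
    exact hrp ((Nat.prime_dvd_prime_iff_eq hr (Fact.out)).mp (hr.dvd_of_dvd_pow h))
  -- find j
  obtain ⟨j, hj1, hjd, hj⟩ : ∃ j, 1 ≤ j ∧ j ≤ d ∧ r ∣ q ^ j + 1 := by
    have h1 : Nat.card (CfsgLib.Pol.PP d F) = q ^ (d * (d + 1) / 2) * ∏ i ∈ Finset.range d, (q ^ (i + 1) + 1) := by
      rw [CfsgLib.Pol.card_PP (by omega), hq]
    have h2 : 2 ∣ Nat.card (CfsgLib.Pol.PP d F) := by
      rw [h1]
      apply Dvd.dvd.mul_left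
      refine dvd_trans ?_ (Finset.dvd_prod_of_mem _ (Finset.mem_range.mpr (show 0 < d by omega)))
      rw [zero_add, pow_one]
      exact (hodd.add_one).two_dvd
    have h3 : r ∣ Nat.card (CfsgLib.Pol.PP d F) := by
      rw [← Nat.mul_div_cancel' h2]
      exact Dvd.dvd.mul_left hΩ 2
    rw [h1, hr.dvd_mul, Prime.dvd_finsetProd_iff hr.prime] at h3
    rcases h3 with h3 | ⟨i, hi, h3⟩
    · exact absurd (hr.dvd_of_dvd_pow h3) hrq
    · rw [Finset.mem_range] at hi
      exact ⟨i + 1, by omega, by omega, h3⟩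
  obtain ⟨k, hk⟩ : ∃ k, k = orderOf ((q : ℕ) : ZMod r) := ⟨_, rfl⟩
  have hk0 : 0 < k := by
    have hq0 : ((q : ℕ) : ZMod r) ≠ 0 := by rwa [Ne, ZMod.natCast_eq_zero_iff]
    have h1 := orderOf_pos (Units.mk0 ((q : ℕ) : ZMod r) hq0)
    rw [← orderOf_units, Units.val_mk0] at h1
    rw [hk]; exact h1
  obtain ⟨c, u, hkc, hu, hjc⟩ := odd_lemma hr2 hk hk0 hj
  have hcj : c ≤ j := by
    rw [hjc]
    exact Nat.le_mul_of_pos_right c hu.pos
  obtain ⟨b, rfl⟩ := Nat.exists_eq_add_of_le (hcj.trans hjd)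
  have hdvd : r ∣ q ^ (2 * c) - 1 := by
    rw [← ZMod.natCast_eq_zero_iff, Nat.cast_sub (Nat.one_le_pow _ _ (by omega)), Nat.cast_pow, Nat.cast_one, sub_eq_zero, ← hkc, hk]
    exact pow_orderOf_eq_one _
  obtain ⟨A, hA⟩ : ∃ A : Matrix.symplecticGroup (Fin c) F, orderOf A = r := by
    have h1 : r ∣ Nat.card (Matrix.symplecticGroup (Fin c) F) := by
      rw [Cfsg.Agent.H22.card_sp, hq]
      apply Dvd.dvd.mul_left
      have h2 := Finset.dvd_prod_of_mem (fun i => q ^ (2 * (i + 1)) - 1) (Finset.mem_range.mpr (show c - 1 < c by omega))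
      refine dvd_trans hdvd (dvd_trans ?_ h2)
      show q ^ (2 * c) - 1 ∣ q ^ (2 * (c - 1 + 1)) - 1
      rw [Nat.sub_add_cancel (by omega)]
    exact exists_prime_orderOf_dvd_card' r h1
  set x := CfsgLib.SpBlk.blk (F := F) c b (A, 1) with hx
  have hox : orderOf x = r := by
    rw [hx, orderOf_injective _ (CfsgLib.SpBlk.blk_injective c b), Prod.orderOf_mk, hA, orderOf_one, Nat.lcm_one_right]
  have hxr : x ^ r = 1 := by rw [← hox]; exact pow_orderOf_eq_one x
  have hx1 : x ≠ 1 := by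
    intro h
    rw [h, orderOf_one] at hox
    exact hr.one_lt.ne hox
  let f : Matrix (Fin (c + b) ⊕ Fin (c + b)) (Fin (c + b) ⊕ Fin (c + b)) F ≃ₐ[F] Module.End F ((Fin (c + b) ⊕ Fin (c + b)) → F) := Matrix.toLinAlgEquiv'
  have hfx : ∀ v, f x.1 v = Matrix.toLin' x.1 v := fun v => rfl
  have hfr : f x.1 ^ r = 1 := by
    rw [← map_pow]
    have : x.1 ^ r = 1 := congrArg Subtype.val hxr
    rw [this, map_one]
  have hf1 : f x.1 ≠ 1 := by
    intro h
    apply hx1
    apply Subtype.ext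
    apply f.injective
    rw [h]
    exact (map_one f).symm
  have hrF : (r : F) ≠ 0 := CfsgLib.Flg.cast_ne (p := p) hr hrp
  have hrk : finrank F (LinearMap.range (f x.1 - 1)) ≤ k := by
    rw [hkc]
    exact rank_blk c b A
  have hkQ : orderOf ((Fintype.card F : ℕ) : ZMod r) = k := by rw [hq, hk]
  -- the form
  have hB : ∀ u v, Cfsg.sympForm (c + b) F (f x.1 u) (f x.1 v) = Cfsg.sympForm (c + b) F u v := by
    intro u v
    rw [← Cfsg.Agent.H22.spB_apply, ← Cfsg.Agent.H22.spB_apply]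
    exact Cfsg.Agent.H22.spToLin_isometry x u v
  refine ⟨x, ⟨1, by rw [hxr, one_smul]; rfl⟩, ?_, ?_⟩
  · intro z hz
    apply hx1
    have h1 : x ∈ Subgroup.center (Matrix.symplecticGroup (Fin (c + b)) F) := by
      rw [Subgroup.mem_center_iff]
      intro g
      apply Subtype.ext
      show g.1 * x.1 = x.1 * g.1
      rw [hz, Matrix.smul_mul, Matrix.mul_smul, one_mul, mul_one]
    have h2 : x ^ (Nat.gcd 2 (Fintype.card F - 1)) = 1 := by
      rw [← Cfsg.Agent.H22.card_center_sp (show 1 ≤ c + b by omega)]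
      exact center_pow x h1
    have h3 := orderOf_dvd_of_pow_eq_one h2
    rw [hox] at h3
    exact absurd ((Nat.prime_dvd_prime_iff_eq hr Nat.prime_two).mp (h3.trans (Nat.gcd_dvd_left _ _))) hr2
  · rintro ⟨U, W, hUW, hU, hW, hcase⟩
    rcases hcase with ⟨h1, h2⟩ | ⟨h1, h2⟩
    · -- both are fixed
      have hUi : ∀ v ∈ U, f x.1 v ∈ U := by
        intro v hv
        rw [← h1]
        exact ⟨v, hv, rfl⟩
      have hWi : ∀ v ∈ W, f x.1 v ∈ W := by
        intro v hv
        rw [← h2]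
        exact ⟨v, hv, rfl⟩
      have hRi : ∀ v ∈ LinearMap.range (f x.1 - 1), f x.1 v ∈ LinearMap.range (f x.1 - 1) := by
        rintro v ⟨y, rfl⟩
        refine ⟨f x.1 y, ?_⟩
        simp only [LinearMap.sub_apply, Module.End.one_apply, map_sub]
      have hkU := CfsgLib.Flg.dvd_finrank hr hrF (f x.1) hfr (LinearMap.range (f x.1 - 1) ⊓ U) (fun v hv => ⟨hRi v hv.1, hUi v hv.2⟩) inf_le_left
      have hkW := CfsgLib.Flg.dvd_finrank hr hrF (f x.1) hfr (LinearMap.range (f x.1 - 1) ⊓ W) (fun v hv => ⟨hRi v hv.1, hWi v hv.2⟩) inf_le_left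
      rw [hkQ] at hkU hkW
      have hdis : (LinearMap.range (f x.1 - 1) ⊓ U) ⊓ (LinearMap.range (f x.1 - 1) ⊓ W) = ⊥ := by
        rw [eq_bot_iff, ← hUW.inf_eq_bot]
        exact le_inf (inf_le_left.trans inf_le_right) (inf_le_right.trans inf_le_right)
      have h3 := Submodule.finrank_sup_add_finrank_inf_eq (LinearMap.range (f x.1 - 1) ⊓ U) (LinearMap.range (f x.1 - 1) ⊓ W)
      rw [hdis, finrank_bot, add_zero] at h3
      have h4 : finrank F ↥((LinearMap.range (f x.1 - 1) ⊓ U) ⊔ (LinearMap.range (f x.1 - 1) ⊓ W)) ≤ finrank F (LinearMap.range (f x.1 - 1)) :=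
        Submodule.finrank_mono (sup_le inf_le_left inf_le_left)
      have hcase2 : finrank F ↥(LinearMap.range (f x.1 - 1) ⊓ U) = 0 ∨ finrank F ↥(LinearMap.range (f x.1 - 1) ⊓ W) = 0 := by
        by_contra hcon
        push Not at hcon
        have h5 := Nat.le_of_dvd (Nat.pos_of_ne_zero hcon.1) hkU
        have h6 := Nat.le_of_dvd (Nat.pos_of_ne_zero hcon.2) hkW
        omega
      -- duality
      have key : ∀ (U W : Submodule F (Fin (c + b) ⊕ Fin (c + b) → F)), IsCompl U W → (∀ u ∈ U, ∀ v ∈ U, Cfsg.sympForm (c + b) F u v = 0) → (∀ u ∈ W, ∀ v ∈ W, Cfsg.sympForm (c + b) F u v = 0) →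
          (∀ v ∈ U, f x.1 v ∈ U) → (∀ v ∈ W, f x.1 v ∈ W) → finrank F ↥(LinearMap.range (f x.1 - 1) ⊓ U) = 0 → False := by
        intro U W hUW hU hW hUi hWi h0
        rw [Submodule.finrank_eq_zero] at h0
        have hfixU : ∀ v ∈ U, f x.1 v = v := by
          intro v hv
          have h5 : (f x.1 - 1) v ∈ LinearMap.range (f x.1 - 1) ⊓ U := by
            refine ⟨⟨v, rfl⟩, ?_⟩
            rw [LinearMap.sub_apply, Module.End.one_apply]
            exact Submodule.sub_mem _ (hUi v hv) hv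
          rw [h0, Submodule.mem_bot, LinearMap.sub_apply, Module.End.one_apply, sub_eq_zero] at h5
          exact h5
        have hfixW : ∀ v ∈ W, f x.1 v = v := by
          intro v hv
          rw [← sub_eq_zero]
          apply CfsgLib.Pol.zero_of (P := (U, W)) hUW
          · intro u hu
            rw [map_sub, Cfsg.Agent.H22.spB_apply, Cfsg.Agent.H22.spB_apply]
            have h5 := hB u v
            rw [hfixU u hu] at h5
            rw [h5, sub_self]
          · intro u hu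
            rw [Cfsg.Agent.H22.spB_apply]
            exact hW u hu _ (Submodule.sub_mem _ (hWi v hv) hv)
        apply hf1
        apply LinearMap.ext
        intro v
        have hv : v ∈ U ⊔ W := hUW.sup_eq_top ▸ Submodule.mem_top
        obtain ⟨a, ha, b', hb', rfl⟩ := Submodule.mem_sup.mp hv
        rw [map_add, hfixU a ha, hfixW b' hb']
        rfl
      rcases hcase2 with h5 | h5
      · exact key U W hUW hU hW hUi hWi h5
      · exact key W U hUW.symm hW hU hWi hUi h5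
    · -- swapped
      have hUi : ∀ v ∈ U, f x.1 v ∈ W := by
        intro v hv
        rw [← h1]
        exact ⟨v, hv, rfl⟩
      have hWi : ∀ v ∈ W, f x.1 v ∈ U := by
        intro v hv
        rw [← h2]
        exact ⟨v, hv, rfl⟩
      have hpow : ∀ t : ℕ, ∀ v ∈ U, (f x.1 ^ (2 * t)) v ∈ U := by
        intro t
        induction t with
        | zero => intro v hv; exact hv
        | succ t ih =>
          intro v hv
          rw [show 2 * (t + 1) = 2 * t + 1 + 1 by ring, pow_succ, Module.End.mul_apply, pow_succ, Module.End.mul_apply]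
          exact ih _ (hWi _ (hUi v hv))
      obtain ⟨t, ht⟩ := hr.odd_of_ne_two hr2
      have h3 : ∀ v ∈ U, v = 0 := by
        intro v hv
        have h4 : (f x.1 ^ r) v ∈ W := by
          rw [ht, pow_succ', Module.End.mul_apply]
          exact hUi _ (hpow t v hv)
        rw [hfr, Module.End.one_apply] at h4
        have h5 : v ∈ U ⊓ W := ⟨hv, h4⟩
        rw [hUW.inf_eq_bot, Submodule.mem_bot] at h5
        exact h5
      have h4 : ∀ v ∈ W, v = 0 := by
        intro v hv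
        have h5 := h3 _ (hWi v hv)
        have h6 : v = (f x.1 ^ (r - 1)) (f x.1 v) := by
          rw [← Module.End.mul_apply, ← pow_succ, Nat.sub_add_cancel hr.one_lt.le, hfr]; rfl
        rw [h6, h5, map_zero]
      apply hf1
      apply LinearMap.ext
      intro v
      have hv : v ∈ U ⊔ W := hUW.sup_eq_top ▸ Submodule.mem_top
      obtain ⟨a, ha, b', hb', rfl⟩ := Submodule.mem_sup.mp hv
      rw [h3 a ha, h4 b' hb', add_zero, map_zero, map_zero]

end Cfsg.Agent.S5963
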