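import Cfsg.Statements.S5964
import Mathlib
import Cfsg.Agent.LibInvo29l

set_option autoImplicit false
open scoped MatrixGroups
open Cfsg

namespace Cfsg.Agent.S5964

section helper
open Matrix CfsgLib.Invo29 Module

/-- `z` a square: conjugate into the subfield group -/
theorem pos_case {F : Type*} [Field F] [Fintype F] (n : ℕ) (hn : 1 ≤ n) (F₀ : Subfield F)
    (x : Matrix.SpecialLinearGroup (Fin n) F) (w : F) (hw : w ≠ 0)
    (hxx : ((x ^ 2 : Matrix.SpecialLinearGroup (Fin n) F) : Matrix (Fin n) (Fin n) F) = (w * w) • (1 : Matrix (Fin n) (Fin n) F))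
    (hns : ∀ c : F, (x : Matrix (Fin n) (Fin n) F) ≠ c • (1 : Matrix (Fin n) (Fin n) F)) :
    ∃ P : Matrix.SpecialLinearGroup (Fin n) F, Matrix.SpecialLinearGroup.toGL (P⁻¹ * x * P) ∈ Cfsg.Geo.subfieldSubgroup F₀ (1 : GL (Fin n) F) := by
  let y : (Fin n → F) →ₗ[F] (Fin n → F) := w⁻¹ • Matrix.toLin' (x : Matrix (Fin n) (Fin n) F)
  have hxx' : (x : Matrix (Fin n) (Fin n) F) * (x : Matrix (Fin n) (Fin n) F) = (w * w) • (1 : Matrix (Fin n) (Fin n) F) := by
    rw [← hxx, pow_two]; rfl
  have hyy : ∀ v, y (y v) = ((1 : F₀) : F) • v := by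
    intro v
    simp only [y, LinearMap.smul_apply, map_smul, Matrix.toLin'_apply, Matrix.mulVec_mulVec, hxx', Matrix.smul_mulVec,
      Matrix.one_mulVec, smul_smul]
    congr 1
    simp
    field_simp
  have hinj : Function.Injective y := by
    intro u v huv
    have := congrArg y huv
    rw [hyy, hyy] at this
    simpa using this
  have hstr := strF_sq F₀ y 1 hyy (by
    intro c hc
    have : c * c = 1 := by simpa using hc
    rcases mul_self_eq_one_iff.1 this with h | h
    · rw [h]; exact F₀.one_mem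
    · rw [h]; exact F₀.neg_mem F₀.one_mem) _ ⊤ rfl (fun _ _ => Submodule.mem_top)
  obtain ⟨P, A, hP⟩ := exists_sub F₀ y hinj hstr
  have hPP : (P : (Fin n → F) →ₗ[F] (Fin n → F)) ∘ₗ (P.symm : (Fin n → F) →ₗ[F] (Fin n → F)) = LinearMap.id := by
    ext; simp
  have hPP' : (P.symm : (Fin n → F) →ₗ[F] (Fin n → F)) ∘ₗ (P : (Fin n → F) →ₗ[F] (Fin n → F)) = LinearMap.id := by
    ext; simp
  let P0 : GL (Fin n) F := ⟨LinearMap.toMatrix' (P : (Fin n → F) →ₗ[F] (Fin n → F)),
    LinearMap.toMatrix' (P.symm : (Fin n → F) →ₗ[F] (Fin n → F)), by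
      rw [← LinearMap.toMatrix'_comp, hPP, LinearMap.toMatrix'_id], by
      rw [← LinearMap.toMatrix'_comp, hPP', LinearMap.toMatrix'_id]⟩
  obtain ⟨P1, hP1⟩ := adjust_conj x (w * w) hxx hns hn P0
  refine ⟨P1, ?_⟩
  rw [hP1]
  refine mem_subfield_of F₀ _ A (Units.mk0 w hw) ?_
  apply Matrix.toLin'.injective
  refine LinearMap.ext fun v => ?_
  have e1 : ((P0⁻¹ * Matrix.SpecialLinearGroup.toGL x * P0 : GL (Fin n) F) : Matrix (Fin n) (Fin n) F) =
      LinearMap.toMatrix' (P.symm : (Fin n → F) →ₗ[F] (Fin n → F)) * (x : Matrix (Fin n) (Fin n) F) *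
        LinearMap.toMatrix' (P : (Fin n → F) →ₗ[F] (Fin n → F)) := rfl
  rw [Matrix.toLin'_apply, Matrix.toLin'_apply, e1, ← Matrix.mulVec_mulVec, ← Matrix.mulVec_mulVec, LinearMap.toMatrix'_mulVec, LinearMap.toMatrix'_mulVec,
    Matrix.smul_mulVec, ← hP]
  show P.symm ((x : Matrix (Fin n) (Fin n) F) *ᵥ (P v)) = w • P.symm (y (P v))
  rw [← map_smul]
  congr 1
  simp only [y, LinearMap.smul_apply, smul_smul, mul_inv_cancel₀ hw, one_smul, Matrix.toLin'_apply]

end helper

/-- Involutions of PSL_n(q) and subfield subgroups. Here `T = PSL_n(F)` for a field `F` with `q = p^f` elements (`n ≥ 2`, `(n, q) ≠ (2, 2), (2, 3)`), `F₀` is the subfield with `q₀` elements where `q = q₀^k` for a prime `k`, and `H` is the subgroup of matrices of determinant 1 lying in the subfield group of `F₀` (invertible matrices over `F₀` times scalars) — a maximal subgroup of type GL_n(q₀) (the case `n = 2`, `q₀ = 2` is excluded); Ω is the set of `T`-conjugates of `H` (cosets of `H`), so an element of `T` of prime order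 `r` (a matrix `x` of determinant 1 with `x^r` scalar, `x` not scalar) fixes a point of Ω when some conjugate of `x` by a matrix of determinant 1 lies in `H`. Suppose the index of `H` is even. Then every involution of `T` is conjugate in `T` into `H` if and only if either `q` is even, or `k = 2` and `(n)_2 ≤ (q − 1)_2`. (For `q` odd and `k` odd the index of `H` is odd, so that case does not arise.) -/
theorem result {F : Type*} [Field F] [Fintype F] {p : ℕ} [Fact p.Prime] [CharP F p] {q : ℕ} (hq : Fintype.card F = q)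
    (n : ℕ) (hn : 2 ≤ n) (hT : (n, q) ≠ (2, 2) ∧ (n, q) ≠ (2, 3))
    (F₀ : Subfield F) (k q₀ : ℕ) (hk : k.Prime) (hF₀ : Nat.card ↥F₀ = q₀) (hqk : q = q₀ ^ k) (hC5 : ¬ (n = 2 ∧ q₀ = 2)) (hΩ : 2 ∣ ((Cfsg.Geo.subfieldSubgroup F₀ 1).comap (Matrix.SpecialLinearGroup.toGL : Matrix.SpecialLinearGroup (Fin n) F →* GL (Fin n) F)).index) :
    (∀ x : Matrix.SpecialLinearGroup (Fin n) F,
      (∃ z : F, ((x ^ 2 : Matrix.SpecialLinearGroup (Fin n) F) : Matrix (Fin n) (Fin n) F) = z • (1 : Matrix (Fin n) (Fin n) F)) →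
      (∀ z : F, (x : Matrix (Fin n) (Fin n) F) ≠ z • (1 : Matrix (Fin n) (Fin n) F)) →
      ∃ P : Matrix.SpecialLinearGroup (Fin n) F, P⁻¹ * x * P ∈ ((Cfsg.Geo.subfieldSubgroup F₀ 1).comap (Matrix.SpecialLinearGroup.toGL : Matrix.SpecialLinearGroup (Fin n) F →* GL (Fin n) F))) ↔
    (Odd q → (k = 2 ∧ padicValNat 2 n ≤ padicValNat 2 (q - 1))) := by
  subst hq
  have hcardF := hqk
  constructor
  · intro h hodd
    have h2 := CfsgLib.Invo29.two_ne_zero_of_odd hodd
    have hk2 : k = 2 := by
      by_contra hne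
      have hkodd : Odd k := hk.odd_of_ne_two hne
      have := CfsgLib.Invo29.index_odd F₀ n (by omega) k q₀ hF₀ hqk hkodd hodd
      exact (Nat.not_even_iff_odd.2 this) (even_iff_two_dvd.2 hΩ)
    subst hk2
    refine ⟨rfl, ?_⟩
    by_contra hlt
    push Not at hlt
    have hq1 : Fintype.card F - 1 ≠ 0 := by
      have := Fintype.one_lt_card (α := F)
      omega
    -- `n` is even
    have hn0 : padicValNat 2 n ≠ 0 := by omega
    obtain ⟨m, hm⟩ := dvd_of_one_le_padicValNat (p := 2) (n := n) (by omega)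
    subst hm
    have hm0 : m ≠ 0 := by omega
    have hvm : padicValNat 2 (Fintype.card F - 1) ≤ padicValNat 2 m := by
      rw [padicValNat.mul two_ne_zero hm0, padicValNat_self] at hlt
      omega
    obtain ⟨u, hu⟩ := (pow_padicValNat_dvd : 2 ^ padicValNat 2 (Fintype.card F - 1) ∣ Fintype.card F - 1)
    have huodd : Odd u := by
      by_contra hne
      rw [Nat.not_odd_iff_even] at hne
      obtain ⟨r, hr⟩ := hne
      have h3 : 2 ^ (padicValNat 2 (Fintype.card F - 1) + 1) ∣ Fintype.card F - 1 := by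
        refine ⟨r, ?_⟩
        rw [pow_succ, mul_assoc]
        conv_lhs => rw [hu]
        rw [hr]; ring
      exact pow_succ_padicValNat_not_dvd hq1 h3
    obtain ⟨m', hm'⟩ := (Nat.pow_dvd_pow 2 hvm).trans pow_padicValNat_dvd
    obtain ⟨g, hg⟩ := IsCyclic.exists_ofOrder_eq_natCard (α := Fˣ)
    have hcard : Nat.card Fˣ = Fintype.card F - 1 := by
      rw [Nat.card_units, Nat.card_eq_fintype_card]
    have hgm : ((g ^ u : Fˣ) : F) ^ m = 1 := by
      rw [← Units.val_pow_eq_pow_val, ← pow_mul]
      have : u * m = Nat.card Fˣ * m' := by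
        rw [hcard]
        conv_lhs => rw [hm']
        conv_rhs => rw [hu]
        ring
      rw [this, pow_mul, pow_card_eq_one', one_pow, Units.val_one]
    have hchar : ringChar F ≠ 2 := by
      intro h
      apply h2
      have := ringChar.Nat.cast_ringChar (R := F)
      rw [h] at this
      exact_mod_cast this
    have hnsq : ¬ IsSquare ((g ^ u : Fˣ) : F) := by
      intro hsq
      rw [FiniteField.isSquare_iff hchar (Units.ne_zero _)] at hsq
      rw [← Units.val_pow_eq_pow_val, ← Units.val_one, Units.val_inj, ← pow_mul] at hsq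
      have h8 := orderOf_dvd_of_pow_eq_one hsq
      rw [hg, hcard] at h8
      obtain ⟨s, hs⟩ := hodd
      have h9 : Fintype.card F / 2 = s := by omega
      have h10 : Fintype.card F - 1 = 2 * s := by omega
      rw [h9, h10] at h8
      have hs0 : 0 < s := by omega
      have h11 : 2 ∣ u := Nat.dvd_of_mul_dvd_mul_right hs0 h8
      exact (Nat.not_even_iff_odd.2 huodd) (even_iff_two_dvd.2 h11)
    have hneg1 : IsSquare (-1 : F) := CfsgLib.Invo29.sq_of_mem F₀ q₀ hF₀ hcardF h2 (-1) (F₀.neg_mem F₀.one_mem)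
    have hznsq : ¬ IsSquare (-((g ^ u : Fˣ) : F)) := by
      intro hsq
      apply hnsq
      have := hsq.mul hneg1
      simpa using this
    obtain ⟨x, hx⟩ := CfsgLib.Invo29.exists_nonsquare_mat (F := F) m (-((g ^ u : Fˣ) : F)) (by rw [neg_neg]; exact hgm)
    have hxns : ∀ z : F, (x : Matrix (Fin (2 * m)) (Fin (2 * m)) F) ≠ z • (1 : Matrix (Fin (2 * m)) (Fin (2 * m)) F) := by
      intro c hc
      apply hznsq
      refine ⟨c, ?_⟩
      rw [Matrix.SpecialLinearGroup.coe_pow, hc, pow_two, Matrix.smul_mul, Matrix.one_mul, smul_smul] at hx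
      have := congrFun (congrFun hx ⟨0, by omega⟩) ⟨0, by omega⟩
      simp at this
      exact this.symm
    obtain ⟨P, hP⟩ := h x ⟨_, hx⟩ hxns
    obtain ⟨A, c, hAc⟩ := CfsgLib.Invo29.of_mem_subfield F₀ _ hP
    apply hznsq
    -- squares
    have e1 : ((Matrix.SpecialLinearGroup.toGL (P⁻¹ * x * P) : GL (Fin (2 * m)) F) : Matrix (Fin (2 * m)) (Fin (2 * m)) F) *
        ((Matrix.SpecialLinearGroup.toGL (P⁻¹ * x * P) : GL (Fin (2 * m)) F) : Matrix (Fin (2 * m)) (Fin (2 * m)) F) =
        (-((g ^ u : Fˣ) : F)) • (1 : Matrix (Fin (2 * m)) (Fin (2 * m)) F) := by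
      have e2 : (P⁻¹ * x * P) * (P⁻¹ * x * P) = P⁻¹ * x ^ 2 * P := by
        rw [pow_two]; group
      have e3 : ((Matrix.SpecialLinearGroup.toGL (P⁻¹ * x * P) : GL (Fin (2 * m)) F) : Matrix (Fin (2 * m)) (Fin (2 * m)) F) *
        ((Matrix.SpecialLinearGroup.toGL (P⁻¹ * x * P) : GL (Fin (2 * m)) F) : Matrix (Fin (2 * m)) (Fin (2 * m)) F) =
        (((P⁻¹ * x * P) * (P⁻¹ * x * P) : Matrix.SpecialLinearGroup (Fin (2 * m)) F) : Matrix (Fin (2 * m)) (Fin (2 * m)) F) := rfl
      rw [e3, e2]
      have e4 : ((P⁻¹ * x ^ 2 * P : Matrix.SpecialLinearGroup (Fin (2 * m)) F) : Matrix (Fin (2 * m)) (Fin (2 * m)) F) =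
        ((P⁻¹ : Matrix.SpecialLinearGroup (Fin (2 * m)) F) : Matrix (Fin (2 * m)) (Fin (2 * m)) F) *
          ((x ^ 2 : Matrix.SpecialLinearGroup (Fin (2 * m)) F) : Matrix (Fin (2 * m)) (Fin (2 * m)) F) * (P : Matrix (Fin (2 * m)) (Fin (2 * m)) F) := rfl
      have e5 : ((P⁻¹ : Matrix.SpecialLinearGroup (Fin (2 * m)) F) : Matrix (Fin (2 * m)) (Fin (2 * m)) F) * (P : Matrix (Fin (2 * m)) (Fin (2 * m)) F) = 1 := by
        have := congrArg Subtype.val (inv_mul_cancel P)
        exact this
      rw [e4, hx, Matrix.mul_smul, Matrix.mul_one, Matrix.smul_mul, e5]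
    rw [hAc, Matrix.smul_mul, Matrix.mul_smul, smul_smul, ← Matrix.map_mul] at e1
    have e6 := congrFun (congrFun e1 ⟨0, by omega⟩) ⟨0, by omega⟩
    simp only [Matrix.smul_apply, Matrix.map_apply, Matrix.one_apply_eq, smul_eq_mul, mul_one] at e6
    rw [← e6]
    exact (IsSquare.mul_self (c : F)).mul (CfsgLib.Invo29.sq_of_mem F₀ q₀ hF₀ hcardF h2 _ (Subtype.mem _))
  · rintro h x ⟨z, hxx⟩ hns
    have hz := CfsgLib.Invo29.z_ne_zero (by omega) x z hxx
    have hsq : IsSquare z := by
      by_cases h2 : (2 : F) = 0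
      · have hchar : ringChar F = 2 := by
          have h3 : ((2 : ℕ) : F) = 0 := by exact_mod_cast h2
          have h4 := (ringChar.spec F 2).1 h3
          rcases (Nat.dvd_prime Nat.prime_two).1 h4 with h5 | h5
          · exact absurd h5 (CharP.ringChar_ne_one)
          · exact h5
        exact FiniteField.isSquare_of_char_two hchar z
      · by_contra hnsq
        have hchar : ringChar F ≠ 2 := by
          intro h
          apply h2
          have := ringChar.Nat.cast_ringChar (R := F)
          rw [h] at this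
          exact_mod_cast this
        have hodd : Odd (Fintype.card F) := Nat.odd_iff.2 (FiniteField.odd_card_of_char_ne_two hchar)
        obtain ⟨hk2, hv⟩ := h hodd
        subst hk2
        have hxx' : (x : Matrix (Fin n) (Fin n) F) * (x : Matrix (Fin n) (Fin n) F) = z • (1 : Matrix (Fin n) (Fin n) F) := by
          rw [← hxx, pow_two]; rfl
        obtain ⟨m, hm, hdet⟩ := CfsgLib.Invo29.det_nonsquare _ z hxx' hnsq
        have hdet1 : (-z) ^ m = 1 := by rw [← hdet]; exact x.2
        have hm0 : m ≠ 0 := by omega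
        have hneg1 : IsSquare (-1 : F) := CfsgLib.Invo29.sq_of_mem F₀ q₀ hF₀ hcardF h2 (-1) (F₀.neg_mem F₀.one_mem)
        have hznsq : ¬ IsSquare (-z) := by
          intro hsq
          apply hnsq
          have := hsq.mul hneg1
          simpa using this
        -- `(-z)^((q-1)/2) = -1`
        obtain ⟨s, hs⟩ := hodd
        have h10 : Fintype.card F - 1 = 2 * s := by omega
        have h9 : Fintype.card F / 2 = s := by omega
        have hs0 : s ≠ 0 := by
          rintro rfl
          have := Fintype.one_lt_card (α := F)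
          omega
        have hpow : (-z) ^ s = -1 := by
          have h11 := FiniteField.pow_dichotomy hchar (neg_ne_zero.2 hz)
          rw [h9] at h11
          rcases h11 with h11 | h11
          · exact absurd ((FiniteField.isSquare_iff hchar (neg_ne_zero.2 hz)).2 (by rw [h9]; exact h11)) hznsq
          · exact h11
        rw [hm, h10, padicValNat.mul two_ne_zero hm0, padicValNat.mul two_ne_zero hs0, padicValNat_self] at hv
        obtain ⟨u, hu⟩ := (pow_padicValNat_dvd : 2 ^ padicValNat 2 m ∣ m)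
        have huodd : Odd u := by
          by_contra hne
          rw [Nat.not_odd_iff_even] at hne
          obtain ⟨r, hr⟩ := hne
          have h3 : 2 ^ (padicValNat 2 m + 1) ∣ m := by
            refine ⟨r, ?_⟩
            rw [pow_succ, mul_assoc]
            conv_lhs => rw [hu]
            rw [hr]; ring
          exact pow_succ_padicValNat_not_dvd hm0 h3
        obtain ⟨r, hr⟩ := (Nat.pow_dvd_pow 2 (show padicValNat 2 m ≤ padicValNat 2 s by omega)).trans pow_padicValNat_dvd
        have h12 : ((-z) ^ s) ^ u = 1 := by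
          rw [← pow_mul]
          have : s * u = m * r := by
            conv_lhs => rw [hr]
            conv_rhs => rw [hu]
            ring
          rw [this, pow_mul, hdet1, one_pow]
        rw [hpow, huodd.neg_one_pow] at h12
        apply h2
        have : (1 : F) + 1 = 0 := by
          nth_rw 1 [← h12]
          simp
        rw [← one_add_one_eq_two]; exact this
    obtain ⟨w, rfl⟩ := hsq
    exact pos_case n (by omega) F₀ x w (fun h => hz (by rw [h, zero_mul])) hxx hns

end Cfsg.Agent.S5964
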