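import Cfsg.Statements.S5966
import Mathlib
import Cfsg.Agent.LibNil29c

set_option autoImplicit false
open scoped MatrixGroups
open Cfsg

namespace Cfsg.Agent.S5966

section helper
open Matrix CfsgLib.Invo29 CfsgLib.Nil29 Module

/-- conjugating into the subfield group -/
theorem pos_case {F : Type*} [Field F] [Fintype F] [CharP F 3] (n : ℕ) (hn : 2 ≤ n) (F₀ : Subfield F) (k q₀ : ℕ) (hk : k.Prime)
    (hF₀ : Nat.card ↥F₀ = q₀) (hqk : Fintype.card F = q₀ ^ k) (hor : Odd n ∨ (Even n ∧ 2 < k))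
    (x : Matrix.SpecialLinearGroup (Fin n) F) (z : F)
    (hxx : ((x ^ 3 : Matrix.SpecialLinearGroup (Fin n) F) : Matrix (Fin n) (Fin n) F) = z • (1 : Matrix (Fin n) (Fin n) F)) :
    ∃ P : Matrix.SpecialLinearGroup (Fin n) F, Matrix.SpecialLinearGroup.toGL (P⁻¹ * x * P) ∈ Cfsg.Geo.subfieldSubgroup F₀ (1 : GL (Fin n) F) := by
  classical
  haveI : Nonempty (Fin n) := ⟨⟨0, by omega⟩⟩
  obtain ⟨w, rfl⟩ := exists_cube_root z
  have hw : w ≠ 0 := by
    rintro rfl
    have h1 := congrArg Matrix.det hxx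
    rw [zero_pow three_ne_zero, zero_smul, (x ^ 3).2, Matrix.det_zero] at h1
    exact one_ne_zero h1
  have h2 : (2 : F) ≠ 0 := by
    intro h
    have h3 : ((3 : ℕ) : F) = 0 := CharP.cast_eq_zero F 3
    have : (1 : F) = 0 := by
      have : (1 : F) = ((3 : ℕ) : F) - 2 := by push_cast; ring
      rw [this, h3, h]; ring
    exact one_ne_zero this
  let X := Matrix.toLin' (x : Matrix (Fin n) (Fin n) F)
  have hX3 : ∀ v, X (X (X v)) = w ^ 3 • v := by
    intro v
    simp only [X, Matrix.toLin'_apply, Matrix.mulVec_mulVec]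
    have : (x : Matrix (Fin n) (Fin n) F) * ((x : Matrix (Fin n) (Fin n) F) * (x : Matrix (Fin n) (Fin n) F)) = w ^ 3 • (1 : Matrix (Fin n) (Fin n) F) := by
      rw [← hxx, Matrix.SpecialLinearGroup.coe_pow, pow_succ, pow_two, Matrix.mul_assoc]
    rw [this, Matrix.smul_mulVec, Matrix.one_mulVec]
  let y : (Fin n → F) →ₗ[F] (Fin n → F) := w⁻¹ • X
  have hy3 : ∀ v, y (y (y v)) = v := by
    intro v
    show w⁻¹ • X (w⁻¹ • X (w⁻¹ • X v)) = v
    rw [map_smul, map_smul, map_smul, hX3, smul_smul, smul_smul, smul_smul]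
    have : w⁻¹ * w⁻¹ * w⁻¹ * w ^ 3 = 1 := by field_simp
    rw [this, one_smul]
  let N : (Fin n → F) →ₗ[F] (Fin n → F) := y - LinearMap.id
  have hthree : (3 : F) = 0 := by
    have h3 : ((3 : ℕ) : F) = 0 := CharP.cast_eq_zero F 3
    exact_mod_cast h3
  have hN3 : ∀ v, (N ^ 3) v = 0 := by
    intro v
    have e1 : (N ^ 3) v = N (N (N v)) := by
      rw [pow_succ, pow_two]; rfl
    rw [e1]
    show y (y (y v - v) - (y v - v)) - (y (y v - v) - (y v - v)) = 0
    simp only [map_sub, hy3]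
    have : v - y (y v) - (y (y v) - y v) - (y (y v) - y v - (y v - v)) = (3 : F) • (y v - y (y v)) := by
      module
    rw [this, hthree, zero_smul]
  have hinj : Function.Injective y := by
    intro u v huv
    have := congrArg (fun t => y (y t)) huv
    simp only [hy3] at this
    exact this
  have hstrN := strN N _ ⊤ rfl (fun _ _ => Submodule.mem_top) ⟨3, fun w _ => hN3 w⟩
  have hid : LinearMap.id + N = y := by
    ext v; simp [N]
  have hstrF : StrF F₀ y ⊤ := by
    rw [← hid]
    exact strF_of_strN F₀ N ⊤ hstrN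
  obtain ⟨P, A, hP⟩ := exists_sub F₀ y hinj hstrF
  have hPP : (P : (Fin n → F) →ₗ[F] (Fin n → F)) ∘ₗ (P.symm : (Fin n → F) →ₗ[F] (Fin n → F)) = LinearMap.id := by
    ext; simp
  have hPP' : (P.symm : (Fin n → F) →ₗ[F] (Fin n → F)) ∘ₗ (P : (Fin n → F) →ₗ[F] (Fin n → F)) = LinearMap.id := by
    ext; simp
  let P0 : GL (Fin n) F := ⟨LinearMap.toMatrix' (P : (Fin n → F) →ₗ[F] (Fin n → F)),
    LinearMap.toMatrix' (P.symm : (Fin n → F) →ₗ[F] (Fin n → F)), by
      rw [← LinearMap.toMatrix'_comp, hPP, LinearMap.toMatrix'_id], by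
      rw [← LinearMap.toMatrix'_comp, hPP', LinearMap.toMatrix'_id]⟩
  have hdP : (P0 : Matrix (Fin n) (Fin n) F).det ≠ 0 := by
    intro h
    have h1 := P0.isUnit
    rw [Matrix.isUnit_iff_isUnit_det, h] at h1
    exact not_isUnit_zero h1
  -- the key: determinants
  have hkey : ∃ (c : Matrix (Fin n) (Fin n) F) (a : F₀), c * (x : Matrix (Fin n) (Fin n) F) = (x : Matrix (Fin n) (Fin n) F) * c ∧ a ≠ 0 ∧
      c.det * (a : F) = ((P0 : Matrix (Fin n) (Fin n) F).det)⁻¹ := by
    obtain ⟨ι, _, s, b0, hs, hli, hsp, hNb⟩ := hstrN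
    let b : Basis (Σ i, Fin (s i)) F (Fin n → F) := Basis.mk hli hsp.ge
    have hb : ∀ p, b p = b0 p := fun p => Basis.mk_apply _ _ _
    have hNb' : ∀ i (j : Fin (s i)), N (b ⟨i, j⟩) = if h : (j : ℕ) + 1 < s i then b ⟨i, ⟨j + 1, h⟩⟩ else 0 := by
      intro i j
      rw [hb, hNb]
      split_ifs with h
      · rw [hb]
      · rfl
    have hs3 : ∀ i, s i ≤ 3 := by
      intro i
      by_contra hlt
      push Not at hlt
      have h3 := pow_chain N s b0 hNb i 3 ⟨0, hs i⟩
      rw [hN3, dif_pos (by simpa using hlt)] at h3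
      exact hli.ne_zero _ h3.symm
    have hscal : ∀ i0 (μ : F), ∃ c : Matrix (Fin n) (Fin n) F, c * (x : Matrix (Fin n) (Fin n) F) = (x : Matrix (Fin n) (Fin n) F) * c ∧
        c.det = μ ^ (s i0) := by
      intro i0 μ
      obtain ⟨c, hc1, hc2⟩ := exists_scaling N s b hNb' i0 μ
      refine ⟨LinearMap.toMatrix' c, ?_, by rw [LinearMap.det_toMatrix', hc2]⟩
      apply Matrix.toLin'.injective
      rw [Matrix.toLin'_mul, Matrix.toLin'_mul, Matrix.toLin'_toMatrix']
      refine LinearMap.ext fun v => ?_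
      have h3 := hc1 v
      have h4 : ∀ u, X u = w • (N u + u) := by
        intro u
        show X u = w • (w⁻¹ • X u - u + u)
        rw [sub_add_cancel, smul_smul, mul_inv_cancel₀ hw, one_smul]
      show c (X v) = X (c v)
      rw [h4, h4, map_smul, map_add, h3]
    by_cases h3 : ∃ i, s i = 3
    · obtain ⟨i, hi⟩ := h3
      obtain ⟨μ, hμ⟩ := exists_cube_root ((P0 : Matrix (Fin n) (Fin n) F).det)⁻¹
      obtain ⟨c, hc1, hc2⟩ := hscal i μ
      exact ⟨c, 1, hc1, one_ne_zero, by rw [hc2, hi, hμ]; simp⟩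
    · by_cases h1 : ∃ i, s i = 1
      · obtain ⟨i, hi⟩ := h1
        obtain ⟨c, hc1, hc2⟩ := hscal i ((P0 : Matrix (Fin n) (Fin n) F).det)⁻¹
        exact ⟨c, 1, hc1, one_ne_zero, by rw [hc2, hi]; simp⟩
      · push Not at h3 h1
        have hall : ∀ i, s i = 2 := by
          intro i
          have e1 := hs3 i
          have e2 := h3 i
          have e3 := h1 i
          have e4 := hs i
          omega
        have hcard := finrank_eq_card_basis b
        simp only [Module.finrank_pi, Fintype.card_fin, Fintype.card_sigma, hall, Finset.sum_const, Finset.card_univ, smul_eq_mul] at hcard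
        have hk2 : 2 < k := by
          rcases hor with h | h
          · exfalso
            rw [hcard] at h
            exact (Nat.not_even_iff_odd.2 h) (Even.mul_left even_two _)
          · exact h.2
        have hkodd : Odd k := hk.odd_of_ne_two (by omega)
        have hι : Nonempty ι := by
          by_contra hne
          rw [not_nonempty_iff] at hne
          rw [Fintype.card_eq_zero] at hcard
          omega
        obtain ⟨i⟩ := hι
        by_cases hsq : IsSquare ((P0 : Matrix (Fin n) (Fin n) F).det)⁻¹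
        · obtain ⟨μ, hμ⟩ := hsq
          obtain ⟨c, hc1, hc2⟩ := hscal i μ
          exact ⟨c, 1, hc1, one_ne_zero, by rw [hc2, hall i, hμ]; simp [pow_two]⟩
        · obtain ⟨a, haF, ha⟩ := exists_nonsq_mem F₀ q₀ k hF₀ hqk h2 hkodd
          obtain ⟨r, hr⟩ := div_of_nonsq h2 hsq ha
          obtain ⟨c, hc1, hc2⟩ := hscal i r
          refine ⟨c, ⟨a, haF⟩, hc1, ?_, by rw [hc2, hall i, pow_two, hr]⟩
          intro h
          apply ha
          have : a = 0 := congrArg Subtype.val h
          exact ⟨0, by rw [this]; simp⟩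
  obtain ⟨c, a, hc1, ha, hc2⟩ := hkey
  -- diagonal correction over `F₀`
  let i0 : Fin n := ⟨0, by omega⟩
  let D : Matrix (Fin n) (Fin n) F₀ := Matrix.diagonal (Function.update (fun _ => (1 : F₀)) i0 a)
  have hD : D.det = a := by
    show (Matrix.diagonal _).det = a
    rw [Matrix.det_diagonal, Finset.prod_update_of_mem (Finset.mem_univ _)]
    simp
  let A0 : GL (Fin n) F₀ := Matrix.GeneralLinearGroup.mkOfDetNeZero D (by rw [hD]; exact ha)
  let A0F : GL (Fin n) F := Matrix.GeneralLinearGroup.map (F₀.subtype : F₀ →+* F) A0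
  have hA0F : (A0F : Matrix (Fin n) (Fin n) F).det = (a : F) := by
    have : (A0F : Matrix (Fin n) (Fin n) F) = D.map F₀.subtype := rfl
    rw [this]
    have h3 := RingHom.map_det F₀.subtype D
    rw [hD] at h3
    exact h3.symm
  obtain ⟨P1, hP1⟩ := adjust_conj' x (P0 * A0F) c hc1 (by
    rw [Units.val_mul, Matrix.det_mul, hA0F]
    calc c.det * ((P0 : Matrix (Fin n) (Fin n) F).det * (a : F)) = (c.det * (a : F)) * (P0 : Matrix (Fin n) (Fin n) F).det := by ring
      _ = 1 := by rw [hc2, inv_mul_cancel₀ hdP])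
  refine ⟨P1, ?_⟩
  rw [hP1]
  have e0 : (P0 * A0F)⁻¹ * Matrix.SpecialLinearGroup.toGL x * (P0 * A0F) =
      A0F⁻¹ * (P0⁻¹ * Matrix.SpecialLinearGroup.toGL x * P0) * A0F := by group
  rw [e0]
  have hmemA : ∀ B : GL (Fin n) F₀, Matrix.GeneralLinearGroup.map (F₀.subtype : F₀ →+* F) B ∈ Cfsg.Geo.subfieldSubgroup F₀ (1 : GL (Fin n) F) := by
    intro B
    refine mem_subfield_of F₀ _ B 1 ?_
    rw [Units.val_one, one_smul]
    rfl
  refine Subgroup.mul_mem _ (Subgroup.mul_mem _ (Subgroup.inv_mem _ (hmemA A0)) ?_) (hmemA A0)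
  refine mem_subfield_of F₀ _ A (Units.mk0 w hw) ?_
  apply Matrix.toLin'.injective
  refine LinearMap.ext fun v => ?_
  have e1 : ((P0⁻¹ * Matrix.SpecialLinearGroup.toGL x * P0 : GL (Fin n) F) : Matrix (Fin n) (Fin n) F) =
      LinearMap.toMatrix' (P.symm : (Fin n → F) →ₗ[F] (Fin n → F)) * (x : Matrix (Fin n) (Fin n) F) *
        LinearMap.toMatrix' (P : (Fin n → F) →ₗ[F] (Fin n → F)) := rfl
  rw [Matrix.toLin'_apply, Matrix.toLin'_apply, e1, ← Matrix.mulVec_mulVec, ← Matrix.mulVec_mulVec, LinearMap.toMatrix'_mulVec, LinearMap.toMatrix'_mulVec,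
    Matrix.smul_mulVec, ← hP]
  show P.symm ((x : Matrix (Fin n) (Fin n) F) *ᵥ (P v)) = w • P.symm (y (P v))
  rw [← map_smul]
  congr 1
  simp only [y, X, LinearMap.smul_apply, smul_smul, mul_inv_cancel₀ hw, one_smul, Matrix.toLin'_apply]

/-- the bad element -/
theorem neg_case {F : Type*} [Field F] [Fintype F] [CharP F 3] (m : ℕ) (hm : 1 ≤ m) (F₀ : Subfield F) (q₀ : ℕ)
    (hF₀ : Nat.card ↥F₀ = q₀) (hqk : Fintype.card F = q₀ ^ 2) :
    ∃ x : Matrix.SpecialLinearGroup (Fin (m + m)) F,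
      ((x ^ 3 : Matrix.SpecialLinearGroup (Fin (m + m)) F) : Matrix (Fin (m + m)) (Fin (m + m)) F) = (1 : F) • (1 : Matrix (Fin (m + m)) (Fin (m + m)) F) ∧
      (∀ z : F, (x : Matrix (Fin (m + m)) (Fin (m + m)) F) ≠ z • (1 : Matrix (Fin (m + m)) (Fin (m + m)) F)) ∧
      ∀ P : Matrix.SpecialLinearGroup (Fin (m + m)) F, Matrix.SpecialLinearGroup.toGL (P⁻¹ * x * P) ∉ Cfsg.Geo.subfieldSubgroup F₀ (1 : GL (Fin (m + m)) F) := by
  classical
  have hthree : (3 : F) = 0 := by
    have h3 : ((3 : ℕ) : F) = 0 := CharP.cast_eq_zero F 3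
    exact_mod_cast h3
  have h2 : (2 : F) ≠ 0 := by
    intro h
    have : (1 : F) = 0 := by
      have : (1 : F) = (3 : F) - 2 := by ring
      rw [this, hthree, h]; ring
    exact one_ne_zero this
  have hchar : ringChar F ≠ 2 := by
    intro h
    apply h2
    have := ringChar.Nat.cast_ringChar (R := F)
    rw [h] at this
    exact_mod_cast this
  obtain ⟨d, hd⟩ := FiniteField.exists_nonsquare hchar
  have hd0 : d ≠ 0 := by
    rintro rfl
    exact hd ⟨0, by simp⟩
  let e : Fin m ⊕ Fin m ≃ Fin (m + m) := finSumFinEquiv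
  let N0 : Matrix (Fin (m + m)) (Fin (m + m)) F := Matrix.reindexAlgEquiv F F e (Matrix.fromBlocks 0 1 0 0)
  have hN0 : N0 * N0 = 0 := by
    show Matrix.reindexAlgEquiv F F e _ * Matrix.reindexAlgEquiv F F e _ = 0
    rw [← map_mul, Matrix.fromBlocks_multiply]
    simp
  have hN0s : ∀ j : Fin m, N0 *ᵥ (Pi.single (e (Sum.inr j)) 1) = Pi.single (e (Sum.inl j)) 1 := by
    intro j
    ext l
    obtain ⟨l, rfl⟩ := e.surjective l
    rw [Matrix.mulVec_single_one]
    show (Matrix.fromBlocks 0 1 0 0 : Matrix (Fin m ⊕ Fin m) (Fin m ⊕ Fin m) F) (e.symm (e l)) (e.symm (e (Sum.inr j))) = _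
    rw [Equiv.symm_apply_apply, Equiv.symm_apply_apply]
    rcases l with l | l
    · simp [Pi.single_apply, Matrix.one_apply]
    · simp [Pi.single_apply]
  -- the conjugating matrix
  let i0 : Fin (m + m) := ⟨0, by omega⟩
  let Q : Matrix (Fin (m + m)) (Fin (m + m)) F := Matrix.diagonal (Function.update (fun _ => (1 : F)) i0 d)
  have hQ : Q.det = d := by
    show (Matrix.diagonal _).det = d
    rw [Matrix.det_diagonal, Finset.prod_update_of_mem (Finset.mem_univ _)]
    simp
  have hQu : IsUnit Q.det := by rw [hQ]; exact isUnit_iff_ne_zero.2 hd0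
  let N : Matrix (Fin (m + m)) (Fin (m + m)) F := Q * N0 * Q⁻¹
  have hNQ : N * Q = Q * N0 := by
    show Q * N0 * Q⁻¹ * Q = _
    rw [Matrix.mul_assoc, Matrix.nonsing_inv_mul Q hQu, Matrix.mul_one]
  have hNN : N * N = 0 := by
    show (Q * N0 * Q⁻¹) * (Q * N0 * Q⁻¹) = 0
    calc _ = Q * (N0 * (Q⁻¹ * Q) * N0) * Q⁻¹ := by simp only [Matrix.mul_assoc]
      _ = 0 := by rw [Matrix.nonsing_inv_mul Q hQu, Matrix.mul_one, hN0]; simp
  have hdisc1 : disc e N0 (fun j => Pi.single (e (Sum.inr j)) 1) ≠ 0 := by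
    intro h0
    obtain ⟨c, hc, hc2⟩ := Matrix.exists_vecMul_eq_zero_iff.2 h0
    apply hc
    funext p
    have h1 : ∀ l : Fin m ⊕ Fin m, ∑ j, c (Sum.inl j) * (Pi.single (e (Sum.inr j)) (1 : F) : Fin (m + m) → F) (e l) + ∑ j, c (Sum.inr j) * (Pi.single (e (Sum.inl j)) (1 : F) : Fin (m + m) → F) (e l) = 0 := by
      intro l
      have h3 := congrFun hc2 l
      simp only [Matrix.vecMul, dotProduct, Fintype.sum_sum_type, Matrix.submatrix_apply, id, rows, Matrix.of_apply,
        Sum.elim_inl, Sum.elim_inr, hN0s] at h3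
      exact h3
    rcases p with j | j
    · have := h1 (Sum.inr j)
      simpa [Pi.single_apply] using this
    · have := h1 (Sum.inl j)
      simpa [Pi.single_apply] using this
  have hdiscsq : ∃ r : F, disc e N0 (fun j => Pi.single (e (Sum.inr j)) 1) = r * r := by
    -- it is a determinant of a permutation matrix over `F₀`
    have hmem : disc e N0 (fun j => Pi.single (e (Sum.inr j)) 1) ∈ F₀ := by
      unfold disc
      have : (rows N0 (fun j => (Pi.single (e (Sum.inr j)) (1 : F) : Fin (m + m) → F))).submatrix id e =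
          (Matrix.fromBlocks 0 1 1 0 : Matrix (Fin m ⊕ Fin m) (Fin m ⊕ Fin m) F₀).map F₀.subtype := by
        ext (j | j) (l | l)
        · simp [rows, Pi.single_apply]
        · simp [rows, Pi.single_apply, Matrix.one_apply, eq_comm]
          split_ifs <;> simp
        · simp [rows, hN0s, Pi.single_apply, Matrix.one_apply, eq_comm]
          split_ifs <;> simp
        · simp [rows, hN0s, Pi.single_apply]
      rw [this]
      have h3 := RingHom.map_det F₀.subtype (Matrix.fromBlocks 0 1 1 0 : Matrix (Fin m ⊕ Fin m) (Fin m ⊕ Fin m) F₀)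
      have h4 : ((Matrix.fromBlocks 0 1 1 0 : Matrix (Fin m ⊕ Fin m) (Fin m ⊕ Fin m) F₀).map F₀.subtype).det =
        F₀.subtype (Matrix.fromBlocks 0 1 1 0 : Matrix (Fin m ⊕ Fin m) (Fin m ⊕ Fin m) F₀).det := h3.symm
      rw [h4]
      exact Subtype.mem _
    exact sq_of_mem F₀ q₀ hF₀ hqk h2 _ hmem
  let X : Matrix (Fin (m + m)) (Fin (m + m)) F := 1 + N
  have hXdet : X.det = 1 := by
    have h1 : X = Q * (1 + N0) * Q⁻¹ := by
      show 1 + Q * N0 * Q⁻¹ = _
      rw [Matrix.mul_add, Matrix.add_mul, Matrix.mul_one, Matrix.mul_nonsing_inv Q hQu]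
    have h3 : (1 + N0 : Matrix (Fin (m + m)) (Fin (m + m)) F).det = 1 := by
      have : (1 + N0 : Matrix (Fin (m + m)) (Fin (m + m)) F) = Matrix.reindexAlgEquiv F F e (Matrix.fromBlocks 1 1 0 1) := by
        show 1 + Matrix.reindexAlgEquiv F F e _ = _
        rw [← map_one (Matrix.reindexAlgEquiv F F e), ← map_add, ← Matrix.fromBlocks_one, Matrix.fromBlocks_add]
        simp
      rw [this, Matrix.det_reindexAlgEquiv, Matrix.det_fromBlocks_zero₂₁]
      simp
    rw [h1, Matrix.det_mul, Matrix.det_mul, h3, mul_one, ← Matrix.det_mul, Matrix.mul_nonsing_inv Q hQu, Matrix.det_one]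
  have hX3 : X * X * X = 1 := by
    have h3N : (3 : ℕ) • N = 0 := by
      rw [← Nat.cast_smul_eq_nsmul F]
      have : ((3 : ℕ) : F) = 0 := CharP.cast_eq_zero F 3
      rw [this, zero_smul]
    show (1 + N) * (1 + N) * (1 + N) = 1
    have : (1 + N) * (1 + N) * (1 + N) = 1 + (3 : ℕ) • N + (3 : ℕ) • (N * N) + N * N * N := by noncomm_ring
    rw [this, hNN, h3N]; simp
  let x0 : Matrix.SpecialLinearGroup (Fin (m + m)) F := ⟨X, hXdet⟩
  have hrankN : finrank F (LinearMap.range (Matrix.toLin' N)) = m := by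
    -- kernel = range
    have h1 := LinearMap.finrank_range_add_finrank_ker (Matrix.toLin' N)
    have h3 : LinearMap.range (Matrix.toLin' N) ≤ LinearMap.ker (Matrix.toLin' N) := by
      rintro _ ⟨u, rfl⟩
      show Matrix.toLin' N (Matrix.toLin' N u) = 0
      rw [Matrix.toLin'_apply, Matrix.toLin'_apply, Matrix.mulVec_mulVec, hNN, Matrix.zero_mulVec]
    have h4 := Submodule.finrank_mono h3
    have h5 : m ≤ finrank F (LinearMap.range (Matrix.toLin' N)) := by
      have hli : LinearIndependent F (fun j : Fin m => Q *ᵥ (Pi.single (e (Sum.inl j)) 1 : Fin (m + m) → F)) := by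
        have hb : LinearIndependent F (fun j : Fin m => (Pi.single (e (Sum.inl j)) 1 : Fin (m + m) → F)) := by
          have := (Pi.basisFun F (Fin (m + m))).linearIndependent.comp (fun j : Fin m => e (Sum.inl j))
            (e.injective.comp Sum.inl_injective)
          convert this using 1
          funext j
          simp
        have hker : LinearMap.ker (Matrix.toLin' Q) = ⊥ := by
          rw [LinearMap.ker_eq_bot]
          intro u v huv
          simp only [Matrix.toLin'_apply] at huv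
          have := congrArg (fun t => Q⁻¹ *ᵥ t) huv
          simpa [Matrix.mulVec_mulVec, Matrix.nonsing_inv_mul Q hQu] using this
        exact hb.map' (Matrix.toLin' Q) hker
      have hle : Submodule.span F (Set.range (fun j : Fin m => Q *ᵥ (Pi.single (e (Sum.inl j)) 1 : Fin (m + m) → F))) ≤
          LinearMap.range (Matrix.toLin' N) := by
        rw [Submodule.span_le]
        rintro _ ⟨j, rfl⟩
        refine ⟨Q *ᵥ (Pi.single (e (Sum.inr j)) 1), ?_⟩
        show Matrix.toLin' N _ = Q *ᵥ (Pi.single (e (Sum.inl j)) 1)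
        rw [Matrix.toLin'_apply, Matrix.mulVec_mulVec, hNQ, ← Matrix.mulVec_mulVec, hN0s]
      have h6 := Submodule.finrank_mono hle
      rw [finrank_span_eq_card hli, Fintype.card_fin] at h6
      exact h6
    have h7 : finrank F (Fin (m + m) → F) = m + m := by simp
    omega
  refine ⟨x0, ?_, ?_, ?_⟩
  · rw [Matrix.SpecialLinearGroup.coe_pow, one_smul, pow_succ, pow_two]
    exact hX3
  · intro z hz
    have hz' : 1 + N = z • (1 : Matrix (Fin (m + m)) (Fin (m + m)) F) := hz
    have h1 : N = (z - 1) • (1 : Matrix (Fin (m + m)) (Fin (m + m)) F) := by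
      rw [sub_smul, ← hz', one_smul]; abel
    have h3 : (z - 1) * (z - 1) = 0 := by
      have h4 := hNN
      rw [h1, Matrix.smul_mul, Matrix.mul_smul, smul_smul, Matrix.mul_one] at h4
      have := congrFun (congrFun h4 i0) i0
      simpa using this
    have h5 : z - 1 = 0 := mul_self_eq_zero.1 h3
    rw [h5, zero_smul] at h1
    have h6 : Matrix.toLin' N = 0 := by rw [h1, map_zero]
    rw [h6, LinearMap.range_zero, finrank_bot] at hrankN
    omega
  · intro P hmem
    obtain ⟨A, c, hAc⟩ := of_mem_subfield F₀ _ hmem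
    set M : Matrix (Fin (m + m)) (Fin (m + m)) F := ((Matrix.SpecialLinearGroup.toGL (P⁻¹ * x0 * P) : GL (Fin (m + m)) F) : Matrix (Fin (m + m)) (Fin (m + m)) F) with hM
    have hP1 : ((P⁻¹ : Matrix.SpecialLinearGroup (Fin (m + m)) F) : Matrix (Fin (m + m)) (Fin (m + m)) F) * (P : Matrix (Fin (m + m)) (Fin (m + m)) F) = 1 := by
      have := congrArg Subtype.val (inv_mul_cancel P)
      exact this
    have hP2 : (P : Matrix (Fin (m + m)) (Fin (m + m)) F) * ((P⁻¹ : Matrix.SpecialLinearGroup (Fin (m + m)) F) : Matrix (Fin (m + m)) (Fin (m + m)) F) = 1 := by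
      have := congrArg Subtype.val (mul_inv_cancel P)
      exact this
    have hMval : M = ((P⁻¹ : Matrix.SpecialLinearGroup (Fin (m + m)) F) : Matrix (Fin (m + m)) (Fin (m + m)) F) * X * (P : Matrix (Fin (m + m)) (Fin (m + m)) F) := rfl
    -- `c ∈ F₀`
    have hM3 : M * M * M = 1 := by
      rw [hMval]
      calc _ = ((P⁻¹ : Matrix.SpecialLinearGroup (Fin (m + m)) F) : Matrix (Fin (m + m)) (Fin (m + m)) F) * (X * ((P : Matrix (Fin (m + m)) (Fin (m + m)) F) * ((P⁻¹ : Matrix.SpecialLinearGroup (Fin (m + m)) F) : Matrix (Fin (m + m)) (Fin (m + m)) F)) *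
            X * ((P : Matrix (Fin (m + m)) (Fin (m + m)) F) * ((P⁻¹ : Matrix.SpecialLinearGroup (Fin (m + m)) F) : Matrix (Fin (m + m)) (Fin (m + m)) F)) * X) * (P : Matrix (Fin (m + m)) (Fin (m + m)) F) := by
              simp only [Matrix.mul_assoc]
        _ = 1 := by rw [hP2, Matrix.mul_one, Matrix.mul_one, hX3, Matrix.mul_one, hP1]
    have hcF : (c : F) ∈ F₀ := by
      have h1 : ((c : F) ^ 3) • ((A : Matrix (Fin (m + m)) (Fin (m + m)) F₀) * (A : Matrix (Fin (m + m)) (Fin (m + m)) F₀) * (A : Matrix (Fin (m + m)) (Fin (m + m)) F₀)).map F₀.subtype = 1 := by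
        rw [Matrix.map_mul, Matrix.map_mul, ← hM3, hAc]
        simp only [Matrix.smul_mul, Matrix.mul_smul, smul_smul]
        congr 1
        ring
      have h3 := congrFun (congrFun h1 i0) i0
      rw [Matrix.smul_apply, Matrix.map_apply, Matrix.one_apply_eq, smul_eq_mul] at h3
      have h4 : (c : F) ^ 3 ∈ F₀ := by
        rw [eq_inv_of_mul_eq_one_left h3]
        exact F₀.inv_mem (Subtype.mem _)
      haveI : CharP F₀ 3 := RingHom.charP F₀.subtype Subtype.val_injective 3
      haveI : Fintype F₀ := Fintype.ofFinite _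
      obtain ⟨b, hb⟩ := exists_cube_root (F := F₀) ⟨(c : F) ^ 3, h4⟩
      have h5 : (b : F) ^ 3 = (c : F) ^ 3 := congrArg Subtype.val hb
      rw [← cube_inj h5]
      exact b.2
    -- the discriminant of `M - 1`
    have hMN : (M - 1) * (M - 1) = 0 := by
      have : M - 1 = ((P⁻¹ : Matrix.SpecialLinearGroup (Fin (m + m)) F) : Matrix (Fin (m + m)) (Fin (m + m)) F) * N * (P : Matrix (Fin (m + m)) (Fin (m + m)) F) := by
        rw [hMval]
        show ((P⁻¹ : Matrix.SpecialLinearGroup (Fin (m + m)) F) : Matrix (Fin (m + m)) (Fin (m + m)) F) * (1 + N) * (P : Matrix (Fin (m + m)) (Fin (m + m)) F) - 1 = _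
        rw [Matrix.mul_add, Matrix.add_mul, Matrix.mul_one, hP1]
        abel
      rw [this]
      calc _ = ((P⁻¹ : Matrix.SpecialLinearGroup (Fin (m + m)) F) : Matrix (Fin (m + m)) (Fin (m + m)) F) * (N * ((P : Matrix (Fin (m + m)) (Fin (m + m)) F) * ((P⁻¹ : Matrix.SpecialLinearGroup (Fin (m + m)) F) : Matrix (Fin (m + m)) (Fin (m + m)) F)) * N) * (P : Matrix (Fin (m + m)) (Fin (m + m)) F) := by
            simp only [Matrix.mul_assoc]
        _ = 0 := by rw [hP2, Matrix.mul_one, hNN]; simp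
    have hMP : N * (P : Matrix (Fin (m + m)) (Fin (m + m)) F) = (P : Matrix (Fin (m + m)) (Fin (m + m)) F) * (M - 1) := by
      rw [Matrix.mul_sub, hMval, ← Matrix.mul_assoc, ← Matrix.mul_assoc, hP2, Matrix.one_mul]
      show _ = (1 + N) * (P : Matrix (Fin (m + m)) (Fin (m + m)) F) - (P : Matrix (Fin (m + m)) (Fin (m + m)) F) * 1
      rw [Matrix.add_mul, Matrix.one_mul, Matrix.mul_one]
      abel
    have hrankM : finrank F (LinearMap.range (Matrix.toLin' (M - 1))) = m := by
      have hPinj : Function.Injective (Matrix.toLin' (P : Matrix (Fin (m + m)) (Fin (m + m)) F)) := by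
        intro u v huv
        simp only [Matrix.toLin'_apply] at huv
        have := congrArg (fun t => ((P⁻¹ : Matrix.SpecialLinearGroup (Fin (m + m)) F) : Matrix (Fin (m + m)) (Fin (m + m)) F) *ᵥ t) huv
        simp only [Matrix.mulVec_mulVec, hP1, Matrix.one_mulVec] at this
        exact this
      have h1 : (LinearMap.range (Matrix.toLin' (M - 1))).map (Matrix.toLin' (P : Matrix (Fin (m + m)) (Fin (m + m)) F)) = LinearMap.range (Matrix.toLin' N) := by
        apply le_antisymm
        · rintro _ ⟨_, ⟨u, rfl⟩, rfl⟩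
          refine ⟨(P : Matrix (Fin (m + m)) (Fin (m + m)) F) *ᵥ u, ?_⟩
          simp only [Matrix.toLin'_apply, Matrix.mulVec_mulVec]
          rw [hMP]
        · rintro _ ⟨u, rfl⟩
          refine ⟨(M - 1) *ᵥ (((P⁻¹ : Matrix.SpecialLinearGroup (Fin (m + m)) F) : Matrix (Fin (m + m)) (Fin (m + m)) F) *ᵥ u), ⟨_, Matrix.toLin'_apply _ _⟩, ?_⟩
          simp only [Matrix.toLin'_apply, Matrix.mulVec_mulVec]
          rw [← Matrix.mul_assoc, ← hMP, Matrix.mul_assoc, hP2, Matrix.mul_one]
      rw [(Submodule.equivMapOfInjective _ hPinj _).finrank_eq, h1, hrankN]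
    obtain ⟨g, hg⟩ := exists_std e (M - 1) hMN hrankM
    -- membership in `F₀`
    have hgF : disc e (M - 1) (fun j => Pi.single (g j) 1) ∈ F₀ := by
      have hentry : ∀ i j, (M - 1) i j ∈ F₀ := by
        intro i j
        rw [Matrix.sub_apply, hAc, Matrix.smul_apply, Matrix.map_apply, smul_eq_mul]
        refine F₀.sub_mem (F₀.mul_mem hcF (Subtype.mem _)) ?_
        rw [Matrix.one_apply]
        split_ifs
        · exact F₀.one_mem
        · exact F₀.zero_mem
      have hent2 : ∀ p l, ((rows (M - 1) (fun j => (Pi.single (g j) 1 : Fin (m + m) → F))).submatrix id e) p l ∈ F₀ := by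
        rintro (j | j) l
        · show (Pi.single (g j) (1 : F) : Fin (m + m) → F) (e l) ∈ F₀
          rw [Pi.single_apply]
          split_ifs
          · exact F₀.one_mem
          · exact F₀.zero_mem
        · show ((M - 1) *ᵥ (Pi.single (g j) 1)) (e l) ∈ F₀
          rw [Matrix.mulVec_single_one]
          exact hentry _ _
      unfold disc
      rw [Matrix.det_apply]
      refine F₀.sum_mem fun σ _ => ?_
      rw [Units.smul_def, zsmul_eq_mul]
      exact F₀.mul_mem (F₀.intCast_mem _) (F₀.prod_mem fun i _ => hent2 _ _)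
    obtain ⟨r1, hr1⟩ := sq_of_mem F₀ q₀ hF₀ hqk h2 _ hgF
    have h1 := disc_conj e (M - 1) N (P : Matrix (Fin (m + m)) (Fin (m + m)) F) hMP (fun j => Pi.single (g j) 1)
    rw [P.2, mul_one] at h1
    have h3 := disc_conj e N0 N Q hNQ (fun j => Pi.single (e (Sum.inr j)) 1)
    rw [hQ] at h3
    obtain ⟨r2, hr2⟩ := disc_change e N hNN (fun j => Q *ᵥ (Pi.single (e (Sum.inr j)) 1)) (fun j => (P : Matrix (Fin (m + m)) (Fin (m + m)) F) *ᵥ (Pi.single (g j) 1))
      (by rw [h3]; exact mul_ne_zero hdisc1 hd0)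
    obtain ⟨r3, hr3⟩ := hdiscsq
    rw [h1, h3, hr1, hr3] at hr2
    -- r1² = r2² * (r3² * d)
    have hr10 : r1 ≠ 0 := by
      rintro rfl
      rw [hr1] at hg
      exact hg (by ring)
    have hr20 : r2 * r3 ≠ 0 := by
      intro h0
      have : r1 * r1 = 0 := by
        rw [hr2]
        calc r2 * r2 * (r3 * r3 * d) = (r2 * r3) * (r2 * r3) * d := by ring
          _ = 0 := by rw [h0]; ring
      exact hr10 (mul_self_eq_zero.1 this)
    apply hd
    have hr2' : r2 ≠ 0 := left_ne_zero_of_mul hr20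
    have hr3' : r3 ≠ 0 := right_ne_zero_of_mul hr20
    refine ⟨r1 / (r2 * r3), ?_⟩
    field_simp
    linear_combination -hr2

end helper

/-- Elements of order 3 of PSL_n(q) in characteristic 3 and subfield subgroups. Here `T = PSL_n(F)` for a field `F` with `q` elements, `q` a power of 3 (`n ≥ 2`, `(n, q) ≠ (2, 2), (2, 3)`), `F₀` is the subfield with `q₀` elements where `q = q₀^k` for a prime `k`, and `H` is the subgroup of matrices of determinant 1 lying in the subfield group of `F₀` (invertible matrices over `F₀` times scalars) — a maximal subgroup of type GL_n(q₀) (the case `n = 2`, `q₀ = 2` is excluded); Ω is the set of `T`-conjugates of `H` (cosets of `H`), so an element of `T` of prime order `r` (a matrix `x` of determinant 1 with `x^r` scalar, `x` not scalar) fixes a point of Ω when some conjugate of `x` by a matrix of determinant 1 lies in `H`. Suppose 3 divides the index of `H`. Then every element of `T` of order 3 is conjugate in `T` into `H` if and only if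 `n` is odd, or `n` is even and `k > 2`. -/
theorem result {F : Type*} [Field F] [Fintype F] [CharP F 3] {q : ℕ} (hq : Fintype.card F = q)
    (n : ℕ) (hn : 2 ≤ n) (hT : (n, q) ≠ (2, 3))
    (F₀ : Subfield F) (k q₀ : ℕ) (hk : k.Prime) (hF₀ : Nat.card ↥F₀ = q₀) (hqk : q = q₀ ^ k) (hC5 : ¬ (n = 2 ∧ q₀ = 2)) (hΩ : 3 ∣ ((Cfsg.Geo.subfieldSubgroup F₀ 1).comap (Matrix.SpecialLinearGroup.toGL : Matrix.SpecialLinearGroup (Fin n) F →* GL (Fin n) F)).index) :
    (∀ x : Matrix.SpecialLinearGroup (Fin n) F,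
      (∃ z : F, ((x ^ 3 : Matrix.SpecialLinearGroup (Fin n) F) : Matrix (Fin n) (Fin n) F) = z • (1 : Matrix (Fin n) (Fin n) F)) →
      (∀ z : F, (x : Matrix (Fin n) (Fin n) F) ≠ z • (1 : Matrix (Fin n) (Fin n) F)) →
      ∃ P : Matrix.SpecialLinearGroup (Fin n) F, P⁻¹ * x * P ∈ ((Cfsg.Geo.subfieldSubgroup F₀ 1).comap (Matrix.SpecialLinearGroup.toGL : Matrix.SpecialLinearGroup (Fin n) F →* GL (Fin n) F))) ↔
    (Odd n ∨ (Even n ∧ 2 < k)) := by
  subst hq
  constructor
  · intro h
    by_contra hcon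
    push Not at hcon
    have heven : Even n := by
      rw [← Nat.not_odd_iff_even]; exact hcon.1
    have hk2 : k = 2 := le_antisymm (hcon.2 heven) hk.two_le
    subst hk2
    obtain ⟨m, rfl⟩ := heven
    obtain ⟨x, h1, h2, h3⟩ := neg_case m (by omega) F₀ q₀ hF₀ hqk
    obtain ⟨P, hP⟩ := h x ⟨1, h1⟩ h2
    exact h3 P hP
  · rintro hor x ⟨z, hxx⟩ -
    exact pos_case n hn F₀ k q₀ hk hF₀ hqk hor x z hxx

end Cfsg.Agent.S5966
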