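import Cfsg.Statements.S5967
import Mathlib
import Cfsg.Agent.LibInvo29g

set_option autoImplicit false
open scoped MatrixGroups
open Cfsg

namespace Cfsg.Agent.S5967

section helper
open Matrix CfsgLib.Invo29 Module

theorem backward {F : Type*} [Field F] [Fintype F] (n : ℕ) (hn : 4 ≤ n) (he : Even n)
    (f : (Fin n → F) → (Fin n → F) → F) (hf : Cfsg.Geo.IsSymplecticForm f)
    (hv : padicValNat 2 (Fintype.card F - 1) ≤ padicValNat 2 n) (x : Matrix.SpecialLinearGroup (Fin n) F)
    (z : F) (hxx : ((x ^ 2 : Matrix.SpecialLinearGroup (Fin n) F) : Matrix (Fin n) (Fin n) F) = z • (1 : Matrix (Fin n) (Fin n) F))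
    (hns : ∀ c : F, (x : Matrix (Fin n) (Fin n) F) ≠ c • (1 : Matrix (Fin n) (Fin n) F)) :
    ∃ P : Matrix.SpecialLinearGroup (Fin n) F, Matrix.SpecialLinearGroup.toGL (P⁻¹ * x * P) ∈ Cfsg.Geo.similarityGroup f := by
  have hz := z_ne_zero (by omega) x z hxx
  have hx2 : ∀ v, Matrix.toLin' (x : Matrix (Fin n) (Fin n) F) (Matrix.toLin' (x : Matrix (Fin n) (Fin n) F) v) = z • v := by
    intro v
    rw [Matrix.toLin'_apply, Matrix.toLin'_apply, Matrix.mulVec_mulVec]
    have e1 : (x : Matrix (Fin n) (Fin n) F) * (x : Matrix (Fin n) (Fin n) F) = z • (1 : Matrix (Fin n) (Fin n) F) := by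
      rw [← hxx, pow_two]; rfl
    rw [e1, Matrix.smul_mulVec, Matrix.one_mulVec]
  have hfr : finrank F (⊤ : Submodule F (Fin n → F)) = n := by
    rw [finrank_top]; simp
  have hstr : ∃ μ : F, μ ≠ 0 ∧ StrM (Matrix.toLin' (x : Matrix (Fin n) (Fin n) F)) μ ⊤ := by
    by_cases h2 : (2 : F) = 0
    · refine ⟨-z, neg_ne_zero.2 hz, strM_neg _ z hx2 ?_ _ ⊤ rfl (fun _ _ => Submodule.mem_top) (by rw [hfr]; exact he)⟩
      intro c _
      rw [eq_neg_iff_add_eq_zero, ← two_mul, h2, zero_mul]
    · by_cases hsq : ∃ w : F, w * w = z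
      · obtain ⟨w, rfl⟩ := hsq
        have hw : w ≠ 0 := fun h => hz (by rw [h, zero_mul])
        obtain ⟨A, B, hc, hA, hB, hdet, hdim⟩ := eig_split h2 _ w hw hx2
        have hdet1 : LinearMap.det (Matrix.toLin' (x : Matrix (Fin n) (Fin n) F)) = 1 := by
          rw [LinearMap.det_toLin']; exact x.2
        have hfr' : finrank F (Fin n → F) = n := by simp
        rw [hfr'] at hdim
        have hBe : Even (finrank F B) := by
          by_contra hodd
          rw [Nat.not_even_iff_odd] at hodd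
          rw [hdet1, neg_pow, hodd.neg_one_pow, neg_one_mul, mul_neg, ← pow_add, hdim] at hdet
          exact not_pow_eq_neg_one h2 n (by omega) hv w (by rw [hdet, neg_neg])
        have hAe : Even (finrank F A) := by
          have : Even (finrank F A + finrank F B) := by rw [hdim]; exact he
          exact (Nat.even_add.1 this).2 hBe
        exact ⟨w * w, hz, strM_sq _ w A B hc hA hB hAe hBe⟩
      · push Not at hsq
        exact ⟨-z, neg_ne_zero.2 hz, strM_neg _ z hx2 (fun c hc => absurd hc (hsq c)) _ ⊤ rfl (fun _ _ => Submodule.mem_top)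
          (by rw [hfr]; exact he)⟩
  obtain ⟨μ, hμ, hstr⟩ := hstr
  have hND : NDon (bil f hf) ⊤ := by
    intro u _ hu
    by_contra hne
    obtain ⟨-, w, hw⟩ := hf.nondegenerate u hne
    exact hw (hu w Submodule.mem_top)
  obtain ⟨P, hP⟩ := exists_simil (bil f hf) (fun v => hf.alternating v) hND _ μ hstr
  have hPP : (P : (Fin n → F) →ₗ[F] (Fin n → F)) ∘ₗ (P.symm : (Fin n → F) →ₗ[F] (Fin n → F)) = LinearMap.id := by
    ext; simp
  have hPP' : (P.symm : (Fin n → F) →ₗ[F] (Fin n → F)) ∘ₗ (P : (Fin n → F) →ₗ[F] (Fin n → F)) = LinearMap.id := by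
    ext; simp
  let P0 : GL (Fin n) F := ⟨LinearMap.toMatrix' (P : (Fin n → F) →ₗ[F] (Fin n → F)),
    LinearMap.toMatrix' (P.symm : (Fin n → F) →ₗ[F] (Fin n → F)), by
      rw [← LinearMap.toMatrix'_comp, hPP, LinearMap.toMatrix'_id], by
      rw [← LinearMap.toMatrix'_comp, hPP', LinearMap.toMatrix'_id]⟩
  obtain ⟨P1, hP1⟩ := adjust_conj x z hxx hns (by omega) P0
  refine ⟨P1, ?_⟩
  rw [hP1]
  refine ⟨Units.mk0 μ hμ, fun u v => ?_⟩
  have hval : ∀ u, ((P0⁻¹ * Matrix.SpecialLinearGroup.toGL x * P0 : GL (Fin n) F) : Matrix (Fin n) (Fin n) F) *ᵥ u =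
      P.symm (Matrix.toLin' (x : Matrix (Fin n) (Fin n) F) (P u)) := by
    intro u
    have e1 : ((P0⁻¹ * Matrix.SpecialLinearGroup.toGL x * P0 : GL (Fin n) F) : Matrix (Fin n) (Fin n) F) =
      LinearMap.toMatrix' (P.symm : (Fin n → F) →ₗ[F] (Fin n → F)) * (x : Matrix (Fin n) (Fin n) F) *
        LinearMap.toMatrix' (P : (Fin n → F) →ₗ[F] (Fin n → F)) := rfl
    rw [e1, ← Matrix.mulVec_mulVec, ← Matrix.mulVec_mulVec, LinearMap.toMatrix'_mulVec, LinearMap.toMatrix'_mulVec]
    rfl
  rw [hval, hval]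
  exact hP u v

theorem forward {F : Type*} [Field F] [Fintype F] (n : ℕ) (hn : 4 ≤ n)
    (f : (Fin n → F) → (Fin n → F) → F) (hf : Cfsg.Geo.IsSymplecticForm f) (h2 : (2 : F) ≠ 0)
    (hv : padicValNat 2 n < padicValNat 2 (Fintype.card F - 1)) : ∃ (x : Matrix.SpecialLinearGroup (Fin n) F) (z : F),
      ((x ^ 2 : Matrix.SpecialLinearGroup (Fin n) F) : Matrix (Fin n) (Fin n) F) = z • (1 : Matrix (Fin n) (Fin n) F) ∧
    (∀ c : F, (x : Matrix (Fin n) (Fin n) F) ≠ c • (1 : Matrix (Fin n) (Fin n) F)) ∧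
    ∀ P : Matrix.SpecialLinearGroup (Fin n) F, Matrix.SpecialLinearGroup.toGL (P⁻¹ * x * P) ∉ Cfsg.Geo.similarityGroup f := by
  obtain ⟨w, hw0, hw⟩ := exists_pow_eq_neg_one h2 n (by omega) hv
  obtain ⟨n, rfl⟩ : ∃ m, n = m + 4 := ⟨n - 4, by omega⟩
  let d : Fin (n + 4) → F := fun i => if i = 0 then -1 else 1
  let X : Matrix (Fin (n + 4)) (Fin (n + 4)) F := w • Matrix.diagonal d
  have hdet : X.det = 1 := by
    have e1 : ∏ i, d i = -1 := by
      rw [Fin.prod_univ_succ]
      simp [d, Fin.succ_ne_zero]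
    rw [Matrix.det_smul, Matrix.det_diagonal, e1, Fintype.card_fin, hw]; ring
  have hXX : X * X = (w * w) • (1 : Matrix (Fin (n + 4)) (Fin (n + 4)) F) := by
    show (w • Matrix.diagonal d) * (w • Matrix.diagonal d) = _
    rw [Matrix.smul_mul, Matrix.mul_smul, smul_smul, Matrix.diagonal_mul_diagonal]
    congr 1
    rw [← Matrix.diagonal_one]
    congr 1
    ext i
    by_cases hi : i = 0
    · simp [d, hi]
    · simp [d, hi]
  have hact : ∀ u, X *ᵥ u = fun i => w * (d i * u i) := by
    intro u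
    show (w • Matrix.diagonal d) *ᵥ u = _
    rw [Matrix.smul_mulVec]
    ext i
    rw [Pi.smul_apply, Matrix.mulVec_diagonal, smul_eq_mul]
  let x0 : Matrix.SpecialLinearGroup (Fin (n + 4)) F := ⟨X, hdet⟩
  have hXX' : ((x0 ^ 2 : Matrix.SpecialLinearGroup (Fin (n + 4)) F) :
      Matrix (Fin (n + 4)) (Fin (n + 4)) F) = (w * w) • (1 : Matrix (Fin (n + 4)) (Fin (n + 4)) F) := by
    rw [Matrix.SpecialLinearGroup.coe_pow, pow_two]; exact hXX
  refine ⟨x0, w * w, hXX', ?_, ?_⟩
  · intro c hc
    have h3 : X *ᵥ (Pi.single 0 1) = c • (Pi.single 0 1 : Fin (n + 4) → F) := by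
      show (x0 : Matrix (Fin (n + 4)) (Fin (n + 4)) F) *ᵥ _ = _
      rw [hc, Matrix.smul_mulVec, Matrix.one_mulVec]
    have h4 : X *ᵥ (Pi.single 1 1) = c • (Pi.single 1 1 : Fin (n + 4) → F) := by
      show (x0 : Matrix (Fin (n + 4)) (Fin (n + 4)) F) *ᵥ _ = _
      rw [hc, Matrix.smul_mulVec, Matrix.one_mulVec]
    rw [hact] at h3 h4
    have h5 := congrFun h3 0
    have h6 := congrFun h4 1
    simp [d] at h5 h6
    rw [← h6] at h5
    have h7 : 2 * w = 0 := by linear_combination -h5
    exact (mul_ne_zero h2 hw0) h7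
  · rintro P ⟨c, hc⟩
    -- transport the form
    let Pm : (Fin (n + 4) → F) →ₗ[F] (Fin (n + 4) → F) := Matrix.toLin' ((P⁻¹ : Matrix.SpecialLinearGroup (Fin (n + 4)) F) : Matrix (Fin (n + 4)) (Fin (n + 4)) F)
    let g := (bil f hf).compl₁₂ Pm Pm
    have hgalt : ∀ v, g v v = 0 := fun v => hf.alternating _
    have hgnd : ∀ u, (∀ v, g u v = 0) → u = 0 := by
      intro u hu
      by_contra hne
      have hP1 : ((P⁻¹ : Matrix.SpecialLinearGroup (Fin (n + 4)) F) : Matrix (Fin (n + 4)) (Fin (n + 4)) F) * (P : Matrix (Fin (n + 4)) (Fin (n + 4)) F) = 1 := by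
        have := congrArg Subtype.val (inv_mul_cancel P)
        exact this
      have hP2 : (P : Matrix (Fin (n + 4)) (Fin (n + 4)) F) * ((P⁻¹ : Matrix.SpecialLinearGroup (Fin (n + 4)) F) : Matrix (Fin (n + 4)) (Fin (n + 4)) F) = 1 := by
        have := congrArg Subtype.val (mul_inv_cancel P)
        exact this
      have hPu : Pm u ≠ 0 := by
        intro h
        apply hne
        have := congrArg (fun w => (P : Matrix (Fin (n + 4)) (Fin (n + 4)) F) *ᵥ w) h
        simp only [Pm, Matrix.toLin'_apply, Matrix.mulVec_mulVec, hP2, Matrix.one_mulVec, Matrix.mulVec_zero] at this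
        exact this
      obtain ⟨-, v, hv⟩ := hf.nondegenerate _ hPu
      apply hv
      have := hu ((P : Matrix (Fin (n + 4)) (Fin (n + 4)) F) *ᵥ v)
      have e2 : Pm ((P : Matrix (Fin (n + 4)) (Fin (n + 4)) F) *ᵥ v) = v := by
        simp only [Pm, Matrix.toLin'_apply, Matrix.mulVec_mulVec, hP1, Matrix.one_mulVec]
      show f (Pm u) v = 0
      rw [← e2]
      exact this
    have hgx : ∀ u v, g (X *ᵥ u) (X *ᵥ v) = (c : F) * g u v := by
      intro u v
      have h3 := hc (Pm u) (Pm v)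
      have hPx : ∀ u, ((Matrix.SpecialLinearGroup.toGL (P⁻¹ * x0 * P) : GL (Fin (n + 4)) F) : Matrix (Fin (n + 4)) (Fin (n + 4)) F) *ᵥ (Pm u) = Pm (X *ᵥ u) := by
        intro u
        have e1 : ((Matrix.SpecialLinearGroup.toGL (P⁻¹ * x0 * P) : GL (Fin (n + 4)) F) : Matrix (Fin (n + 4)) (Fin (n + 4)) F) =
          ((P⁻¹ : Matrix.SpecialLinearGroup (Fin (n + 4)) F) : Matrix (Fin (n + 4)) (Fin (n + 4)) F) * X * (P : Matrix (Fin (n + 4)) (Fin (n + 4)) F) := rfl
        have hP2 : (P : Matrix (Fin (n + 4)) (Fin (n + 4)) F) * ((P⁻¹ : Matrix.SpecialLinearGroup (Fin (n + 4)) F) : Matrix (Fin (n + 4)) (Fin (n + 4)) F) = 1 := by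
          have := congrArg Subtype.val (mul_inv_cancel P)
          exact this
        rw [e1]
        simp only [Pm, Matrix.toLin'_apply, Matrix.mulVec_mulVec]
        rw [Matrix.mul_assoc, hP2, Matrix.mul_one]
      rw [hPx, hPx] at h3
      exact h3
    have hx0 : X *ᵥ (Pi.single 0 1) = (-w) • (Pi.single 0 1 : Fin (n + 4) → F) := by
      rw [hact]
      ext i
      by_cases hi : i = 0
      · simp [d, hi]
      · simp [d, hi]
    have hxi : ∀ u : Fin (n + 4) → F, u 0 = 0 → X *ᵥ u = w • u := by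
      intro u hu
      rw [hact]
      ext i
      by_cases hi : i = 0
      · simp [hi, hu]
      · simp [d, hi]
    have hdec : ∀ v : Fin (n + 4) → F, v = v 0 • (Pi.single 0 1 : Fin (n + 4) → F) + (v - v 0 • (Pi.single 0 1 : Fin (n + 4) → F)) := by
      intro v; abel
    have hdec0 : ∀ v : Fin (n + 4) → F, (v - v 0 • (Pi.single 0 1 : Fin (n + 4) → F)) 0 = 0 := by
      intro v; simp
    by_cases hcw : (c : F) = w * w
    · have h3 : ∀ v, v 0 = 0 → g (Pi.single 0 1) v = 0 := by
        intro v hv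
        have h4 := hgx (Pi.single 0 1) v
        rw [hx0, hxi v hv, hcw] at h4
        simp only [map_smul, LinearMap.smul_apply, smul_eq_mul] at h4
        have h5 : (2 * (w * w)) * g (Pi.single 0 1) v = 0 := by linear_combination -h4
        exact (mul_eq_zero.1 h5).resolve_left (mul_ne_zero h2 (mul_ne_zero hw0 hw0))
      have h4 := hgnd (Pi.single 0 1) (fun v => by
        rw [hdec v, map_add, map_smul, hgalt, h3 _ (hdec0 v), smul_zero, add_zero])
      have h5 := congrFun h4 0
      simp at h5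
    · have h3 : ∀ u v, u 0 = 0 → v 0 = 0 → g u v = 0 := by
        intro u v hu hv
        have h4 := hgx u v
        rw [hxi u hu, hxi v hv] at h4
        simp only [map_smul, LinearMap.smul_apply, smul_eq_mul] at h4
        have h5 : (w * w - c) * g u v = 0 := by linear_combination h4
        exact (mul_eq_zero.1 h5).resolve_left (sub_ne_zero.2 (Ne.symm hcw))
      have h4 : ∀ u, u 0 = 0 → g u (Pi.single 0 1) = 0 → u = 0 := by
        intro u hu hu2
        refine hgnd u fun v => ?_
        rw [hdec v, map_add, map_smul, hu2, h3 u _ hu (hdec0 v), smul_zero, add_zero]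
      let a := g (Pi.single 1 1) (Pi.single 0 1)
      let b := g (Pi.single 2 1) (Pi.single 0 1)
      have h21 : (2 : Fin (n + 4)) ≠ 1 := by
        intro h
        have := congrArg Fin.val h
        rw [Fin.val_one] at this
        have h22 : ((2 : Fin (n + 4)) : ℕ) = 2 := rfl
        omega
      have h20 : (0 : Fin (n + 4)) ≠ 2 := by
        intro h
        have := congrArg Fin.val h
        have h22 : ((2 : Fin (n + 4)) : ℕ) = 2 := rfl
        rw [h22] at this
        simp at this
      have h5 := h4 (b • Pi.single 1 1 - a • Pi.single 2 1) (by simp [Pi.single_apply, h20]) (by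
        simp only [map_sub, map_smul, LinearMap.sub_apply, LinearMap.smul_apply, smul_eq_mul]
        show b * a - a * b = 0
        ring)
      have h6 := congrFun h5 2
      simp [Pi.single_apply, h21] at h6
      have h7 := h4 (Pi.single 1 1) (by simp) h6
      have h8 := congrFun h7 1
      simp at h8

end helper

/-- Involutions of PSL_n(q) and the symplectic-type subgroups. Here `T = PSL_n(F)` for a field `F` with `q` elements, `n ≥ 4` even, `f` is a nondegenerate alternating form on `F^n`, and `H` is the subgroup of matrices of determinant 1 preserving `f` up to a scalar — a maximal subgroup of type Sp_n(q); Ω is the set of `T`-conjugates of `H` (cosets of `H`), so an element of `T` of prime order `r` (a matrix `x` of determinant 1 with `x^r` scalar, `x` not scalar) fixes a point of Ω when some conjugate of `x` by a matrix of determinant 1 preserves `f` up to a scalar. Suppose the index of `H` is even. Then every involution of `T` is conjugate in `T` into `H` if and only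 if `(q − 1)_2 ≤ (n)_2`. -/
theorem result {F : Type*} [Field F] [Fintype F] {p : ℕ} [Fact p.Prime] [CharP F p] {q : ℕ} (hq : Fintype.card F = q)
    (n : ℕ) (hn : 4 ≤ n) (he : Even n) (f : (Fin n → F) → (Fin n → F) → F) (hf : Cfsg.Geo.IsSymplecticForm f)
    (hΩ : 2 ∣ ((Cfsg.Geo.similarityGroup f).comap (Matrix.SpecialLinearGroup.toGL : Matrix.SpecialLinearGroup (Fin n) F →* GL (Fin n) F)).index) :
    (∀ x : Matrix.SpecialLinearGroup (Fin n) F,
      (∃ z : F, ((x ^ 2 : Matrix.SpecialLinearGroup (Fin n) F) : Matrix (Fin n) (Fin n) F) = z • (1 : Matrix (Fin n) (Fin n) F)) →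
      (∀ z : F, (x : Matrix (Fin n) (Fin n) F) ≠ z • (1 : Matrix (Fin n) (Fin n) F)) →
      ∃ P : Matrix.SpecialLinearGroup (Fin n) F, P⁻¹ * x * P ∈ ((Cfsg.Geo.similarityGroup f).comap (Matrix.SpecialLinearGroup.toGL : Matrix.SpecialLinearGroup (Fin n) F →* GL (Fin n) F))) ↔
    padicValNat 2 (q - 1) ≤ padicValNat 2 n := by
  subst hq
  constructor
  · intro h
    by_contra hcon
    push Not at hcon
    have h2 : (2 : F) ≠ 0 := by
      apply CfsgLib.Invo29.two_ne_zero_of_odd
      by_contra hodd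
      rw [Nat.not_odd_iff_even] at hodd
      have h3 : ¬ 2 ∣ Fintype.card F - 1 := by
        have := Fintype.one_lt_card (α := F)
        rw [← even_iff_two_dvd] 
        intro h4
        rcases hodd with ⟨r, hr⟩
        rcases h4 with ⟨s, hs⟩
        omega
      rw [padicValNat.eq_zero_of_not_dvd h3] at hcon
      omega
    obtain ⟨x, z, h3, h4, h5⟩ := forward n hn f hf h2 hcon
    obtain ⟨P, hP⟩ := h x ⟨z, h3⟩ h4
    exact h5 P hP
  · rintro hv x ⟨z, hxx⟩ hns
    exact backward n hn he f hf hv x z hxx hns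

end Cfsg.Agent.S5967
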