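import Cfsg.Statements.S5969
import Mathlib
import Cfsg.Agent.LibInvo29j

set_option autoImplicit false
open scoped MatrixGroups
open Cfsg

namespace Cfsg.Agent.S5969

section helper
open Matrix CfsgLib.Invo29 Module

theorem fwd_tv {F : Type*} [Field F] [Fintype F] (n : ℕ) (hn : 3 ≤ n)
    (K : Subalgebra F (Matrix (Fin n) (Fin n) F)) (hK : Cfsg.Geo.IsFieldSubalgebra 2 K)
    (x : Matrix.SpecialLinearGroup (Fin n) F) (w : F) (hw : w ≠ 0) (φ : (Fin n → F) →ₗ[F] F) (u0 : Fin n → F)
    (hφ : φ ≠ 0) (hu0 : u0 ≠ 0) (hx : ∀ v, (x : Matrix (Fin n) (Fin n) F) *ᵥ v = w • v + φ v • u0)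
    (P : Matrix.SpecialLinearGroup (Fin n) F) :
    Matrix.SpecialLinearGroup.toGL (P⁻¹ * x * P) ∉ Cfsg.Geo.subalgebraNormalizer K := by
  intro hmem
  have hP1 : ((P⁻¹ : Matrix.SpecialLinearGroup (Fin n) F) : Matrix (Fin n) (Fin n) F) * (P : Matrix (Fin n) (Fin n) F) = 1 := by
    have := congrArg Subtype.val (inv_mul_cancel P)
    exact this
  have hP2 : (P : Matrix (Fin n) (Fin n) F) * ((P⁻¹ : Matrix.SpecialLinearGroup (Fin n) F) : Matrix (Fin n) (Fin n) F) = 1 := by
    have := congrArg Subtype.val (mul_inv_cancel P)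
    exact this
  refine not_normal hn hK (Matrix.SpecialLinearGroup.toGL (P⁻¹ * x * P)) w hw (φ ∘ₗ Matrix.toLin' (P : Matrix (Fin n) (Fin n) F))
    (((P⁻¹ : Matrix.SpecialLinearGroup (Fin n) F) : Matrix (Fin n) (Fin n) F) *ᵥ u0) ?_ ?_ ?_ hmem
  · intro h
    apply hφ
    refine LinearMap.ext fun v => ?_
    have := LinearMap.congr_fun h (((P⁻¹ : Matrix.SpecialLinearGroup (Fin n) F) : Matrix (Fin n) (Fin n) F) *ᵥ v)
    simp only [LinearMap.comp_apply, Matrix.toLin'_apply, Matrix.mulVec_mulVec, hP2, Matrix.one_mulVec] at this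
    exact this
  · intro h
    apply hu0
    have := congrArg (fun v => (P : Matrix (Fin n) (Fin n) F) *ᵥ v) h
    simp only [Matrix.mulVec_mulVec, hP2, Matrix.one_mulVec, Matrix.mulVec_zero] at this
    exact this
  · intro v
    have e1 : ((Matrix.SpecialLinearGroup.toGL (P⁻¹ * x * P) : GL (Fin n) F) : Matrix (Fin n) (Fin n) F) =
      ((P⁻¹ : Matrix.SpecialLinearGroup (Fin n) F) : Matrix (Fin n) (Fin n) F) * (x : Matrix (Fin n) (Fin n) F) * (P : Matrix (Fin n) (Fin n) F) := rfl
    rw [e1, ← Matrix.mulVec_mulVec, ← Matrix.mulVec_mulVec, hx, Matrix.mulVec_add, Matrix.mulVec_smul, Matrix.mulVec_smul,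
      Matrix.mulVec_mulVec, hP1, Matrix.one_mulVec]
    rfl

theorem exists_bad {F : Type*} [Field F] [Fintype F] (n : ℕ) (hn : 3 ≤ n)
    (hv : (2 : F) ≠ 0 → padicValNat 2 n < padicValNat 2 (Fintype.card F - 1)) :
    ∃ (x : Matrix.SpecialLinearGroup (Fin n) F) (z : F),
      ((x ^ 2 : Matrix.SpecialLinearGroup (Fin n) F) : Matrix (Fin n) (Fin n) F) = z • (1 : Matrix (Fin n) (Fin n) F) ∧
    (∀ c : F, (x : Matrix (Fin n) (Fin n) F) ≠ c • (1 : Matrix (Fin n) (Fin n) F)) ∧
    ∃ (w : F) (φ : (Fin n → F) →ₗ[F] F) (u0 : Fin n → F), w ≠ 0 ∧ φ ≠ 0 ∧ u0 ≠ 0 ∧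
      ∀ v, (x : Matrix (Fin n) (Fin n) F) *ᵥ v = w • v + φ v • u0 := by
  obtain ⟨n, rfl⟩ : ∃ m, n = m + 3 := ⟨n - 3, by omega⟩
  have h10 : (1 : Fin (n + 3)) ≠ 0 := by
    intro h
    have := congrArg Fin.val h
    simp at this
  by_cases h2 : (2 : F) = 0
  · let x0 : Matrix.SpecialLinearGroup (Fin (n + 3)) F := ⟨Matrix.transvection 0 1 1, Matrix.det_transvection_of_ne 0 1 h10.symm 1⟩
    have hact : ∀ v, (x0 : Matrix (Fin (n + 3)) (Fin (n + 3)) F) *ᵥ v = (1 : F) • v + v 1 • (Pi.single 0 1 : Fin (n + 3) → F) := by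
      intro v
      show (1 + Matrix.single 0 1 1 : Matrix (Fin (n + 3)) (Fin (n + 3)) F) *ᵥ v = _
      rw [Matrix.add_mulVec, Matrix.one_mulVec, one_smul]
      congr 1
      ext i
      rw [Matrix.single_mulVec]
      simp [Pi.single_apply, Function.update_apply]
    refine ⟨x0, 1, ?_, ?_, 1, LinearMap.proj 1, Pi.single 0 1, one_ne_zero, ?_, ?_, hact⟩
    · rw [Matrix.SpecialLinearGroup.coe_pow, pow_two]
      show Matrix.transvection 0 1 1 * Matrix.transvection 0 1 1 = _
      rw [Matrix.transvection_mul_transvection_same 0 1 h10.symm, one_add_one_eq_two, h2, Matrix.transvection_zero, one_smul]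
    · intro c hc
      have h3 := hact (Pi.single 1 1)
      rw [hc, Matrix.smul_mulVec, Matrix.one_mulVec] at h3
      have h4 := congrFun h3 0
      simp [h10.symm] at h4
    · intro h
      have := LinearMap.congr_fun h (Pi.single 1 1)
      simp at this
    · intro h
      have := congrFun h 0
      simp at this
  · obtain ⟨w, hw0, hw⟩ := exists_pow_eq_neg_one h2 (n + 3) (by omega) (hv h2)
    let d : Fin (n + 3) → F := fun i => if i = 0 then -1 else 1
    let X : Matrix (Fin (n + 3)) (Fin (n + 3)) F := w • Matrix.diagonal d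
    have hdet : X.det = 1 := by
      have e1 : ∏ i, d i = -1 := by
        rw [Fin.prod_univ_succ]
        simp [d, Fin.succ_ne_zero]
      rw [Matrix.det_smul, Matrix.det_diagonal, e1, Fintype.card_fin, hw]; ring
    have hXX : X * X = (w * w) • (1 : Matrix (Fin (n + 3)) (Fin (n + 3)) F) := by
      show (w • Matrix.diagonal d) * (w • Matrix.diagonal d) = _
      rw [Matrix.smul_mul, Matrix.mul_smul, smul_smul, Matrix.diagonal_mul_diagonal]
      congr 1
      rw [← Matrix.diagonal_one]
      congr 1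
      ext i
      by_cases hi : i = 0
      · simp [d, hi]
      · simp [d, hi]
    let x0 : Matrix.SpecialLinearGroup (Fin (n + 3)) F := ⟨X, hdet⟩
    have hact : ∀ v, (x0 : Matrix (Fin (n + 3)) (Fin (n + 3)) F) *ᵥ v = w • v + v 0 • ((-(2 * w)) • (Pi.single 0 1 : Fin (n + 3) → F)) := by
      intro v
      show (w • Matrix.diagonal d) *ᵥ v = _
      rw [Matrix.smul_mulVec]
      ext i
      rw [Pi.smul_apply, Matrix.mulVec_diagonal, smul_eq_mul]
      by_cases hi : i = 0
      · simp only [d, hi, if_true, Pi.add_apply, Pi.smul_apply, smul_eq_mul, Pi.single_eq_same]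
        ring
      · simp [d, hi]
    refine ⟨x0, w * w, ?_, ?_, w, LinearMap.proj 0, (-(2 * w)) • Pi.single 0 1, hw0, ?_, ?_, hact⟩
    · rw [Matrix.SpecialLinearGroup.coe_pow, pow_two]
      exact hXX
    · intro c hc
      have h3 := hact (Pi.single 0 1)
      have h4 := hact (Pi.single 1 1)
      rw [hc, Matrix.smul_mulVec, Matrix.one_mulVec] at h3 h4
      have h5 := congrFun h3 0
      have h6 := congrFun h4 1
      simp [h10] at h5 h6
      rw [h6] at h5
      have h7 : 2 * w = 0 := by linear_combination h5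
      exact (mul_ne_zero h2 hw0) h7
    · intro h
      have := LinearMap.congr_fun h (Pi.single 0 1)
      simp at this
    · intro h
      have h3 := congrFun h 0
      simp at h3
      rcases h3 with h3 | h3
      · exact h2 h3
      · exact hw0 h3

end helper

/-- Involutions of PSL_n(q) and extension-field subgroups of degree 2. Here `T = PSL_n(F)` for a field `F` with `q = p^f` elements (`n ≥ 2`, `(n, q) ≠ (2, 2), (2, 3)`), `k` is a prime dividing `n`, `K` is a subalgebra of the `n × n` matrices that is a field of degree `k` over `F` (an extension-field structure F_{q^k} on `F^n`), and `H` is the subgroup of matrices of determinant 1 normalizing `K` — a subgroup of type GL_{n/k}(q^k) (maximal except in some small cases; maximality is not assumed); Ω is the set of cosets of `H` in `T`, so an element of `T` of prime order `r` (a matrix `x` of determinant 1 with `x^r` scalar, `x` not scalar) fixes a point of Ω when some conjugate of `x` by a matrix of determinant 1 normalizes `K`. Take `k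 = 2` and suppose the index of `H` is even. Then every involution of `T` is conjugate in `T` into `H` if and only if `n = 2`, or `q` is odd and `(q − 1)_2 ≤ (n)_2`. -/
theorem result {F : Type*} [Field F] [Fintype F] {p : ℕ} [Fact p.Prime] [CharP F p] {q : ℕ} (hq : Fintype.card F = q)
    (n : ℕ) (hn : 2 ≤ n) (hT : (n, q) ≠ (2, 2) ∧ (n, q) ≠ (2, 3))
    (k : ℕ) (hk : k.Prime) (hkn : k ∣ n) (K : Subalgebra F (Matrix (Fin n) (Fin n) F)) (hK : Cfsg.Geo.IsFieldSubalgebra k K) (hk2 : k = 2) (hΩ : 2 ∣ ((Cfsg.Geo.subalgebraNormalizer K).comap (Matrix.SpecialLinearGroup.toGL : Matrix.SpecialLinearGroup (Fin n) F →* GL (Fin n) F)).index) :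
    (∀ x : Matrix.SpecialLinearGroup (Fin n) F,
      (∃ z : F, ((x ^ 2 : Matrix.SpecialLinearGroup (Fin n) F) : Matrix (Fin n) (Fin n) F) = z • (1 : Matrix (Fin n) (Fin n) F)) →
      (∀ z : F, (x : Matrix (Fin n) (Fin n) F) ≠ z • (1 : Matrix (Fin n) (Fin n) F)) →
      ∃ P : Matrix.SpecialLinearGroup (Fin n) F, P⁻¹ * x * P ∈ ((Cfsg.Geo.subalgebraNormalizer K).comap (Matrix.SpecialLinearGroup.toGL : Matrix.SpecialLinearGroup (Fin n) F →* GL (Fin n) F))) ↔
    (n = 2 ∨ (Odd q ∧ padicValNat 2 (q - 1) ≤ padicValNat 2 n)) := by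
  subst hk2
  subst hq
  constructor
  · intro h
    by_cases hn2 : n = 2
    · exact Or.inl hn2
    right
    have hn3 : 3 ≤ n := by omega
    by_contra hcon
    obtain ⟨x, z, h3, h4, w, φ, u0, hw, hφ, hu0, hx⟩ := exists_bad (F := F) n hn3 (by
      intro h2
      by_contra hlt
      push Not at hlt
      apply hcon
      refine ⟨?_, hlt⟩
      have hchar : ringChar F ≠ 2 := by
        intro h
        apply h2
        have := ringChar.Nat.cast_ringChar (R := F)
        rw [h] at this
        exact_mod_cast this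
      exact Nat.odd_iff.2 (FiniteField.odd_card_of_char_ne_two hchar))
    obtain ⟨P, hP⟩ := h x ⟨z, h3⟩ h4
    exact fwd_tv n hn3 K hK x w hw φ u0 hφ hu0 hx P hP
  · intro h x
    rintro ⟨z, hxx⟩ hns
    by_cases hn2 : n = 2
    · subst hn2
      exact CfsgLib.Invo29.pos_two hK x z hxx hns
    · obtain ⟨hodd, hv⟩ := h.resolve_left hn2
      have h2 := CfsgLib.Invo29.two_ne_zero_of_odd hodd
      have hz := CfsgLib.Invo29.z_ne_zero (by omega) x z hxx
      by_cases hsq : IsSquare z
      · obtain ⟨w, rfl⟩ := hsq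
        have hw : w ≠ 0 := fun h => hz (by rw [h, zero_mul])
        have hx2 : ∀ v, Matrix.toLin' (x : Matrix (Fin n) (Fin n) F) (Matrix.toLin' (x : Matrix (Fin n) (Fin n) F) v) = (w * w) • v := by
          intro v
          rw [Matrix.toLin'_apply, Matrix.toLin'_apply, Matrix.mulVec_mulVec]
          have e1 : (x : Matrix (Fin n) (Fin n) F) * (x : Matrix (Fin n) (Fin n) F) = (w * w) • (1 : Matrix (Fin n) (Fin n) F) := by
            rw [← hxx, pow_two]; rfl
          rw [e1, Matrix.smul_mulVec, Matrix.one_mulVec]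
        obtain ⟨A, B, hc, hA, hB, hdet, hdim⟩ := CfsgLib.Invo29.eig_split h2 _ w hw hx2
        have hdet1 : LinearMap.det (Matrix.toLin' (x : Matrix (Fin n) (Fin n) F)) = 1 := by
          rw [LinearMap.det_toLin']; exact x.2
        have hfr' : Module.finrank F (Fin n → F) = n := by simp
        rw [hfr'] at hdim
        have hBe : Even (Module.finrank F B) := by
          by_contra hodd
          rw [Nat.not_even_iff_odd] at hodd
          rw [hdet1, neg_pow, hodd.neg_one_pow, neg_one_mul, mul_neg, ← pow_add, hdim] at hdet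
          exact CfsgLib.Invo29.not_pow_eq_neg_one h2 n (by omega) hv w (by rw [hdet, neg_neg])
        have hAe : Even (Module.finrank F A) := by
          have : Even (Module.finrank F A + Module.finrank F B) := by rw [hdim]; exact even_iff_two_dvd.2 hkn
          exact (Nat.even_add.1 this).2 hBe
        exact CfsgLib.Invo29.pos_split (by omega) hK x (w * w) hxx hns w A B hc hA hB hAe hBe
      · exact CfsgLib.Invo29.pos_nonsquare (by omega) h2 hK x z hxx hns hsq

end Cfsg.Agent.S5969
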