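import Cfsg.Statements.S5970
import Cfsg.Agent.LibGeoKH13

set_option autoImplicit false
open scoped MatrixGroups
open Cfsg

namespace Cfsg.Agent.S5970

open Module

/-- Elements of order `n` of PSL_n(q), `n` prime, and the normalizer of a Singer cycle. Here `T = PSL_n(F)` for a field `F` with `q = p^f` elements (`n ≥ 2`, `(n, q) ≠ (2, 2), (2, 3)`), `k` is a prime dividing `n`, `K` is a subalgebra of the `n × n` matrices that is a field of degree `k` over `F` (an extension-field structure F_{q^k} on `F^n`), and `H` is the subgroup of matrices of determinant 1 normalizing `K` — a subgroup of type GL_{n/k}(q^k) (maximal except in some small cases; maximality is not assumed); Ω is the set of cosets of `H` in `T`, so an element of `T` of prime order `r` (a matrix `x` of determinant 1 with `x^r` scalar, `x` not scalar) fixes a point of Ω when some conjugate of `x` by a matrix of determinant 1 normalizes `K`. Take `k = n > 3` prime with `n ≠ p` (so `H` is the normalizer of a Singer cycle), and suppose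 `n` divides the index of `H`. Then every element of `T` of order `n` is conjugate in `T` into `H` if and only if the multiplicative order of `q` modulo `n` is `n − 1`. -/
theorem result {F : Type*} [Field F] [Fintype F] {p : ℕ} [Fact p.Prime] [CharP F p] {q : ℕ} (hq : Fintype.card F = q)
    (n : ℕ) (hn : 2 ≤ n) (hT : (n, q) ≠ (2, 2) ∧ (n, q) ≠ (2, 3))
    (k : ℕ) (hk : k.Prime) (hkn : k ∣ n) (K : Subalgebra F (Matrix (Fin n) (Fin n) F)) (hK : Cfsg.Geo.IsFieldSubalgebra k K) (hkn' : k = n) (hn3 : 3 < n) (hnp : n ≠ p) (hΩ : n ∣ ((Cfsg.Geo.subalgebraNormalizer K).comap (Matrix.SpecialLinearGroup.toGL : Matrix.SpecialLinearGroup (Fin n) F →* GL (Fin n) F)).index) :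
    (∀ x : Matrix.SpecialLinearGroup (Fin n) F,
      (∃ z : F, ((x ^ n : Matrix.SpecialLinearGroup (Fin n) F) : Matrix (Fin n) (Fin n) F) = z • (1 : Matrix (Fin n) (Fin n) F)) →
      (∀ z : F, (x : Matrix (Fin n) (Fin n) F) ≠ z • (1 : Matrix (Fin n) (Fin n) F)) →
      ∃ P : Matrix.SpecialLinearGroup (Fin n) F, P⁻¹ * x * P ∈ ((Cfsg.Geo.subalgebraNormalizer K).comap (Matrix.SpecialLinearGroup.toGL : Matrix.SpecialLinearGroup (Fin n) F →* GL (Fin n) F))) ↔
    orderOf (q : ZMod n) = n - 1 := by
  classical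
  subst hkn'
  have hq1 : 1 < Fintype.card F := Fintype.one_lt_card
  haveI : Fact k.Prime := ⟨hk⟩
  have hnq : ¬ k ∣ q := by
    rw [← hq]
    obtain ⟨f, _, hf⟩ := FiniteField.card F p
    rw [hf]
    intro h
    exact hnp ((Nat.prime_dvd_prime_iff_eq hk (Fact.out)).mp (hk.dvd_of_dvd_pow h))
  have hq0 : (q : ZMod k) ≠ 0 := by rwa [Ne, ZMod.natCast_eq_zero_iff]
  have hoz : orderOf (q : ZMod k) ∣ k - 1 := ZMod.orderOf_dvd_card_sub_one hq0
  constructor
  · intro h
    by_contra hcon
    obtain ⟨e, he⟩ : ∃ e, e = orderOf (q : ZMod k) := ⟨_, rfl⟩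
    rw [← he] at hcon hoz
    obtain ⟨c, hc⟩ := hoz
    have he1 : e ≠ 0 := by
      rintro rfl
      rw [zero_mul] at hc
      omega
    have hc2 : 2 ≤ c := by
      rcases c with _ | _ | c
      · rw [mul_zero] at hc; omega
      · rw [zero_add, mul_one] at hc
        exact absurd hc.symm hcon
      · omega
    have he2 : e * 2 ≤ k - 1 := by
      rw [hc]
      exact Nat.mul_le_mul_left e hc2
    obtain ⟨m, hm1, hm2, hm3⟩ : ∃ m, 2 ≤ m ∧ e ≤ m ∧ m + 2 ≤ k := by
      rcases Nat.lt_or_ge e 2 with h1 | h1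
      · exact ⟨2, le_rfl, by omega, by omega⟩
      · exact ⟨e, h1, le_rfl, by omega⟩
    obtain ⟨b, rfl⟩ := Nat.exists_eq_add_of_le (show m ≤ k by omega)
    have hdvd : (m + b) ∣ Fintype.card F ^ e - 1 := by
      rw [hq, ← ZMod.natCast_eq_zero_iff, Nat.cast_sub (Nat.one_le_pow _ _ (by omega)), Nat.cast_pow, Nat.cast_one, sub_eq_zero, he]
      exact pow_orderOf_eq_one _
    obtain ⟨A, hA⟩ : ∃ A : Matrix.SpecialLinearGroup (Fin m) F, orderOf A = m + b :=
      exists_prime_orderOf_dvd_card' (m + b) (CfsgLib.Flg.dvd_card_SL (p := p) hm1 (Or.inr ⟨e, by omega, hm2, hdvd⟩))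
    let x : Matrix.SpecialLinearGroup (Fin (m + b)) F := CfsgLib.Flg.rei finSumFinEquiv (CfsgLib.Flg.blk m b (A, 1))
    have hx : x ^ (m + b) = 1 := by
      show (CfsgLib.Flg.rei finSumFinEquiv (CfsgLib.Flg.blk m b (A, 1))) ^ (m + b) = 1
      rw [← map_pow, ← map_pow, Prod.pow_mk, one_pow]
      have h1 : A ^ (m + b) = 1 := by rw [← hA]; exact pow_orderOf_eq_one A
      rw [h1]
      show CfsgLib.Flg.rei finSumFinEquiv (CfsgLib.Flg.blk m b 1) = 1
      rw [map_one, map_one]
    have hrk : Matrix.rank (x.1 - (1 : F) • (1 : Matrix (Fin (m + b)) (Fin (m + b)) F)) + 2 ≤ m + b := by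
      have h1 := CfsgLib.GeoK.rank_blk m b A
      have h2 : Matrix.rank (x.1 - (1 : F) • (1 : Matrix (Fin (m + b)) (Fin (m + b)) F)) ≤ m := h1
      omega
    have hx1 : x.1 ≠ 1 := by
      intro h1
      have h2 : ∀ i j, A.1 i j = (1 : Matrix (Fin m) (Fin m) F) i j := by
        intro i j
        have h3 := congrFun (congrFun h1 (finSumFinEquiv (Sum.inl i))) (finSumFinEquiv (Sum.inl j))
        have h4 : x.1 (finSumFinEquiv (Sum.inl i)) (finSumFinEquiv (Sum.inl j)) = A.1 i j := by
          show (Matrix.reindexAlgEquiv F F finSumFinEquiv (Matrix.fromBlocks A.1 0 0 1)) (finSumFinEquiv (Sum.inl i)) (finSumFinEquiv (Sum.inl j)) = A.1 i j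
          rw [Matrix.reindexAlgEquiv_apply, Matrix.reindex_apply, Matrix.submatrix_apply, Equiv.symm_apply_apply, Equiv.symm_apply_apply, Matrix.fromBlocks_apply₁₁]
        rw [h4] at h3
        rw [h3, Matrix.one_apply, Matrix.one_apply]
        simp only [EmbeddingLike.apply_eq_iff_eq, Sum.inl.injEq]
      have h3 : A = 1 := by
        apply Subtype.ext
        ext i j
        exact h2 i j
      rw [h3, orderOf_one] at hA
      omega
    have hns : ∀ z : F, (x : Matrix (Fin (m + b)) (Fin (m + b)) F) ≠ z • (1 : Matrix (Fin (m + b)) (Fin (m + b)) F) := by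
      intro z hz
      -- a scalar matrix with eigenvalue one
      have h2 : (x.1 - (1 : F) • (1 : Matrix (Fin (m + b)) (Fin (m + b)) F)) = (z - 1) • (1 : Matrix (Fin (m + b)) (Fin (m + b)) F) := by
        rw [sub_smul]
        rw [show x.1 = z • (1 : Matrix (Fin (m + b)) (Fin (m + b)) F) from hz]
      by_cases hz1 : z = 1
      · apply hx1
        rw [show x.1 = z • (1 : Matrix (Fin (m + b)) (Fin (m + b)) F) from hz, hz1, one_smul]
      · rw [h2] at hrk
        have h3 : Matrix.rank ((z - 1) • (1 : Matrix (Fin (m + b)) (Fin (m + b)) F)) = m + b := by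
          have h4 : IsUnit ((z - 1) • (1 : Matrix (Fin (m + b)) (Fin (m + b)) F)) := by
            rw [Matrix.isUnit_iff_isUnit_det, Matrix.det_smul, Matrix.det_one, mul_one]
            exact (IsUnit.mk0 _ (sub_ne_zero.mpr hz1)).pow _
          rw [Matrix.rank_of_isUnit _ h4, Fintype.card_fin]
        omega
    obtain ⟨P, hP⟩ := h x ⟨1, by rw [hx, one_smul]; rfl⟩ hns
    have h1 := CfsgLib.GeoK.conj_trivial hk hK x P hP 1 one_ne_zero hrk
    rw [one_smul] at h1
    exact hx1 h1
  · intro ho x hx hns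
    obtain ⟨z, hz⟩ := hx
    have hz1 : z ^ k = 1 := by
      have h1 := congrArg Matrix.det hz
      rw [Matrix.det_smul, Matrix.det_one, mul_one, Fintype.card_fin, (x ^ k).2] at h1
      exact h1.symm
    have hz2 : z = 1 := by
      have hz0 : z ≠ 0 := by
        rintro rfl
        rw [zero_pow hk.ne_zero] at hz1
        exact zero_ne_one hz1
      have h1 : z ^ (q - 1) = 1 := by rw [← hq]; exact FiniteField.pow_card_sub_one_eq_one z hz0
      have h2 : Nat.Coprime k (q - 1) := by
        rw [hk.coprime_iff_not_dvd]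
        intro h3
        have h4 : (q : ZMod k) ^ 1 = 1 := by
          have h5 : ((q - 1 : ℕ) : ZMod k) = 0 := (ZMod.natCast_eq_zero_iff _ _).mpr h3
          rw [Nat.cast_sub (by omega), Nat.cast_one, sub_eq_zero] at h5
          rw [h5, one_pow]
        have h5 := orderOf_dvd_of_pow_eq_one h4
        rw [ho] at h5
        have := Nat.le_of_dvd one_pos h5
        omega
      have h3 : orderOf z ∣ 1 := by
        rw [← Nat.Coprime.gcd_eq_one h2]
        exact Nat.dvd_gcd (orderOf_dvd_of_pow_eq_one hz1) (orderOf_dvd_of_pow_eq_one h1)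
      rw [← orderOf_eq_one_iff]
      exact Nat.dvd_one.mp h3
    have hxk : x.1 ^ k = 1 := by
      rw [hz2, one_smul] at hz
      exact hz
    have hcp := CfsgLib.GeoK.charpoly_eq (p := p) hk (by omega) hnp (by rw [hq]; exact ho) x.1 hxk (fun h => hns 1 (by rw [one_smul]; exact h))
    exact CfsgLib.GeoK.conj_lemma (p := p) (by omega) ((Nat.coprime_primes hk Fact.out).mpr hnp) hK x hcp

end Cfsg.Agent.S5970
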