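import Cfsg.Statements.S5971
import Cfsg.Agent.LibGeoKH13

set_option autoImplicit false
open scoped MatrixGroups
open Cfsg

namespace Cfsg.Agent.S5971

open Module Polynomial

/-- a matrix of size three and determinant one whose cube is one and which is not scalar has characteristic polynomial `X^3-1` -/
theorem cp3 {F : Type*} [Field F] (h3 : (3 : F) ≠ 0) (x : Matrix (Fin 3) (Fin 3) F) (hdet : x.det = 1) (hx : x ^ 3 = 1)
    (hns : ∀ z : F, x ≠ z • (1 : Matrix (Fin 3) (Fin 3) F)) : x.charpoly = X ^ 3 - 1 := by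
  classical
  set m := minpoly F x with hm
  have hint : IsIntegral F x := Algebra.IsIntegral.isIntegral x
  have hmon : m.Monic := minpoly.monic hint
  have hdvd1 : m ∣ X ^ 3 - 1 := by
    apply minpoly.dvd
    rw [map_sub, map_pow, aeval_X, map_one, hx, sub_self]
  have hdvd2 : m ∣ x.charpoly := Matrix.minpoly_dvd_charpoly x
  have hm3 : (X ^ 3 - 1 : F[X]).Monic := by
    rw [← C_1]; exact monic_X_pow_sub_C 1 (by omega)
  have hn3 : (X ^ 3 - 1 : F[X]).natDegree = 3 := by
    rw [← C_1, natDegree_X_pow_sub_C]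
  have hcn : x.charpoly.natDegree = 3 := by rw [Matrix.charpoly_natDegree_eq_dim, Fintype.card_fin]
  have hcm := Matrix.charpoly_monic x
  have hle : m.natDegree ≤ 3 := by
    have := natDegree_le_of_dvd hdvd1 hm3.ne_zero
    rwa [hn3] at this
  have h0 : 2 ≤ m.natDegree := by
    by_contra hcon
    have h1 : m.natDegree = 0 ∨ m.natDegree = 1 := by omega
    rcases h1 with h1 | h1
    · exact absurd h1 (minpoly.natDegree_pos hint).ne'
    · obtain ⟨c, hc⟩ := minpoly.natDegree_eq_one_iff.mp h1
      apply hns c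
      rw [← hc, Algebra.algebraMap_eq_smul_one]
  rcases Nat.lt_or_ge 2 m.natDegree with h2 | h2
  · have e1 : X ^ 3 - 1 = m := Polynomial.eq_of_monic_of_dvd_of_natDegree_le hmon hm3 hdvd1 (by omega)
    have e2 : x.charpoly = m := Polynomial.eq_of_monic_of_dvd_of_natDegree_le hmon hcm hdvd2 (by omega)
    rw [e1, e2]
  · exfalso
    have h2' : m.natDegree = 2 := by omega
    obtain ⟨s, hs⟩ := hdvd1
    obtain ⟨t, ht⟩ := hdvd2
    have hsm : s.Monic := hmon.of_mul_monic_left (by rw [← hs]; exact hm3)
    have htm : t.Monic := hmon.of_mul_monic_left (by rw [← ht]; exact hcm)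
    have hsn : s.natDegree = 1 := by
      have h4 := hmon.natDegree_mul hsm
      rw [← hs, hn3, h2'] at h4; omega
    have htn : t.natDegree = 1 := by
      have h4 := hmon.natDegree_mul htm
      rw [← ht, hcn, h2'] at h4; omega
    have hs1 : s = X + C (s.coeff 0) := hsm.eq_X_add_C hsn
    have ht1 : t = X + C (t.coeff 0) := htm.eq_X_add_C htn
    set b := s.coeff 0 with hb
    set c := t.coeff 0 with hc
    -- coefficients
    have e1 : (X ^ 3 - 1 : F[X]).coeff 0 = m.coeff 0 * b := by rw [hs, mul_coeff_zero]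
    have e2 : x.charpoly.coeff 0 = m.coeff 0 * c := by rw [ht, mul_coeff_zero]
    have e3 : (X ^ 3 - 1 : F[X]).coeff 0 = -1 := by simp
    have e4 : x.charpoly.coeff 0 = -1 := by
      have h5 := Matrix.det_eq_sign_charpoly_coeff x
      rw [hdet, Fintype.card_fin] at h5
      linear_combination h5
    have hm0 : m.coeff 0 ≠ 0 := by
      intro h; rw [e3, h, zero_mul] at e1
      exact one_ne_zero (neg_eq_zero.mp e1)
    have hbc : b = c := by
      apply mul_left_cancel₀ hm0
      rw [← e1, ← e2, e3, e4]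
    -- -c is an eigenvalue, hence a root of m
    have hroot : m.IsRoot (-c) := by
      have h5 : x.charpoly.IsRoot (-c) := by
        rw [ht, IsRoot.def, eval_mul, ht1]
        simp
      rw [IsRoot.def, Matrix.eval_charpoly, ← Matrix.exists_mulVec_eq_zero_iff] at h5
      obtain ⟨v, hv0, hv⟩ := h5
      rw [Matrix.sub_mulVec, sub_eq_zero] at hv
      have hv2 : x.mulVec v = (-c) • v := by
        rw [← hv]
        show (Matrix.scalar (Fin 3) (-c)).mulVec v = (-c) • v
        rw [show Matrix.scalar (Fin 3) (-c) = (-c) • (1 : Matrix (Fin 3) (Fin 3) F) by rw [Matrix.scalar_apply, ← Matrix.smul_one_eq_diagonal], Matrix.smul_mulVec, Matrix.one_mulVec]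
      have h6 : ∀ P : F[X], (aeval x P).mulVec v = (P.eval (-c)) • v := by
        intro P
        induction P using Polynomial.induction_on' with
        | add P Q hP hQ => rw [map_add, Matrix.add_mulVec, hP, hQ, eval_add, add_smul]
        | monomial k a =>
          rw [aeval_monomial, eval_monomial, Algebra.algebraMap_eq_smul_one, Matrix.smul_mul, one_mul, Matrix.smul_mulVec, mul_smul]
          congr 1
          induction k with
          | zero => rw [pow_zero, pow_zero, Matrix.one_mulVec, one_smul]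
          | succ k ih => rw [pow_succ, ← Matrix.mulVec_mulVec, hv2, Matrix.mulVec_smul, ih, smul_smul, pow_succ, mul_comm]
      have h7 := h6 m
      rw [minpoly.aeval, Matrix.zero_mulVec] at h7
      exact (smul_eq_zero.mp h7.symm).resolve_right hv0
    -- so -c is a double root of X^3-1
    have hdr : (X - C (-c)) ^ 2 ∣ (X ^ 3 - 1 : F[X]) := by
      rw [hs, pow_two]
      apply mul_dvd_mul (dvd_iff_isRoot.mpr hroot)
      rw [hs1, hbc, C_neg, sub_neg_eq_add]
    have hsq : Squarefree (X ^ 3 - 1 : F[X]) := by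
      have h5 : (X ^ 3 - 1 : F[X]).Separable := by
        rw [X_pow_sub_one_separable_iff]
        exact_mod_cast h3
      exact h5.squarefree
    have h8 := hsq (X - C (-c)) (by rw [← pow_two]; exact hdr)
    exact (Polynomial.not_isUnit_X_sub_C _) h8

theorem rk1 {F : Type*} [Field F] (M : Matrix (Fin 3) (Fin 3) F) (u v : Fin 3 → F) (h : M = Matrix.vecMulVec u v) : M.rank + 2 ≤ 3 := by
  rw [h]
  have := Matrix.rank_vecMulVec_le u v
  omega

theorem card_sl3 {F : Type*} [Field F] [Fintype F] : Nat.card (Matrix.SpecialLinearGroup (Fin 3) F) = (Fintype.card F ^ 3 - 1) * (Fintype.card F ^ 3 - Fintype.card F) * Fintype.card F ^ 2 := by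
  classical
  have hq : 1 < Fintype.card F := Fintype.one_lt_card
  have h1 : Nat.card (GL (Fin 3) F) = Nat.card (Matrix.SpecialLinearGroup (Fin 3) F) * (Fintype.card F - 1) := CfsgLib.Hc.card_SL (by omega)
  rw [Matrix.card_GL_field, Fin.prod_univ_three] at h1
  have h2 : Fintype.card F ^ 3 - Fintype.card F ^ 2 = Fintype.card F ^ 2 * (Fintype.card F - 1) := by
    rw [Nat.mul_sub, mul_one, pow_succ]
  have h3 : (Fintype.card F - 1) ≠ 0 := by omega
  apply Nat.eq_of_mul_eq_mul_right (Nat.pos_of_ne_zero h3)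
  rw [← h1]
  simp only [Fin.val_zero, Fin.val_one, Fin.val_two, pow_zero, pow_one]
  rw [h2]; ring

theorem nine {q : ℕ} (h : 9 ∣ (q ^ 3 - 1) * (q ^ 3 - q) * q ^ 2) (hq : 1 < q) : ¬ (q % 9 = 2 ∨ q % 9 = 5) := by
  have h1 : (((q ^ 3 - 1) * (q ^ 3 - q) * q ^ 2 : ℕ) : ZMod 9) = 0 := (ZMod.natCast_eq_zero_iff _ _).mpr h
  have h2 : q ≤ q ^ 3 := Nat.le_self_pow (by norm_num) q
  rw [Nat.cast_mul, Nat.cast_mul, Nat.cast_sub (by omega), Nat.cast_sub h2] at h1
  push_cast at h1
  rintro (h3 | h3)
  · have h4 : (q : ZMod 9) = 2 := by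
      have : ((q : ℕ) : ZMod 9) = ((2 : ℕ) : ZMod 9) := (ZMod.natCast_eq_natCast_iff _ _ _).mpr h3
      exact_mod_cast this
    rw [h4] at h1
    revert h1; decide
  · have h4 : (q : ZMod 9) = 5 := by
      have : ((q : ℕ) : ZMod 9) = ((5 : ℕ) : ZMod 9) := (ZMod.natCast_eq_natCast_iff _ _ _).mpr h3
      exact_mod_cast this
    rw [h4] at h1
    revert h1; decide

theorem z_one {F : Type*} [Field F] (hF : ∀ a : F, a ^ 9 = 1 → a ^ 3 = 1) (x : Matrix (Fin 3) (Fin 3) F) (hdet : x.det = 1) (z : F)
    (hx : x ^ 3 = z • (1 : Matrix (Fin 3) (Fin 3) F)) : z = 1 := by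
  classical
  have hz1 : z ^ 3 = 1 := by
    have h1 := congrArg Matrix.det hx
    rw [Matrix.det_smul, Matrix.det_one, mul_one, Fintype.card_fin, Matrix.det_pow, hdet, one_pow] at h1
    exact h1.symm
  by_cases hc : ∃ a : F, a ^ 3 = z
  · obtain ⟨a, rfl⟩ := hc
    apply hF
    rw [← hz1, ← pow_mul]
  · push Not at hc
    have hirr : Irreducible (X ^ 3 - C z : F[X]) := by
      apply Polynomial.irreducible_of_degree_le_three_of_not_isRoot
      · rw [natDegree_X_pow_sub_C]; simp
      · intro a ha
        rw [IsRoot.def, eval_sub, eval_pow, eval_X, eval_C, sub_eq_zero] at ha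
        exact hc a ha
    have hdvd : minpoly F x ∣ X ^ 3 - C z := by
      apply minpoly.dvd
      rw [map_sub, map_pow, aeval_X, aeval_C, hx, Algebra.algebraMap_eq_smul_one, sub_self]
    have hint : IsIntegral F x := Algebra.IsIntegral.isIntegral x
    have h1 : minpoly F x = X ^ 3 - C z := by
      have h2 : Associated (minpoly F x) (X ^ 3 - C z) := by
        rcases (hirr.dvd_iff.mp hdvd) with h3 | h3
        · exact absurd h3 (minpoly.not_isUnit F x)
        · exact h3.symm
      exact eq_of_monic_of_associated (minpoly.monic hint) (monic_X_pow_sub_C z (by norm_num)) h2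
    have h2 : x.charpoly = X ^ 3 - C z := by
      have h3 := Matrix.minpoly_dvd_charpoly x
      rw [h1] at h3
      apply Polynomial.eq_of_monic_of_dvd_of_natDegree_le (monic_X_pow_sub_C z (by norm_num)) (Matrix.charpoly_monic _) h3
      rw [Matrix.charpoly_natDegree_eq_dim, Fintype.card_fin, natDegree_X_pow_sub_C]
    have h3 := Matrix.det_eq_sign_charpoly_coeff x
    rw [hdet, Fintype.card_fin, h2] at h3
    simp at h3
    linear_combination -h3

/-- Elements of order 3 of PSL_3(q) and the normalizer of a Singer cycle. Here `T = PSL_n(F)` for a field `F` with `q = p^f` elements (`n ≥ 2`, `(n, q) ≠ (2, 2), (2, 3)`), `k` is a prime dividing `n`, `K` is a subalgebra of the `n × n` matrices that is a field of degree `k` over `F` (an extension-field structure F_{q^k} on `F^n`), and `H` is the subgroup of matrices of determinant 1 normalizing `K` — a subgroup of type GL_{n/k}(q^k) (maximal except in some small cases; maximality is not assumed); Ω is the set of cosets of `H` in `T`, so an element of `T`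 of prime order `r` (a matrix `x` of determinant 1 with `x^r` scalar, `x` not scalar) fixes a point of Ω when some conjugate of `x` by a matrix of determinant 1 normalizes `K`. Take `n = k = 3` and suppose 3 divides the index of `H`. Then every element of `T` of order 3 is conjugate in `T` into `H` if and only if `q ≡ 4, 7` or `8 (mod 9)`. -/
theorem result {F : Type*} [Field F] [Fintype F] {p : ℕ} [Fact p.Prime] [CharP F p] {q : ℕ} (hq : Fintype.card F = q)
    (n : ℕ) (hn : n = 3) (k : ℕ) (hk : k.Prime) (hkn : k ∣ n) (K : Subalgebra F (Matrix (Fin n) (Fin n) F)) (hK : Cfsg.Geo.IsFieldSubalgebra k K) (hk3 : k = 3) (hΩ : 3 ∣ ((Cfsg.Geo.subalgebraNormalizer K).comap (Matrix.SpecialLinearGroup.toGL : Matrix.SpecialLinearGroup (Fin n) F →* GL (Fin n) F)).index) :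
    (∀ x : Matrix.SpecialLinearGroup (Fin n) F,
      (∃ z : F, ((x ^ 3 : Matrix.SpecialLinearGroup (Fin n) F) : Matrix (Fin n) (Fin n) F) = z • (1 : Matrix (Fin n) (Fin n) F)) →
      (∀ z : F, (x : Matrix (Fin n) (Fin n) F) ≠ z • (1 : Matrix (Fin n) (Fin n) F)) →
      ∃ P : Matrix.SpecialLinearGroup (Fin n) F, P⁻¹ * x * P ∈ ((Cfsg.Geo.subalgebraNormalizer K).comap (Matrix.SpecialLinearGroup.toGL : Matrix.SpecialLinearGroup (Fin n) F →* GL (Fin n) F))) ↔
    (q % 9 = 4 ∨ q % 9 = 7 ∨ q % 9 = 8) := by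
  classical
  subst hk3
  subst hn
  have hq1 : 1 < Fintype.card F := Fintype.one_lt_card
  rw [hq] at hq1
  obtain ⟨f, _, hf⟩ := FiniteField.card F p
  rw [hq] at hf
  constructor
  · intro h
    by_contra hcon
    by_cases hp3 : p = 3
    · -- a transvection
      have h30 : (3 : F) = 0 := by
        have := CharP.cast_eq_zero F p
        rw [hp3] at this
        exact_mod_cast this
      let x : Matrix.SpecialLinearGroup (Fin 3) F := ⟨!![1, 1, 0; 0, 1, 0; 0, 0, 1], by simp [Matrix.det_fin_three]⟩
      have hx3 : x.1 ^ 3 = 1 := by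
        show (!![1, 1, 0; 0, 1, 0; 0, 0, 1] : Matrix (Fin 3) (Fin 3) F) ^ 3 = 1
        have h2 : (1 : F) + (1 + 1) = 0 := by linear_combination h30
        ext i j
        fin_cases i <;> fin_cases j <;> simp [pow_succ, Matrix.mul_apply, Fin.sum_univ_three] <;> linear_combination h30
      have hxe : x.1 0 1 = 1 := rfl
      obtain ⟨P, hP⟩ := h x ⟨1, by rw [one_smul]; exact hx3⟩ (by
        intro z hz
        have h2 := congrFun (congrFun hz 0) 1
        rw [show x.1 0 1 = 1 from rfl] at h2
        simp at h2)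
      have h2 := CfsgLib.GeoK.conj_trivial hk hK x P hP 1 one_ne_zero (rk1 _ ![1, 0, 0] ![0, 1, 0] (by
        ext i j
        show (!![1, 1, 0; 0, 1, 0; 0, 0, 1] : Matrix (Fin 3) (Fin 3) F) i j - ((1 : F) • (1 : Matrix (Fin 3) (Fin 3) F)) i j = _
        fin_cases i <;> fin_cases j <;> simp [Matrix.vecMulVec_apply]))
      have h3 := congrFun (congrFun h2 0) 1
      rw [hxe] at h3
      simp at h3
    · have h3 : (3 : F) ≠ 0 := by
        have := CfsgLib.Flg.cast_ne (F := F) (p := p) Nat.prime_three (Ne.symm hp3)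
        exact_mod_cast this
      have hq3 : ¬ 3 ∣ q := by
        rw [hf]
        intro h4
        exact hp3 ((Nat.prime_dvd_prime_iff_eq Nat.prime_three (Fact.out)).mp (Nat.prime_three.dvd_of_dvd_pow h4)).symm
      have hcases : q % 9 = 1 ∨ (q % 9 = 2 ∨ q % 9 = 5) := by omega
      rcases hcases with hc | hc
      · -- an element of order nine
        obtain ⟨ζ, hζ⟩ : ∃ ζ : Fˣ, orderOf ζ = 9 := by
          obtain ⟨g, hg⟩ := IsCyclic.exists_ofOrder_eq_natCard (α := Fˣ)
          have h4 : Nat.card Fˣ = q - 1 := by rw [Nat.card_eq_fintype_card, Fintype.card_units, hq]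
          have h5 : 9 ∣ q - 1 := by omega
          obtain ⟨c, hc5⟩ := h5
          refine ⟨g ^ c, ?_⟩
          have hc0 : c ≠ 0 := by rintro rfl; omega
          rw [orderOf_pow_of_dvd hc0 (by rw [hg, h4, hc5]; exact Dvd.intro_left 9 rfl), hg, h4, hc5]
          exact Nat.mul_div_cancel _ (Nat.pos_of_ne_zero hc0)
        have hz9 : (ζ : F) ^ 9 = 1 := by
          rw [← Units.val_pow_eq_pow_val, ← hζ, pow_orderOf_eq_one]; rfl
        have hz3 : (ζ : F) ^ 3 ≠ 1 := by
          intro h4
          have h5 : ζ ^ 3 = 1 := Units.ext (by rw [Units.val_pow_eq_pow_val]; exact h4)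
          have h6 := orderOf_dvd_of_pow_eq_one h5
          rw [hζ] at h6
          omega
        have hz0 : (ζ : F) ≠ 0 := ζ.ne_zero
        let x : Matrix.SpecialLinearGroup (Fin 3) F := ⟨!![(ζ : F), 0, 0; 0, (ζ : F), 0; 0, 0, (ζ : F) ^ 7], by
          rw [Matrix.det_fin_three]; simp; rw [← hz9]; ring⟩
        have hx3 : x.1 ^ 3 = ((ζ : F) ^ 3) • (1 : Matrix (Fin 3) (Fin 3) F) := by
          show (!![(ζ : F), 0, 0; 0, (ζ : F), 0; 0, 0, (ζ : F) ^ 7] : Matrix (Fin 3) (Fin 3) F) ^ 3 = _
          have h4 : ((ζ : F) ^ 7 * (ζ : F) ^ 7) * (ζ : F) ^ 7 = (ζ : F) ^ 3 := by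
            calc ((ζ : F) ^ 7 * (ζ : F) ^ 7) * (ζ : F) ^ 7 = ((ζ : F) ^ 9) ^ 2 * (ζ : F) ^ 3 := by ring
              _ = (ζ : F) ^ 3 := by rw [hz9, one_pow, one_mul]
          ext i j
          fin_cases i <;> fin_cases j <;> simp [pow_succ, Matrix.mul_apply, Fin.sum_univ_three]
          have h5 := h4
          simp only [pow_succ, pow_zero, one_mul] at h5
          exact h5
        have hx22 : x.1 2 2 = (ζ : F) ^ 7 := rfl
        have hx00 : x.1 0 0 = (ζ : F) := rfl
        have hne : (ζ : F) ^ 7 ≠ (ζ : F) := by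
          intro h4
          apply hz3
          have h5 : (ζ : F) ^ 3 * (ζ : F) ^ 7 = (ζ : F) ^ 9 * ζ := by ring
          rw [hz9, one_mul, h4] at h5
          exact mul_right_cancel₀ hz0 (by rw [h5, one_mul])
        obtain ⟨P, hP⟩ := h x ⟨_, hx3⟩ (by
          intro z hz
          have h5 := congrFun (congrFun hz 0) 0
          have h6 := congrFun (congrFun hz 2) 2
          rw [hx00] at h5
          rw [hx22] at h6
          simp at h5 h6
          exact hne (by rw [h6, h5]))
        have h2 := CfsgLib.GeoK.conj_trivial hk hK x P hP ζ hz0 (rk1 _ ![0, 0, 1] ![0, 0, (ζ : F) ^ 7 - ζ] (by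
          ext i j
          show (!![(ζ : F), 0, 0; 0, (ζ : F), 0; 0, 0, (ζ : F) ^ 7] : Matrix (Fin 3) (Fin 3) F) i j - ((ζ : F) • (1 : Matrix (Fin 3) (Fin 3) F)) i j = _
          fin_cases i <;> fin_cases j <;> simp [Matrix.vecMulVec_apply]))
        have h6 := congrFun (congrFun h2 2) 2
        rw [hx22] at h6
        simp at h6
        exact hne h6
      · -- the index
        let y : Matrix.SpecialLinearGroup (Fin 3) F := ⟨!![0, 0, 1; 1, 0, 0; 0, 1, 0], by simp [Matrix.det_fin_three]⟩
        have hy3 : y.1 ^ 3 = 1 := by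
          show (!![0, 0, 1; 1, 0, 0; 0, 1, 0] : Matrix (Fin 3) (Fin 3) F) ^ 3 = 1
          ext i j
          fin_cases i <;> fin_cases j <;> simp [pow_succ, Matrix.mul_apply, Fin.sum_univ_three]
        have hy02 : y.1 0 2 = 1 := rfl
        have hyn : ∀ z : F, y.1 ≠ z • (1 : Matrix (Fin 3) (Fin 3) F) := by
          intro z hz
          have h4 := congrFun (congrFun hz 0) 2
          rw [hy02] at h4
          simp at h4
        have hcp := cp3 h3 y.1 y.2 hy3 hyn
        obtain ⟨P, hP⟩ := CfsgLib.GeoK.conj_lemma (p := p) (by omega) ((Nat.coprime_primes Nat.prime_three Fact.out).mpr (Ne.symm hp3)) hK y hcp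
        have hyo : orderOf (P⁻¹ * y * P) = 3 := by
          haveI : Fact (Nat.Prime 3) := ⟨Nat.prime_three⟩
          apply orderOf_eq_prime
          · have h4 : y ^ 3 = 1 := Subtype.ext hy3
            have h5 := conj_pow (i := 3) (a := P⁻¹) (b := y)
            rw [inv_inv] at h5
            rw [h5, h4, mul_one, inv_mul_cancel]
          · intro h4
            have h5 : y = 1 := by
              have h6 : y = P * (P⁻¹ * y * P) * P⁻¹ := by group
              rw [h6, h4, mul_one, mul_inv_cancel]
            apply hyn 1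
            rw [h5, one_smul]; rfl
        have h5 := Subgroup.orderOf_dvd_natCard _ hP
        rw [hyo] at h5
        have h6 := Subgroup.index_mul_card ((Cfsg.Geo.subalgebraNormalizer K).comap (Matrix.SpecialLinearGroup.toGL : Matrix.SpecialLinearGroup (Fin 3) F →* GL (Fin 3) F))
        have h7 : 9 ∣ Nat.card (Matrix.SpecialLinearGroup (Fin 3) F) := by
          rw [← h6, show 9 = 3 * 3 by rfl]
          exact mul_dvd_mul hΩ h5
        rw [card_sl3, hq] at h7
        exact nine h7 hq1 hc
  · intro hc x hx hns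
    have hp3 : p ≠ 3 := by
      rintro rfl
      have h4 : 3 ∣ q := by rw [hf]; exact dvd_pow_self 3 (PNat.ne_zero f)
      omega
    have h3 : (3 : F) ≠ 0 := by
      have := CfsgLib.Flg.cast_ne (F := F) (p := p) Nat.prime_three (Ne.symm hp3)
      exact_mod_cast this
    obtain ⟨z, hz⟩ := hx
    have hF : ∀ a : F, a ^ 9 = 1 → a ^ 3 = 1 := by
      intro a ha
      have ha0 : a ≠ 0 := by
        rintro rfl
        rw [zero_pow (by norm_num)] at ha
        exact zero_ne_one ha
      have h1 : a ^ (q - 1) = 1 := by rw [← hq]; exact FiniteField.pow_card_sub_one_eq_one a ha0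
      have h2 := orderOf_dvd_of_pow_eq_one ha
      have h4 := orderOf_dvd_of_pow_eq_one h1
      have h5 : orderOf a ∣ 3 ^ 2 := h2
      rw [Nat.dvd_prime_pow Nat.prime_three] at h5
      obtain ⟨k, hk2, hk3⟩ := h5
      rw [← orderOf_dvd_iff_pow_eq_one, hk3]
      rcases Nat.lt_or_ge k 2 with h6 | h6
      · rcases (show k = 0 ∨ k = 1 by omega) with rfl | rfl
        · exact one_dvd _
        · exact dvd_rfl
      · have : k = 2 := by omega
        subst this
        rw [hk3] at h4
        exfalso
        omega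
    have hz1 := z_one hF x.1 x.2 z hz
    have hx3 : x.1 ^ 3 = 1 := by
      rw [hz1, one_smul] at hz
      exact hz
    exact CfsgLib.GeoK.conj_lemma (p := p) (by omega) ((Nat.coprime_primes Nat.prime_three Fact.out).mpr (Ne.symm hp3)) hK x (cp3 h3 x.1 x.2 hx3 hns)

end Cfsg.Agent.S5971
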