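import Cfsg.Statements.S5979
import Mathlib
import Cfsg.Agent.LibTn29c

set_option autoImplicit false
open scoped MatrixGroups
open Cfsg

namespace Cfsg.Agent.S5979

theorem order_le' {F : Type*} [Field F] [Fintype F] {n : ℕ} {p : ℕ} [Fact p.Prime] [CharP F p] (r : ℕ) [hr : Fact r.Prime] (hrp : r ≠ p)
    (h1 : r ∣ Nat.card (GL (Fin n) F)) : 0 < orderOf ((Fintype.card F : ℕ) : ZMod r) ∧ orderOf ((Fintype.card F : ℕ) : ZMod r) ≤ n := by
  classical
  rw [Matrix.card_GL_field, Prime.dvd_finsetProd_iff hr.out.prime] at h1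
  obtain ⟨i, -, hi⟩ := h1
  have h2 : Fintype.card F ^ n - Fintype.card F ^ (i : ℕ) = Fintype.card F ^ (i : ℕ) * (Fintype.card F ^ (n - i) - 1) := by
    have := i.2
    rw [Nat.mul_sub, mul_one, ← pow_add]
    congr 2
    omega
  rw [h2] at hi
  rcases (Nat.Prime.dvd_mul hr.out).1 hi with h3 | h3
  · exfalso
    have h4 := hr.out.dvd_of_dvd_pow h3
    obtain ⟨k, -, hk⟩ := FiniteField.card F p
    rw [hk] at h4
    exact hrp ((Nat.prime_dvd_prime_iff_eq hr.out Fact.out).1 (hr.out.dvd_of_dvd_pow h4))
  · rw [CfsgLib.Semi29.dvd_of_order hr.out Fintype.card_pos] at h3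
    have := i.2
    exact ⟨Nat.pos_of_dvd_of_pos h3 (by omega), (Nat.le_of_dvd (by omega) h3).trans (Nat.sub_le _ _)⟩

/-- Elements of prime order of PSL_n(q) and the stabilizers of tensor decompositions with factors of different dimensions. Here `T = PSL_n(F)` for a field `F` with `q` elements and `n = a·b` with `2 ≤ a < b`; a tensor decomposition `F^n ≅ F^a ⊗ F^b` is given by a bijection `e` of index sets and a change of basis `P`, and `H` is the subgroup of matrices of determinant 1 in its stabilizer (the conjugate by `P` of the group of Kronecker products `g₁ ⊗ g₂`) — a subgroup of type GL_a(q) ⊗ GL_b(q) (maximality is not assumed); Ω is the set of cosets of `H` in `T`, so an element of `T` of prime order `r` (a matrix `x` of determinant 1 with `x^r` scalar, `x` not scalar) fixes a point of Ω exactly when some conjugate of `x` by a matrix of determinant 1 lies in `H`. Let `r` be a prime dividing the index of `H`. Then every element of `T` of order `r` fixes a point of Ω if and only if `r = 2`,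 `a = 2`, `q` is odd and `(q − 1)_2 ≤ (n)_2` (2-parts). -/
theorem result {F : Type*} [Field F] [Fintype F] {p : ℕ} [Fact p.Prime] [CharP F p] {q : ℕ} (hq : Fintype.card F = q)
    (n a b : ℕ) (hab : n = a * b) (ha : 2 ≤ a) (hlt : a < b) (e : Fin n ≃ Fin a × Fin b) (P : GL (Fin n) F)
    (r : ℕ) [Fact r.Prime]
    (hΩ : r ∣ (Cfsg.Geo.tensorProductSubgroup a b e P).relIndex (Cfsg.Geo.specialLinear (Fin n) F)) :
    (∀ x ∈ Cfsg.Geo.specialLinear (Fin n) F, (∃ z : F, ((x ^ r : GL (Fin n) F) : Matrix (Fin n) (Fin n) F) = z • (1 : Matrix (Fin n) (Fin n) F)) →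
      (∀ z : F, (x : Matrix (Fin n) (Fin n) F) ≠ z • (1 : Matrix (Fin n) (Fin n) F)) →
      ∃ g ∈ Cfsg.Geo.specialLinear (Fin n) F, g⁻¹ * x * g ∈ Cfsg.Geo.tensorProductSubgroup a b e P) ↔
    (r = 2 ∧ a = 2 ∧ Odd q ∧ padicValNat 2 (q - 1) ≤ padicValNat 2 n) := by
  classical
  have hb : 3 ≤ b := by omega
  obtain ⟨k, hkp, hk⟩ := FiniteField.card F p
  constructor
  · intro H
    have hFP : CfsgLib.Tn29.FP (Cfsg.Geo.tensorProductSubgroup a b e P) r := H
    by_cases hrp : r = p
    · exfalso
      subst hrp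
      exact CfsgLib.Tn29.case_p (p := r) hab ha hb hFP
    have hcard : r ∣ Nat.card (GL (Fin n) F) := by
      have h1 : r ∣ Nat.card (Cfsg.Geo.specialLinear (Fin n) F) := hΩ.trans (Subgroup.index_dvd_card _)
      exact h1.trans (Subgroup.card_subgroup_dvd_card _)
    obtain ⟨hi0, hile⟩ := order_le' (p := p) r hrp hcard
    by_cases h1 : r ∣ Fintype.card F - 1
    · by_cases hcase : r ≠ 2 ∨ 3 ≤ a
      · exact absurd hFP (CfsgLib.Tn29.case_lin hab ha hb h1 hcase)
      · push Not at hcase
        obtain ⟨hr2, ha3⟩ := hcase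
        have ha2 : a = 2 := by omega
        subst hr2
        have h2 : (2 : F) ≠ 0 := by
          intro h0
          have h3 : ((2 : ℕ) : F) = 0 := by exact_mod_cast h0
          rw [CharP.cast_eq_zero_iff F p] at h3
          exact hrp ((Nat.prime_dvd_prime_iff_eq Fact.out Nat.prime_two).1 h3).symm
        refine ⟨rfl, ha2, ?_, ?_⟩
        · rw [← hq, hk]
          exact (Nat.Prime.odd_of_ne_two hkp (fun h => hrp h.symm)).pow
        · rw [← hq]
          by_contra hv
          exact CfsgLib.Tn29.case_two (p := p) hab ha2 hb h2 hv hFP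
    · exfalso
      have hi2 : 2 ≤ orderOf ((Fintype.card F : ℕ) : ZMod r) := by
        by_contra hlt2
        have h3 : orderOf ((Fintype.card F : ℕ) : ZMod r) = 1 := by omega
        apply h1
        have h4 := (CfsgLib.Semi29.dvd_of_order (r := r) Fact.out (Fintype.card_pos (α := F)) 1).2 (by rw [h3])
        rwa [pow_one] at h4
      exact CfsgLib.Tn29.case_block (p := p) hrp rfl hi2 hile hab ha hlt hFP
  · rintro ⟨rfl, rfl, hqo, hv⟩
    refine CfsgLib.Tn29.back (p := p) hab (by omega) e P ?_ (by rw [hq]; exact hv)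
    rintro rfl
    rw [← hq, hk] at hqo
    exact (Nat.not_even_iff_odd.2 hqo) (even_two.pow_of_ne_zero k.ne_zero)

end Cfsg.Agent.S5979
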