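import Cfsg.Statements.S5984
import Mathlib
import Cfsg.Agent.LibPU29f

set_option autoImplicit false
open scoped MatrixGroups
open Cfsg

namespace Cfsg.Agent.S5984



/-- Elements of prime order of PSU_n(q) and the stabilizers of pairs of complementary totally singular subspaces. Here `T = PSU_n(q)` is realised through `SU_n(q)`, the matrices of determinant 1 over the field `F` with `q²` elements preserving the hermitian form `Σ uᵢ vᵢ^q`, with `n ≥ 4` even; `D` is a pair of complementary subspaces of dimension `n/2` on each of which the form vanishes identically, and `H` is the subgroup of `SU_n(q)` fixing or interchanging the two members — a subgroup of type GL_{n/2}(q²).2 (maximality is not assumed). Ω is the set of cosets of `H`, so an element of `T` of prime order `r` (`x ∈ SU_n(q)` with `x^r` scalar, `x` not scalar) fixes a point of Ω exactly when some `SU_n(q)`-conjugate of `x` lies in `H`. Let `r` be a prime dividing the index of `H`. Then every element of `T` of order `r` fixes a point of Ω if and only if `r = 2`, `q`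 is odd and `(q + 1)_2 ≤ (n)_2` (2-parts). -/
theorem result {F : Type*} [Field F] [Fintype F] {p : ℕ} [Fact p.Prime] [CharP F p] {q : ℕ} (hq : Fintype.card F = q ^ 2)
    (n : ℕ) (hn : 4 ≤ n) (he : Even n) (D : Fin 2 → Submodule F (Fin n → F)) (hD : Cfsg.Geo.IsMDecomposition (n / 2) D)
    (hDs : ∀ i, Cfsg.Geo.IsTotallySingularFor (Cfsg.hermForm n F q) (D i))
    (r : ℕ) [Fact r.Prime]
    (hΩ : r ∣ (Cfsg.Geo.decompositionStabilizer D).relIndex (Cfsg.GU n F q ⊓ Cfsg.Geo.specialLinear (Fin n) F)) :
    (∀ x ∈ Cfsg.GU n F q ⊓ Cfsg.Geo.specialLinear (Fin n) F, (∃ z : F, ((x ^ r : GL (Fin n) F) : Matrix (Fin n) (Fin n) F) = z • (1 : Matrix (Fin n) (Fin n) F)) →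
      (∀ z : F, (x : Matrix (Fin n) (Fin n) F) ≠ z • (1 : Matrix (Fin n) (Fin n) F)) →
      ∃ g ∈ Cfsg.GU n F q ⊓ Cfsg.Geo.specialLinear (Fin n) F, g⁻¹ * x * g ∈ Cfsg.Geo.decompositionStabilizer D) ↔
    (r = 2 ∧ Odd q ∧ padicValNat 2 (q + 1) ≤ padicValNat 2 n) := by
  classical
  obtain ⟨σ, hσ, hf⟩ := CfsgLib.Un29.hermForm_unitary n hq
  have hnm : n = 2 * (n / 2) := by obtain ⟨k, hk⟩ := he; omega
  have hP := CfsgLib.PU29.pr_of hnm hD hDs
  constructor
  · intro H
    have hFP : CfsgLib.PU29.FP n q F D r := H
    rcases CfsgLib.PU29.of_index (p := p) hq hσ hf hnm (by omega) hP r Fact.out hΩ with h1 | h1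
    · exfalso
      subst h1
      exact CfsgLib.PU29.case_p (p := r) hf hnm (by omega) hP hFP
    · by_cases hrp : r = p
      · exfalso
        subst hrp
        exact CfsgLib.PU29.case_p (p := r) hf hnm (by omega) hP hFP
      by_cases hr2 : r = 2
      · subst hr2
        have h2 : (2 : F) ≠ 0 := by
          intro h0
          have h3 : ((2 : ℕ) : F) = 0 := by exact_mod_cast h0
          rw [CharP.cast_eq_zero_iff F p] at h3
          exact hrp ((Nat.prime_dvd_prime_iff_eq Fact.out Nat.prime_two).1 h3).symm
        refine ⟨rfl, ?_, ?_⟩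
        · rw [← Nat.not_even_iff_odd]
          intro hev
          apply h2
          have h3 : ((q ^ 2 : ℕ) : F) = 0 := by rw [← hq]; exact FiniteField.cast_card_eq_zero F
          obtain ⟨i, -, hi⟩ := h1
          obtain ⟨k, hk⟩ := hev.two_dvd
          exfalso
          have h4 : 2 ∣ q ^ (2 * i + 1) := (hev.two_dvd).trans (dvd_pow_self q (by omega))
          omega
        · by_contra hv
          exact CfsgLib.PU29.case_two (p := p) hq hσ hf hnm (by omega) hP h2 hv hFP
      · exfalso
        exact CfsgLib.PU29.case_odd (p := p) hrp hr2 hq hσ hf hnm (by omega) hP h1 hFP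
  · rintro ⟨rfl, hqo, hv⟩
    exact CfsgLib.PU29.back (p := p) hq hσ hf hnm (by omega) hP hqo hv

end Cfsg.Agent.S5984
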