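import Cfsg.Statements.S5985
import Cfsg.Agent.LibH22Pn2

set_option autoImplicit false
open scoped MatrixGroups
open Cfsg

namespace Cfsg.Agent.S5985
open Cfsg.Agent.H22 Cfsg.Agent.H22Pn Module in
theorem aux {F : Type*} [Field F] [Fintype F] [CharP F 2] (d : ℕ) (hd : 4 ≤ d) (r : ℕ) (hr : r.Prime)
    {Q0 : (Fin d ⊕ Fin d → F) → F} (hQ0 : ⇑(qPlus d F) = Q0)
    (hrΩ : r ∣ Nat.card {W : Submodule F (Fin d ⊕ Fin d → F) // Module.finrank F ↥W = 1 ∧ ∃ v ∈ W, Q0 v ≠ 0}) :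
    (∀ x : GL (Fin d ⊕ Fin d) F, x ∈ Cfsg.Geo.omegaGL Q0 →
      (∃ z : F, ((x ^ r : GL (Fin d ⊕ Fin d) F) : Matrix (Fin d ⊕ Fin d) (Fin d ⊕ Fin d) F) = z • (1 : Matrix (Fin d ⊕ Fin d) (Fin d ⊕ Fin d) F)) →
      (∀ z : F, (x : Matrix (Fin d ⊕ Fin d) (Fin d ⊕ Fin d) F) ≠ z • (1 : Matrix (Fin d ⊕ Fin d) (Fin d ⊕ Fin d) F)) →
      ∃ W : Submodule F (Fin d ⊕ Fin d → F), (Module.finrank F ↥W = 1 ∧ ∃ v ∈ W, Q0 v ≠ 0) ∧ W.map (Matrix.toLin' (x : Matrix (Fin d ⊕ Fin d) (Fin d ⊕ Fin d) F)) ≤ W) ↔ (r = 2 ∧ Odd d) := by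
  subst hQ0
  have hV : finrank F (Fin d ⊕ Fin d → F) = 2 * d := by simp; omega
  have hQ := nondeg_qPlus (F := F) d
  have hne : ∃ x : Fin d ⊕ Fin d → F, x ≠ 0 := by
    haveI : Nonempty (Fin d) := ⟨⟨0, by omega⟩⟩
    exact exists_ne 0
  rw [trans (exists_nonsing hQ hne) r]
  rw [card_pts] at hrΩ
  constructor
  · intro H
    have hr2 : r = 2 := by
      by_contra hr2
      exact plus_odd hd hr hr2 hrΩ H
    subst hr2
    refine ⟨rfl, ?_⟩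
    by_contra hodd
    rw [Nat.not_odd_iff_even] at hodd
    exact plus_two_even hd hodd H
  · rintro ⟨rfl, hodd⟩ A _ hA2 _
    by_contra hno
    obtain ⟨-, -, he⟩ := invol_fix hQ hV hA2 hno
    exact (Nat.not_even_iff_odd.mpr hodd) he

/-- Elements of prime order of Ω⁺_n(q), q even, with no fixed nonsingular 1-space. Here `T = PΩ⁺_n(F)`, `n = 2d ≥ 8`, realised through `Ω⁺_n(q)`, the commutator subgroup of the isometry group of `Q = Σ xᵢyᵢ` over the field `F` with `q` elements; an element of `T` of prime order `r` is an element `x` of `Ω⁺_n(q)` with `x^r` scalar and `x` not scalar; `q` is even (so the centre is trivial). Let Ω be the set of 1-dimensional subspaces spanned by a vector `v` with `Q(v) ≠ 0`, and let `r` be a prime dividing their number. Then every element of `T` of order `r` fixes some nonsingular 1-space if and only if `r = 2` and `n ≡ 2 (mod 4)` (that is,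 `d` is odd). -/
theorem result {F : Type*} [Field F] [Fintype F] {p : ℕ} [Fact p.Prime] [CharP F p] {q : ℕ} (hq : Fintype.card F = q)
    (hp : p = 2) (d : ℕ) (hd : 4 ≤ d) (r : ℕ) [Fact r.Prime]
    (hrΩ : r ∣ Nat.card {W : Submodule F (Fin d ⊕ Fin d → F) // Module.finrank F ↥W = 1 ∧ ∃ v ∈ W, Cfsg.quadFormPlus d F v ≠ 0}) :
    (∀ x : GL (Fin d ⊕ Fin d) F, x ∈ Cfsg.Geo.omegaGL (Cfsg.quadFormPlus d F) →
      (∃ z : F, ((x ^ r : GL (Fin d ⊕ Fin d) F) : Matrix (Fin d ⊕ Fin d) (Fin d ⊕ Fin d) F) = z • (1 : Matrix (Fin d ⊕ Fin d) (Fin d ⊕ Fin d) F)) →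
      (∀ z : F, (x : Matrix (Fin d ⊕ Fin d) (Fin d ⊕ Fin d) F) ≠ z • (1 : Matrix (Fin d ⊕ Fin d) (Fin d ⊕ Fin d) F)) →
      ∃ W : Submodule F (Fin d ⊕ Fin d → F), (Module.finrank F ↥W = 1 ∧ ∃ v ∈ W, Cfsg.quadFormPlus d F v ≠ 0) ∧ W.map (Matrix.toLin' (x : Matrix (Fin d ⊕ Fin d) (Fin d ⊕ Fin d) F)) ≤ W) ↔ (r = 2 ∧ Odd d) := by
  subst hp
  exact aux d hd r (Fact.out) (Cfsg.Agent.H22.coe_qPlus d) hrΩ

end Cfsg.Agent.S5985
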