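import Cfsg.Statements.S5994
import Cfsg.Agent.LibH22Uj3

set_option autoImplicit false
open scoped MatrixGroups
open Cfsg

namespace Cfsg.Agent.S5994
open Cfsg.Agent.H22 Cfsg.Agent.H22Uj Module in
theorem aux {F : Type*} [Field F] [Fintype F] {p : ℕ} [Fact p.Prime] [CharP F p] (h2 : (2 : F) ≠ 0)
    (k m : ℕ) (hk : 3 ≤ k) (hmk : m ≤ 2 * k) (a b : F) (hab : ∀ x y : F, x ^ 2 + a * x * y + b * y ^ 2 = 0 → x = 0 ∧ y = 0)
    {Q0 : ((Fin k ⊕ Fin k) ⊕ Fin 2 → F) → F} (hQ0 : ⇑(qMinus k F a b) = Q0)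
    (H : ∀ x : GL ((Fin k ⊕ Fin k) ⊕ Fin 2) F, x ∈ Cfsg.Geo.omegaGL Q0 →
      (∃ z : F, ((x ^ p : GL ((Fin k ⊕ Fin k) ⊕ Fin 2) F) : Matrix ((Fin k ⊕ Fin k) ⊕ Fin 2) ((Fin k ⊕ Fin k) ⊕ Fin 2) F) = z • (1 : Matrix ((Fin k ⊕ Fin k) ⊕ Fin 2) ((Fin k ⊕ Fin k) ⊕ Fin 2) F)) →
      (∀ z : F, (x : Matrix ((Fin k ⊕ Fin k) ⊕ Fin 2) ((Fin k ⊕ Fin k) ⊕ Fin 2) F) ≠ z • (1 : Matrix ((Fin k ⊕ Fin k) ⊕ Fin 2) ((Fin k ⊕ Fin k) ⊕ Fin 2) F)) →
      ∃ W : Submodule F ((Fin k ⊕ Fin k) ⊕ Fin 2 → F), (Module.finrank F ↥W = m ∧ Cfsg.Geo.IsNondegenerateOn (QuadraticMap.polar Q0) W ∧ ¬ Cfsg.Geo.IsPlusTypeOn Q0 W) ∧ W.map (Matrix.toLin' (x : Matrix ((Fin k ⊕ Fin k) ⊕ Fin 2) ((Fin k ⊕ Fin k) ⊕ Fin 2) F)) ≤ W) :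
    (∀ μ : Multiset ℕ, (∀ e ∈ μ, 0 < e ∧ e ≤ p) → (∀ e : ℕ, Even e → Even (μ.count e)) → μ.sum = 2 * (k + 1) →
      (∃ o ∈ μ, Odd o) →
        ∃ ν : Multiset ℕ, ν ≤ μ ∧ ν.sum = m ∧ (∀ e : ℕ, Even e → Even (ν.count e)) ∧
          ((∃ e ∈ μ, 2 ≤ e) → ¬ (∀ e ∈ ν, e = 2))) := by
  subst hQ0
  intro μ h1 h3 h4 ho
  have hV : finrank F ((Fin k ⊕ Fin k) ⊕ Fin 2 → F) = 2 * (k + 1) := by simp; omega
  have hQ := nondeg_qMinus (F := F) k a b hab
  by_cases hge : ∃ a ∈ μ, 2 ≤ a
  · have hreal : Real (qMinus k F a b) μ := by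
      obtain ⟨a, ha, hao⟩ := ho
      exact real_odd h2 _ hQ μ (fun a ha => (h1 a ha).1) h3 (by rw [hV, h4]) a ha hao
    obtain ⟨ν, hν1, hν2, hν3, hν4⟩ := core1 (p := p) h2 hQ (by omega) (m := m) (PT := fun W => ¬ Cfsg.Geo.IsPlusTypeOn ⇑(qMinus k F a b) W) (fun x hx hxp _ hxz =>
      H x hx ⟨1, by rw [hxp, one_smul]; rfl⟩ hxz) (fun a ha => (h1 a ha).1) (fun a ha => (h1 a ha).2) hge (by rw [hV, h4]) hreal
    refine ⟨ν, hν1, hν2, hν3, fun _ hall => ?_⟩
    obtain ⟨W, hW1, hW2⟩ := hν4 hall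
    exact hW1 hW2
  · obtain ⟨ν, hν1, hν2, hν3⟩ := ones μ (m := m) (by omega) (fun a ha => (h1 a ha).1) hge
    exact ⟨ν, hν1, hν2, hν3, fun h => absurd h hge⟩

theorem sum_count2 {ν : Multiset ℕ} {n a b : ℕ} (hab : a ≠ b) (ha2 : a ≠ 2) (hb2 : b ≠ 2)
    (hν : ν ≤ Multiset.replicate n 2 + {a} + {b}) :
    ν.sum = 2 * ν.count 2 + a * ν.count a + b * ν.count b ∧ ν.count a ≤ 1 ∧ ν.count b ≤ 1 := by
  have hsub : ∀ x ∈ ν, x = 2 ∨ x = a ∨ x = b := by
    intro x hx
    have := Multiset.mem_of_le hν hx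
    rcases Multiset.mem_add.mp this with h | h
    · rcases Multiset.mem_add.mp h with h | h
      · exact Or.inl (Multiset.eq_of_mem_replicate h)
      · exact Or.inr (Or.inl (Multiset.mem_singleton.mp h))
    · exact Or.inr (Or.inr (Multiset.mem_singleton.mp h))
  have h2 : ν = Multiset.replicate (ν.count 2) 2 + Multiset.replicate (ν.count a) a + Multiset.replicate (ν.count b) b := by
    ext x
    rw [Multiset.count_add, Multiset.count_add, Multiset.count_replicate, Multiset.count_replicate, Multiset.count_replicate]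
    by_cases hx2 : x = 2
    · subst hx2
      rw [if_pos rfl, if_neg ha2, if_neg hb2, add_zero, add_zero]
    · by_cases hxa : x = a
      · subst hxa
        rw [if_neg (fun h => hx2 h.symm), if_pos rfl, if_neg (fun h => hab h.symm), zero_add, add_zero]
      · by_cases hxb : x = b
        · subst hxb
          rw [if_neg (fun h => hx2 h.symm), if_neg (fun h => hxa h.symm), if_pos rfl, zero_add, zero_add]
        · rw [if_neg (fun h => hx2 h.symm), if_neg (fun h => hxa h.symm), if_neg (fun h => hxb h.symm), Multiset.count_eq_zero]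
          intro hx
          rcases hsub x hx with h | h | h
          · exact hx2 h
          · exact hxa h
          · exact hxb h
  refine ⟨?_, ?_, ?_⟩
  · conv_lhs => rw [h2]
    rw [Multiset.sum_add, Multiset.sum_add, Multiset.sum_replicate, Multiset.sum_replicate, Multiset.sum_replicate, smul_eq_mul, smul_eq_mul, smul_eq_mul]
    ring
  · have := Multiset.count_le_of_le a hν
    rw [Multiset.count_add, Multiset.count_add, Multiset.count_replicate, if_neg (fun h => ha2 h.symm), Multiset.count_singleton_self,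
      Multiset.count_singleton, if_neg hab] at this
    omega
  · have := Multiset.count_le_of_le b hν
    rw [Multiset.count_add, Multiset.count_add, Multiset.count_replicate, if_neg (fun h => hb2 h.symm), Multiset.count_singleton_self,
      Multiset.count_singleton, if_neg (fun h => hab h.symm)] at this
    omega

/-- passing to all parts even -/
theorem alleven {m p : ℕ} (hp2 : Odd p) (hm : Even m) {n : ℕ} (hn : 0 < n)
    (H : ∀ μ : Multiset ℕ, (∀ e ∈ μ, 0 < e ∧ e ≤ p) → (∀ e : ℕ, Even e → Even (μ.count e)) → μ.sum = n → (∃ o ∈ μ, Odd o) →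
        ∃ ν : Multiset ℕ, ν ≤ μ ∧ ν.sum = m ∧ ∀ e : ℕ, Even e → Even (ν.count e))
    (μ : Multiset ℕ) (h1 : ∀ e ∈ μ, 0 < e ∧ e ≤ p) (h2 : ∀ e : ℕ, Even e → Even (μ.count e)) (h3 : μ.sum = n) :
    ∃ ν : Multiset ℕ, ν ≤ μ ∧ ν.sum = m ∧ ∀ e : ℕ, Even e → Even (ν.count e) := by
  by_cases ho : ∃ o ∈ μ, Odd o
  · exact H μ h1 h2 h3 ho
  push Not at ho
  have hne : ∃ a, a ∈ μ := by
    by_contra hcon
    push Not at hcon
    rw [Multiset.eq_zero_of_forall_notMem hcon] at h3
    simp at h3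
    omega
  obtain ⟨a, ha⟩ := hne
  have hae : Even a := Nat.not_odd_iff_even.mp (ho a ha)
  obtain ⟨μ1, rfl⟩ := Multiset.exists_cons_of_mem ha
  have hc := h2 a hae
  rw [Multiset.count_cons_self] at hc
  have ha1 : a ∈ μ1 := by
    rw [← Multiset.count_pos]
    by_contra h0
    have : μ1.count a = 0 := by omega
    rw [this] at hc
    exact absurd hc (by decide)
  obtain ⟨μ0, rfl⟩ := Multiset.exists_cons_of_mem ha1
  have hap := h1 a ha
  have ha2 : 2 ≤ a := by
    obtain ⟨j, hj⟩ := hae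
    omega
  have halt : a < p := by
    rcases Nat.lt_or_ge a p with h | h
    · exact h
    · exfalso
      have : a = p := by omega
      rw [this] at hae
      exact (Nat.not_even_iff_odd.mpr hp2) hae
  have hom1 : Odd (a - 1) := Nat.Even.sub_odd (by omega) hae odd_one
  have hop1 : Odd (a + 1) := hae.add_one
  have h0e : ∀ e ∈ μ0, Even e := fun e he =>
    Nat.not_odd_iff_even.mp (ho e (Multiset.mem_cons_of_mem (Multiset.mem_cons_of_mem he)))
  have hn1 : (a - 1) ∉ μ0 := fun h => (Nat.not_even_iff_odd.mpr hom1) (h0e _ h)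
  have hn2 : (a + 1) ∉ μ0 := fun h => (Nat.not_even_iff_odd.mpr hop1) (h0e _ h)
  obtain ⟨ν, hν1, hν2, hν3⟩ := H ((a - 1) ::ₘ (a + 1) ::ₘ μ0) (by
    intro e he
    rcases Multiset.mem_cons.mp he with h | h
    · omega
    · rcases Multiset.mem_cons.mp h with h | h
      · omega
      · exact h1 e (Multiset.mem_cons_of_mem (Multiset.mem_cons_of_mem h))) (by
    intro e he
    have he1 : e ≠ a - 1 := by rintro rfl; exact (Nat.not_even_iff_odd.mpr hom1) he
    have he2 : e ≠ a + 1 := by rintro rfl; exact (Nat.not_even_iff_odd.mpr hop1) he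
    rw [Multiset.count_cons_of_ne he1, Multiset.count_cons_of_ne he2]
    have h5 := h2 e he
    by_cases hea : e = a
    · subst hea
      rw [Multiset.count_cons_self, Multiset.count_cons_self] at h5
      obtain ⟨j, hj⟩ := h5
      exact ⟨j - 1, by omega⟩
    · rw [Multiset.count_cons_of_ne hea, Multiset.count_cons_of_ne hea] at h5
      exact h5) (by
    rw [Multiset.sum_cons, Multiset.sum_cons] at h3 ⊢
    omega) ⟨a - 1, Multiset.mem_cons_self _ _, hom1⟩
  have hne : a - 1 ≠ a + 1 := by omega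
  by_cases hm1 : (a - 1) ∈ ν
  · obtain ⟨ν1, rfl⟩ := Multiset.exists_cons_of_mem hm1
    have hle1 : ν1 ≤ (a + 1) ::ₘ μ0 := (Multiset.cons_le_cons_iff _).mp hν1
    by_cases hm2 : (a + 1) ∈ ν1
    · obtain ⟨ν0, rfl⟩ := Multiset.exists_cons_of_mem hm2
      have hle0 : ν0 ≤ μ0 := (Multiset.cons_le_cons_iff _).mp hle1
      refine ⟨a ::ₘ a ::ₘ ν0, Multiset.cons_le_cons _ (Multiset.cons_le_cons _ hle0), ?_, ?_⟩
      · rw [Multiset.sum_cons, Multiset.sum_cons] at hν2 ⊢
        omega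
      · intro e he
        have he1 : e ≠ a - 1 := by rintro rfl; exact (Nat.not_even_iff_odd.mpr hom1) he
        have he2 : e ≠ a + 1 := by rintro rfl; exact (Nat.not_even_iff_odd.mpr hop1) he
        have h5 := hν3 e he
        rw [Multiset.count_cons_of_ne he1, Multiset.count_cons_of_ne he2] at h5
        by_cases hea : e = a
        · subst hea
          rw [Multiset.count_cons_self, Multiset.count_cons_self]
          obtain ⟨j, hj⟩ := h5
          exact ⟨j + 1, by omega⟩
        · rw [Multiset.count_cons_of_ne hea, Multiset.count_cons_of_ne hea]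
          exact h5
    · exfalso
      have hle0 : ν1 ≤ μ0 := (Multiset.le_cons_of_notMem hm2).mp hle1
      have h6 : Even ν1.sum := by
        rw [even_iff_two_dvd]
        exact Multiset.dvd_sum (fun x hx => even_iff_two_dvd.mp (h0e x (Multiset.mem_of_le hle0 hx)))
      rw [Multiset.sum_cons] at hν2
      have h7 : Odd m := by rw [← hν2]; exact hom1.add_even h6
      exact (Nat.not_even_iff_odd.mpr h7) hm
  · have hle1 : ν ≤ (a + 1) ::ₘ μ0 := (Multiset.le_cons_of_notMem hm1).mp hν1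
    by_cases hm2 : (a + 1) ∈ ν
    · exfalso
      obtain ⟨ν0, rfl⟩ := Multiset.exists_cons_of_mem hm2
      have hle0 : ν0 ≤ μ0 := (Multiset.cons_le_cons_iff _).mp hle1
      have h6 : Even ν0.sum := by
        rw [even_iff_two_dvd]
        exact Multiset.dvd_sum (fun x hx => even_iff_two_dvd.mp (h0e x (Multiset.mem_of_le hle0 hx)))
      rw [Multiset.sum_cons] at hν2
      have h7 : Odd m := by rw [← hν2]; exact hop1.add_even h6
      exact (Nat.not_even_iff_odd.mpr h7) hm
    · have hle0 : ν ≤ μ0 := (Multiset.le_cons_of_notMem hm2).mp hle1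
      exact ⟨ν, (hle0.trans (Multiset.le_cons_self _ _)).trans (Multiset.le_cons_self _ _), hν2, hν3⟩

/-- A necessary condition for every element of order p of PΩ⁻_n(q), q odd, to fix an elliptic `m`-space. Here `T = PΩ⁻_n(F)`, `n = 2d ≥ 8`, realised through `Ω⁻_n(q)`, the commutator subgroup of the isometry group of `Q = Σ_{i<d−1} xᵢyᵢ + z₁² + a z₁z₂ + b z₂²` with `z₁² + a z₁z₂ + b z₂²` anisotropic, over the field `F` with `q` elements; an element of `T` of prime order `r` is an element `x` of `Ω⁻_n(q)` with `x^r` scalar and `x` not scalar; `q` is odd; a nondegenerate `m`-space (even `m`) is a subspace on which the polar form of `Q` is nondegenerate; it is hyperbolic if it contains an `m/2`-dimensional subspace on which `Q` vanishes, elliptic otherwise. Let `m` be even with `2 ≤ m ≤ n − 2` and suppose `p` divides the number of elliptic `m`-spaces. If every element of `T` of order `p` fixes some elliptic `m`-space, then `n ≡ m (mod 4)` and every partition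 of `n` into parts of size at most `p` in which every even part has even multiplicity contains (as a sub-multiset) a partition of `m` in which every even part has even multiplicity. -/
theorem result {F : Type*} [Field F] [Fintype F] {p : ℕ} [Fact p.Prime] [CharP F p] {q : ℕ} (hq : Fintype.card F = q) (hqodd : Odd q)
    (d m : ℕ) (hd : 4 ≤ d) (hm : 2 ≤ m) (hme : Even m) (hmn : m + 2 ≤ 2 * d) (a b : F) (hab : ∀ x y : F, x ^ 2 + a * x * y + b * y ^ 2 = 0 → x = 0 ∧ y = 0)
    (hpΩ : p ∣ Nat.card {W : Submodule F ((Fin (d - 1) ⊕ Fin (d - 1)) ⊕ Fin 2 → F) // Module.finrank F ↥W = m ∧ Cfsg.Geo.IsNondegenerateOn (QuadraticMap.polar (Cfsg.quadFormMinus (d - 1) F a b)) W ∧ ¬ Cfsg.Geo.IsPlusTypeOn (Cfsg.quadFormMinus (d - 1) F a b) W}) :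
    (∀ x : GL ((Fin (d - 1) ⊕ Fin (d - 1)) ⊕ Fin 2) F, x ∈ Cfsg.Geo.omegaGL (Cfsg.quadFormMinus (d - 1) F a b) →
      (∃ z : F, ((x ^ p : GL ((Fin (d - 1) ⊕ Fin (d - 1)) ⊕ Fin 2) F) : Matrix ((Fin (d - 1) ⊕ Fin (d - 1)) ⊕ Fin 2) ((Fin (d - 1) ⊕ Fin (d - 1)) ⊕ Fin 2) F) = z • (1 : Matrix ((Fin (d - 1) ⊕ Fin (d - 1)) ⊕ Fin 2) ((Fin (d - 1) ⊕ Fin (d - 1)) ⊕ Fin 2) F)) →
      (∀ z : F, (x : Matrix ((Fin (d - 1) ⊕ Fin (d - 1)) ⊕ Fin 2) ((Fin (d - 1) ⊕ Fin (d - 1)) ⊕ Fin 2) F) ≠ z • (1 : Matrix ((Fin (d - 1) ⊕ Fin (d - 1)) ⊕ Fin 2) ((Fin (d - 1) ⊕ Fin (d - 1)) ⊕ Fin 2) F)) →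
      ∃ W : Submodule F ((Fin (d - 1) ⊕ Fin (d - 1)) ⊕ Fin 2 → F), (Module.finrank F ↥W = m ∧ Cfsg.Geo.IsNondegenerateOn (QuadraticMap.polar (Cfsg.quadFormMinus (d - 1) F a b)) W ∧ ¬ Cfsg.Geo.IsPlusTypeOn (Cfsg.quadFormMinus (d - 1) F a b) W) ∧ W.map (Matrix.toLin' (x : Matrix ((Fin (d - 1) ⊕ Fin (d - 1)) ⊕ Fin 2) ((Fin (d - 1) ⊕ Fin (d - 1)) ⊕ Fin 2) F)) ≤ W) →
    ((2 * d) % 4 = m % 4 ∧ (∀ μ : Multiset ℕ, (∀ e ∈ μ, 0 < e ∧ e ≤ p) → (∀ e : ℕ, Even e → Even (μ.count e)) → μ.sum = 2 * d →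
        ∃ ν : Multiset ℕ, ν ≤ μ ∧ ν.sum = m ∧ ∀ e : ℕ, Even e → Even (ν.count e))) := by
  have hp : p.Prime := Fact.out
  have h2 : (2 : F) ≠ 0 := by
    intro h
    have hp2 : p = 2 := by
      have h5 : p ∣ 2 := (CharP.cast_eq_zero_iff F p 2).mp (by exact_mod_cast h)
      exact (Nat.prime_dvd_prime_iff_eq (Fact.out) Nat.prime_two).mp h5
    subst hp2
    obtain ⟨k, -, hk⟩ := FiniteField.card F 2
    rw [hq] at hk
    rw [hk] at hqodd
    exact (Nat.not_odd_iff_even.mpr ((Nat.even_pow.mpr ⟨even_two, k.pos.ne'⟩))) hqodd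
  have hpne : p ≠ 2 := by
    rintro rfl
    apply h2
    have := CharP.cast_eq_zero F 2
    exact_mod_cast this
  have hp3 : 3 ≤ p := by
    have h3 := hp.two_le
    omega
  intro H
  have hmain := aux h2 (d - 1) m (by omega) (by omega) a b hab (Cfsg.Agent.H22.coe_qMinus (d - 1) a b) H
  have hd1 : 2 * (d - 1 + 1) = 2 * d := by omega
  rw [hd1] at hmain
  refine ⟨?_, alleven (hp.odd_of_ne_two hpne) hme (by omega) (fun μ h1 h3 h4 ho => by
    obtain ⟨ν, e1, e2, e3, -⟩ := hmain μ h1 h3 h4 ho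
    exact ⟨ν, e1, e2, e3⟩)⟩
  by_cases hde : Even d
  · obtain ⟨ν, h1, h3, h4, -⟩ := hmain (Multiset.replicate (d - 2) 2 + {3} + {1}) (by
      intro e he
      rcases Multiset.mem_add.mp he with h | h
      · rcases Multiset.mem_add.mp h with h | h
        · rw [Multiset.eq_of_mem_replicate h]; omega
        · rw [Multiset.mem_singleton.mp h]; omega
      · rw [Multiset.mem_singleton.mp h]; omega) (by
      intro e he
      have e1 : e ≠ 1 := by rintro rfl; exact absurd he (by decide)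
      have e3 : e ≠ 3 := by rintro rfl; exact absurd he (by decide)
      rw [Multiset.count_add, Multiset.count_add, Multiset.count_replicate, Multiset.count_singleton, Multiset.count_singleton,
        if_neg e1, if_neg e3, add_zero, add_zero]
      split_ifs
      · exact (Nat.even_sub (by omega)).mpr (by simp [hde])
      · exact ⟨0, rfl⟩) (by
      rw [Multiset.sum_add, Multiset.sum_add, Multiset.sum_replicate, Multiset.sum_singleton, Multiset.sum_singleton, smul_eq_mul]; omega)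
      ⟨1, by simp, odd_one⟩
    obtain ⟨h5, h6, h7⟩ := sum_count2 (by decide) (by decide) (by decide) h1
    obtain ⟨j, hj⟩ := h4 2 even_two
    obtain ⟨l, hl⟩ := hde
    obtain ⟨i, hi⟩ := hme
    rw [h3] at h5
    rcases (show ν.count 3 = 0 ∨ ν.count 3 = 1 by omega) with h10 | h10 <;>
      rcases (show ν.count 1 = 0 ∨ ν.count 1 = 1 by omega) with h11 | h11 <;>
      rw [h10, h11] at h5 <;> omega
  · obtain ⟨ν, h1, h3, h4, h8⟩ := hmain (Multiset.replicate (d - 1) 2 + Multiset.replicate 2 1) (by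
      intro e he
      rcases Multiset.mem_add.mp he with h | h
      · rw [Multiset.eq_of_mem_replicate h]; omega
      · rw [Multiset.eq_of_mem_replicate h]; omega) (by
      intro e he
      have e1 : 1 ≠ e := by rintro rfl; exact absurd he (by decide)
      rw [Multiset.count_add, Multiset.count_replicate, Multiset.count_replicate, if_neg e1, add_zero]
      split_ifs
      · rw [Nat.not_even_iff_odd] at hde
        exact Nat.Odd.sub_odd hde odd_one
      · exact ⟨0, rfl⟩) (by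
      rw [Multiset.sum_add, Multiset.sum_replicate, Multiset.sum_replicate, smul_eq_mul, smul_eq_mul]; omega)
      ⟨1, by simp, odd_one⟩
    have h9 := h8 ⟨2, by
      apply Multiset.mem_add.mpr
      left
      exact Multiset.mem_replicate.mpr ⟨by omega, rfl⟩, le_rfl⟩
    have hsub : ∀ x ∈ ν, x = 2 ∨ x = 1 := by
      intro x hx
      rcases Multiset.mem_add.mp (Multiset.mem_of_le h1 hx) with h | h
      · exact Or.inl (Multiset.eq_of_mem_replicate h)
      · exact Or.inr (Multiset.eq_of_mem_replicate h)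
    have hνe : ν = Multiset.replicate (ν.count 2) 2 + Multiset.replicate (ν.count 1) 1 := by
      ext x
      rw [Multiset.count_add, Multiset.count_replicate, Multiset.count_replicate]
      by_cases hx2 : x = 2
      · subst hx2
        simp
      · by_cases hx1 : x = 1
        · subst hx1
          simp
        · rw [if_neg (fun h => hx2 h.symm), if_neg (fun h => hx1 h.symm), Multiset.count_eq_zero]
          intro hx
          rcases hsub x hx with h | h
          · exact hx2 h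
          · exact hx1 h
    have hs : ν.sum = 2 * ν.count 2 + ν.count 1 := by
      conv_lhs => rw [hνe]
      rw [Multiset.sum_add, Multiset.sum_replicate, Multiset.sum_replicate, smul_eq_mul, smul_eq_mul]; ring
    have hc1 : ν.count 1 ≤ 2 := by
      have := Multiset.count_le_of_le 1 h1
      rw [Multiset.count_add, Multiset.count_replicate, Multiset.count_replicate] at this
      simpa using this
    have hc0 : ν.count 1 ≠ 0 := by
      intro h0
      apply h9
      intro e he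
      rcases hsub e he with h | h
      · exact h
      · exfalso
        rw [Multiset.count_eq_zero] at h0
        rw [h] at he
        exact h0 he
    obtain ⟨j, hj⟩ := h4 2 even_two
    rw [Nat.not_even_iff_odd] at hde
    obtain ⟨l, hl⟩ := hde
    obtain ⟨i, hi⟩ := hme
    omega

end Cfsg.Agent.S5994
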