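import Cfsg.Statements.S5995
import Cfsg.Agent.LibH22Uj3

set_option autoImplicit false
open scoped MatrixGroups
open Cfsg

namespace Cfsg.Agent.S5995
open Cfsg.Agent.H22 Cfsg.Agent.H22Uj Module in
theorem aux {F : Type*} [Field F] [Fintype F] {p : ℕ} [Fact p.Prime] [CharP F p] (h2 : (2 : F) ≠ 0)
    (d m : ℕ) (hd : 3 ≤ d) (hmd : m ≤ 2 * d)
    {Q0 : (Unit ⊕ (Fin d ⊕ Fin d) → F) → F} (hQ0 : ⇑(qOdd d F) = Q0)
    (H : ∀ x : GL (Unit ⊕ (Fin d ⊕ Fin d)) F, x ∈ Cfsg.Geo.omegaGL Q0 → orderOf x = p →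
      ∃ W : Submodule F (Unit ⊕ (Fin d ⊕ Fin d) → F), (Module.finrank F ↥W = m ∧ Cfsg.Geo.IsNondegenerateOn (QuadraticMap.polar Q0) W ∧ Cfsg.Geo.IsPlusTypeOn Q0 W) ∧ W.map (Matrix.toLin' (x : Matrix (Unit ⊕ (Fin d ⊕ Fin d)) (Unit ⊕ (Fin d ⊕ Fin d)) F)) ≤ W) :
    (∀ μ : Multiset ℕ, (∀ e ∈ μ, 0 < e ∧ e ≤ p) → (∀ e : ℕ, Even e → Even (μ.count e)) → μ.sum = 2 * d + 1 →
        ∃ ν : Multiset ℕ, ν ≤ μ ∧ ν.sum = m ∧ ∀ e : ℕ, Even e → Even (ν.count e)) := by
  subst hQ0
  intro μ h1 h3 h4
  have hp : p.Prime := Fact.out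
  have hV : finrank F (Unit ⊕ (Fin d ⊕ Fin d) → F) = 2 * d + 1 := by simp; omega
  have hQ := nondeg_qOdd (F := F) d h2
  by_cases hge : ∃ a ∈ μ, 2 ≤ a
  · have hreal : Real (qOdd d F) μ := by
      by_cases ho : ∃ a ∈ μ, Odd a
      · obtain ⟨a, ha, hao⟩ := ho
        exact real_odd h2 _ hQ μ (fun a ha => (h1 a ha).1) h3 (by rw [hV, h4]) a ha hao
      · exfalso
        push Not at ho
        have h5 : Even μ.sum := by
          rw [even_iff_two_dvd]
          exact Multiset.dvd_sum (fun a ha => even_iff_two_dvd.mp (Nat.not_odd_iff_even.mp (ho a ha)))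
        rw [h4] at h5
        exact (Nat.not_even_iff_odd.mpr ⟨d, rfl⟩) h5
    obtain ⟨ν, hν1, hν2, hν3, -⟩ := core1 (p := p) h2 hQ (by omega) (m := m) (PT := Cfsg.Geo.IsPlusTypeOn ⇑(qOdd d F)) (fun x hx hxp hx1 _ =>
      H x hx (orderOf_eq_prime hxp hx1)) (fun a ha => (h1 a ha).1) (fun a ha => (h1 a ha).2) hge (by rw [hV, h4]) hreal
    exact ⟨ν, hν1, hν2, hν3⟩
  · obtain ⟨ν, hν1, hν2, hν3⟩ := ones μ (m := m) (by omega) (fun a ha => (h1 a ha).1) hge
    exact ⟨ν, hν1, hν2, hν3⟩

theorem comb {ν : Multiset ℕ} {n a m : ℕ} (ha : Odd a) (hν : ν ≤ Multiset.replicate n 2 + {a}) (hs : ν.sum = m)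
    (hm : Even m) (he : Even (ν.count 2)) : m % 4 = 0 := by
  have ha2 : a ≠ 2 := by rintro rfl; exact absurd ha (by decide)
  have h1 : ν.sum = 2 * ν.count 2 + a * ν.count a := by
    have hsub : ∀ x ∈ ν, x = 2 ∨ x = a := by
      intro x hx
      have := Multiset.mem_of_le hν hx
      rcases Multiset.mem_add.mp this with h | h
      · exact Or.inl (Multiset.eq_of_mem_replicate h)
      · exact Or.inr (Multiset.mem_singleton.mp h)
    have h2 : ν = Multiset.replicate (ν.count 2) 2 + Multiset.replicate (ν.count a) a := by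
      ext x
      rw [Multiset.count_add, Multiset.count_replicate, Multiset.count_replicate]
      by_cases hx2 : x = 2
      · subst hx2
        rw [if_pos rfl, if_neg ha2, add_zero]
      · by_cases hxa : x = a
        · subst hxa
          rw [if_neg (fun h => hx2 h.symm), if_pos rfl, zero_add]
        · rw [if_neg (fun h => hx2 h.symm), if_neg (fun h => hxa h.symm), Multiset.count_eq_zero]
          intro hx
          rcases hsub x hx with h | h
          · exact hx2 h
          · exact hxa h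
    conv_lhs => rw [h2]
    rw [Multiset.sum_add, Multiset.sum_replicate, Multiset.sum_replicate, smul_eq_mul, smul_eq_mul]
    ring
  have h3 : ν.count a ≤ 1 := by
    have := Multiset.count_le_of_le a hν
    rw [Multiset.count_add, Multiset.count_replicate, if_neg (fun h => ha2 h.symm), Multiset.count_singleton_self] at this
    omega
  have h4 : ν.count a = 0 := by
    by_contra h5
    have h6 : ν.count a = 1 := by omega
    rw [h6, mul_one] at h1
    rw [← hs, h1] at hm
    have : Odd (2 * ν.count 2 + a) := (even_two_mul _).add_odd ha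
    exact (Nat.not_even_iff_odd.mpr this) hm
  obtain ⟨j, hj⟩ := he
  rw [h4, mul_zero, add_zero, hj, hs] at h1
  omega

/-- A necessary condition for every element of order p of Ω_n(q), nq odd, to fix a hyperbolic `m`-space. Here `T = Ω_n(F)`, `n = 2d+1 ≥ 7`, `q` odd, realised as the commutator subgroup of the isometry group of `Q = x₀² + Σ xᵢyᵢ` over the field `F` with `q` elements (trivial centre, so its elements of prime order `r` are used directly); a nondegenerate `m`-space (even `m`) is a subspace on which the polar form of `Q` is nondegenerate; it is hyperbolic if it contains an `m/2`-dimensional subspace on which `Q` vanishes, elliptic otherwise. Let `m` be even with `2 ≤ m ≤ n − 1` and suppose `p` divides the number of hyperbolic `m`-spaces. If every element of `T` of order `p` fixes some hyperbolic `m`-space, then `m ≡ 0 (mod 4)` and every partition of `n` into parts of size at most `p` in which every even part has even multiplicity contains (as a sub-multiset) a partition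 of `m` in which every even part has even multiplicity. -/
theorem result {F : Type*} [Field F] [Fintype F] {p : ℕ} [Fact p.Prime] [CharP F p] {q : ℕ} (hq : Fintype.card F = q) (hqodd : Odd q)
    (d m : ℕ) (hd : 3 ≤ d) (hm : 2 ≤ m) (hme : Even m) (hmn : m ≤ 2 * d)
    (hpΩ : p ∣ Nat.card {W : Submodule F (Unit ⊕ (Fin d ⊕ Fin d) → F) // Module.finrank F ↥W = m ∧ Cfsg.Geo.IsNondegenerateOn (QuadraticMap.polar (Cfsg.quadFormOdd d F)) W ∧ Cfsg.Geo.IsPlusTypeOn (Cfsg.quadFormOdd d F) W}) :
    (∀ x : GL (Unit ⊕ (Fin d ⊕ Fin d)) F, x ∈ Cfsg.Geo.omegaGL (Cfsg.quadFormOdd d F) → orderOf x = p →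
      ∃ W : Submodule F (Unit ⊕ (Fin d ⊕ Fin d) → F), (Module.finrank F ↥W = m ∧ Cfsg.Geo.IsNondegenerateOn (QuadraticMap.polar (Cfsg.quadFormOdd d F)) W ∧ Cfsg.Geo.IsPlusTypeOn (Cfsg.quadFormOdd d F) W) ∧ W.map (Matrix.toLin' (x : Matrix (Unit ⊕ (Fin d ⊕ Fin d)) (Unit ⊕ (Fin d ⊕ Fin d)) F)) ≤ W) →
    (m % 4 = 0 ∧ (∀ μ : Multiset ℕ, (∀ e ∈ μ, 0 < e ∧ e ≤ p) → (∀ e : ℕ, Even e → Even (μ.count e)) → μ.sum = 2 * d + 1 →
        ∃ ν : Multiset ℕ, ν ≤ μ ∧ ν.sum = m ∧ ∀ e : ℕ, Even e → Even (ν.count e))) := by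
  have hp : p.Prime := Fact.out
  have h2 : (2 : F) ≠ 0 := by
    intro h
    have hp2 : p = 2 := by
      have h5 : p ∣ 2 := (CharP.cast_eq_zero_iff F p 2).mp (by exact_mod_cast h)
      exact (Nat.prime_dvd_prime_iff_eq (Fact.out) Nat.prime_two).mp h5
    subst hp2
    obtain ⟨k, -, hk⟩ := FiniteField.card F 2
    rw [hq] at hk
    rw [hk] at hqodd
    exact (Nat.not_odd_iff_even.mpr ((Nat.even_pow.mpr ⟨even_two, k.pos.ne'⟩))) hqodd
  have hp3 : 3 ≤ p := by
    have h3 := hp.two_le
    have h4 : p ≠ 2 := by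
      rintro rfl
      apply h2
      have := CharP.cast_eq_zero F 2
      exact_mod_cast this
    omega
  intro H
  have hmain := aux h2 d m hd hmn (Cfsg.Agent.H22.coe_qOdd d) H
  refine ⟨?_, hmain⟩
  by_cases hde : Even d
  · obtain ⟨ν, h1, h3, h4⟩ := hmain (Multiset.replicate d 2 + {1}) (by
      intro e he
      rcases Multiset.mem_add.mp he with h | h
      · rw [Multiset.eq_of_mem_replicate h]; omega
      · rw [Multiset.mem_singleton.mp h]; omega) (by
      intro e he
      rw [Multiset.count_add, Multiset.count_replicate, Multiset.count_singleton]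
      have : e ≠ 1 := by rintro rfl; exact absurd he (by decide)
      rw [if_neg this, add_zero]
      split_ifs
      · exact hde
      · exact ⟨0, rfl⟩) (by
      rw [Multiset.sum_add, Multiset.sum_replicate, Multiset.sum_singleton, smul_eq_mul]; ring)
    exact comb odd_one h1 h3 hme (h4 2 even_two)
  · obtain ⟨ν, h1, h3, h4⟩ := hmain (Multiset.replicate (d - 1) 2 + {3}) (by
      intro e he
      rcases Multiset.mem_add.mp he with h | h
      · rw [Multiset.eq_of_mem_replicate h]; omega
      · rw [Multiset.mem_singleton.mp h]; omega) (by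
      intro e he
      rw [Multiset.count_add, Multiset.count_replicate, Multiset.count_singleton]
      have : e ≠ 3 := by rintro rfl; exact absurd he (by decide)
      rw [if_neg this, add_zero]
      split_ifs
      · rw [Nat.not_even_iff_odd] at hde
        exact Nat.Odd.sub_odd hde odd_one
      · exact ⟨0, rfl⟩) (by
      rw [Multiset.sum_add, Multiset.sum_replicate, Multiset.sum_singleton, smul_eq_mul]; omega)
    exact comb (by decide) h1 h3 hme (h4 2 even_two)

end Cfsg.Agent.S5995
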