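import Cfsg.Statements.S5996
import Cfsg.Agent.LibH22Uj3

set_option autoImplicit false
open scoped MatrixGroups
open Cfsg

namespace Cfsg.Agent.S5996
open Cfsg.Agent.H22 Cfsg.Agent.H22Uj Module in
theorem aux {F : Type*} [Field F] [Fintype F] {p : ℕ} [Fact p.Prime] [CharP F p] (h2 : (2 : F) ≠ 0)
    (d m : ℕ) (hd : 4 ≤ d) (hmd : m < d)
    {Q0 : (Fin d ⊕ Fin d → F) → F} (hQ0 : ⇑(qPlus d F) = Q0)
    (H : ∀ x : GL (Fin d ⊕ Fin d) F, x ∈ Cfsg.Geo.omegaGL Q0 →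
      (∃ z : F, ((x ^ p : GL (Fin d ⊕ Fin d) F) : Matrix (Fin d ⊕ Fin d) (Fin d ⊕ Fin d) F) = z • (1 : Matrix (Fin d ⊕ Fin d) (Fin d ⊕ Fin d) F)) →
      (∀ z : F, (x : Matrix (Fin d ⊕ Fin d) (Fin d ⊕ Fin d) F) ≠ z • (1 : Matrix (Fin d ⊕ Fin d) (Fin d ⊕ Fin d) F)) →
      ∃ W : Submodule F (Fin d ⊕ Fin d → F), (Module.finrank F ↥W = m ∧ Cfsg.Geo.IsNondegenerateOn (QuadraticMap.polar Q0) W ∧ Cfsg.Geo.IsPlusTypeOn Q0 W) ∧ W.map (Matrix.toLin' (x : Matrix (Fin d ⊕ Fin d) (Fin d ⊕ Fin d) F)) ≤ W) :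
    (∀ μ : Multiset ℕ, (∀ e ∈ μ, 0 < e ∧ e ≤ p) → (∀ e : ℕ, Even e → Even (μ.count e)) → μ.sum = 2 * d →
        ∃ ν : Multiset ℕ, ν ≤ μ ∧ ν.sum = m ∧ ∀ e : ℕ, Even e → Even (ν.count e)) := by
  subst hQ0
  intro μ h1 h3 h4
  have hV : finrank F (Fin d ⊕ Fin d → F) = 2 * d := by simp; omega
  have hQ := nondeg_qPlus (F := F) d
  by_cases hge : ∃ a ∈ μ, 2 ≤ a
  · have hreal : Real (qPlus d F) μ := by
      by_cases ho : ∃ a ∈ μ, Odd a
      · obtain ⟨a, ha, hao⟩ := ho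
        exact real_odd h2 _ hQ μ (fun a ha => (h1 a ha).1) h3 (by rw [hV, h4]) a ha hao
      · push Not at ho
        refine real_plus μ (fun a ha => (h1 a ha).1) (fun a => ?_) h4
        by_cases ha : a ∈ μ
        · exact h3 a (Nat.not_odd_iff_even.mp (ho a ha))
        · rw [Multiset.count_eq_zero_of_notMem ha]; exact ⟨0, rfl⟩
    obtain ⟨ν, hν1, hν2, hν3, -⟩ := core1 (p := p) h2 hQ (by omega) (m := m) (PT := Cfsg.Geo.IsPlusTypeOn ⇑(qPlus d F)) (fun x hx hxp _ hxz =>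
      H x hx ⟨1, by rw [hxp, one_smul]; rfl⟩ hxz) (fun a ha => (h1 a ha).1) (fun a ha => (h1 a ha).2) hge (by rw [hV, h4]) hreal
    exact ⟨ν, hν1, hν2, hν3⟩
  · obtain ⟨ν, hν1, hν2, hν3⟩ := ones μ (m := m) (by omega) (fun a ha => (h1 a ha).1) hge
    exact ⟨ν, hν1, hν2, hν3⟩

/-- A necessary condition for every element of order p of PΩ⁺_n(q), q odd, to fix a hyperbolic `m`-space. Here `T = PΩ⁺_n(F)`, `n = 2d ≥ 8`, realised through `Ω⁺_n(q)`, the commutator subgroup of the isometry group of `Q = Σ xᵢyᵢ` over the field `F` with `q` elements; an element of `T` of prime order `r` is an element `x` of `Ω⁺_n(q)` with `x^r` scalar and `x` not scalar; `q` is odd; a nondegenerate `m`-space (even `m`) is a subspace on which the polar form of `Q` is nondegenerate; it is hyperbolic if it contains an `m/2`-dimensional subspace on which `Q` vanishes, elliptic otherwise. Let `m` be even with `2 ≤ m < n/2` and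 suppose `p` divides the number of hyperbolic `m`-spaces. If every element of `T` of order `p` fixes some hyperbolic `m`-space, then every partition of `n` into parts of size at most `p` in which every even part has even multiplicity contains (as a sub-multiset) a partition of `m` in which every even part has even multiplicity. -/
theorem result {F : Type*} [Field F] [Fintype F] {p : ℕ} [Fact p.Prime] [CharP F p] {q : ℕ} (hq : Fintype.card F = q) (hqodd : Odd q)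
    (d m : ℕ) (hd : 4 ≤ d) (hm : 2 ≤ m) (hme : Even m) (hmd : m < d)
    (hpΩ : p ∣ Nat.card {W : Submodule F (Fin d ⊕ Fin d → F) // Module.finrank F ↥W = m ∧ Cfsg.Geo.IsNondegenerateOn (QuadraticMap.polar (Cfsg.quadFormPlus d F)) W ∧ Cfsg.Geo.IsPlusTypeOn (Cfsg.quadFormPlus d F) W}) :
    (∀ x : GL (Fin d ⊕ Fin d) F, x ∈ Cfsg.Geo.omegaGL (Cfsg.quadFormPlus d F) →
      (∃ z : F, ((x ^ p : GL (Fin d ⊕ Fin d) F) : Matrix (Fin d ⊕ Fin d) (Fin d ⊕ Fin d) F) = z • (1 : Matrix (Fin d ⊕ Fin d) (Fin d ⊕ Fin d) F)) →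
      (∀ z : F, (x : Matrix (Fin d ⊕ Fin d) (Fin d ⊕ Fin d) F) ≠ z • (1 : Matrix (Fin d ⊕ Fin d) (Fin d ⊕ Fin d) F)) →
      ∃ W : Submodule F (Fin d ⊕ Fin d → F), (Module.finrank F ↥W = m ∧ Cfsg.Geo.IsNondegenerateOn (QuadraticMap.polar (Cfsg.quadFormPlus d F)) W ∧ Cfsg.Geo.IsPlusTypeOn (Cfsg.quadFormPlus d F) W) ∧ W.map (Matrix.toLin' (x : Matrix (Fin d ⊕ Fin d) (Fin d ⊕ Fin d) F)) ≤ W) →
    (∀ μ : Multiset ℕ, (∀ e ∈ μ, 0 < e ∧ e ≤ p) → (∀ e : ℕ, Even e → Even (μ.count e)) → μ.sum = 2 * d →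
        ∃ ν : Multiset ℕ, ν ≤ μ ∧ ν.sum = m ∧ ∀ e : ℕ, Even e → Even (ν.count e)) := by
  have h2 : (2 : F) ≠ 0 := by
    intro h
    have hp2 : p = 2 := by
      have h5 : p ∣ 2 := (CharP.cast_eq_zero_iff F p 2).mp (by exact_mod_cast h)
      exact (Nat.prime_dvd_prime_iff_eq (Fact.out) Nat.prime_two).mp h5
    subst hp2
    obtain ⟨k, -, hk⟩ := FiniteField.card F 2
    rw [hq] at hk
    rw [hk] at hqodd
    exact (Nat.not_odd_iff_even.mpr ((Nat.even_pow.mpr ⟨even_two, k.pos.ne'⟩))) hqodd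
  intro H
  exact aux h2 d m hd hmd (Cfsg.Agent.H22.coe_qPlus d) H

end Cfsg.Agent.S5996
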