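import Cfsg.Statements.S5997
import Mathlib
import Cfsg.Agent.LibQ29a

set_option autoImplicit false
open scoped MatrixGroups
open Cfsg

namespace Cfsg.Agent.S5997

section helper
open Matrix

theorem quat_data {F : Type*} [Field F] (h2 : (2 : F) ≠ 0) (R : Subgroup (GL (Fin 2) F)) (e : R ≃* QuaternionGroup 2) :
    ∃ I J : GL (Fin 2) F, I ∈ R ∧ J ∈ R ∧ (I : Matrix (Fin 2) (Fin 2) F) * I = -1 ∧ (J : Matrix (Fin 2) (Fin 2) F) * J = -1 ∧
      (I : Matrix (Fin 2) (Fin 2) F) * J = -((J : Matrix (Fin 2) (Fin 2) F) * I) ∧ ∀ u ∈ R, ∃ k : ℕ, u = I ^ k ∨ u = J * I ^ k := by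
  obtain ⟨i, hi⟩ : ∃ i : R, i = e.symm (QuaternionGroup.a 1) := ⟨_, rfl⟩
  obtain ⟨j, hj⟩ : ∃ j : R, j = e.symm (QuaternionGroup.xa 0) := ⟨_, rfl⟩
  obtain ⟨t, ht⟩ : ∃ t : R, t = e.symm (QuaternionGroup.a 2) := ⟨_, rfl⟩
  have e1 : i * i = t := by rw [hi, ht, ← map_mul]; rfl
  have e2 : j * j = t := by rw [hj, ht, ← map_mul]; rfl
  have e3 : i * j = t * (j * i) := by rw [hi, hj, ht, ← map_mul, ← map_mul, ← map_mul]; rfl
  have e4 : t * t = 1 := by rw [ht, ← map_mul, ← map_one e.symm]; rfl
  have e5 : t ≠ 1 := by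
    intro h
    rw [ht, ← map_one e.symm] at h
    have := e.symm.injective h
    exact absurd this (by decide)
  have e6 : t * i = i * t := by rw [← e1, mul_assoc]
  have e7 : t * j = j * t := by rw [← e2, mul_assoc]
  have e1' : (i : GL (Fin 2) F) * i = t := congrArg Subtype.val e1
  have e2' : (j : GL (Fin 2) F) * j = t := congrArg Subtype.val e2
  have e3' : (i : GL (Fin 2) F) * j = t * (j * i) := congrArg Subtype.val e3
  have e4' : (t : GL (Fin 2) F) * t = 1 := congrArg Subtype.val e4
  have e6' : (t : GL (Fin 2) F) * i = i * t := congrArg Subtype.val e6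
  have e7' : (t : GL (Fin 2) F) * j = j * t := congrArg Subtype.val e7
  have hts : ∃ c : F, ((t : GL (Fin 2) F) : Matrix (Fin 2) (Fin 2) F) = c • (1 : Matrix (Fin 2) (Fin 2) F) := by
    by_contra hcon
    push Not at hcon
    have h1 : ((i : GL (Fin 2) F) : Matrix (Fin 2) (Fin 2) F) * ((j : GL (Fin 2) F) : Matrix (Fin 2) (Fin 2) F) = ((j : GL (Fin 2) F) : Matrix (Fin 2) (Fin 2) F) * ((i : GL (Fin 2) F) : Matrix (Fin 2) (Fin 2) F) := by
      apply CfsgLib.Q29.comm_of_comm hcon
      · exact congrArg Units.val e6'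
      · exact congrArg Units.val e7'
    have h2 : (i : GL (Fin 2) F) * j = j * i := Units.ext h1
    rw [h2] at e3'
    apply e5
    apply Subtype.ext
    exact (mul_eq_right.1 e3'.symm)
  obtain ⟨c, hc⟩ := hts
  have hcc : c * c = 1 := by
    have h1 : ((t : GL (Fin 2) F) : Matrix (Fin 2) (Fin 2) F) * ((t : GL (Fin 2) F) : Matrix (Fin 2) (Fin 2) F) = 1 := congrArg Units.val e4'
    rw [hc, Matrix.smul_mul, Matrix.mul_smul, Matrix.mul_one, smul_smul] at h1
    have h3 := congrFun (congrFun h1 0) 0
    simpa using h3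
  have hc1 : c = -1 := by
    rcases mul_self_eq_one_iff.1 hcc with h | h
    · exfalso
      apply e5
      apply Subtype.ext
      apply Units.ext
      rw [hc, h, one_smul]; rfl
    · exact h
  have htm : ((t : GL (Fin 2) F) : Matrix (Fin 2) (Fin 2) F) = -1 := by rw [hc, hc1, neg_smul, one_smul]
  refine ⟨i, j, i.2, j.2, ?_, ?_, ?_, ?_⟩
  · have := congrArg Units.val e1'
    rw [Units.val_mul, htm] at this
    exact this
  · have := congrArg Units.val e2'
    rw [Units.val_mul, htm] at this
    exact this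
  · have := congrArg Units.val e3'
    rw [Units.val_mul, Units.val_mul, Units.val_mul, htm, neg_mul, one_mul] at this
    exact this
  · intro u hu
    have key : ∀ w : QuaternionGroup 2, ∃ k : ℕ, w = (QuaternionGroup.a 1) ^ k ∨ w = QuaternionGroup.xa 0 * (QuaternionGroup.a 1) ^ k := by
      intro w
      cases w with
      | a k =>
        refine ⟨k.val, Or.inl ?_⟩
        rw [QuaternionGroup.a_one_pow]
        congr 1
        exact (ZMod.natCast_zmod_val k).symm
      | xa k =>
        refine ⟨k.val, Or.inr ?_⟩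
        rw [QuaternionGroup.a_one_pow, QuaternionGroup.xa_mul_a, zero_add]
        congr 1
        exact (ZMod.natCast_zmod_val k).symm
    obtain ⟨k, hk⟩ := key (e ⟨u, hu⟩)
    refine ⟨k, ?_⟩
    rcases hk with hk | hk
    · left
      have h1 : (⟨u, hu⟩ : R) = i ^ k := by
        rw [hi, ← map_pow, ← hk, MulEquiv.symm_apply_apply]
      have h2 := congrArg Subtype.val h1
      rw [Subgroup.coe_pow] at h2
      exact h2
    · right
      have h1 : (⟨u, hu⟩ : R) = j * i ^ k := by
        rw [hi, hj, ← map_pow, ← map_mul, ← hk, MulEquiv.symm_apply_apply]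
      have h2 := congrArg Subtype.val h1
      rw [Subgroup.coe_mul, Subgroup.coe_pow] at h2
      exact h2

end helper

/-- Elements of prime order of PSL_2(p) and the normalizer of a quaternion subgroup. Here `T = PSL_2(F)` for the field `F` with `p` elements, `p ≥ 5` prime; `R` is a subgroup of GL_2(F) isomorphic to the quaternion group of order 8 (an absolutely irreducible 2-group of symplectic type), and `H` is the subgroup of matrices of determinant 1 normalizing `R` — a subgroup of type 2^{1+2}.O₂⁻(2), isomorphic modulo scalars to A₄ or S₄ (maximality is not assumed). Ω is the set of cosets of `H` in `T`, so an element of `T` of prime order `r` (a matrix `x` of determinant 1 with `x^r` scalar, `x` not scalar) fixes a point of Ω exactly when some conjugate of `x` by a matrix of determinant 1 normalizes `R`. Let `r` be a prime dividing the index of `H`. Then every element of `T` of order `r` fixes a point of Ω if and only if `r = 2` or `r = 3`. -/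
theorem result {F : Type*} [Field F] [Fintype F] {p : ℕ} [Fact p.Prime] [CharP F p] (hF : Fintype.card F = p) (hp : 5 ≤ p)
    (R : Subgroup (GL (Fin 2) F)) (hR : Nonempty (↥R ≃* QuaternionGroup 2))
    (r : ℕ) [Fact r.Prime]
    (hΩ : r ∣ (Cfsg.Geo.subgroupNormalizer R).relIndex (Cfsg.Geo.specialLinear (Fin 2) F)) :
    (∀ x ∈ Cfsg.Geo.specialLinear (Fin 2) F, (∃ z : F, ((x ^ r : GL (Fin 2) F) : Matrix (Fin 2) (Fin 2) F) = z • (1 : Matrix (Fin 2) (Fin 2) F)) →
      (∀ z : F, (x : Matrix (Fin 2) (Fin 2) F) ≠ z • (1 : Matrix (Fin 2) (Fin 2) F)) →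
      ∃ g ∈ Cfsg.Geo.specialLinear (Fin 2) F, g⁻¹ * x * g ∈ Cfsg.Geo.subgroupNormalizer R) ↔ (r = 2 ∨ r = 3) := by
  classical
  have hr : r.Prime := Fact.out
  have hpp : p.Prime := Fact.out
  have hcast : ∀ m : ℕ, 0 < m → m < 5 → ((m : ℕ) : F) ≠ 0 := by
    intro m h1 h2 h
    rw [CharP.cast_eq_zero_iff F p] at h
    have := Nat.le_of_dvd h1 h
    omega
  have h2 : (2 : F) ≠ 0 := by exact_mod_cast hcast 2 (by norm_num) (by norm_num)
  have h3 : (3 : F) ≠ 0 := by exact_mod_cast hcast 3 (by norm_num) (by norm_num)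
  have h4 : (4 : F) ≠ 0 := by exact_mod_cast hcast 4 (by norm_num) (by norm_num)
  obtain ⟨e⟩ := hR
  obtain ⟨I, J, hI, hJ, hII, hJJ, hIJ, hgen⟩ := quat_data h2 R e
  have hcardR : Nat.card R = 8 := by
    rw [Nat.card_congr e.toEquiv, Nat.card_eq_fintype_card, QuaternionGroup.card]
  haveI : Finite R := Nat.finite_of_card_ne_zero (by rw [hcardR]; norm_num)
  -- members of the normalizer
  have hmem : ∀ y ∈ R, y ∈ Cfsg.Geo.subgroupNormalizer R := fun y hy => Subgroup.le_normalizer hy
  have hdet1 : ∀ x : GL (Fin 2) F, x ∈ Cfsg.Geo.specialLinear (Fin 2) F ↔ (x : Matrix (Fin 2) (Fin 2) F).det = 1 := by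
    intro x
    rw [Cfsg.Geo.specialLinear, MonoidHom.mem_ker, Units.ext_iff]
    rfl
  have hch : ∀ x : GL (Fin 2) F, x ∈ Cfsg.Geo.specialLinear (Fin 2) F → (x : Matrix (Fin 2) (Fin 2) F) * x = (x : Matrix (Fin 2) (Fin 2) F).trace • (x : Matrix (Fin 2) (Fin 2) F) - 1 := by
    intro x hx
    rw [CfsgLib.Q29.ch2, (hdet1 x).1 hx, one_smul]
  have hIns : ∀ c : F, (I : Matrix (Fin 2) (Fin 2) F) ≠ c • (1 : Matrix (Fin 2) (Fin 2) F) := by
    intro c hc
    rw [hc, Matrix.smul_mul, Matrix.one_mul, Matrix.mul_smul, Matrix.mul_one] at hIJ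
    have h5 : (c + c) • (J : Matrix (Fin 2) (Fin 2) F) = 0 := by
      rw [add_smul]
      nth_rewrite 1 [hIJ]
      exact neg_add_cancel _
    have hc0 : c ≠ 0 := by
      rintro rfl
      rw [zero_smul] at hc
      have := I.isUnit
      rw [hc] at this
      exact not_isUnit_zero this
    rcases smul_eq_zero.1 h5 with h6 | h6
    · rw [← two_mul] at h6
      exact (mul_ne_zero h2 hc0) h6
    · have := J.isUnit
      rw [h6] at this
      exact not_isUnit_zero this
  constructor
  · -- primes at least five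
    intro hL
    by_contra hcon
    push Not at hcon
    have hr5 : 5 ≤ r := by
      have := hr.two_le
      have h5 : r ≠ 4 := by rintro rfl; exact absurd hr (by norm_num)
      omega
    obtain ⟨x, hx⟩ : ∃ x : Cfsg.Geo.specialLinear (Fin 2) F, orderOf x = r := by
      apply exists_prime_orderOf_dvd_card'
      exact hΩ.trans (Subgroup.relIndex_dvd_card _ _)
    have hxr : (x : GL (Fin 2) F) ^ r = 1 := by
      have h5 : x ^ r = 1 := by rw [← hx, pow_orderOf_eq_one]
      have h6 := congrArg Subtype.val h5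
      rwa [Subgroup.coe_pow] at h6
    have hxns : ∀ z : F, ((x : GL (Fin 2) F) : Matrix (Fin 2) (Fin 2) F) ≠ z • (1 : Matrix (Fin 2) (Fin 2) F) := by
      intro z hz
      have h5 : z ^ 2 = 1 := by
        have h6 := (hdet1 x).1 x.2
        rw [hz, Matrix.det_smul, Matrix.det_one, mul_one, Fintype.card_fin] at h6
        exact h6
      have h6 : z ^ r = 1 := by
        have h7 := congrArg Units.val hxr
        rw [Units.val_pow_eq_pow_val, hz, smul_pow, one_pow] at h7
        have h8 := congrFun (congrFun h7 0) 0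
        simpa using h8
      have h7 : z = 1 := by
        have h8 := pow_gcd_eq_one.2 ⟨h5, h6⟩
        rw [(Nat.coprime_primes Nat.prime_two hr).2 (by omega), pow_one] at h8
        exact h8
      have h8 : x = 1 := by
        apply Subtype.ext
        apply Units.ext
        rw [hz, h7, one_smul]; rfl
      rw [h8, orderOf_one] at hx
      exact hr.one_lt.ne hx
    obtain ⟨g, hg, hgN⟩ := hL x x.2 ⟨1, by rw [hxr, one_smul]; rfl⟩ hxns
    obtain ⟨y, hy⟩ : ∃ y, y = g⁻¹ * (x : GL (Fin 2) F) * g := ⟨_, rfl⟩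
    rw [← hy] at hgN
    have hyr : y ^ r = 1 := by
      have h5 : y = MulAut.conj g⁻¹ x := by rw [hy, MulAut.conj_apply, inv_inv]
      rw [h5, ← map_pow, hxr, map_one]
    have hyn : ∀ u ∈ R, y * u * y⁻¹ ∈ R := by
      intro u hu
      exact (Subgroup.mem_normalizer_iff.1 hgN u).1 hu
    have hmod := CfsgLib.Q29.card_modEq R y hyr hyn
    obtain ⟨C, hC⟩ : ∃ C, C = R ⊓ Subgroup.centralizer {y} := ⟨_, rfl⟩
    rw [← hC, hcardR] at hmod
    have hCR : C ≤ R := by rw [hC]; exact inf_le_left
    have hCdvd : Nat.card C ∣ 8 := by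
      rw [← hcardR]; exact Subgroup.card_dvd_of_le hCR
    have hTne : I * I ≠ 1 := by
      intro h
      have h5 := congrArg Units.val h
      rw [Units.val_mul, hII] at h5
      have h6 := congrFun (congrFun h5 0) 0
      simp at h6
      have h7 : (2 : F) = 0 := by linear_combination -h6
      exact h2 h7
    have hTC : I * I ∈ C := by
      rw [hC]
      refine ⟨R.mul_mem hI hI, ?_⟩
      show I * I ∈ Subgroup.centralizer {y}
      rw [Subgroup.mem_centralizer_singleton_iff]
      apply Units.ext
      simp only [Units.val_mul]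
      rw [hII, neg_mul, one_mul, mul_neg, mul_one]
    haveI : Finite C := Finite.of_injective (Subgroup.inclusion hCR) (Subgroup.inclusion_injective hCR)
    have hC1 : Nat.card C ≠ 1 := by
      intro h
      rw [Subgroup.card_eq_one] at h
      rw [h] at hTC
      exact hTne ((Subgroup.mem_bot).1 hTC)
    have hC8 : Nat.card C = 8 := by
      have h5 : Nat.card C ≤ 8 := Nat.le_of_dvd (by norm_num) hCdvd
      have h6 : r ∣ 8 - Nat.card C := (Nat.modEq_iff_dvd' h5).1 hmod.symm
      have h7 : 0 < Nat.card C := Nat.card_pos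
      obtain ⟨c, hc⟩ : ∃ c, c = Nat.card C := ⟨_, rfl⟩
      rw [← hc] at h5 h6 h7 hCdvd hC1 ⊢
      have hno : ∀ m, 0 < m → m < 7 → ¬ m = 5 → ¬ r ∣ m := by
        intro m hm1 hm2 hm3 hrm
        have h8 := Nat.le_of_dvd hm1 hrm
        obtain ⟨s, hs⟩ := hrm
        have h9 : s = 1 := by
          by_contra h10
          have h11 : s ≠ 0 := by rintro rfl; omega
          have h12 : 2 ≤ s := by omega
          have h13 : r * 2 ≤ r * s := Nat.mul_le_mul_left r h12
          omega
        rw [h9, mul_one] at hs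
        have h10 : m = 6 := by omega
        rw [h10] at hs
        rw [← hs] at hr
        exact absurd hr (by norm_num)
      interval_cases c
      · exact absurd rfl hC1
      · exact absurd h6 (hno _ (by norm_num) (by norm_num) (by norm_num))
      · exact absurd hCdvd (by norm_num)
      · exact absurd h6 (hno _ (by norm_num) (by norm_num) (by norm_num))
      · exact absurd hCdvd (by norm_num)
      · exact absurd hCdvd (by norm_num)
      · exact absurd hCdvd (by norm_num)
      · rfl
    have hCeq : C = R := by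
      apply SetLike.coe_injective
      apply Set.eq_of_subset_of_ncard_le hCR
      · show Nat.card R ≤ Nat.card C
        rw [hC8, hcardR]
    have hcomm : ∀ u ∈ R, y * u = u * y := by
      intro u hu
      rw [← hCeq, hC] at hu
      exact (Subgroup.mem_centralizer_singleton_iff.1 hu.2).symm
    have hyns : ∀ z : F, (y : Matrix (Fin 2) (Fin 2) F) ≠ z • (1 : Matrix (Fin 2) (Fin 2) F) := by
      intro z hz
      apply hxns z
      have h5 : (x : GL (Fin 2) F) = g * y * g⁻¹ := by rw [hy]; group
      rw [h5, Units.val_mul, Units.val_mul, hz, Matrix.mul_smul, Matrix.mul_one, Matrix.smul_mul]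
      congr 1
      exact Units.mul_inv g
    have h5 := CfsgLib.Q29.comm_of_comm hyns (congrArg Units.val (hcomm I hI)) (congrArg Units.val (hcomm J hJ))
    rw [hIJ] at h5
    have h6 : (2 : F) • ((J : Matrix (Fin 2) (Fin 2) F) * I) = 0 := by
      rw [two_smul]
      nth_rewrite 1 [← h5]
      exact neg_add_cancel _
    rcases smul_eq_zero.1 h6 with h7 | h7
    · exact h2 h7
    · have := (J * I).isUnit
      rw [Units.val_mul, h7] at this
      exact not_isUnit_zero this
  · rintro (rfl | rfl) x hxS ⟨z, hz⟩ hxns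
    · -- involutions
      have hx2 := hch x hxS
      obtain ⟨τ, hτ⟩ : ∃ τ, τ = (x : Matrix (Fin 2) (Fin 2) F).trace := ⟨_, rfl⟩
      rw [← hτ] at hx2
      have hτ0 : τ = 0 := by
        by_contra h
        apply hxns ((z + 1) / τ)
        rw [Units.val_pow_eq_pow_val, pow_two, hx2] at hz
        have h5 : τ • (x : Matrix (Fin 2) (Fin 2) F) = (z + 1) • (1 : Matrix (Fin 2) (Fin 2) F) := by
          rw [add_smul, ← hz, one_smul, sub_add_cancel]
        have h6 : (x : Matrix (Fin 2) (Fin 2) F) = τ⁻¹ • (τ • (x : Matrix (Fin 2) (Fin 2) F)) := by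
          rw [smul_smul, inv_mul_cancel₀ h, one_smul]
        rw [h6, h5, smul_smul]
        congr 1
        field_simp
      subst hτ0
      obtain ⟨g, hg, hgx⟩ := CfsgLib.Q29.conj2 h2 0 (by
        intro h
        apply h4
        linear_combination -h) x I hx2 (by rw [hII, zero_smul, zero_sub]) hxns hIns
      exact ⟨g, hg, by rw [hgx]; exact hmem I hI⟩
    · -- elements of order three
      have hx2 := hch x hxS
      obtain ⟨τ, hτ⟩ : ∃ τ, τ = (x : Matrix (Fin 2) (Fin 2) F).trace := ⟨_, rfl⟩
      rw [← hτ] at hx2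
      obtain ⟨X, hX⟩ : ∃ X, X = (x : Matrix (Fin 2) (Fin 2) F) := ⟨_, rfl⟩
      rw [← hX] at hx2 hxns
      have hz3 : (τ ^ 2 - 1) • X = (z + τ) • (1 : Matrix (Fin 2) (Fin 2) F) := by
        have h5 : X * (X * X) = z • (1 : Matrix (Fin 2) (Fin 2) F) := by
          rw [← hz, Units.val_pow_eq_pow_val, ← hX, pow_succ', pow_two]
        rw [hx2, mul_sub, Matrix.mul_smul, hx2, mul_one] at h5
        have h6 : (τ ^ 2 - 1) • X - τ • (1 : Matrix (Fin 2) (Fin 2) F) = z • (1 : Matrix (Fin 2) (Fin 2) F) := by
          rw [← h5]; module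
        rw [add_smul, ← h6, sub_add_cancel]
      have hτ2 : τ ^ 2 - 1 = 0 := by
        by_contra h
        apply hxns ((τ ^ 2 - 1)⁻¹ * (z + τ))
        rw [mul_smul, ← hz3, smul_smul, inv_mul_cancel₀ h, one_smul]
      -- the element of order three (or six) of the normalizer
      obtain ⟨Im, hIm⟩ : ∃ Im, Im = (I : Matrix (Fin 2) (Fin 2) F) := ⟨_, rfl⟩
      obtain ⟨Jm, hJm⟩ : ∃ Jm, Jm = (J : Matrix (Fin 2) (Fin 2) F) := ⟨_, rfl⟩
      have hII' : Im * Im = -1 := by rw [hIm]; exact hII
      have hJJ' : Jm * Jm = -1 := by rw [hJm]; exact hJJ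
      have hIJ' : Im * Jm = -(Jm * Im) := by rw [hIm, hJm]; exact hIJ
      have hJI' : Jm * Im = -(Im * Jm) := by rw [hIJ', neg_neg]
      have hIIJ : Im * (Im * Jm) = -Jm := by rw [← mul_assoc, hII', neg_mul, one_mul]
      have hJIJ : Jm * (Im * Jm) = Im := by rw [← mul_assoc, hJI', neg_mul, mul_assoc, hJJ', mul_neg, mul_one, neg_neg]
      have hIJI : (Im * Jm) * Im = Jm := by rw [mul_assoc, hJI', mul_neg, hIIJ, neg_neg]
      have hIJJ : (Im * Jm) * Jm = -Im := by rw [mul_assoc, hJJ', mul_neg, mul_one]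
      have hIJIJ : (Im * Jm) * (Im * Jm) = -1 := by rw [mul_assoc, hJIJ, hII']
      obtain ⟨w, hw⟩ : ∃ w : Matrix (Fin 2) (Fin 2) F, w = (2 : F)⁻¹ • (-1 + Im + Jm + Im * Jm) := ⟨_, rfl⟩
      have h2w : (2 : F) • w = -1 + Im + Jm + Im * Jm := by rw [hw, smul_smul, mul_inv_cancel₀ h2, one_smul]
      have hww : w * w = (-1 : F) • w - 1 := by
        have h5 : ((2 : F) • w) * ((2 : F) • w) = (2 * 2 : F) • (w * w) := by rw [Matrix.smul_mul, Matrix.mul_smul, smul_smul]
        have h6 : ((2 : F) • w) * ((2 : F) • w) = (2 * 2 : F) • ((-1 : F) • w - 1) := by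
          rw [smul_sub, smul_smul]
          have h7 : ((2 * 2 : F) * -1) • w = (-2 : F) • ((2 : F) • w) := by rw [smul_smul]; congr 1; ring
          rw [h7, h2w]
          simp only [add_mul, mul_add, neg_mul, mul_neg, one_mul, mul_one, hII', hJJ', hJI', hIIJ, hJIJ, hIJI, hIJJ, hIJIJ]
          module
        rw [h5] at h6
        exact smul_right_injective _ (mul_ne_zero h2 h2) h6
      have hwI : w * Im = (Im * Jm) * w := by
        apply smul_right_injective _ h2
        show (2 : F) • (w * Im) = (2 : F) • ((Im * Jm) * w)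
        rw [← Matrix.smul_mul, ← Matrix.mul_smul, h2w]
        simp only [add_mul, mul_add, neg_mul, mul_neg, one_mul, mul_one, hII', hJJ', hJI', hIIJ, hJIJ, hIJI, hIJJ, hIJIJ]
        module
      have hwJ : w * Jm = Im * w := by
        apply smul_right_injective _ h2
        show (2 : F) • (w * Jm) = (2 : F) • (Im * w)
        rw [← Matrix.smul_mul, ← Matrix.mul_smul, h2w]
        simp only [add_mul, mul_add, neg_mul, mul_neg, one_mul, mul_one, hII', hJJ', hJI', hIIJ, hJIJ, hIJI, hIJJ, hIJIJ]
        module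
      have hwinv : w * (-1 - w) = 1 := by
        rw [mul_sub, mul_neg, mul_one, hww, neg_smul, one_smul]; abel
      have hwdet : w.det ≠ 0 := by
        intro h
        have h5 := congrArg Matrix.det hwinv
        rw [Matrix.det_mul, h, zero_mul, Matrix.det_one] at h5
        exact zero_ne_one h5
      let W : GL (Fin 2) F := Matrix.GeneralLinearGroup.mkOfDetNeZero w hwdet
      have hWw : (W : Matrix (Fin 2) (Fin 2) F) = w := rfl
      have hWI : W * I * W⁻¹ = I * J := by
        rw [mul_inv_eq_iff_eq_mul]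
        apply Units.ext
        rw [Units.val_mul, Units.val_mul, Units.val_mul, hWw, ← hIm, ← hJm]
        exact hwI
      have hWJ : W * J * W⁻¹ = I := by
        rw [mul_inv_eq_iff_eq_mul]
        apply Units.ext
        rw [Units.val_mul, Units.val_mul, hWw, ← hIm, ← hJm]
        exact hwJ
      have hWR : ∀ u ∈ R, W * u * W⁻¹ ∈ R := by
        intro u hu
        obtain ⟨k, hk⟩ := hgen u hu
        rcases hk with hk | hk
        · rw [hk, ← conj_pow, hWI]
          exact R.pow_mem (R.mul_mem hI hJ) k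
        · have h5 : W * (J * I ^ k) * W⁻¹ = (W * J * W⁻¹) * (W * I * W⁻¹) ^ k := by
            rw [conj_pow]; group
          rw [hk, h5, hWJ, hWI]
          exact R.mul_mem hI (R.pow_mem (R.mul_mem hI hJ) k)
      have hWN : W ∈ Cfsg.Geo.subgroupNormalizer R := by
        have h5 : R.map (MulAut.conj W).toMonoidHom ≤ R := by
          rintro _ ⟨u, hu, rfl⟩
          exact hWR u hu
        have h6 : R.map (MulAut.conj W).toMonoidHom = R := by
          apply SetLike.coe_injective
          apply Set.eq_of_subset_of_ncard_le h5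
          · rw [Subgroup.coe_map]
            exact (Set.ncard_image_of_injective _ (MulAut.conj W).injective).ge
        refine Subgroup.mem_normalizer_iff.2 fun u => ⟨fun hu => hWR u hu, fun hu => ?_⟩
        have h7 : W * u * W⁻¹ ∈ R.map (MulAut.conj W).toMonoidHom := by rw [h6]; exact hu
        obtain ⟨v, hv, hvu⟩ := h7
        have h8 : v = u := (MulAut.conj W).injective hvu
        rw [← h8]; exact hv
      have hwns : ∀ c : F, w ≠ c • (1 : Matrix (Fin 2) (Fin 2) F) := by
        intro c hc
        rw [hc, Matrix.smul_mul, Matrix.one_mul, Matrix.mul_smul, Matrix.mul_one] at hwJ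
        have hc0 : c ≠ 0 := by
          rintro rfl
          rw [zero_smul] at hc
          apply hwdet
          rw [hc, Matrix.det_zero]
        have h5 : Jm = Im := smul_right_injective _ hc0 hwJ
        rw [h5] at hIJ'
        have h6 : (2 : F) • (Im * Im) = 0 := by
          rw [two_smul]
          nth_rewrite 1 [hIJ']
          exact neg_add_cancel _
        rw [hII'] at h6
        rcases smul_eq_zero.1 h6 with h7 | h7
        · exact h2 h7
        · exact one_ne_zero (neg_eq_zero.1 h7)
      have hτ3 : τ ^ 2 - 4 ≠ 0 := by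
        intro h
        apply h3
        linear_combination hτ2 - h
      have hτ4 : τ = 1 ∨ τ = -1 := by
        have : (τ - 1) * (τ + 1) = 0 := by linear_combination hτ2
        rcases mul_eq_zero.1 this with h5 | h5
        · left; exact sub_eq_zero.1 h5
        · right; exact eq_neg_of_add_eq_zero_left h5
      rcases hτ4 with h5 | h5
      · -- use `-w`
        obtain ⟨g, hg, hgx⟩ := CfsgLib.Q29.conj2 h2 τ hτ3 x (-W) (by rw [← hX]; exact hx2) (by
          rw [Units.val_neg, hWw, h5, neg_mul_neg, hww]; module) (by rw [← hX]; exact hxns) (by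
          intro c hc
          apply hwns (-c)
          rw [Units.val_neg, hWw] at hc
          rw [neg_smul, ← hc, neg_neg])
        refine ⟨g, hg, ?_⟩
        rw [hgx]
        refine Subgroup.mem_normalizer_iff.2 fun u => ?_
        have h6 : -W * u * (-W)⁻¹ = W * u * W⁻¹ := by
          rw [neg_mul, inv_neg, mul_neg, neg_mul, neg_neg]
        rw [h6]
        exact Subgroup.mem_normalizer_iff.1 hWN u
      · obtain ⟨g, hg, hgx⟩ := CfsgLib.Q29.conj2 h2 τ hτ3 x W (by rw [← hX]; exact hx2) (by
          rw [hWw, h5, hww]) (by rw [← hX]; exact hxns) hwns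
        exact ⟨g, hg, by rw [hgx]; exact hWN⟩

end Cfsg.Agent.S5997
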