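import Cfsg.Statements.S5998
import Mathlib
import Cfsg.Agent.LibQ29c

set_option autoImplicit false
open scoped MatrixGroups
open Cfsg

namespace Cfsg.Agent.S5998

section helper
open Matrix

theorem conj_rel {G : Type*} [Group G] (P X Y K : G) (a b : ℕ) (h1 : K * (P⁻¹ * X * P) = (P⁻¹ * X * P) ^ a * K)
    (h2 : K * (P⁻¹ * Y * P) = (P⁻¹ * Y * P) ^ b * K) :
    (P * K * P⁻¹) * X * (P * K * P⁻¹)⁻¹ = X ^ a ∧ (P * K * P⁻¹) * Y * (P * K * P⁻¹)⁻¹ = Y ^ b := by
  constructor
  · have e : (P * K * P⁻¹) * X * (P * K * P⁻¹)⁻¹ = P * (K * (P⁻¹ * X * P) * K⁻¹) * P⁻¹ := by group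
    rw [e, h1, mul_inv_cancel_right]
    have e2 : P⁻¹ * X * P = MulAut.conj P⁻¹ X := by rw [MulAut.conj_apply, inv_inv]
    rw [e2, ← map_pow, MulAut.conj_apply, inv_inv]; group
  · have e : (P * K * P⁻¹) * Y * (P * K * P⁻¹)⁻¹ = P * (K * (P⁻¹ * Y * P) * K⁻¹) * P⁻¹ := by group
    rw [e, h2, mul_inv_cancel_right]
    have e2 : P⁻¹ * Y * P = MulAut.conj P⁻¹ Y := by rw [MulAut.conj_apply, inv_inv]
    rw [e2, ← map_pow, MulAut.conj_apply, inv_inv]; group

theorem conj_rel' {G : Type*} [Group G] (P X Y K : G) (a : ℕ) (h1 : K * (P⁻¹ * X * P) = (P⁻¹ * X * P) * K)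
    (h2 : K * (P⁻¹ * Y * P) = (P⁻¹ * Y * P) * (P⁻¹ * X * P) ^ a * K) :
    (P * K * P⁻¹) * X * (P * K * P⁻¹)⁻¹ = X ∧ (P * K * P⁻¹) * Y * (P * K * P⁻¹)⁻¹ = Y * X ^ a := by
  constructor
  · have e : (P * K * P⁻¹) * X * (P * K * P⁻¹)⁻¹ = P * (K * (P⁻¹ * X * P) * K⁻¹) * P⁻¹ := by group
    rw [e, h1, mul_inv_cancel_right]; group
  · have e : (P * K * P⁻¹) * Y * (P * K * P⁻¹)⁻¹ = P * (K * (P⁻¹ * Y * P) * K⁻¹) * P⁻¹ := by group
    rw [e, h2, mul_inv_cancel_right]
    have e2 : P⁻¹ * X * P = MulAut.conj P⁻¹ X := by rw [MulAut.conj_apply, inv_inv]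
    rw [e2, ← map_pow, MulAut.conj_apply, inv_inv]; group

theorem diag3 {F : Type*} [Field F] (a b c : F) : Matrix.diagonal ![a, b, c] = !![a, 0, 0; 0, b, 0; 0, 0, c] := by
  ext i j
  fin_cases i <;> fin_cases j <;> rfl

theorem diag3_sq {F : Type*} [Field F] (a b c : F) : (!![a, 0, 0; 0, b, 0; 0, 0, c] : Matrix (Fin 3) (Fin 3) F) ^ 2 = !![a ^ 2, 0, 0; 0, b ^ 2, 0; 0, 0, c ^ 2] := by
  rw [pow_two]
  ext i j
  fin_cases i <;> fin_cases j <;> simp [Matrix.mul_apply, Fin.sum_univ_three, pow_two]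

/-- ordering three values with product one in `{1, -1}` -/
theorem order_sq {F : Type*} [Field F] (h2 : (2 : F) ≠ 0) (d : Fin 3 → F) (hd : ∀ i, d i = 1 ∨ d i = -1) (hp : d 0 * d 1 * d 2 = 1) (hne : ¬ ∀ i, d i = d 0) :
    ∃ σ : Equiv.Perm (Fin 3), d (σ 0) = 1 ∧ d (σ 1) = -1 ∧ d (σ 2) = -1 := by
  have hm : (-1 : F) ≠ 1 := by
    intro h
    apply h2
    linear_combination -h
  rcases hd 0 with h0 | h0 <;> rcases hd 1 with h1 | h1 <;> rcases hd 2 with h3 | h3
  · exfalso; apply hne; intro i; fin_cases i <;> simp [h0, h1, h3]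
  · exfalso; rw [h0, h1, h3] at hp; norm_num at hp; exact hm hp
  · exfalso; rw [h0, h1, h3] at hp; norm_num at hp; exact hm hp
  · exact ⟨1, h0, h1, h3⟩
  · exfalso; rw [h0, h1, h3] at hp; norm_num at hp; exact hm hp
  · exact ⟨Equiv.swap 0 1, by simpa using h1, by simpa using h0, by rw [Equiv.swap_apply_of_ne_of_ne (by decide) (by decide)]; exact h3⟩
  · exact ⟨Equiv.swap 0 2, by simpa using h3, by rw [Equiv.swap_apply_of_ne_of_ne (by decide) (by decide)]; exact h1, by simpa using h0⟩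
  · exfalso; rw [h0, h1, h3] at hp; norm_num at hp; exact hm hp

/-- ordering three cube roots of unity -/
theorem order_cube {F : Type*} [Field F] (c : F) (hc : c ^ 2 + c + 1 = 0) (d : Fin 3 → F) (hd : ∀ i, d i ^ 3 = 1) (hne : ¬ ∀ i, d i = d 0) :
    ∃ σ : Equiv.Perm (Fin 3), ∃ a : F, a ≠ 0 ∧ ((d (σ 0) = a ∧ d (σ 1) = a * c ∧ d (σ 2) = a * c ^ 2) ∨ (d (σ 0) = a ∧ d (σ 1) = a ∧ d (σ 2) = a * c) ∨
      (d (σ 0) = a ∧ d (σ 1) = a ∧ d (σ 2) = a * c ^ 2)) := by
  have hc3 : c ^ 3 = 1 := by linear_combination (c - 1) * hc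
  have hd0 : ∀ i, d i ≠ 0 := by
    intro i h
    have := hd i
    rw [h] at this
    norm_num at this
  have hrat : ∀ i j, d j = d i ∨ d j = d i * c ∨ d j = d i * c ^ 2 := by
    intro i j
    have h1 : (d j - d i) * ((d j - d i * c) * (d j - d i * c ^ 2)) = 0 := by
      linear_combination hd j - hd i + ((d j) ^ 2 * d i * (-1) + d j * (d i) ^ 2 * c - (d i) ^ 3 * (c - 1)) * hc
    rcases mul_eq_zero.1 h1 with h | h
    · left; exact sub_eq_zero.1 h
    · rcases mul_eq_zero.1 h with h | h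
      · right; left; exact sub_eq_zero.1 h
      · right; right; exact sub_eq_zero.1 h
  have hback : ∀ x y : F, y = x * c → x = y * c ^ 2 := by
    intro x y h
    rw [h]; linear_combination -x * hc3
  have hback2 : ∀ x y : F, y = x * c ^ 2 → x = y * c := by
    intro x y h
    rw [h]; linear_combination -x * hc3
  rcases hrat 0 1 with h1 | h1 | h1 <;> rcases hrat 0 2 with h2 | h2 | h2
  · exfalso; apply hne; intro i; fin_cases i
    · rfl
    · exact h1
    · exact h2
  · exact ⟨1, d 0, hd0 0, Or.inr (Or.inl ⟨rfl, h1, h2⟩)⟩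
  · exact ⟨1, d 0, hd0 0, Or.inr (Or.inr ⟨rfl, h1, h2⟩)⟩
  · refine ⟨Equiv.swap 1 2, d 0, hd0 0, Or.inr (Or.inl ⟨?_, ?_, ?_⟩)⟩
    · rw [Equiv.swap_apply_of_ne_of_ne (by decide) (by decide)]
    · simpa using h2
    · simpa using h1
  · -- d1 = d2 = d0 c
    refine ⟨Equiv.swap 0 2, d 1, hd0 1, Or.inr (Or.inr ⟨?_, ?_, ?_⟩)⟩
    · rw [Equiv.swap_apply_left, h1, h2]
    · rw [Equiv.swap_apply_of_ne_of_ne (by decide) (by decide)]
    · rw [Equiv.swap_apply_right]; exact hback _ _ h1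
  · exact ⟨1, d 0, hd0 0, Or.inl ⟨rfl, h1, h2⟩⟩
  · refine ⟨Equiv.swap 1 2, d 0, hd0 0, Or.inr (Or.inr ⟨?_, ?_, ?_⟩)⟩
    · rw [Equiv.swap_apply_of_ne_of_ne (by decide) (by decide)]
    · simpa using h2
    · simpa using h1
  · refine ⟨Equiv.swap 1 2, d 0, hd0 0, Or.inl ⟨?_, ?_, ?_⟩⟩
    · rw [Equiv.swap_apply_of_ne_of_ne (by decide) (by decide)]
    · simpa using h2
    · simpa using h1
  · refine ⟨Equiv.swap 0 2, d 1, hd0 1, Or.inr (Or.inl ⟨?_, ?_, ?_⟩)⟩
    · rw [Equiv.swap_apply_left, h1, h2]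
    · rw [Equiv.swap_apply_of_ne_of_ne (by decide) (by decide)]
    · rw [Equiv.swap_apply_right]; exact hback2 _ _ h1

/-- conjugation into the normalizer from an eigenbasis -/
theorem finish {F : Type*} [Field F] {R : Subgroup (GL (Fin 3) F)} (x : GL (Fin 3) F) (v : Fin 3 → Fin 3 → F) (hv : LinearIndependent F v) (d : Fin 3 → F)
    (hx : ∀ i, (x : Matrix (Fin 3) (Fin 3) F) *ᵥ v i = d i • v i) (σ : Equiv.Perm (Fin 3)) (d' : Fin 3 → F) (hd' : ∀ i, d (σ i) = d' i)
    (T Q : GL (Fin 3) F) (hT : (T : Matrix (Fin 3) (Fin 3) F) * Q = Q * Matrix.diagonal d') (hTR : T ∈ Cfsg.Geo.subgroupNormalizer R) :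
    ∃ g ∈ Cfsg.Geo.specialLinear (Fin 3) F, g⁻¹ * x * g ∈ Cfsg.Geo.subgroupNormalizer R := by
  obtain ⟨P, hP, _⟩ := CfsgLib.Q29.diag_of_li (x : Matrix (Fin 3) (Fin 3) F) (fun i => v (σ i)) (hv.comp _ σ.injective) d' (fun i => by rw [hx, hd'])
  obtain ⟨g, hg, hgx⟩ := CfsgLib.Q29.conj_diag (by norm_num) x T P Q d' hP hT
  exact ⟨g, hg, by rw [hgx]; exact hTR⟩

end helper

/-- Elements of prime order of PSL_3(p), p ≡ 1 (mod 3), and the normalizer of an extraspecial subgroup of order 27. Here `T = PSL_3(F)` for the field `F` with `p` elements, `p` a prime with `p ≡ 1 (mod 3)`; `R` is a non-abelian subgroup of GL_3(F) of order 27 and exponent 3 (an extraspecial group 3^{1+2}, acting absolutely irreducibly), and `H` is the subgroup of matrices of determinant 1 normalizing `R` — a subgroup of type 3^{1+2}.Sp₂(3) (maximality is not assumed). Ω is the set of cosets of `H` in `T`, so an element of `T` of prime order `r` (a matrix `x` of determinant 1 with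 `x^r` scalar, `x` not scalar) fixes a point of Ω exactly when some conjugate of `x` by a matrix of determinant 1 normalizes `R`. Let `r` be a prime dividing the index of `H`. Then every element of `T` of order `r` fixes a point of Ω if and only if `r = 2`, or `r = 3` and `p ≡ 1 (mod 9)`. -/
theorem result {F : Type*} [Field F] [Fintype F] {p : ℕ} [Fact p.Prime] [CharP F p] (hF : Fintype.card F = p) (hp3 : p % 3 = 1)
    (R : Subgroup (GL (Fin 3) F)) (hR : Nat.card R = 27) (hRe : Monoid.exponent R = 3) (hRna : ¬ IsMulCommutative R)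
    (r : ℕ) [Fact r.Prime]
    (hΩ : r ∣ (Cfsg.Geo.subgroupNormalizer R).relIndex (Cfsg.Geo.specialLinear (Fin 3) F)) :
    (∀ x ∈ Cfsg.Geo.specialLinear (Fin 3) F, (∃ z : F, ((x ^ r : GL (Fin 3) F) : Matrix (Fin 3) (Fin 3) F) = z • (1 : Matrix (Fin 3) (Fin 3) F)) →
      (∀ z : F, (x : Matrix (Fin 3) (Fin 3) F) ≠ z • (1 : Matrix (Fin 3) (Fin 3) F)) →
      ∃ g ∈ Cfsg.Geo.specialLinear (Fin 3) F, g⁻¹ * x * g ∈ Cfsg.Geo.subgroupNormalizer R) ↔ (r = 2 ∨ (r = 3 ∧ p % 9 = 1)) := by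
  classical
  have hr : r.Prime := Fact.out
  have hpp : p.Prime := Fact.out
  have hp7 : 5 ≤ p := by
    have h1 := hpp.two_le
    have h4 : p ≠ 4 := by rintro rfl; exact absurd hpp (by norm_num)
    omega
  have hcast : ∀ m : ℕ, 0 < m → m < 5 → ((m : ℕ) : F) ≠ 0 := by
    intro m h1 h2 h
    rw [CharP.cast_eq_zero_iff F p] at h
    have := Nat.le_of_dvd h1 h
    omega
  have h2 : (2 : F) ≠ 0 := by exact_mod_cast hcast 2 (by norm_num) (by norm_num)
  have h3 : (3 : F) ≠ 0 := by exact_mod_cast hcast 3 (by norm_num) (by norm_num)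
  haveI : Finite R := Nat.finite_of_card_ne_zero (by rw [hR]; norm_num)
  -- a generator of the multiplicative group
  obtain ⟨g0, hg0⟩ := IsCyclic.exists_generator (α := Fˣ)
  have hog : orderOf g0 = p - 1 := by
    rw [orderOf_eq_card_of_forall_mem_zpowers hg0, Nat.card_eq_fintype_card, Fintype.card_units, hF]
  obtain ⟨k, hk⟩ : ∃ k, p - 1 = 3 * k := ⟨(p - 1) / 3, by omega⟩
  have hk0 : 0 < k := by omega
  obtain ⟨ω, hω⟩ : ∃ ω : F, ω ^ 2 + ω + 1 = 0 := by
    have h4 : (g0 ^ k) ^ 3 = 1 := by rw [← pow_mul, mul_comm k 3, ← hk, ← hog, pow_orderOf_eq_one]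
    have h5 : g0 ^ k ≠ 1 := by
      intro h
      have := Nat.le_of_dvd hk0 (orderOf_dvd_of_pow_eq_one h)
      omega
    refine ⟨((g0 ^ k : Fˣ) : F), ?_⟩
    have h6 : (((g0 ^ k : Fˣ) : F) - 1) * (((g0 ^ k : Fˣ) : F) ^ 2 + ((g0 ^ k : Fˣ) : F) + 1) = 0 := by
      have h7 : ((g0 ^ k : Fˣ) : F) ^ 3 = 1 := by
        rw [← Units.val_pow_eq_pow_val, h4, Units.val_one]
      linear_combination h7
    rcases mul_eq_zero.1 h6 with h7 | h7
    · exfalso
      apply h5
      apply Units.ext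
      rw [Units.val_one]; exact sub_eq_zero.1 h7
    · exact h7
  obtain ⟨X, Y, t, hXR, hYR, htR, hXY, htX, htY, ht1, hX3, hY3, ht3, hRcl⟩ := CfsgLib.Q29.heis_data R hR hRe hRna
  have hX3' : (X : Matrix (Fin 3) (Fin 3) F) ^ 3 = 1 := by rw [← Units.val_pow_eq_pow_val, hX3, Units.val_one]
  have hY3' : (Y : Matrix (Fin 3) (Fin 3) F) ^ 3 = 1 := by rw [← Units.val_pow_eq_pow_val, hY3, Units.val_one]
  obtain ⟨c, hc, htc⟩ := CfsgLib.Q29.scalar_of_heis h3 ω hω (X : Matrix (Fin 3) (Fin 3) F) Y t X.isUnit Y.isUnit (congrArg Units.val hXY) (congrArg Units.val htX) (congrArg Units.val htY)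
    (by rw [← Units.val_pow_eq_pow_val, ht3, Units.val_one]) (fun h => ht1 (Units.ext h))
  have hc3 : c ^ 3 = 1 := by linear_combination (c - 1) * hc
  have hc1 : c ≠ 1 := by
    rintro rfl
    apply h3
    linear_combination hc
  have hc0 : c ≠ 0 := by rintro rfl; norm_num at hc
  have hXYc : (X : Matrix (Fin 3) (Fin 3) F) * Y = c • ((Y : Matrix (Fin 3) (Fin 3) F) * X) := by
    have h4 := congrArg Units.val hXY
    rw [Units.val_mul, Units.val_mul, Units.val_mul, htc, Matrix.smul_mul, Matrix.one_mul] at h4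
    exact h4
  obtain ⟨v, hv0, hXv, hvli, hXYv, hXYYv, hYYYv⟩ := CfsgLib.Q29.exists_std h3 c hc (X : Matrix (Fin 3) (Fin 3) F) Y hX3' hY3' hXYc
  obtain ⟨P, hP, hPij⟩ := CfsgLib.Q29.diag_of_li (X : Matrix (Fin 3) (Fin 3) F) _ hvli ![1, c, c ^ 2] (by
    intro i
    fin_cases i
    · simpa using hXv
    · exact hXYv
    · exact hXYYv)
  obtain ⟨Cm, hCm⟩ : ∃ Cm : Matrix (Fin 3) (Fin 3) F, Cm = !![0, 0, 1; 1, 0, 0; 0, 1, 0] := ⟨_, rfl⟩
  have hPY : (Y : Matrix (Fin 3) (Fin 3) F) * P = P * Cm := by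
    ext i j
    have h4 : ((Y : Matrix (Fin 3) (Fin 3) F) * P) i j = (Matrix.mulVec (Y : Matrix (Fin 3) (Fin 3) F) (![v, Matrix.mulVec (Y : Matrix (Fin 3) (Fin 3) F) v, Matrix.mulVec (Y : Matrix (Fin 3) (Fin 3) F) (Matrix.mulVec (Y : Matrix (Fin 3) (Fin 3) F) v)] j)) i := by
      rw [Matrix.mul_apply]
      change ∑ l, (Y : Matrix (Fin 3) (Fin 3) F) i l * (P : Matrix (Fin 3) (Fin 3) F) l j = ∑ l, (Y : Matrix (Fin 3) (Fin 3) F) i l * (![v, Matrix.mulVec (Y : Matrix (Fin 3) (Fin 3) F) v, Matrix.mulVec (Y : Matrix (Fin 3) (Fin 3) F) (Matrix.mulVec (Y : Matrix (Fin 3) (Fin 3) F) v)] j) l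
      exact Finset.sum_congr rfl fun l _ => by rw [hPij]
    rw [h4, Matrix.mul_apply, Fin.sum_univ_three, hPij, hPij, hPij, hCm]
    fin_cases j
    · simp
    · simp
    · have h5 := congrFun hYYYv i
      simpa using h5
  have hDmat : ((P⁻¹ * X * P : GL (Fin 3) F) : Matrix (Fin 3) (Fin 3) F) = Matrix.diagonal ![1, c, c ^ 2] := by
    rw [mul_assoc, Units.val_mul, Units.val_mul, hP, ← Matrix.mul_assoc, Units.inv_mul, Matrix.one_mul]
  have hCmat : ((P⁻¹ * Y * P : GL (Fin 3) F) : Matrix (Fin 3) (Fin 3) F) = Cm := by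
    rw [mul_assoc, Units.val_mul, Units.val_mul, hPY, ← Matrix.mul_assoc, Units.inv_mul, Matrix.one_mul]
  have htsc : ∀ s : F, ∀ T : GL (Fin 3) F, (T : Matrix (Fin 3) (Fin 3) F) = s • 1 → ∀ u : GL (Fin 3) F, T * u * T⁻¹ = u := by
    intro s T hT u
    rw [mul_inv_eq_iff_eq_mul]
    apply Units.ext
    rw [Units.val_mul, Units.val_mul, hT, Matrix.smul_mul, Matrix.mul_smul, Matrix.one_mul, Matrix.mul_one]
  -- diagonal elements of the normalizer
  have hdiag : ∀ s : F, s ≠ 0 → ∀ (k1 k2 : F) (a : ℕ), k1 ≠ 0 → k2 ≠ 0 → ((k1 = c ∧ k2 = c ^ 2) ∨ (k1 = 1 ∧ k2 = c) ∨ (k1 = 1 ∧ k2 = c ^ 2)) →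
      ∃ T : GL (Fin 3) F, (T : Matrix (Fin 3) (Fin 3) F) * P = P * Matrix.diagonal ![s, s * k1, s * k2] ∧ T ∈ Cfsg.Geo.subgroupNormalizer R := by
    intro s hs k1 k2 a hk1 hk2 hcases
    have hKdet : (Matrix.diagonal ![s, s * k1, s * k2]).det ≠ 0 := by
      rw [Matrix.det_diagonal, Fin.prod_univ_three]
      exact mul_ne_zero (mul_ne_zero hs (mul_ne_zero hs hk1)) (mul_ne_zero hs hk2)
    let K : GL (Fin 3) F := Matrix.GeneralLinearGroup.mkOfDetNeZero _ hKdet
    have hK : (K : Matrix (Fin 3) (Fin 3) F) = Matrix.diagonal ![s, s * k1, s * k2] := rfl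
    refine ⟨P * K * P⁻¹, ?_, ?_⟩
    · rw [← Units.val_mul, inv_mul_cancel_right, Units.val_mul, hK]
    · have hcommD : K * (P⁻¹ * X * P) = (P⁻¹ * X * P) * K := by
        apply Units.ext
        show (K : Matrix (Fin 3) (Fin 3) F) * ((P⁻¹ * X * P : GL (Fin 3) F) : Matrix (Fin 3) (Fin 3) F) = ((P⁻¹ * X * P : GL (Fin 3) F) : Matrix (Fin 3) (Fin 3) F) * (K : Matrix (Fin 3) (Fin 3) F)
        rw [hDmat, hK, Matrix.diagonal_mul_diagonal, Matrix.diagonal_mul_diagonal]
        congr 1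
        funext i
        exact mul_comm _ _
      rcases hcases with ⟨e1, e2⟩ | ⟨e1, e2⟩ | ⟨e1, e2⟩
      · -- a multiple of `X`
        have hKX : (K : Matrix (Fin 3) (Fin 3) F) = s • ((P⁻¹ * X * P : GL (Fin 3) F) : Matrix (Fin 3) (Fin 3) F) := by
          rw [hDmat, hK, e1, e2, diag3, diag3]
          ext i j
          fin_cases i <;> fin_cases j <;> simp
        have hsdet : (s • (1 : Matrix (Fin 3) (Fin 3) F)).det ≠ 0 := by
          rw [Matrix.det_smul, Matrix.det_one, mul_one]; exact pow_ne_zero _ hs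
        let S : GL (Fin 3) F := Matrix.GeneralLinearGroup.mkOfDetNeZero _ hsdet
        have hS : (S : Matrix (Fin 3) (Fin 3) F) = s • 1 := rfl
        have hKS : K = S * (P⁻¹ * X * P) := by
          apply Units.ext
          show (K : Matrix (Fin 3) (Fin 3) F) = (S : Matrix (Fin 3) (Fin 3) F) * ((P⁻¹ * X * P : GL (Fin 3) F) : Matrix (Fin 3) (Fin 3) F)
          rw [hKX, hS, Matrix.smul_mul, Matrix.one_mul]
        have hPKP : P * K * P⁻¹ = S * X := by
          have e5 : P * K * P⁻¹ = (P * S * P⁻¹) * X := by rw [hKS]; group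
          have e6 : P * S * P⁻¹ = S := by
            rw [mul_inv_eq_iff_eq_mul]
            apply Units.ext
            rw [Units.val_mul, Units.val_mul, hS, Matrix.smul_mul, Matrix.mul_smul, Matrix.one_mul, Matrix.mul_one]
          rw [e5, e6]
        rw [hPKP]
        refine Subgroup.mul_mem _ ?_ (Subgroup.le_normalizer hXR)
        refine CfsgLib.Q29.mem_normalizer_of hRcl ?_ ?_
        · rw [htsc s S hS]; exact hXR
        · rw [htsc s S hS]; exact hYR
      · have hrel := conj_rel' P X Y K 1 hcommD (by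
          apply Units.ext
          show (K : Matrix (Fin 3) (Fin 3) F) * ((P⁻¹ * Y * P : GL (Fin 3) F) : Matrix (Fin 3) (Fin 3) F) = (((P⁻¹ * Y * P * (P⁻¹ * X * P) ^ 1 : GL (Fin 3) F)) : Matrix (Fin 3) (Fin 3) F) * (K : Matrix (Fin 3) (Fin 3) F)
          rw [Units.val_mul (P⁻¹ * Y * P), Units.val_pow_eq_pow_val, pow_one, hCmat, hDmat, hK, e1, e2, hCm, diag3, diag3]
          ext i j
          fin_cases i <;> fin_cases j <;> simp [Matrix.mul_apply, Fin.sum_univ_three]
          all_goals first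
            | linear_combination -s * hc3
            | ring)
        refine CfsgLib.Q29.mem_normalizer_of hRcl ?_ ?_
        · rw [hrel.1]; exact hXR
        · rw [hrel.2, pow_one]; exact R.mul_mem hYR hXR
      · have hrel := conj_rel' P X Y K 2 hcommD (by
          apply Units.ext
          show (K : Matrix (Fin 3) (Fin 3) F) * ((P⁻¹ * Y * P : GL (Fin 3) F) : Matrix (Fin 3) (Fin 3) F) = (((P⁻¹ * Y * P * (P⁻¹ * X * P) ^ 2 : GL (Fin 3) F)) : Matrix (Fin 3) (Fin 3) F) * (K : Matrix (Fin 3) (Fin 3) F)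
          rw [Units.val_mul (P⁻¹ * Y * P), Units.val_pow_eq_pow_val, hCmat, hDmat, hK, e1, e2, hCm, diag3, diag3, diag3_sq]
          ext i j
          fin_cases i <;> fin_cases j <;> simp [Matrix.mul_apply, Fin.sum_univ_three]
          all_goals first
            | linear_combination -(s * (c ^ 3 + 1)) * hc3
            | ring)
        refine CfsgLib.Q29.mem_normalizer_of hRcl ?_ ?_
        · rw [hrel.1]; exact hXR
        · rw [hrel.2]; exact R.mul_mem hYR (R.pow_mem hXR 2)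
  -- the involution of the normalizer
  have hinvo : ∀ s : F, s ≠ 0 → ∃ T Q : GL (Fin 3) F, (T : Matrix (Fin 3) (Fin 3) F) * Q = Q * Matrix.diagonal ![s, -s, -s] ∧ T ∈ Cfsg.Geo.subgroupNormalizer R := by
    intro s hs
    obtain ⟨Km, hKm⟩ : ∃ Km : Matrix (Fin 3) (Fin 3) F, Km = !![-s, 0, 0; 0, 0, -s; 0, -s, 0] := ⟨_, rfl⟩
    have hKdet : Km.det ≠ 0 := by
      rw [hKm, Matrix.det_fin_three]
      simp [hs]
    obtain ⟨Qm, hQm⟩ : ∃ Qm : Matrix (Fin 3) (Fin 3) F, Qm = !![0, 1, 0; 1, 0, 1; -1, 0, 1] := ⟨_, rfl⟩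
    have hQdet : Qm.det ≠ 0 := by
      rw [hQm, Matrix.det_fin_three]
      simp
      intro h
      apply h2
      linear_combination -h
    let K : GL (Fin 3) F := Matrix.GeneralLinearGroup.mkOfDetNeZero _ hKdet
    let Q1 : GL (Fin 3) F := Matrix.GeneralLinearGroup.mkOfDetNeZero _ hQdet
    have hK : (K : Matrix (Fin 3) (Fin 3) F) = Km := rfl
    have hQ1 : (Q1 : Matrix (Fin 3) (Fin 3) F) = Qm := rfl
    refine ⟨P * K * P⁻¹, P * Q1, ?_, ?_⟩
    · have e1 : Km * Qm = Qm * Matrix.diagonal ![s, -s, -s] := by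
        rw [hKm, hQm, diag3]
        ext i j
        fin_cases i <;> fin_cases j <;> simp [Matrix.mul_apply, Fin.sum_univ_three]
      have e2 : P * K * P⁻¹ * (P * Q1) = P * (K * Q1) := by group
      have e3 : ((P * K * P⁻¹ * (P * Q1) : GL (Fin 3) F) : Matrix (Fin 3) (Fin 3) F) = ((P * K * P⁻¹ : GL (Fin 3) F) : Matrix (Fin 3) (Fin 3) F) * ((P * Q1 : GL (Fin 3) F) : Matrix (Fin 3) (Fin 3) F) := rfl
      rw [← e3, e2, Units.val_mul, Units.val_mul, hK, hQ1, e1, Units.val_mul, hQ1, Matrix.mul_assoc]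
    · have hrel := conj_rel P X Y K 2 2 (by
        apply Units.ext
        show (K : Matrix (Fin 3) (Fin 3) F) * ((P⁻¹ * X * P : GL (Fin 3) F) : Matrix (Fin 3) (Fin 3) F) = (((P⁻¹ * X * P) ^ 2 : GL (Fin 3) F) : Matrix (Fin 3) (Fin 3) F) * (K : Matrix (Fin 3) (Fin 3) F)
        rw [Units.val_pow_eq_pow_val, hDmat, hK, hKm, diag3, diag3_sq]
        ext i j
        fin_cases i <;> fin_cases j <;> simp [Matrix.mul_apply, Fin.sum_univ_three]
        all_goals first
          | linear_combination (-(s * c)) * hc3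
          | ring) (by
        apply Units.ext
        show (K : Matrix (Fin 3) (Fin 3) F) * ((P⁻¹ * Y * P : GL (Fin 3) F) : Matrix (Fin 3) (Fin 3) F) = (((P⁻¹ * Y * P) ^ 2 : GL (Fin 3) F) : Matrix (Fin 3) (Fin 3) F) * (K : Matrix (Fin 3) (Fin 3) F)
        rw [Units.val_pow_eq_pow_val, hCmat, hK, hKm, pow_two, hCm]
        ext i j
        fin_cases i <;> fin_cases j <;> simp [Matrix.mul_apply, Fin.sum_univ_three])
      refine CfsgLib.Q29.mem_normalizer_of hRcl ?_ ?_
      · rw [hrel.1]; exact R.pow_mem hXR 2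
      · rw [hrel.2]; exact R.pow_mem hYR 2
  have hdetX : (X : Matrix (Fin 3) (Fin 3) F).det = 1 := by
    have h4 : (P⁻¹ * X * P : GL (Fin 3) F) = MulAut.conj P⁻¹ X := by rw [MulAut.conj_apply, inv_inv]
    have h5 : ((P⁻¹ * X * P : GL (Fin 3) F) : Matrix (Fin 3) (Fin 3) F).det = (X : Matrix (Fin 3) (Fin 3) F).det := by
      rw [Units.val_mul, Units.val_mul, Matrix.det_mul, Matrix.det_mul, mul_right_comm, ← Matrix.det_mul, Units.inv_mul, Matrix.det_one, one_mul]
    rw [← h5, hDmat, Matrix.det_diagonal, Fin.prod_univ_three]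
    simp
    linear_combination hc3
  have hdetY : (Y : Matrix (Fin 3) (Fin 3) F).det = 1 := by
    have h5 : ((P⁻¹ * Y * P : GL (Fin 3) F) : Matrix (Fin 3) (Fin 3) F).det = (Y : Matrix (Fin 3) (Fin 3) F).det := by
      rw [Units.val_mul, Units.val_mul, Matrix.det_mul, Matrix.det_mul, mul_right_comm, ← Matrix.det_mul, Units.inv_mul, Matrix.det_one, one_mul]
    rw [← h5, hCmat, hCm, Matrix.det_fin_three]
    simp
  have hRS : R ≤ Cfsg.Geo.specialLinear (Fin 3) F := by
    rw [hRcl, Subgroup.closure_le]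
    rintro u (rfl | rfl)
    · exact (CfsgLib.Q29.mem_SL _).2 hdetX
    · exact (CfsgLib.Q29.mem_SL _).2 hdetY
  have hscal : ∀ (x : GL (Fin 3) F) (w : Fin 3 → Fin 3 → F), LinearIndependent F w → ∀ e : F, (∀ i, Matrix.mulVec (x : Matrix (Fin 3) (Fin 3) F) (w i) = e • w i) →
      (x : Matrix (Fin 3) (Fin 3) F) = e • (1 : Matrix (Fin 3) (Fin 3) F) := by
    intro x w hw e he
    obtain ⟨Q, hQ, _⟩ := CfsgLib.Q29.diag_of_li (x : Matrix (Fin 3) (Fin 3) F) w hw (fun _ => e) he
    have h4 : Matrix.diagonal (fun _ : Fin 3 => e) = e • (1 : Matrix (Fin 3) (Fin 3) F) := by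
      rw [Matrix.smul_one_eq_diagonal]
    rw [h4, Matrix.mul_smul, Matrix.mul_one] at hQ
    have h5 : (x : Matrix (Fin 3) (Fin 3) F) = ((x : Matrix (Fin 3) (Fin 3) F) * Q) * ((Q⁻¹ : GL (Fin 3) F) : Matrix (Fin 3) (Fin 3) F) := by
      rw [Matrix.mul_assoc, Units.mul_inv, Matrix.mul_one]
    rw [h5, hQ, Matrix.smul_mul, Units.mul_inv]
  have hzc : ∀ x ∈ Cfsg.Geo.specialLinear (Fin 3) F, ∀ z : F, ((x ^ r : GL (Fin 3) F) : Matrix (Fin 3) (Fin 3) F) = z • (1 : Matrix (Fin 3) (Fin 3) F) → z ^ 3 = 1 := by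
    intro x hx z hz
    have h4 := congrArg Matrix.det hz
    rw [Units.val_pow_eq_pow_val, Matrix.det_pow, (CfsgLib.Q29.mem_SL _).1 hx, one_pow, Matrix.det_smul, Matrix.det_one, mul_one, Fintype.card_fin] at h4
    exact h4.symm
  constructor
  · intro hL
    by_cases hr2 : r = 2
    · exact Or.inl hr2
    by_cases hr3 : r = 3
    · right
      refine ⟨hr3, ?_⟩
      by_contra hp9
      rw [hr3] at hΩ
      -- orders
      obtain ⟨S, hS⟩ : ∃ S, S = Cfsg.Geo.specialLinear (Fin 3) F := ⟨_, rfl⟩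
      rw [← hS] at hΩ hRS
      obtain ⟨N, hN⟩ : ∃ N, N = Cfsg.Geo.subgroupNormalizer R := ⟨_, rfl⟩
      rw [← hN] at hΩ
      have hRN : R ≤ N := by rw [hN]; exact Subgroup.le_normalizer
      have h27 : 27 ∣ Nat.card (N.subgroupOf S) := by
        have h4 : Nat.card (R.subgroupOf S) = 27 := by
          rw [Nat.card_congr (Subgroup.subgroupOfEquivOfLe hRS).toEquiv, hR]
        rw [← h4]
        apply Subgroup.card_dvd_of_le
        intro u hu
        exact hRN hu
      have h81 : 81 ∣ Nat.card S := by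
        have h4 := Subgroup.card_mul_index (N.subgroupOf S)
        rw [← h4]
        exact mul_dvd_mul h27 hΩ
      have hGL : Nat.card S * (p - 1) = Nat.card (GL (Fin 3) F) := by
        have h4 := Subgroup.card_mul_index (Cfsg.Geo.specialLinear (Fin 3) F)
        have h5 : (Cfsg.Geo.specialLinear (Fin 3) F).index = p - 1 := by
          rw [Cfsg.Geo.specialLinear, Subgroup.index_ker]
          have h6 : (Matrix.GeneralLinearGroup.det : GL (Fin 3) F →* Fˣ).range = ⊤ := by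
            rw [MonoidHom.range_eq_top]
            intro u
            have h7 : (Matrix.diagonal ![(u : F), 1, 1]).det ≠ 0 := by
              rw [Matrix.det_diagonal, Fin.prod_univ_three]
              simp
            refine ⟨Matrix.GeneralLinearGroup.mkOfDetNeZero _ h7, ?_⟩
            apply Units.ext
            show (Matrix.diagonal ![(u : F), 1, 1]).det = u
            rw [Matrix.det_diagonal, Fin.prod_univ_three]
            simp
          rw [h6, Subgroup.card_top, Nat.card_eq_fintype_card, Fintype.card_units, hF]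
        rw [h5, ← hS] at h4
        exact h4
      rw [Matrix.card_GL_field, Fin.prod_univ_three, hF] at hGL
      obtain ⟨j, hj⟩ := h81
      have hp1 : p = 3 * k + 1 := by omega
      rw [hj] at hGL
      have e1 : p - 1 = 3 * k := hk
      have e2 : p ^ 3 - p ^ ((0 : Fin 3) : ℕ) = 9 * (k * (3 * k ^ 2 + 3 * k + 1)) := by
        have : p ^ 3 = 9 * (k * (3 * k ^ 2 + 3 * k + 1)) + 1 := by rw [hp1]; ring
        rw [this]; simp
      have e3 : p ^ 3 - p ^ ((1 : Fin 3) : ℕ) = 3 * (p * k * (3 * k + 2)) := by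
        have : p ^ 3 = 3 * (p * k * (3 * k + 2)) + p := by rw [hp1]; ring
        rw [this]; simp
      have e4 : p ^ 3 - p ^ ((2 : Fin 3) : ℕ) = 3 * (p ^ 2 * k) := by
        have : p ^ 3 = 3 * (p ^ 2 * k) + p ^ 2 := by
          have : p ^ 3 = p ^ 2 * p := by ring
          rw [this]
          nth_rewrite 2 [hp1]
          ring
        rw [this]; simp
      rw [e1, e2, e3, e4] at hGL
      have h5 : 3 * j = p ^ 3 * k ^ 2 * (3 * k + 2) * (3 * k ^ 2 + 3 * k + 1) := by
        have h6 : (81 * k) * (3 * j) = (81 * k) * (p ^ 3 * k ^ 2 * (3 * k + 2) * (3 * k ^ 2 + 3 * k + 1)) := by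
          calc (81 * k) * (3 * j) = 81 * j * (3 * k) := by ring
            _ = _ := by rw [hGL]; ring
        exact Nat.eq_of_mul_eq_mul_left (by omega) h6
      have h6 : 3 ∣ p ^ 3 * k ^ 2 * (3 * k + 2) * (3 * k ^ 2 + 3 * k + 1) := ⟨j, h5.symm⟩
      have h3p : Nat.Prime 3 := Nat.prime_three
      rcases (Nat.Prime.dvd_mul h3p).1 h6 with h7 | h7
      · rcases (Nat.Prime.dvd_mul h3p).1 h7 with h8 | h8
        · rcases (Nat.Prime.dvd_mul h3p).1 h8 with h9 | h9
          · have := h3p.dvd_of_dvd_pow h9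
            omega
          · have := h3p.dvd_of_dvd_pow h9
            omega
        · omega
      · have : 3 * k ^ 2 + 3 * k + 1 = 3 * (k ^ 2 + k) + 1 := by ring
        omega
    · -- derangements
      exfalso
      have hr5 : 5 ≤ r := by
        have := hr.two_le
        have h5 : r ≠ 4 := by rintro rfl; exact absurd hr (by norm_num)
        omega
      obtain ⟨x, hx⟩ : ∃ x : Cfsg.Geo.specialLinear (Fin 3) F, orderOf x = r := by
        apply exists_prime_orderOf_dvd_card'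
        exact hΩ.trans (Subgroup.relIndex_dvd_card _ _)
      have hxr : (x : GL (Fin 3) F) ^ r = 1 := by
        have h5 : x ^ r = 1 := by rw [← hx, pow_orderOf_eq_one]
        have h6 := congrArg Subtype.val h5
        rwa [Subgroup.coe_pow] at h6
      have hxns : ∀ z : F, ((x : GL (Fin 3) F) : Matrix (Fin 3) (Fin 3) F) ≠ z • (1 : Matrix (Fin 3) (Fin 3) F) := by
        intro z hz
        have h5 : z ^ 3 = 1 := by
          have h6 := (CfsgLib.Q29.mem_SL _).1 x.2
          rw [hz, Matrix.det_smul, Matrix.det_one, mul_one, Fintype.card_fin] at h6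
          exact h6
        have h6 : z ^ r = 1 := by
          have h7 := congrArg Units.val hxr
          rw [Units.val_pow_eq_pow_val, hz, smul_pow, one_pow] at h7
          have h8 := congrFun (congrFun h7 0) 0
          simpa using h8
        have h7 : z = 1 := by
          have h8 := pow_gcd_eq_one.2 ⟨h5, h6⟩
          rw [(Nat.coprime_primes Nat.prime_three hr).2 (by omega), pow_one] at h8
          exact h8
        have h8 : x = 1 := by
          apply Subtype.ext
          apply Units.ext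
          rw [hz, h7, one_smul]; rfl
        rw [h8, orderOf_one] at hx
        exact hr.one_lt.ne hx
      obtain ⟨g, hg, hgN⟩ := hL x x.2 ⟨1, by rw [hxr, one_smul]; rfl⟩ hxns
      obtain ⟨y, hy⟩ : ∃ y, y = g⁻¹ * (x : GL (Fin 3) F) * g := ⟨_, rfl⟩
      rw [← hy] at hgN
      have hyr : y ^ r = 1 := by
        have h5 : y = MulAut.conj g⁻¹ x := by rw [hy, MulAut.conj_apply, inv_inv]
        rw [h5, ← map_pow, hxr, map_one]
      have hyn : ∀ u ∈ R, y * u * y⁻¹ ∈ R := by
        intro u hu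
        exact (Subgroup.mem_normalizer_iff.1 hgN u).1 hu
      have hmod := CfsgLib.Q29.card_modEq R y hyr hyn
      obtain ⟨C, hC⟩ : ∃ C, C = R ⊓ Subgroup.centralizer {y} := ⟨_, rfl⟩
      rw [← hC, hR] at hmod
      have hCR : C ≤ R := by rw [hC]; exact inf_le_left
      have hCdvd : Nat.card C ∣ 3 ^ 3 := by
        have h5 := Subgroup.card_dvd_of_le hCR
        rw [hR] at h5
        exact h5
      have htC : t ∈ C := by
        rw [hC]
        refine ⟨htR, ?_⟩
        show t ∈ Subgroup.centralizer {y}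
        rw [Subgroup.mem_centralizer_singleton_iff]
        apply Units.ext
        rw [Units.val_mul, Units.val_mul, htc, Matrix.smul_mul, Matrix.mul_smul, Matrix.one_mul, Matrix.mul_one]
      obtain ⟨j, hj, hj2⟩ := (Nat.dvd_prime_pow Nat.prime_three).1 hCdvd
      have hj0 : j ≠ 0 := by
        rintro rfl
        rw [pow_zero, Subgroup.card_eq_one] at hj2
        rw [hj2] at htC
        exact ht1 ((Subgroup.mem_bot).1 htC)
      have hle : Nat.card C ≤ 27 := by
        rw [hj2]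
        have := Nat.pow_le_pow_right (show 0 < 3 by norm_num) hj
        omega
      have h6 : r ∣ 27 - Nat.card C := (Nat.modEq_iff_dvd' hle).1 hmod.symm
      have hj3 : j = 3 := by
        by_contra hne
        have h7 : r ∣ 72 := by
          rw [hj2] at h6
          interval_cases j
          · exact absurd rfl hj0
          · exact h6.trans (by norm_num)
          · exact h6.trans (by norm_num)
          · exact absurd rfl hne
        have h8 : (72 : ℕ) = 2 ^ 3 * 3 ^ 2 := by norm_num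
        rw [h8] at h7
        rcases (Nat.Prime.dvd_mul hr).1 h7 with h9 | h9
        · exact hr2 ((Nat.prime_dvd_prime_iff_eq hr Nat.prime_two).1 (hr.dvd_of_dvd_pow h9))
        · exact hr3 ((Nat.prime_dvd_prime_iff_eq hr Nat.prime_three).1 (hr.dvd_of_dvd_pow h9))
      have hCeq : C = R := by
        apply SetLike.coe_injective
        haveI : Finite (R : Set (GL (Fin 3) F)) := inferInstanceAs (Finite R)
        apply Set.eq_of_subset_of_ncard_le hCR
        show Nat.card R ≤ Nat.card C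
        rw [hR, hj2, hj3]; norm_num
      have hcomm : ∀ u ∈ R, y * u = u * y := by
        intro u hu
        rw [← hCeq, hC] at hu
        exact (Subgroup.mem_centralizer_singleton_iff.1 hu.2).symm
      obtain ⟨B, hB⟩ : ∃ B, B = P⁻¹ * y * P := ⟨_, rfl⟩
      have hBX : B * (P⁻¹ * X * P) = (P⁻¹ * X * P) * B := by
        have e1 : B * (P⁻¹ * X * P) = P⁻¹ * (y * X) * P := by rw [hB]; group
        have e2 : (P⁻¹ * X * P) * B = P⁻¹ * (X * y) * P := by rw [hB]; group
        rw [e1, e2, hcomm X hXR]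
      have hBY : B * (P⁻¹ * Y * P) = (P⁻¹ * Y * P) * B := by
        have e1 : B * (P⁻¹ * Y * P) = P⁻¹ * (y * Y) * P := by rw [hB]; group
        have e2 : (P⁻¹ * Y * P) * B = P⁻¹ * (Y * y) * P := by rw [hB]; group
        rw [e1, e2, hcomm Y hYR]
      have hBX' : (B : Matrix (Fin 3) (Fin 3) F) * Matrix.diagonal ![1, c, c ^ 2] = Matrix.diagonal ![1, c, c ^ 2] * (B : Matrix (Fin 3) (Fin 3) F) := by
        rw [← hDmat]; exact congrArg Units.val hBX
      have hBY' : (B : Matrix (Fin 3) (Fin 3) F) * Cm = Cm * (B : Matrix (Fin 3) (Fin 3) F) := by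
        rw [← hCmat]; exact congrArg Units.val hBY
      obtain ⟨Bm, hBm⟩ : ∃ Bm, Bm = (B : Matrix (Fin 3) (Fin 3) F) := ⟨_, rfl⟩
      rw [← hBm] at hBX' hBY'
      have hcc : c ^ 2 ≠ 1 := by
        intro h
        apply hc1
        have h9 : c ^ 3 = c ^ 2 * c := by ring
        rw [h, one_mul, hc3] at h9
        exact h9.symm
      have hcc2 : c ^ 2 ≠ c := by
        intro h
        apply hc1
        apply mul_left_cancel₀ hc0
        rw [mul_one, ← pow_two, h]
      have hoff : ∀ i j : Fin 3, (![1, c, c ^ 2] : Fin 3 → F) j - (![1, c, c ^ 2] : Fin 3 → F) i ≠ 0 → Bm i j = 0 := by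
        intro i j hij
        have h9 := congrFun (congrFun hBX' i) j
        rw [Matrix.mul_diagonal, Matrix.diagonal_mul] at h9
        have h10 : ((![1, c, c ^ 2] : Fin 3 → F) j - (![1, c, c ^ 2] : Fin 3 → F) i) * Bm i j = 0 := by
          linear_combination h9
        exact (mul_eq_zero.1 h10).resolve_left hij
      have h01 : Bm 0 1 = 0 := hoff 0 1 (by show c - 1 ≠ 0; exact sub_ne_zero.2 hc1)
      have h02 : Bm 0 2 = 0 := hoff 0 2 (by show c ^ 2 - 1 ≠ 0; exact sub_ne_zero.2 hcc)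
      have h10 : Bm 1 0 = 0 := hoff 1 0 (by show 1 - c ≠ 0; exact sub_ne_zero.2 (Ne.symm hc1))
      have h12 : Bm 1 2 = 0 := hoff 1 2 (by show c ^ 2 - c ≠ 0; exact sub_ne_zero.2 hcc2)
      have h20 : Bm 2 0 = 0 := hoff 2 0 (by show 1 - c ^ 2 ≠ 0; exact sub_ne_zero.2 (Ne.symm hcc))
      have h21 : Bm 2 1 = 0 := hoff 2 1 (by show c - c ^ 2 ≠ 0; exact sub_ne_zero.2 (Ne.symm hcc2))
      have e11 : Bm 1 1 = Bm 0 0 := by
        have h9 := congrFun (congrFun hBY' 1) 0
        rw [hCm] at h9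
        simpa [Matrix.mul_apply, Fin.sum_univ_three] using h9
      have e22 : Bm 2 2 = Bm 1 1 := by
        have h9 := congrFun (congrFun hBY' 2) 1
        rw [hCm] at h9
        simpa [Matrix.mul_apply, Fin.sum_univ_three] using h9
      have hBs : Bm = Bm 0 0 • (1 : Matrix (Fin 3) (Fin 3) F) := by
        ext i j
        fin_cases i <;> fin_cases j <;> simp [h01, h02, h10, h12, h20, h21, e11, e22]
      apply hxns (Bm 0 0)
      have h9 : (x : GL (Fin 3) F) = (g * P) * B * (g * P)⁻¹ := by rw [hB, hy]; group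
      rw [h9, Units.val_mul, Units.val_mul, ← hBm, hBs, Matrix.mul_smul, Matrix.mul_one, Matrix.smul_mul, Units.mul_inv]
      simp
  · rintro (rfl | ⟨rfl, hp9⟩) x hxS ⟨z, hz⟩ hxns
    · -- involutions
      have hz3 := hzc x hxS z hz
      have hz0 : z ≠ 0 := by rintro rfl; norm_num at hz3
      obtain ⟨y, hy⟩ : ∃ y, y = z • (x : Matrix (Fin 3) (Fin 3) F) := ⟨_, rfl⟩
      have hxy : (x : Matrix (Fin 3) (Fin 3) F) = z ^ 2 • y := by
        rw [hy, smul_smul, ← pow_succ, hz3, one_smul]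
      have hyy : y ^ 2 = 1 := by
        rw [Units.val_pow_eq_pow_val] at hz
        rw [hy, smul_pow, hz, smul_smul, ← pow_succ, hz3, one_smul]
      obtain ⟨w, hw, d, hd, hyd⟩ := CfsgLib.Q29.diag_of_sq h2 y hyy
      have hxd : ∀ i, Matrix.mulVec (x : Matrix (Fin 3) (Fin 3) F) (w i) = (z ^ 2 * d i) • w i := by
        intro i
        rw [hxy, Matrix.smul_mulVec, hyd, smul_smul]
      have hydet : y.det = 1 := by
        rw [hy, Matrix.det_smul, (CfsgLib.Q29.mem_SL _).1 hxS, Fintype.card_fin, hz3, one_mul]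
      have hdprod : d 0 * d 1 * d 2 = 1 := by
        obtain ⟨Q, hQ, _⟩ := CfsgLib.Q29.diag_of_li y w hw d hyd
        have h4 := congrArg Matrix.det hQ
        rw [Matrix.det_mul, Matrix.det_mul, hydet, one_mul, Matrix.det_diagonal, Fin.prod_univ_three] at h4
        have h5 : (Q : Matrix (Fin 3) (Fin 3) F).det ≠ 0 := by
          intro h
          have h1 := Q.isUnit
          rw [Matrix.isUnit_iff_isUnit_det, h] at h1
          exact not_isUnit_zero h1
        exact (mul_left_cancel₀ h5 (by rw [mul_one]; exact h4)).symm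
      obtain ⟨σ, h4, h5, h6⟩ := order_sq h2 d hd hdprod (by
        intro hall
        apply hxns (z ^ 2 * d 0)
        exact hscal x w hw _ (fun i => by rw [hxd, hall i]))
      obtain ⟨T, Q, hTQ, hTR⟩ := hinvo (z ^ 2) (pow_ne_zero 2 hz0)
      exact finish x w hw (fun i => z ^ 2 * d i) hxd σ ![z ^ 2, -z ^ 2, -z ^ 2] (by
        intro i
        fin_cases i
        · show z ^ 2 * d (σ 0) = z ^ 2
          rw [h4, mul_one]
        · show z ^ 2 * d (σ 1) = -z ^ 2
          rw [h5, mul_neg, mul_one]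
        · show z ^ 2 * d (σ 2) = -z ^ 2
          rw [h6, mul_neg, mul_one]) T Q hTQ hTR
    · -- elements of order three
      have hz3 := hzc x hxS z hz
      have hz0 : z ≠ 0 := by rintro rfl; norm_num at hz3
      obtain ⟨w, hw⟩ : ∃ w : F, w ^ 3 = z := by
        obtain ⟨l, hl⟩ : ∃ l, k = 3 * l := ⟨k / 3, by omega⟩
        obtain ⟨m, hm⟩ := (mem_powers_iff_mem_zpowers (x := g0)).2 (hg0 (Units.mk0 z hz0))
        have hm' : (g0 : F) ^ m = z := by
          rw [← Units.val_pow_eq_pow_val]; exact congrArg Units.val hm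
        have h4 : (g0 ^ m) ^ 3 = 1 := by
          apply Units.ext
          rw [Units.val_pow_eq_pow_val, Units.val_pow_eq_pow_val, hm', hz3, Units.val_one]
        rw [← pow_mul, ← orderOf_dvd_iff_pow_eq_one, hog, hk, mul_comm m 3] at h4
        have h5 : k ∣ m := Nat.dvd_of_mul_dvd_mul_left (by norm_num) h4
        obtain ⟨m', hm2⟩ := h5
        refine ⟨(g0 : F) ^ (l * m'), ?_⟩
        rw [← hm', ← pow_mul]
        congr 1
        rw [hm2, hl]; ring
      have hw0 : w ≠ 0 := by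
        rintro rfl
        apply hz0
        rw [← hw]; norm_num
      obtain ⟨y, hy⟩ : ∃ y, y = w⁻¹ • (x : Matrix (Fin 3) (Fin 3) F) := ⟨_, rfl⟩
      have hxy : (x : Matrix (Fin 3) (Fin 3) F) = w • y := by
        rw [hy, smul_smul, mul_inv_cancel₀ hw0, one_smul]
      have hyy : y ^ 3 = 1 := by
        rw [Units.val_pow_eq_pow_val] at hz
        rw [hy, smul_pow, hz, smul_smul, inv_pow, hw, inv_mul_cancel₀ hz0, one_smul]
      obtain ⟨u, hu, d, hd, hyd⟩ := CfsgLib.Q29.diag_of_cube h3 c hc y hyy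
      have hxd : ∀ i, Matrix.mulVec (x : Matrix (Fin 3) (Fin 3) F) (u i) = (w * d i) • u i := by
        intro i
        rw [hxy, Matrix.smul_mulVec, hyd, smul_smul]
      obtain ⟨σ, a, ha, hcases⟩ := order_cube c hc d hd (by
        intro hall
        apply hxns (w * d 0)
        exact hscal x u hu _ (fun i => by rw [hxd, hall i]))
      have key : ∀ k1 k2 : F, k1 ≠ 0 → k2 ≠ 0 → ((k1 = c ∧ k2 = c ^ 2) ∨ (k1 = 1 ∧ k2 = c) ∨ (k1 = 1 ∧ k2 = c ^ 2)) →
          d (σ 0) = a → d (σ 1) = a * k1 → d (σ 2) = a * k2 →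
          ∃ g ∈ Cfsg.Geo.specialLinear (Fin 3) F, g⁻¹ * x * g ∈ Cfsg.Geo.subgroupNormalizer R := by
        intro k1 k2 hk1 hk2 hc' e0 e1 e2
        obtain ⟨T, hT, hTR⟩ := hdiag (w * a) (mul_ne_zero hw0 ha) k1 k2 0 hk1 hk2 hc'
        exact finish x u hu (fun i => w * d i) hxd σ ![w * a, w * a * k1, w * a * k2] (by
          intro i
          fin_cases i
          · show w * d (σ 0) = w * a
            rw [e0]
          · show w * d (σ 1) = w * a * k1
            rw [e1, mul_assoc]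
          · show w * d (σ 2) = w * a * k2
            rw [e2, mul_assoc]) T P hT hTR
      rcases hcases with ⟨e0, e1, e2⟩ | ⟨e0, e1, e2⟩ | ⟨e0, e1, e2⟩
      · exact key c (c ^ 2) hc0 (pow_ne_zero 2 hc0) (Or.inl ⟨rfl, rfl⟩) e0 e1 e2
      · exact key 1 c one_ne_zero hc0 (Or.inr (Or.inl ⟨rfl, rfl⟩)) e0 (by rw [mul_one]; exact e1) e2
      · exact key 1 (c ^ 2) one_ne_zero (pow_ne_zero 2 hc0) (Or.inr (Or.inr ⟨rfl, rfl⟩)) e0 (by rw [mul_one]; exact e1) e2

end Cfsg.Agent.S5998
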