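import Cfsg.Statements.S5999
import Mathlib
import Cfsg.Agent.LibQ29e
import Cfsg.Agent.S0278

set_option autoImplicit false
open scoped MatrixGroups
open Cfsg

namespace Cfsg.Agent.S5999

section helper
open Matrix CfsgLib.Q29

theorem card_su_gl {F : Type*} [Field F] [Fintype F] (q : ℕ) : Nat.card ↥(Cfsg.GU 3 F q ⊓ Cfsg.Geo.specialLinear (Fin 3) F) = Nat.card (Cfsg.SU 3 F q) := by
  refine Nat.card_congr ⟨fun g => ⟨⟨(g.1 : Matrix (Fin 3) (Fin 3) F), (CfsgLib.Q29.mem_SL _).1 g.2.2⟩, fun u v => g.2.1 u v⟩,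
    fun g => ⟨Matrix.SpecialLinearGroup.toGL g.1, ⟨fun u v => g.2 u v, (CfsgLib.Q29.mem_SL _).2 g.1.2⟩⟩, fun g => ?_, fun g => ?_⟩
  · apply Subtype.ext
    apply Units.ext
    rfl
  · apply Subtype.ext
    apply Subtype.ext
    rfl

end helper

/-- Elements of prime order of PSU_3(p), p ≡ 2 (mod 3), and the normalizer of an extraspecial subgroup of order 27. Here `T = PSU_3(p)` for a prime `p ≥ 5` with `p ≡ 2 (mod 3)`, realised through `SU_3(p)`, the matrices of determinant 1 over the field `F` with `p²` elements preserving the hermitian form `Σ uᵢvᵢ^p`; `R` is a non-abelian subgroup of order 27 and exponent 3 of the full unitary group of that form (an extraspecial group 3^{1+2}, acting absolutely irreducibly), and `H` is the subgroup of `SU_3(p)` normalizing `R` — a subgroup of type 3^{1+2}.Sp₂(3) (maximality is not assumed). Ω is the set of cosets of `H`, so an element of `T` of prime order `r` (`x ∈ SU_3(p)` with `x^r` scalar, `x` not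 scalar) fixes a point of Ω exactly when some `SU_3(p)`-conjugate of `x` normalizes `R`. Let `r` be a prime dividing the index of `H`. Then every element of `T` of order `r` fixes a point of Ω if and only if `r = 2`, or `r = 3` and `p ≡ 8 (mod 9)`. -/
theorem result {F : Type*} [Field F] [Fintype F] {p : ℕ} [Fact p.Prime] [CharP F p] (hF : Fintype.card F = p ^ 2) (hp : 5 ≤ p) (hp3 : p % 3 = 2)
    (R : Subgroup (GL (Fin 3) F)) (hRU : R ≤ Cfsg.GU 3 F p) (hR : Nat.card R = 27) (hRe : Monoid.exponent R = 3) (hRna : ¬ IsMulCommutative R)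
    (r : ℕ) [Fact r.Prime]
    (hΩ : r ∣ (Cfsg.Geo.subgroupNormalizer R).relIndex (Cfsg.GU 3 F p ⊓ Cfsg.Geo.specialLinear (Fin 3) F)) :
    (∀ x ∈ Cfsg.GU 3 F p ⊓ Cfsg.Geo.specialLinear (Fin 3) F, (∃ z : F, ((x ^ r : GL (Fin 3) F) : Matrix (Fin 3) (Fin 3) F) = z • (1 : Matrix (Fin 3) (Fin 3) F)) →
      (∀ z : F, (x : Matrix (Fin 3) (Fin 3) F) ≠ z • (1 : Matrix (Fin 3) (Fin 3) F)) →
      ∃ g ∈ Cfsg.GU 3 F p ⊓ Cfsg.Geo.specialLinear (Fin 3) F, g⁻¹ * x * g ∈ Cfsg.Geo.subgroupNormalizer R) ↔ (r = 2 ∨ (r = 3 ∧ p % 9 = 8)) := by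
  classical
  have hr : r.Prime := Fact.out
  have hpp : p.Prime := Fact.out
  have hcast : ∀ m : ℕ, 0 < m → m < 5 → ((m : ℕ) : F) ≠ 0 := by
    intro m h1 h2 h
    rw [CharP.cast_eq_zero_iff F p] at h
    have := Nat.le_of_dvd h1 h
    omega
  have h2 : (2 : F) ≠ 0 := by exact_mod_cast hcast 2 (by norm_num) (by norm_num)
  have h3 : (3 : F) ≠ 0 := by exact_mod_cast hcast 3 (by norm_num) (by norm_num)
  haveI : Finite R := Nat.finite_of_card_ne_zero (by rw [hR]; norm_num)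
  obtain ⟨σ, hσ, hf⟩ := CfsgLib.Un29.hermForm_unitary 3 hF
  -- a generator of the multiplicative group
  obtain ⟨g0, hg0⟩ := IsCyclic.exists_generator (α := Fˣ)
  obtain ⟨m0, hm0⟩ : ∃ m0, p + 1 = 3 * m0 := ⟨(p + 1) / 3, by omega⟩
  have hm0pos : 0 < m0 := by omega
  obtain ⟨k, hkdef⟩ : ∃ k, k = (p - 1) * m0 := ⟨_, rfl⟩
  have hk : p ^ 2 - 1 = 3 * k := by
    have e : p ^ 2 - 1 = (p - 1) * (p + 1) := by
      have : p ^ 2 = (p - 1) * (p + 1) + 1 := by
        obtain ⟨t, rfl⟩ : ∃ t, p = t + 1 := ⟨p - 1, by omega⟩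
        rw [Nat.add_sub_cancel]; ring
      rw [this, Nat.add_sub_cancel]
    rw [e, hm0, hkdef]; ring
  have hog : orderOf g0 = p ^ 2 - 1 := by
    rw [orderOf_eq_card_of_forall_mem_zpowers hg0, Nat.card_eq_fintype_card, Fintype.card_units, hF]
  have hk0 : 0 < k := by
    rw [hkdef]; exact Nat.mul_pos (by omega) hm0pos
  obtain ⟨ω, hω⟩ : ∃ ω : F, ω ^ 2 + ω + 1 = 0 := by
    have h4 : (g0 ^ k) ^ 3 = 1 := by rw [← pow_mul, mul_comm k 3, ← hk, ← hog, pow_orderOf_eq_one]
    have h5 : g0 ^ k ≠ 1 := by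
      intro h
      have := Nat.le_of_dvd hk0 (orderOf_dvd_of_pow_eq_one h)
      omega
    refine ⟨((g0 ^ k : Fˣ) : F), ?_⟩
    have h6 : (((g0 ^ k : Fˣ) : F) - 1) * (((g0 ^ k : Fˣ) : F) ^ 2 + ((g0 ^ k : Fˣ) : F) + 1) = 0 := by
      have h7 : ((g0 ^ k : Fˣ) : F) ^ 3 = 1 := by
        rw [← Units.val_pow_eq_pow_val, h4, Units.val_one]
      linear_combination h7
    rcases mul_eq_zero.1 h6 with h7 | h7
    · exfalso
      apply h5
      apply Units.ext
      rw [Units.val_one]; exact sub_eq_zero.1 h7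
    · exact h7
  obtain ⟨X, Y, t, hXR, hYR, htR, hXY, htX, htY, ht1, hX3, hY3, ht3, hRcl⟩ := CfsgLib.Q29.heis_data R hR hRe hRna
  have hX3' : (X : Matrix (Fin 3) (Fin 3) F) ^ 3 = 1 := by rw [← Units.val_pow_eq_pow_val, hX3, Units.val_one]
  have hY3' : (Y : Matrix (Fin 3) (Fin 3) F) ^ 3 = 1 := by rw [← Units.val_pow_eq_pow_val, hY3, Units.val_one]
  obtain ⟨c, hc, htc⟩ := CfsgLib.Q29.scalar_of_heis h3 ω hω (X : Matrix (Fin 3) (Fin 3) F) Y t X.isUnit Y.isUnit (congrArg Units.val hXY) (congrArg Units.val htX) (congrArg Units.val htY)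
    (by rw [← Units.val_pow_eq_pow_val, ht3, Units.val_one]) (fun h => ht1 (Units.ext h))
  have hc3 : c ^ 3 = 1 := by linear_combination (c - 1) * hc
  have hc1 : c ≠ 1 := by
    rintro rfl
    apply h3
    linear_combination hc
  have hc0 : c ≠ 0 := by rintro rfl; norm_num at hc
  have hXYc : (X : Matrix (Fin 3) (Fin 3) F) * Y = c • ((Y : Matrix (Fin 3) (Fin 3) F) * X) := by
    have h4 := congrArg Units.val hXY
    rw [Units.val_mul, Units.val_mul, Units.val_mul, htc, Matrix.smul_mul, Matrix.one_mul] at h4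
    exact h4
  have hcn : ∀ a : F, a ^ 3 = 1 → a * σ a = 1 := by
    intro a ha
    rw [hσ, ← pow_succ', hm0, pow_mul, ha, one_pow]
  obtain ⟨v0, hv0, hXv0, hvli0, hXYv0, hXYYv0, hYYYv0⟩ := CfsgLib.Q29.exists_std h3 c hc (X : Matrix (Fin 3) (Fin 3) F) Y hX3' hY3' hXYc
  have hXU : ∀ u w, Cfsg.hermForm 3 F p (Matrix.mulVec (X : Matrix (Fin 3) (Fin 3) F) u) (Matrix.mulVec (X : Matrix (Fin 3) (Fin 3) F) w) = Cfsg.hermForm 3 F p u w := fun u w => hRU hXR u w
  have hYU : ∀ u w, Cfsg.hermForm 3 F p (Matrix.mulVec (Y : Matrix (Fin 3) (Fin 3) F) u) (Matrix.mulVec (Y : Matrix (Fin 3) (Fin 3) F) w) = Cfsg.hermForm 3 F p u w := fun u w => hRU hYR u w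
  -- orthogonality of the eigenvectors
  have hcc : c ^ 2 ≠ 1 := by
    intro h
    apply hc1
    have h9 : c ^ 3 = c ^ 2 * c := by ring
    rw [h, one_mul, hc3] at h9
    exact h9.symm
  have hcc2 : c ^ 2 ≠ c := by
    intro h
    apply hc1
    apply mul_left_cancel₀ hc0
    rw [mul_one, ← pow_two, h]
  have horth : ∀ (u w : Fin 3 → F) (a b : F), Matrix.mulVec (X : Matrix (Fin 3) (Fin 3) F) u = a • u → Matrix.mulVec (X : Matrix (Fin 3) (Fin 3) F) w = b • w → b * σ b = 1 → a ≠ b →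
      Cfsg.hermForm 3 F p u w = 0 := by
    intro u w a b hu hw hb hab
    have h5 := hXU u w
    rw [hu, hw, hf.smul_left, CfsgLib.Un29.smul_right hf] at h5
    by_contra ha
    apply hab
    have h6 : a * σ b = 1 := by
      apply mul_right_cancel₀ ha
      rw [one_mul, mul_assoc]; exact h5
    have h8 : σ b ≠ 0 := by
      intro h
      rw [h, mul_zero] at hb
      exact zero_ne_one hb
    apply mul_right_cancel₀ h8
    rw [h6, hb]
  have e01 : Cfsg.hermForm 3 F p v0 (Matrix.mulVec (Y : Matrix (Fin 3) (Fin 3) F) v0) = 0 := horth _ _ 1 c (by rw [one_smul]; exact hXv0) hXYv0 (hcn c hc3) (Ne.symm hc1)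
  have e02 : Cfsg.hermForm 3 F p v0 (Matrix.mulVec (Y : Matrix (Fin 3) (Fin 3) F) (Matrix.mulVec (Y : Matrix (Fin 3) (Fin 3) F) v0)) = 0 := horth _ _ 1 (c ^ 2) (by rw [one_smul]; exact hXv0) hXYYv0 (hcn _ (by linear_combination (c ^ 3 + 1) * hc3)) (Ne.symm hcc)
  have hn0 : Cfsg.hermForm 3 F p v0 v0 ≠ 0 := by
    intro h
    obtain ⟨_, u, hu⟩ := hf.nondegenerate v0 hv0
    apply hu
    have hspan : Submodule.span F (Set.range ![v0, Matrix.mulVec (Y : Matrix (Fin 3) (Fin 3) F) v0, Matrix.mulVec (Y : Matrix (Fin 3) (Fin 3) F) (Matrix.mulVec (Y : Matrix (Fin 3) (Fin 3) F) v0)]) = ⊤ := by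
      apply Submodule.eq_top_of_finrank_eq
      rw [finrank_span_eq_card hvli0, Fintype.card_fin, Module.finrank_fin_fun]
    refine Submodule.span_induction (p := fun u _ => Cfsg.hermForm 3 F p v0 u = 0) ?_ ?_ ?_ ?_ (show u ∈ Submodule.span F (Set.range ![v0, Matrix.mulVec (Y : Matrix (Fin 3) (Fin 3) F) v0, Matrix.mulVec (Y : Matrix (Fin 3) (Fin 3) F) (Matrix.mulVec (Y : Matrix (Fin 3) (Fin 3) F) v0)]) by rw [hspan]; trivial)
    · rintro _ ⟨i, rfl⟩
      fin_cases i
      · exact h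
      · exact e01
      · exact e02
    · rw [hf.herm, CfsgLib.Q29.f_zero_left hf, map_zero]
    · intro a b _ _ ha hb
      rw [CfsgLib.Un29.add_right hf, ha, hb, add_zero]
    · intro a b _ hb
      rw [CfsgLib.Un29.smul_right hf, hb, mul_zero]
  obtain ⟨μ, hμ⟩ := CfsgLib.Un29.exists_norm hf (Cfsg.hermForm 3 F p v0 v0)⁻¹ (by rw [map_inv₀, CfsgLib.Un29.norm_real hf])
  have hμ0 : μ ≠ 0 := by
    rintro rfl
    rw [zero_mul] at hμ
    exact inv_ne_zero hn0 hμ.symm
  obtain ⟨v, hvdef⟩ : ∃ v, v = μ • v0 := ⟨_, rfl⟩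
  have hvv : Cfsg.hermForm 3 F p v v = 1 := by
    rw [hvdef, hf.smul_left, CfsgLib.Un29.smul_right hf, ← mul_assoc, hμ, inv_mul_cancel₀ hn0]
  have hv0' : v ≠ 0 := by
    rw [hvdef]; exact smul_ne_zero hμ0 hv0
  have hXv : Matrix.mulVec (X : Matrix (Fin 3) (Fin 3) F) v = v := by rw [hvdef, Matrix.mulVec_smul, hXv0]
  have hXYv : Matrix.mulVec (X : Matrix (Fin 3) (Fin 3) F) (Matrix.mulVec (Y : Matrix (Fin 3) (Fin 3) F) v) = c • Matrix.mulVec (Y : Matrix (Fin 3) (Fin 3) F) v := by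
    rw [hvdef, Matrix.mulVec_smul, Matrix.mulVec_smul, hXYv0, smul_comm]
  have hXYYv : Matrix.mulVec (X : Matrix (Fin 3) (Fin 3) F) (Matrix.mulVec (Y : Matrix (Fin 3) (Fin 3) F) (Matrix.mulVec (Y : Matrix (Fin 3) (Fin 3) F) v)) = c ^ 2 • Matrix.mulVec (Y : Matrix (Fin 3) (Fin 3) F) (Matrix.mulVec (Y : Matrix (Fin 3) (Fin 3) F) v) := by
    rw [hvdef, Matrix.mulVec_smul, Matrix.mulVec_smul, Matrix.mulVec_smul, hXYYv0, smul_comm]
  have hYYYv : Matrix.mulVec (Y : Matrix (Fin 3) (Fin 3) F) (Matrix.mulVec (Y : Matrix (Fin 3) (Fin 3) F) (Matrix.mulVec (Y : Matrix (Fin 3) (Fin 3) F) v)) = v := by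
    rw [hvdef, Matrix.mulVec_smul, Matrix.mulVec_smul, Matrix.mulVec_smul, hYYYv0]
  obtain ⟨bv, hbv⟩ : ∃ bv : Fin 3 → Fin 3 → F, bv = ![v, Matrix.mulVec (Y : Matrix (Fin 3) (Fin 3) F) v, Matrix.mulVec (Y : Matrix (Fin 3) (Fin 3) F) (Matrix.mulVec (Y : Matrix (Fin 3) (Fin 3) F) v)] := ⟨_, rfl⟩
  have hbeig : ∀ i, Matrix.mulVec (X : Matrix (Fin 3) (Fin 3) F) (bv i) = (![1, c, c ^ 2] : Fin 3 → F) i • bv i := by
    intro i
    rw [hbv]
    fin_cases i
    · simpa using hXv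
    · exact hXYv
    · exact hXYYv
  have hdn : ∀ i, (![1, c, c ^ 2] : Fin 3 → F) i * σ ((![1, c, c ^ 2] : Fin 3 → F) i) = 1 := by
    intro i
    apply hcn
    fin_cases i
    · exact one_pow 3
    · exact hc3
    · show (c ^ 2) ^ 3 = 1
      linear_combination (c ^ 3 + 1) * hc3
  have hdinj : ∀ i j, i ≠ j → (![1, c, c ^ 2] : Fin 3 → F) i ≠ (![1, c, c ^ 2] : Fin 3 → F) j := by
    intro i j hij
    fin_cases i <;> fin_cases j
    · exact absurd rfl hij
    · exact Ne.symm hc1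
    · exact Ne.symm hcc
    · exact hc1
    · exact absurd rfl hij
    · exact Ne.symm hcc2
    · exact hcc
    · exact hcc2
    · exact absurd rfl hij
  have hbon : ∀ i j, Cfsg.hermForm 3 F p (bv i) (bv j) = if i = j then 1 else 0 := by
    intro i j
    by_cases hij : i = j
    · subst hij
      rw [if_pos rfl, hbv]
      fin_cases i
      · exact hvv
      · show Cfsg.hermForm 3 F p (Matrix.mulVec (Y : Matrix (Fin 3) (Fin 3) F) v) (Matrix.mulVec (Y : Matrix (Fin 3) (Fin 3) F) v) = 1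
        rw [hYU, hvv]
      · show Cfsg.hermForm 3 F p (Matrix.mulVec (Y : Matrix (Fin 3) (Fin 3) F) (Matrix.mulVec (Y : Matrix (Fin 3) (Fin 3) F) v)) (Matrix.mulVec (Y : Matrix (Fin 3) (Fin 3) F) (Matrix.mulVec (Y : Matrix (Fin 3) (Fin 3) F) v)) = 1
        rw [hYU, hYU, hvv]
    · rw [if_neg hij]
      exact horth _ _ _ _ (hbeig i) (hbeig j) (hdn j) (hdinj i j hij)
  obtain ⟨P, hP, hPij'⟩ := CfsgLib.Q29.diag_of_li (X : Matrix (Fin 3) (Fin 3) F) bv (CfsgLib.Q29.on_li hf hbon) ![1, c, c ^ 2] hbeig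
  have hPU : P ∈ Cfsg.GU 3 F p := CfsgLib.Q29.mem_GU_of_on hf hσ hbon hPij'
  have hPij : ∀ i j, (P : Matrix (Fin 3) (Fin 3) F) i j = (![v, Matrix.mulVec (Y : Matrix (Fin 3) (Fin 3) F) v, Matrix.mulVec (Y : Matrix (Fin 3) (Fin 3) F) (Matrix.mulVec (Y : Matrix (Fin 3) (Fin 3) F) v)] : Fin 3 → Fin 3 → F) j i := by
    intro i j
    rw [hPij', hbv]
  obtain ⟨Cm, hCm⟩ : ∃ Cm : Matrix (Fin 3) (Fin 3) F, Cm = !![0, 0, 1; 1, 0, 0; 0, 1, 0] := ⟨_, rfl⟩
  have hPY : (Y : Matrix (Fin 3) (Fin 3) F) * P = P * Cm := by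
    ext i j
    have h4 : ((Y : Matrix (Fin 3) (Fin 3) F) * P) i j = (Matrix.mulVec (Y : Matrix (Fin 3) (Fin 3) F) (![v, Matrix.mulVec (Y : Matrix (Fin 3) (Fin 3) F) v, Matrix.mulVec (Y : Matrix (Fin 3) (Fin 3) F) (Matrix.mulVec (Y : Matrix (Fin 3) (Fin 3) F) v)] j)) i := by
      rw [Matrix.mul_apply]
      change ∑ l, (Y : Matrix (Fin 3) (Fin 3) F) i l * (P : Matrix (Fin 3) (Fin 3) F) l j = ∑ l, (Y : Matrix (Fin 3) (Fin 3) F) i l * (![v, Matrix.mulVec (Y : Matrix (Fin 3) (Fin 3) F) v, Matrix.mulVec (Y : Matrix (Fin 3) (Fin 3) F) (Matrix.mulVec (Y : Matrix (Fin 3) (Fin 3) F) v)] j) l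
      exact Finset.sum_congr rfl fun l _ => by rw [hPij]
    rw [h4, Matrix.mul_apply, Fin.sum_univ_three, hPij, hPij, hPij, hCm]
    fin_cases j
    · simp
    · simp
    · have h5 := congrFun hYYYv i
      simpa using h5
  have hDmat : ((P⁻¹ * X * P : GL (Fin 3) F) : Matrix (Fin 3) (Fin 3) F) = Matrix.diagonal ![1, c, c ^ 2] := by
    rw [mul_assoc, Units.val_mul, Units.val_mul, hP, ← Matrix.mul_assoc, Units.inv_mul, Matrix.one_mul]
  have hCmat : ((P⁻¹ * Y * P : GL (Fin 3) F) : Matrix (Fin 3) (Fin 3) F) = Cm := by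
    rw [mul_assoc, Units.val_mul, Units.val_mul, hPY, ← Matrix.mul_assoc, Units.inv_mul, Matrix.one_mul]
  have htsc : ∀ s : F, ∀ T : GL (Fin 3) F, (T : Matrix (Fin 3) (Fin 3) F) = s • 1 → ∀ u : GL (Fin 3) F, T * u * T⁻¹ = u := by
    intro s T hT u
    rw [mul_inv_eq_iff_eq_mul]
    apply Units.ext
    rw [Units.val_mul, Units.val_mul, hT, Matrix.smul_mul, Matrix.mul_smul, Matrix.one_mul, Matrix.mul_one]
  -- diagonal elements of the normalizer
  have hdiag : ∀ s : F, s ≠ 0 → ∀ (k1 k2 : F) (a : ℕ), k1 ≠ 0 → k2 ≠ 0 → ((k1 = c ∧ k2 = c ^ 2) ∨ (k1 = 1 ∧ k2 = c) ∨ (k1 = 1 ∧ k2 = c ^ 2)) →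
      ∃ T : GL (Fin 3) F, (T : Matrix (Fin 3) (Fin 3) F) * P = P * Matrix.diagonal ![s, s * k1, s * k2] ∧ T ∈ Cfsg.Geo.subgroupNormalizer R := by
    intro s hs k1 k2 a hk1 hk2 hcases
    have hKdet : (Matrix.diagonal ![s, s * k1, s * k2]).det ≠ 0 := by
      rw [Matrix.det_diagonal, Fin.prod_univ_three]
      exact mul_ne_zero (mul_ne_zero hs (mul_ne_zero hs hk1)) (mul_ne_zero hs hk2)
    let K : GL (Fin 3) F := Matrix.GeneralLinearGroup.mkOfDetNeZero _ hKdet
    have hK : (K : Matrix (Fin 3) (Fin 3) F) = Matrix.diagonal ![s, s * k1, s * k2] := rfl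
    refine ⟨P * K * P⁻¹, ?_, ?_⟩
    · rw [← Units.val_mul, inv_mul_cancel_right, Units.val_mul, hK]
    · have hcommD : K * (P⁻¹ * X * P) = (P⁻¹ * X * P) * K := by
        apply Units.ext
        show (K : Matrix (Fin 3) (Fin 3) F) * ((P⁻¹ * X * P : GL (Fin 3) F) : Matrix (Fin 3) (Fin 3) F) = ((P⁻¹ * X * P : GL (Fin 3) F) : Matrix (Fin 3) (Fin 3) F) * (K : Matrix (Fin 3) (Fin 3) F)
        rw [hDmat, hK, Matrix.diagonal_mul_diagonal, Matrix.diagonal_mul_diagonal]
        congr 1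
        funext i
        exact mul_comm _ _
      rcases hcases with ⟨e1, e2⟩ | ⟨e1, e2⟩ | ⟨e1, e2⟩
      · -- a multiple of `X`
        have hKX : (K : Matrix (Fin 3) (Fin 3) F) = s • ((P⁻¹ * X * P : GL (Fin 3) F) : Matrix (Fin 3) (Fin 3) F) := by
          rw [hDmat, hK, e1, e2, CfsgLib.Q29.diag3, CfsgLib.Q29.diag3]
          ext i j
          fin_cases i <;> fin_cases j <;> simp
        have hsdet : (s • (1 : Matrix (Fin 3) (Fin 3) F)).det ≠ 0 := by
          rw [Matrix.det_smul, Matrix.det_one, mul_one]; exact pow_ne_zero _ hs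
        let S : GL (Fin 3) F := Matrix.GeneralLinearGroup.mkOfDetNeZero _ hsdet
        have hS : (S : Matrix (Fin 3) (Fin 3) F) = s • 1 := rfl
        have hKS : K = S * (P⁻¹ * X * P) := by
          apply Units.ext
          show (K : Matrix (Fin 3) (Fin 3) F) = (S : Matrix (Fin 3) (Fin 3) F) * ((P⁻¹ * X * P : GL (Fin 3) F) : Matrix (Fin 3) (Fin 3) F)
          rw [hKX, hS, Matrix.smul_mul, Matrix.one_mul]
        have hPKP : P * K * P⁻¹ = S * X := by
          have e5 : P * K * P⁻¹ = (P * S * P⁻¹) * X := by rw [hKS]; group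
          have e6 : P * S * P⁻¹ = S := by
            rw [mul_inv_eq_iff_eq_mul]
            apply Units.ext
            rw [Units.val_mul, Units.val_mul, hS, Matrix.smul_mul, Matrix.mul_smul, Matrix.one_mul, Matrix.mul_one]
          rw [e5, e6]
        rw [hPKP]
        refine Subgroup.mul_mem _ ?_ (Subgroup.le_normalizer hXR)
        refine CfsgLib.Q29.mem_normalizer_of hRcl ?_ ?_
        · rw [htsc s S hS]; exact hXR
        · rw [htsc s S hS]; exact hYR
      · have hrel := CfsgLib.Q29.conj_rel' P X Y K 1 hcommD (by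
          apply Units.ext
          show (K : Matrix (Fin 3) (Fin 3) F) * ((P⁻¹ * Y * P : GL (Fin 3) F) : Matrix (Fin 3) (Fin 3) F) = (((P⁻¹ * Y * P * (P⁻¹ * X * P) ^ 1 : GL (Fin 3) F)) : Matrix (Fin 3) (Fin 3) F) * (K : Matrix (Fin 3) (Fin 3) F)
          rw [Units.val_mul (P⁻¹ * Y * P), Units.val_pow_eq_pow_val, pow_one, hCmat, hDmat, hK, e1, e2, hCm, CfsgLib.Q29.diag3, CfsgLib.Q29.diag3]
          ext i j
          fin_cases i <;> fin_cases j <;> simp [Matrix.mul_apply, Fin.sum_univ_three]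
          all_goals first
            | linear_combination -s * hc3
            | ring)
        refine CfsgLib.Q29.mem_normalizer_of hRcl ?_ ?_
        · rw [hrel.1]; exact hXR
        · rw [hrel.2, pow_one]; exact R.mul_mem hYR hXR
      · have hrel := CfsgLib.Q29.conj_rel' P X Y K 2 hcommD (by
          apply Units.ext
          show (K : Matrix (Fin 3) (Fin 3) F) * ((P⁻¹ * Y * P : GL (Fin 3) F) : Matrix (Fin 3) (Fin 3) F) = (((P⁻¹ * Y * P * (P⁻¹ * X * P) ^ 2 : GL (Fin 3) F)) : Matrix (Fin 3) (Fin 3) F) * (K : Matrix (Fin 3) (Fin 3) F)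
          rw [Units.val_mul (P⁻¹ * Y * P), Units.val_pow_eq_pow_val, hCmat, hDmat, hK, e1, e2, hCm, CfsgLib.Q29.diag3, CfsgLib.Q29.diag3, CfsgLib.Q29.diag3_sq]
          ext i j
          fin_cases i <;> fin_cases j <;> simp [Matrix.mul_apply, Fin.sum_univ_three]
          all_goals first
            | linear_combination -(s * (c ^ 3 + 1)) * hc3
            | ring)
        refine CfsgLib.Q29.mem_normalizer_of hRcl ?_ ?_
        · rw [hrel.1]; exact hXR
        · rw [hrel.2]; exact R.mul_mem hYR (R.pow_mem hXR 2)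
  have heig : ∀ (T : GL (Fin 3) F) (d : Fin 3 → F), (T : Matrix (Fin 3) (Fin 3) F) * P = P * Matrix.diagonal d → ∀ i, Matrix.mulVec (T : Matrix (Fin 3) (Fin 3) F) (bv i) = d i • bv i := by
    intro T d hT i
    funext l
    have h4 := congrFun (congrFun hT l) i
    rw [Matrix.mul_diagonal, Matrix.mul_apply] at h4
    rw [Pi.smul_apply, smul_eq_mul, mul_comm, ← hPij' l i, ← h4]
    change ∑ m, (T : Matrix (Fin 3) (Fin 3) F) l m * bv i m = _
    exact Finset.sum_congr rfl fun m _ => by rw [hPij']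
  -- the involution of the normalizer
  have hinvo : ∀ s : F, s * σ s = 1 → ∃ T : GL (Fin 3) F, ∃ w' : Fin 3 → Fin 3 → F, (∀ i j, Cfsg.hermForm 3 F p (w' i) (w' j) = if i = j then 1 else 0) ∧
      (∀ i, Matrix.mulVec (T : Matrix (Fin 3) (Fin 3) F) (w' i) = (![s, -s, -s] : Fin 3 → F) i • w' i) ∧ T ∈ Cfsg.Geo.subgroupNormalizer R := by
    intro s hs
    have hs0 : s ≠ 0 := by rintro rfl; rw [zero_mul] at hs; exact zero_ne_one hs
    obtain ⟨Km, hKm⟩ : ∃ Km : Matrix (Fin 3) (Fin 3) F, Km = !![-s, 0, 0; 0, 0, -s; 0, -s, 0] := ⟨_, rfl⟩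
    have hKdet1 : Km.det = s ^ 3 := by
      rw [hKm, Matrix.det_fin_three]
      simp
      ring
    have hKdet : Km.det ≠ 0 := by rw [hKdet1]; exact pow_ne_zero _ hs0
    let K : GL (Fin 3) F := Matrix.GeneralLinearGroup.mkOfDetNeZero _ hKdet
    have hK : (K : Matrix (Fin 3) (Fin 3) F) = Km := rfl
    have hKU : K ∈ Cfsg.GU 3 F p := by
      rw [Cfsg.Agent.H22.mem_GU_iff' (σ := (σ : F →+* F)) hσ, hK, hKm]
      ext i j
      fin_cases i <;> fin_cases j <;> simp [Matrix.mul_apply, Fin.sum_univ_three, hs]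
    obtain ⟨T, hTdef⟩ : ∃ T, T = P * K * P⁻¹ := ⟨_, rfl⟩
    have hTU : T ∈ Cfsg.GU 3 F p := by
      rw [hTdef]; exact Subgroup.mul_mem _ (Subgroup.mul_mem _ hPU hKU) (Subgroup.inv_mem _ hPU)
    have hTN : T ∈ Cfsg.Geo.subgroupNormalizer R := by
      rw [hTdef]
      have hrel := CfsgLib.Q29.conj_rel P X Y K 2 2 (by
        apply Units.ext
        show (K : Matrix (Fin 3) (Fin 3) F) * ((P⁻¹ * X * P : GL (Fin 3) F) : Matrix (Fin 3) (Fin 3) F) = (((P⁻¹ * X * P) ^ 2 : GL (Fin 3) F) : Matrix (Fin 3) (Fin 3) F) * (K : Matrix (Fin 3) (Fin 3) F)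
        rw [Units.val_pow_eq_pow_val, hDmat, hK, hKm, CfsgLib.Q29.diag3, CfsgLib.Q29.diag3_sq]
        ext i j
        fin_cases i <;> fin_cases j <;> simp [Matrix.mul_apply, Fin.sum_univ_three]
        all_goals first
          | linear_combination (-(s * c)) * hc3
          | ring) (by
        apply Units.ext
        show (K : Matrix (Fin 3) (Fin 3) F) * ((P⁻¹ * Y * P : GL (Fin 3) F) : Matrix (Fin 3) (Fin 3) F) = (((P⁻¹ * Y * P) ^ 2 : GL (Fin 3) F) : Matrix (Fin 3) (Fin 3) F) * (K : Matrix (Fin 3) (Fin 3) F)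
        rw [Units.val_pow_eq_pow_val, hCmat, hK, hKm, pow_two, hCm]
        ext i j
        fin_cases i <;> fin_cases j <;> simp [Matrix.mul_apply, Fin.sum_univ_three])
      refine CfsgLib.Q29.mem_normalizer_of hRcl ?_ ?_
      · rw [hrel.1]; exact R.pow_mem hXR 2
      · rw [hrel.2]; exact R.pow_mem hYR 2
    have hKK : K * K = P⁻¹ * (T * T) * P := by rw [hTdef]; group
    have hKKm : Km * Km = s ^ 2 • (1 : Matrix (Fin 3) (Fin 3) F) := by
      rw [hKm]
      ext i j
      fin_cases i <;> fin_cases j <;> simp [Matrix.mul_apply, Fin.sum_univ_three] <;> ring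
    have hTT : (T : Matrix (Fin 3) (Fin 3) F) * T = s ^ 2 • (1 : Matrix (Fin 3) (Fin 3) F) := by
      have h4 : T * T = P * (K * K) * P⁻¹ := by rw [hTdef]; group
      have h5 := congrArg Units.val h4
      rw [Units.val_mul, Units.val_mul, Units.val_mul, Units.val_mul, hK, hKKm, Matrix.mul_smul, Matrix.mul_one, Matrix.smul_mul, Units.mul_inv] at h5
      exact h5
    have hTdet : (T : Matrix (Fin 3) (Fin 3) F).det = s ^ 3 := by
      have h5 : (T : Matrix (Fin 3) (Fin 3) F).det = (K : Matrix (Fin 3) (Fin 3) F).det := by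
        rw [hTdef, Units.val_mul, Units.val_mul, Matrix.det_mul, Matrix.det_mul, mul_right_comm, ← Matrix.det_mul, Units.mul_inv, Matrix.det_one, one_mul]
      rw [h5, hK, hKdet1]
    obtain ⟨w', hw', hw''⟩ := CfsgLib.Q29.sq_on hf h2 T hTU s hs (s⁻¹ • (T : Matrix (Fin 3) (Fin 3) F)) (by
      rw [smul_smul, mul_inv_cancel₀ hs0, one_smul]) (by
      rw [pow_two, Matrix.smul_mul, Matrix.mul_smul, hTT, smul_smul, smul_smul]
      have : s⁻¹ * s⁻¹ * s ^ 2 = 1 := by field_simp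
      rw [← mul_assoc] at *
      rw [this, one_smul]) (by
      rw [Matrix.det_smul, Fintype.card_fin, hTdet, inv_pow, inv_mul_cancel₀ (pow_ne_zero _ hs0)]) (by
      intro a ha
      have h4 : (T : Matrix (Fin 3) (Fin 3) F) = (s * a) • (1 : Matrix (Fin 3) (Fin 3) F) := by
        rw [mul_smul, ← ha, smul_smul, mul_inv_cancel₀ hs0, one_smul]
      have h5 : K = P⁻¹ * T * P := by rw [hTdef]; group
      have h6 := congrArg Units.val h5
      rw [Units.val_mul, Units.val_mul, h4, Matrix.mul_smul, Matrix.mul_one, Matrix.smul_mul, Units.inv_mul, hK, hKm] at h6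
      have h7 := congrFun (congrFun h6 1) 2
      simp at h7
      exact hs0 h7)
    exact ⟨T, w', hw', hw'', hTN⟩
  have hdetX : (X : Matrix (Fin 3) (Fin 3) F).det = 1 := by
    have h4 : (P⁻¹ * X * P : GL (Fin 3) F) = MulAut.conj P⁻¹ X := by rw [MulAut.conj_apply, inv_inv]
    have h5 : ((P⁻¹ * X * P : GL (Fin 3) F) : Matrix (Fin 3) (Fin 3) F).det = (X : Matrix (Fin 3) (Fin 3) F).det := by
      rw [Units.val_mul, Units.val_mul, Matrix.det_mul, Matrix.det_mul, mul_right_comm, ← Matrix.det_mul, Units.inv_mul, Matrix.det_one, one_mul]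
    rw [← h5, hDmat, Matrix.det_diagonal, Fin.prod_univ_three]
    simp
    linear_combination hc3
  have hdetY : (Y : Matrix (Fin 3) (Fin 3) F).det = 1 := by
    have h5 : ((P⁻¹ * Y * P : GL (Fin 3) F) : Matrix (Fin 3) (Fin 3) F).det = (Y : Matrix (Fin 3) (Fin 3) F).det := by
      rw [Units.val_mul, Units.val_mul, Matrix.det_mul, Matrix.det_mul, mul_right_comm, ← Matrix.det_mul, Units.inv_mul, Matrix.det_one, one_mul]
    rw [← h5, hCmat, hCm, Matrix.det_fin_three]
    simp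
  have hRS : R ≤ Cfsg.Geo.specialLinear (Fin 3) F := by
    rw [hRcl, Subgroup.closure_le]
    rintro u (rfl | rfl)
    · exact (CfsgLib.Q29.mem_SL _).2 hdetX
    · exact (CfsgLib.Q29.mem_SL _).2 hdetY
  have hscal : ∀ (x : GL (Fin 3) F) (w : Fin 3 → Fin 3 → F), LinearIndependent F w → ∀ e : F, (∀ i, Matrix.mulVec (x : Matrix (Fin 3) (Fin 3) F) (w i) = e • w i) →
      (x : Matrix (Fin 3) (Fin 3) F) = e • (1 : Matrix (Fin 3) (Fin 3) F) := by
    intro x w hw e he
    obtain ⟨Q, hQ, _⟩ := CfsgLib.Q29.diag_of_li (x : Matrix (Fin 3) (Fin 3) F) w hw (fun _ => e) he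
    have h4 : Matrix.diagonal (fun _ : Fin 3 => e) = e • (1 : Matrix (Fin 3) (Fin 3) F) := by
      rw [Matrix.smul_one_eq_diagonal]
    rw [h4, Matrix.mul_smul, Matrix.mul_one] at hQ
    have h5 : (x : Matrix (Fin 3) (Fin 3) F) = ((x : Matrix (Fin 3) (Fin 3) F) * Q) * ((Q⁻¹ : GL (Fin 3) F) : Matrix (Fin 3) (Fin 3) F) := by
      rw [Matrix.mul_assoc, Units.mul_inv, Matrix.mul_one]
    rw [h5, hQ, Matrix.smul_mul, Units.mul_inv]
  have hzc : ∀ x ∈ Cfsg.Geo.specialLinear (Fin 3) F, ∀ z : F, ((x ^ r : GL (Fin 3) F) : Matrix (Fin 3) (Fin 3) F) = z • (1 : Matrix (Fin 3) (Fin 3) F) → z ^ 3 = 1 := by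
    intro x hx z hz
    have h4 := congrArg Matrix.det hz
    rw [Units.val_pow_eq_pow_val, Matrix.det_pow, (CfsgLib.Q29.mem_SL _).1 hx, one_pow, Matrix.det_smul, Matrix.det_one, mul_one, Fintype.card_fin] at h4
    exact h4.symm
  constructor
  · intro hL
    by_cases hr2 : r = 2
    · exact Or.inl hr2
    by_cases hr3 : r = 3
    · right
      refine ⟨hr3, ?_⟩
      by_contra hp9
      rw [hr3] at hΩ
      -- orders
      obtain ⟨S, hS⟩ : ∃ S, S = Cfsg.GU 3 F p ⊓ Cfsg.Geo.specialLinear (Fin 3) F := ⟨_, rfl⟩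
      have hRS' : R ≤ S := by rw [hS]; exact le_inf hRU hRS
      rw [← hS] at hΩ
      obtain ⟨N, hN⟩ : ∃ N, N = Cfsg.Geo.subgroupNormalizer R := ⟨_, rfl⟩
      rw [← hN] at hΩ
      have hRN : R ≤ N := by rw [hN]; exact Subgroup.le_normalizer
      have h27 : 27 ∣ Nat.card (N.subgroupOf S) := by
        have h4 : Nat.card (R.subgroupOf S) = 27 := by
          rw [Nat.card_congr (Subgroup.subgroupOfEquivOfLe hRS').toEquiv, hR]
        rw [← h4]
        apply Subgroup.card_dvd_of_le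
        intro u hu
        exact hRN hu
      have h81 : 81 ∣ Nat.card S := by
        have h4 := Subgroup.card_mul_index (N.subgroupOf S)
        rw [← h4]
        exact mul_dvd_mul h27 hΩ
      have hSU : (p + 1) * Nat.card S = p ^ 3 * ((p + 1) * (p ^ 2 - 1) * (p ^ 3 + 1)) := by
        rw [hS, card_su_gl, Cfsg.Agent.S0278.result hF 3 (by norm_num)]
        rw [Finset.prod_range_succ, Finset.prod_range_succ, Finset.prod_range_succ, Finset.prod_range_zero]
        rw [if_pos (by decide : Even 0), if_neg (by decide : ¬ Even 1), if_pos (by decide : Even 2)]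
        norm_num
      obtain ⟨j, hj⟩ := h81
      have hp1 : p = 3 * m0 - 1 := by omega
      have e5 : p ^ 3 + 1 = 9 * (m0 * (3 * m0 * (m0 - 1) + 1)) := by
        obtain ⟨t, rfl⟩ : ∃ t, m0 = t + 1 := ⟨m0 - 1, by omega⟩
        have : p = 3 * t + 2 := by omega
        rw [this, Nat.add_sub_cancel]; ring
      rw [hj, hk, e5, hkdef, hm0] at hSU
      have h5 : 3 * j = p ^ 3 * m0 ^ 2 * (p - 1) * (3 * m0 * (m0 - 1) + 1) := by
        have h6 : (81 * m0) * (3 * j) = (81 * m0) * (p ^ 3 * m0 ^ 2 * (p - 1) * (3 * m0 * (m0 - 1) + 1)) := by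
          calc (81 * m0) * (3 * j) = 3 * m0 * (81 * j) := by ring
            _ = _ := by rw [hSU]; ring
        exact Nat.eq_of_mul_eq_mul_left (by omega) h6
      have h6 : 3 ∣ p ^ 3 * m0 ^ 2 * (p - 1) * (3 * m0 * (m0 - 1) + 1) := ⟨j, h5.symm⟩
      have h3p : Nat.Prime 3 := Nat.prime_three
      rcases (Nat.Prime.dvd_mul h3p).1 h6 with h7 | h7
      · rcases (Nat.Prime.dvd_mul h3p).1 h7 with h8 | h8
        · rcases (Nat.Prime.dvd_mul h3p).1 h8 with h9 | h9
          · have := h3p.dvd_of_dvd_pow h9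
            omega
          · have := h3p.dvd_of_dvd_pow h9
            omega
        · omega
      · have : 3 * m0 * (m0 - 1) + 1 = 3 * (m0 * (m0 - 1)) + 1 := by ring
        omega
    · -- derangements
      exfalso
      have hr5 : 5 ≤ r := by
        have := hr.two_le
        have h5 : r ≠ 4 := by rintro rfl; exact absurd hr (by norm_num)
        omega
      obtain ⟨x, hx⟩ : ∃ x : ↥(Cfsg.GU 3 F p ⊓ Cfsg.Geo.specialLinear (Fin 3) F), orderOf x = r := by
        apply exists_prime_orderOf_dvd_card'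
        exact hΩ.trans (Subgroup.relIndex_dvd_card _ _)
      have hxr : (x : GL (Fin 3) F) ^ r = 1 := by
        have h5 : x ^ r = 1 := by rw [← hx, pow_orderOf_eq_one]
        have h6 := congrArg Subtype.val h5
        rwa [Subgroup.coe_pow] at h6
      have hxns : ∀ z : F, ((x : GL (Fin 3) F) : Matrix (Fin 3) (Fin 3) F) ≠ z • (1 : Matrix (Fin 3) (Fin 3) F) := by
        intro z hz
        have h5 : z ^ 3 = 1 := by
          have h6 := (CfsgLib.Q29.mem_SL _).1 x.2.2
          rw [hz, Matrix.det_smul, Matrix.det_one, mul_one, Fintype.card_fin] at h6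
          exact h6
        have h6 : z ^ r = 1 := by
          have h7 := congrArg Units.val hxr
          rw [Units.val_pow_eq_pow_val, hz, smul_pow, one_pow] at h7
          have h8 := congrFun (congrFun h7 0) 0
          simpa using h8
        have h7 : z = 1 := by
          have h8 := pow_gcd_eq_one.2 ⟨h5, h6⟩
          rw [(Nat.coprime_primes Nat.prime_three hr).2 (by omega), pow_one] at h8
          exact h8
        have h8 : x = 1 := by
          apply Subtype.ext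
          apply Units.ext
          rw [hz, h7, one_smul]; rfl
        rw [h8, orderOf_one] at hx
        exact hr.one_lt.ne hx
      obtain ⟨g, hg, hgN⟩ := hL x x.2 ⟨1, by rw [hxr, one_smul]; rfl⟩ hxns
      obtain ⟨y, hy⟩ : ∃ y, y = g⁻¹ * (x : GL (Fin 3) F) * g := ⟨_, rfl⟩
      rw [← hy] at hgN
      have hyr : y ^ r = 1 := by
        have h5 : y = MulAut.conj g⁻¹ x := by rw [hy, MulAut.conj_apply, inv_inv]
        rw [h5, ← map_pow, hxr, map_one]
      have hyn : ∀ u ∈ R, y * u * y⁻¹ ∈ R := by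
        intro u hu
        exact (Subgroup.mem_normalizer_iff.1 hgN u).1 hu
      have hmod := CfsgLib.Q29.card_modEq R y hyr hyn
      obtain ⟨C, hC⟩ : ∃ C, C = R ⊓ Subgroup.centralizer {y} := ⟨_, rfl⟩
      rw [← hC, hR] at hmod
      have hCR : C ≤ R := by rw [hC]; exact inf_le_left
      have hCdvd : Nat.card C ∣ 3 ^ 3 := by
        have h5 := Subgroup.card_dvd_of_le hCR
        rw [hR] at h5
        exact h5
      have htC : t ∈ C := by
        rw [hC]
        refine ⟨htR, ?_⟩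
        show t ∈ Subgroup.centralizer {y}
        rw [Subgroup.mem_centralizer_singleton_iff]
        apply Units.ext
        rw [Units.val_mul, Units.val_mul, htc, Matrix.smul_mul, Matrix.mul_smul, Matrix.one_mul, Matrix.mul_one]
      obtain ⟨j, hj, hj2⟩ := (Nat.dvd_prime_pow Nat.prime_three).1 hCdvd
      have hj0 : j ≠ 0 := by
        rintro rfl
        rw [pow_zero, Subgroup.card_eq_one] at hj2
        rw [hj2] at htC
        exact ht1 ((Subgroup.mem_bot).1 htC)
      have hle : Nat.card C ≤ 27 := by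
        rw [hj2]
        have := Nat.pow_le_pow_right (show 0 < 3 by norm_num) hj
        omega
      have h6 : r ∣ 27 - Nat.card C := (Nat.modEq_iff_dvd' hle).1 hmod.symm
      have hj3 : j = 3 := by
        by_contra hne
        have h7 : r ∣ 72 := by
          rw [hj2] at h6
          interval_cases j
          · exact absurd rfl hj0
          · exact h6.trans (by norm_num)
          · exact h6.trans (by norm_num)
          · exact absurd rfl hne
        have h8 : (72 : ℕ) = 2 ^ 3 * 3 ^ 2 := by norm_num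
        rw [h8] at h7
        rcases (Nat.Prime.dvd_mul hr).1 h7 with h9 | h9
        · exact hr2 ((Nat.prime_dvd_prime_iff_eq hr Nat.prime_two).1 (hr.dvd_of_dvd_pow h9))
        · exact hr3 ((Nat.prime_dvd_prime_iff_eq hr Nat.prime_three).1 (hr.dvd_of_dvd_pow h9))
      have hCeq : C = R := by
        apply SetLike.coe_injective
        haveI : Finite (R : Set (GL (Fin 3) F)) := inferInstanceAs (Finite R)
        apply Set.eq_of_subset_of_ncard_le hCR
        show Nat.card R ≤ Nat.card C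
        rw [hR, hj2, hj3]; norm_num
      have hcomm : ∀ u ∈ R, y * u = u * y := by
        intro u hu
        rw [← hCeq, hC] at hu
        exact (Subgroup.mem_centralizer_singleton_iff.1 hu.2).symm
      obtain ⟨B, hB⟩ : ∃ B, B = P⁻¹ * y * P := ⟨_, rfl⟩
      have hBX : B * (P⁻¹ * X * P) = (P⁻¹ * X * P) * B := by
        have e1 : B * (P⁻¹ * X * P) = P⁻¹ * (y * X) * P := by rw [hB]; group
        have e2 : (P⁻¹ * X * P) * B = P⁻¹ * (X * y) * P := by rw [hB]; group
        rw [e1, e2, hcomm X hXR]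
      have hBY : B * (P⁻¹ * Y * P) = (P⁻¹ * Y * P) * B := by
        have e1 : B * (P⁻¹ * Y * P) = P⁻¹ * (y * Y) * P := by rw [hB]; group
        have e2 : (P⁻¹ * Y * P) * B = P⁻¹ * (Y * y) * P := by rw [hB]; group
        rw [e1, e2, hcomm Y hYR]
      have hBX' : (B : Matrix (Fin 3) (Fin 3) F) * Matrix.diagonal ![1, c, c ^ 2] = Matrix.diagonal ![1, c, c ^ 2] * (B : Matrix (Fin 3) (Fin 3) F) := by
        rw [← hDmat]; exact congrArg Units.val hBX
      have hBY' : (B : Matrix (Fin 3) (Fin 3) F) * Cm = Cm * (B : Matrix (Fin 3) (Fin 3) F) := by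
        rw [← hCmat]; exact congrArg Units.val hBY
      obtain ⟨Bm, hBm⟩ : ∃ Bm, Bm = (B : Matrix (Fin 3) (Fin 3) F) := ⟨_, rfl⟩
      rw [← hBm] at hBX' hBY'
      have hcc : c ^ 2 ≠ 1 := by
        intro h
        apply hc1
        have h9 : c ^ 3 = c ^ 2 * c := by ring
        rw [h, one_mul, hc3] at h9
        exact h9.symm
      have hcc2 : c ^ 2 ≠ c := by
        intro h
        apply hc1
        apply mul_left_cancel₀ hc0
        rw [mul_one, ← pow_two, h]
      have hoff : ∀ i j : Fin 3, (![1, c, c ^ 2] : Fin 3 → F) j - (![1, c, c ^ 2] : Fin 3 → F) i ≠ 0 → Bm i j = 0 := by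
        intro i j hij
        have h9 := congrFun (congrFun hBX' i) j
        rw [Matrix.mul_diagonal, Matrix.diagonal_mul] at h9
        have h10 : ((![1, c, c ^ 2] : Fin 3 → F) j - (![1, c, c ^ 2] : Fin 3 → F) i) * Bm i j = 0 := by
          linear_combination h9
        exact (mul_eq_zero.1 h10).resolve_left hij
      have h01 : Bm 0 1 = 0 := hoff 0 1 (by show c - 1 ≠ 0; exact sub_ne_zero.2 hc1)
      have h02 : Bm 0 2 = 0 := hoff 0 2 (by show c ^ 2 - 1 ≠ 0; exact sub_ne_zero.2 hcc)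
      have h10 : Bm 1 0 = 0 := hoff 1 0 (by show 1 - c ≠ 0; exact sub_ne_zero.2 (Ne.symm hc1))
      have h12 : Bm 1 2 = 0 := hoff 1 2 (by show c ^ 2 - c ≠ 0; exact sub_ne_zero.2 hcc2)
      have h20 : Bm 2 0 = 0 := hoff 2 0 (by show 1 - c ^ 2 ≠ 0; exact sub_ne_zero.2 (Ne.symm hcc))
      have h21 : Bm 2 1 = 0 := hoff 2 1 (by show c - c ^ 2 ≠ 0; exact sub_ne_zero.2 (Ne.symm hcc2))
      have e11 : Bm 1 1 = Bm 0 0 := by
        have h9 := congrFun (congrFun hBY' 1) 0
        rw [hCm] at h9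
        simpa [Matrix.mul_apply, Fin.sum_univ_three] using h9
      have e22 : Bm 2 2 = Bm 1 1 := by
        have h9 := congrFun (congrFun hBY' 2) 1
        rw [hCm] at h9
        simpa [Matrix.mul_apply, Fin.sum_univ_three] using h9
      have hBs : Bm = Bm 0 0 • (1 : Matrix (Fin 3) (Fin 3) F) := by
        ext i j
        fin_cases i <;> fin_cases j <;> simp [h01, h02, h10, h12, h20, h21, e11, e22]
      apply hxns (Bm 0 0)
      have h9 : (x : GL (Fin 3) F) = (g * P) * B * (g * P)⁻¹ := by rw [hB, hy]; group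
      rw [h9, Units.val_mul, Units.val_mul, ← hBm, hBs, Matrix.mul_smul, Matrix.mul_one, Matrix.smul_mul, Units.mul_inv]
      simp
  · rintro (rfl | ⟨rfl, hp9⟩) x hxS ⟨z, hz⟩ hxns
    · -- involutions
      have hz3 := hzc x hxS.2 z hz
      have hz0 : z ≠ 0 := by rintro rfl; norm_num at hz3
      have hzn : z ^ 2 * σ (z ^ 2) = 1 := hcn _ (by linear_combination (z ^ 3 + 1) * hz3)
      obtain ⟨y, hy⟩ : ∃ y, y = z • (x : Matrix (Fin 3) (Fin 3) F) := ⟨_, rfl⟩
      have hxy : (x : Matrix (Fin 3) (Fin 3) F) = z ^ 2 • y := by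
        rw [hy, smul_smul, ← pow_succ, hz3, one_smul]
      have hyy : y ^ 2 = 1 := by
        rw [Units.val_pow_eq_pow_val] at hz
        rw [hy, smul_pow, hz, smul_smul, ← pow_succ, hz3, one_smul]
      have hydet : y.det = 1 := by
        rw [hy, Matrix.det_smul, (CfsgLib.Q29.mem_SL _).1 hxS.2, Fintype.card_fin, hz3, one_mul]
      obtain ⟨w, hw, hxw⟩ := CfsgLib.Q29.sq_on hf h2 x hxS.1 (z ^ 2) hzn y hxy hyy hydet (by
        intro a ha
        apply hxns (z ^ 2 * a)
        rw [hxy, ha, smul_smul])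
      obtain ⟨T, w', hw', hTw', hTN⟩ := hinvo (z ^ 2) hzn
      obtain ⟨g, hg, hgx⟩ := CfsgLib.Q29.conj_unitary hf hσ (by norm_num) x T w w' hw hw' _ hxw hTw'
      exact ⟨g, hg, by rw [hgx]; exact hTN⟩
    · -- elements of order three
      have hz3 := hzc x hxS.2 z hz
      have hz0 : z ≠ 0 := by rintro rfl; norm_num at hz3
      obtain ⟨w, hw, hwn⟩ : ∃ w : F, w ^ 3 = z ∧ w * σ w = 1 := by
        obtain ⟨l, hl⟩ : ∃ l, m0 = 3 * l := ⟨m0 / 3, by omega⟩
        obtain ⟨m, hm⟩ := (mem_powers_iff_mem_zpowers (x := g0)).2 (hg0 (Units.mk0 z hz0))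
        have hm' : (g0 : F) ^ m = z := by
          rw [← Units.val_pow_eq_pow_val]; exact congrArg Units.val hm
        have h4 : (g0 ^ m) ^ 3 = 1 := by
          apply Units.ext
          rw [Units.val_pow_eq_pow_val, Units.val_pow_eq_pow_val, hm', hz3, Units.val_one]
        rw [← pow_mul, ← orderOf_dvd_iff_pow_eq_one, hog, hk, mul_comm m 3] at h4
        have h5 : k ∣ m := Nat.dvd_of_mul_dvd_mul_left (by norm_num) h4
        obtain ⟨m', hm2⟩ := h5
        refine ⟨(g0 : F) ^ ((p - 1) * l * m'), ?_, ?_⟩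
        · rw [← hm', ← pow_mul]
          congr 1
          rw [hm2, hkdef, hl]; ring
        · rw [hσ, ← pow_succ', ← pow_mul]
          have h6 : (p - 1) * l * m' * (p + 1) = (p ^ 2 - 1) * (l * m') := by
            rw [hk, hkdef, hm0]; ring
          have h7 : (g0 : F) ^ (p ^ 2 - 1) = 1 := by
            rw [← hog, ← Units.val_pow_eq_pow_val, pow_orderOf_eq_one, Units.val_one]
          rw [h6, pow_mul, h7, one_pow]
      have hw0 : w ≠ 0 := by
        rintro rfl
        apply hz0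
        rw [← hw]; norm_num
      obtain ⟨y, hy⟩ : ∃ y, y = w⁻¹ • (x : Matrix (Fin 3) (Fin 3) F) := ⟨_, rfl⟩
      have hxy : (x : Matrix (Fin 3) (Fin 3) F) = w • y := by
        rw [hy, smul_smul, mul_inv_cancel₀ hw0, one_smul]
      have hyy : y ^ 3 = 1 := by
        rw [Units.val_pow_eq_pow_val] at hz
        rw [hy, smul_pow, hz, smul_smul, inv_pow, hw, inv_mul_cancel₀ hz0, one_smul]
      obtain ⟨u, hu, a, k1, k2, han, hcases, hxu⟩ := CfsgLib.Q29.cube_on hf h3 c hc hcn x hxS.1 w hwn y hxy hyy (by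
        intro a ha
        apply hxns (w * a)
        rw [hxy, ha, smul_smul])
      have ha0 : a ≠ 0 := by rintro rfl; rw [zero_mul] at han; exact zero_ne_one han
      have hk10 : k1 ≠ 0 := by
        rcases hcases with ⟨h, _⟩ | ⟨h, _⟩ | ⟨h, _⟩ <;> rw [h]
        · exact hc0
        · exact one_ne_zero
        · exact one_ne_zero
      have hk20 : k2 ≠ 0 := by
        rcases hcases with ⟨_, h⟩ | ⟨_, h⟩ | ⟨_, h⟩ <;> rw [h]
        · exact pow_ne_zero 2 hc0
        · exact hc0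
        · exact pow_ne_zero 2 hc0
      obtain ⟨T, hT, hTN⟩ := hdiag a ha0 k1 k2 0 hk10 hk20 hcases
      obtain ⟨g, hg, hgx⟩ := CfsgLib.Q29.conj_unitary hf hσ (by norm_num) x T u bv hu hbon _ hxu (heig T _ hT)
      exact ⟨g, hg, by rw [hgx]; exact hTN⟩

end Cfsg.Agent.S5999
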